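import Mathlib
import Cfsg.Prelude.Def_GeometricClasses
import Cfsg.Prelude.Def_ClassicalGeometry

/-!
# CALL S5975 piece NORM (helper83): an invertible matrix that sends `J` to a nonzero multiple of
`J` under conjugation normalizes the subalgebra `F 1 + F J`.
-/

set_option autoImplicit false

namespace Cfsg.Agent.Helper83

open Matrix Module

/-- PIECE NORM -/
theorem c3e_norm {F : Type*} [Field F] {ι : Type} [Fintype ι] [DecidableEq ι]
    (K : Subalgebra F (Matrix ι ι F)) (J : Matrix ι ι F)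
    (hJ : ∀ y, y ∈ K ↔ ∃ a b : F, y = a • (1 : Matrix ι ι F) + b • J) (G : GL ι F) (ε : F)
    (hε : ε ≠ 0) (h : (G : Matrix ι ι F) * J = ε • (J * (G : Matrix ι ι F))) :
    G ∈ Cfsg.Geo.subalgebraNormalizer K := by
  have hGG : (G : Matrix ι ι F) * ((G⁻¹ : GL ι F) : Matrix ι ι F) = 1 := by
    rw [← Units.val_mul, mul_inv_cancel, Units.val_one]
  have hGG' : ((G⁻¹ : GL ι F) : Matrix ι ι F) * (G : Matrix ι ι F) = 1 := by
    rw [← Units.val_mul, inv_mul_cancel, Units.val_one]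
  have h1 : (G : Matrix ι ι F) * J * ((G⁻¹ : GL ι F) : Matrix ι ι F) = ε • J := by
    rw [h, Matrix.smul_mul, Matrix.mul_assoc, hGG, Matrix.mul_one]
  have h2 : ((G⁻¹ : GL ι F) : Matrix ι ι F) * J * (G : Matrix ι ι F) = ε⁻¹ • J := by
    have : J * (G : Matrix ι ι F) = ε⁻¹ • ((G : Matrix ι ι F) * J) := by
      rw [h, smul_smul, inv_mul_cancel₀ hε, one_smul]
    rw [Matrix.mul_assoc, this, Matrix.mul_smul, ← Matrix.mul_assoc, hGG', Matrix.one_mul]
  intro k
  constructor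
  · intro hk
    obtain ⟨a, b, rfl⟩ := (hJ k).mp hk
    refine (hJ _).mpr ⟨a, b * ε, ?_⟩
    rw [Matrix.mul_add, Matrix.add_mul, Matrix.mul_smul, Matrix.smul_mul, Matrix.mul_one, hGG,
      Matrix.mul_smul, Matrix.smul_mul, h1, smul_smul]
  · intro hk
    obtain ⟨a, b, hab⟩ := (hJ _).mp hk
    refine (hJ _).mpr ⟨a, b * ε⁻¹, ?_⟩
    have hk' : k = ((G⁻¹ : GL ι F) : Matrix ι ι F) *
        ((G : Matrix ι ι F) * k * ((G⁻¹ : GL ι F) : Matrix ι ι F)) * (G : Matrix ι ι F) := by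
      rw [Matrix.mul_assoc (G : Matrix ι ι F) k, ← Matrix.mul_assoc ((G⁻¹ : GL ι F) : Matrix ι ι F),
        hGG', Matrix.one_mul, Matrix.mul_assoc, hGG', Matrix.mul_one]
    rw [hk', hab, Matrix.mul_add, Matrix.add_mul, Matrix.mul_smul, Matrix.smul_mul, Matrix.mul_one,
      hGG', Matrix.mul_smul, Matrix.smul_mul, h2, smul_smul]

end Cfsg.Agent.Helper83
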