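import Mathlib
import Cfsg.Agent.Helper83.SL2

set_option autoImplicit false

namespace Cfsg.Agent.Helper83

section PartSt1

variable {K : Type*} [Field K] {G : Type*} [Group G]

/-- The rank one Steinberg relations for two families `X`, `Y` of elements indexed by a field. -/
structure StRel (X Y : K → G) : Prop where
  addX : ∀ t u, X t * X u = X (t + u)
  addY : ∀ t u, Y t * Y u = Y (t + u)
  relX : ∀ t u, t ≠ 0 →
    (X t * Y (-t⁻¹) * X t) * X u * (X t * Y (-t⁻¹) * X t)⁻¹ = Y (-(t⁻¹ ^ 2 * u))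

/-- The Weyl element `w(t) = x(t) y(-t⁻¹) x(t)`. -/
def stW (X Y : K → G) (t : K) : G := X t * Y (-t⁻¹) * X t

/-- The torus element `h(t) = w(t) w(1)⁻¹`. -/
def stH (X Y : K → G) (t : K) : G := stW X Y t * (stW X Y 1)⁻¹

namespace StRel

variable {X Y : K → G}

theorem X_zero (h : StRel X Y) : X 0 = 1 := by
  have e := h.addX 0 0
  rw [add_zero] at e
  exact mul_eq_left.mp e

theorem Y_zero (h : StRel X Y) : Y 0 = 1 := by
  have e := h.addY 0 0
  rw [add_zero] at e
  exact mul_eq_left.mp e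

theorem X_inv (h : StRel X Y) (t : K) : (X t)⁻¹ = X (-t) := by
  apply inv_eq_of_mul_eq_one_right
  rw [h.addX, add_neg_cancel, h.X_zero]

theorem Y_inv (h : StRel X Y) (t : K) : (Y t)⁻¹ = Y (-t) := by
  apply inv_eq_of_mul_eq_one_right
  rw [h.addY, add_neg_cancel, h.Y_zero]

theorem w_inv (h : StRel X Y) (t : K) : (stW X Y t)⁻¹ = stW X Y (-t) := by
  unfold stW
  rw [mul_inv_rev, mul_inv_rev, h.X_inv, h.Y_inv, inv_neg, neg_neg, mul_assoc]

theorem wX (h : StRel X Y) {t : K} (ht : t ≠ 0) (u : K) :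
    stW X Y t * X u * (stW X Y t)⁻¹ = Y (-(t⁻¹ ^ 2 * u)) := h.relX t u ht

theorem wY (h : StRel X Y) {t : K} (ht : t ≠ 0) (u : K) :
    stW X Y t * Y u * (stW X Y t)⁻¹ = X (-(t ^ 2 * u)) := by
  have e := h.wX (neg_ne_zero.mpr ht) (-(t ^ 2 * u))
  rw [← h.w_inv, inv_inv] at e
  have e2 : -((-t)⁻¹ ^ 2 * -(t ^ 2 * u)) = u := by field_simp
  rw [e2] at e
  rw [← e]; group

theorem w_alt (h : StRel X Y) {t : K} (ht : t ≠ 0) :
    stW X Y t = Y (-t⁻¹) * X t * Y (-t⁻¹) := by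
  have e1 : stW X Y t = (stW X Y t * X t * (stW X Y t)⁻¹) *
      (stW X Y t * Y (-t⁻¹) * (stW X Y t)⁻¹) * (stW X Y t * X t * (stW X Y t)⁻¹) := by
    have e0 : X t * Y (-t⁻¹) * X t = stW X Y t := rfl
    calc stW X Y t = stW X Y t * (X t * Y (-t⁻¹) * X t) * (stW X Y t)⁻¹ := by rw [e0]; group
      _ = _ := by group
  rw [h.wX ht, h.wY ht] at e1
  have e2 : -(t⁻¹ ^ 2 * t) = -t⁻¹ := by field_simp
  have e3 : -(t ^ 2 * -t⁻¹) = t := by field_simp
  rw [e2, e3] at e1
  exact e1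

theorem relY (h : StRel X Y) (t u : K) (ht : t ≠ 0) :
    (Y t * X (-t⁻¹) * Y t) * Y u * (Y t * X (-t⁻¹) * Y t)⁻¹ = X (-(t⁻¹ ^ 2 * u)) := by
  have hs : -t⁻¹ ≠ 0 := neg_ne_zero.mpr (inv_ne_zero ht)
  have e := h.w_alt hs
  have e2 : -(-t⁻¹)⁻¹ = t := by field_simp
  rw [e2] at e
  rw [← e, h.wY hs]
  congr 1
  ring

theorem Y_eq (h : StRel X Y) {b : K} (hb : b ≠ 0) :
    Y b = X b⁻¹ * stW X Y (-b⁻¹) * X b⁻¹ := by
  unfold stW
  have e2 : -(-b⁻¹)⁻¹ = b := by field_simp
  rw [e2]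
  calc Y b = (X b⁻¹ * X (-b⁻¹)) * Y b * (X (-b⁻¹) * X b⁻¹) := by
        rw [h.addX, h.addX, add_neg_cancel, neg_add_cancel, h.X_zero, one_mul, mul_one]
    _ = _ := by group

theorem X_eq (h : StRel X Y) {d : K} (hd : d ≠ 0) :
    X d = Y d⁻¹ * stW X Y d * Y d⁻¹ := by
  rw [h.w_alt hd]
  calc X d = (Y d⁻¹ * Y (-d⁻¹)) * X d * (Y (-d⁻¹) * Y d⁻¹) := by
        rw [h.addY, h.addY, add_neg_cancel, neg_add_cancel, h.Y_zero, one_mul, mul_one]
    _ = _ := by group

theorem hX (h : StRel X Y) {t : K} (ht : t ≠ 0) (u : K) :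
    stH X Y t * X u * (stH X Y t)⁻¹ = X (t ^ 2 * u) := by
  have e1 := h.wX (neg_ne_zero.mpr (one_ne_zero (α := K))) u
  rw [← h.w_inv, inv_inv] at e1
  have e2 : -((-1 : K)⁻¹ ^ 2 * u) = -u := by field_simp
  rw [e2] at e1
  have e3 := h.wY ht (-u)
  have e4 : -(t ^ 2 * -u) = t ^ 2 * u := by ring
  rw [e4] at e3
  rw [← e3, ← e1]
  unfold stH
  group

theorem hY (h : StRel X Y) {t : K} (ht : t ≠ 0) (u : K) :
    stH X Y t * Y u * (stH X Y t)⁻¹ = Y (t⁻¹ ^ 2 * u) := by
  have e1 := h.wY (neg_ne_zero.mpr (one_ne_zero (α := K))) u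
  rw [← h.w_inv, inv_inv] at e1
  have e2 : -((-1 : K) ^ 2 * u) = -u := by ring
  rw [e2] at e1
  have e3 := h.wX ht (-u)
  have e4 : -(t⁻¹ ^ 2 * -u) = t⁻¹ ^ 2 * u := by ring
  rw [e4] at e3
  rw [← e3, ← e1]
  unfold stH
  group

theorem w_conj (h : StRel X Y) {s t : K} (hs : s ≠ 0) (ht : t ≠ 0) :
    stW X Y s * stW X Y t * (stW X Y s)⁻¹ = stW X Y (s ^ 2 * t⁻¹) := by
  have hr : s ^ 2 * t⁻¹ ≠ 0 := mul_ne_zero (pow_ne_zero 2 hs) (inv_ne_zero ht)
  rw [h.w_alt hr]
  have e1 : stW X Y s * stW X Y t * (stW X Y s)⁻¹ = (stW X Y s * X t * (stW X Y s)⁻¹) *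
      (stW X Y s * Y (-t⁻¹) * (stW X Y s)⁻¹) * (stW X Y s * X t * (stW X Y s)⁻¹) := by
    have e0 : stW X Y t = X t * Y (-t⁻¹) * X t := rfl
    rw [e0]; group
  rw [e1, h.wX hs, h.wY hs]
  have e2 : -(s⁻¹ ^ 2 * t) = -(s ^ 2 * t⁻¹)⁻¹ := by field_simp
  have e3 : -(s ^ 2 * -t⁻¹) = s ^ 2 * t⁻¹ := by ring
  rw [e2, e3]

theorem hW (h : StRel X Y) {t u : K} (ht : t ≠ 0) (hu : u ≠ 0) :
    stH X Y t * stW X Y u * (stH X Y t)⁻¹ = stW X Y (t ^ 2 * u) := by
  have e1 : stH X Y t * stW X Y u * (stH X Y t)⁻¹ = (stH X Y t * X u * (stH X Y t)⁻¹) *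
      (stH X Y t * Y (-u⁻¹) * (stH X Y t)⁻¹) * (stH X Y t * X u * (stH X Y t)⁻¹) := by
    have e0 : stW X Y u = X u * Y (-u⁻¹) * X u := rfl
    rw [e0]; group
  rw [e1, h.hX ht, h.hY ht]
  have e2 : t⁻¹ ^ 2 * -u⁻¹ = -(t ^ 2 * u)⁻¹ := by field_simp
  rw [e2]
  rfl

theorem h_one (_h : StRel X Y) : stH X Y 1 = 1 := by
  unfold stH; group

theorem w_eq (_h : StRel X Y) (t : K) : stW X Y t = stH X Y t * stW X Y 1 := by
  unfold stH; group

theorem w1_sq (h : StRel X Y) : stW X Y 1 * stW X Y 1 = (stH X Y (-1))⁻¹ := by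
  unfold stH
  rw [← h.w_inv, mul_inv_rev, inv_inv]

theorem w1_h (h : StRel X Y) {t : K} (ht : t ≠ 0) :
    stW X Y 1 * stH X Y t * (stW X Y 1)⁻¹ = stH X Y t⁻¹ := by
  have e := h.w_conj (one_ne_zero (α := K)) ht
  rw [one_pow, one_mul] at e
  unfold stH
  rw [← e]; group

theorem h_conj_h (h : StRel X Y) {t u : K} (ht : t ≠ 0) (hu : u ≠ 0) :
    stH X Y t * stH X Y u * (stH X Y t)⁻¹ = stH X Y (t ^ 2 * u) * (stH X Y (t ^ 2))⁻¹ := by
  have e1 := h.hW ht hu
  have e2 := h.hW ht (one_ne_zero (α := K))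
  rw [mul_one] at e2
  have e3 : stH X Y (t ^ 2 * u) * (stH X Y (t ^ 2))⁻¹ =
      stW X Y (t ^ 2 * u) * (stW X Y (t ^ 2))⁻¹ := by
    unfold stH; group
  rw [e3, ← e1, ← e2]
  have e0 : stH X Y u = stW X Y u * (stW X Y 1)⁻¹ := rfl
  rw [e0]; group

/-- The relation among the Weyl elements coming from additivity of `Y`. -/
theorem w_rel (h : StRel X Y) {p r : K} (hp : p ≠ 0) (hr : r ≠ 0) (hpr : p + r ≠ 0) :
    stW X Y (-p) * stW X Y (p + r) * stW X Y (-r) = stW X Y (-(p * r / (p + r))) := by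
  have hq : p * r / (p + r) ≠ 0 := div_ne_zero (mul_ne_zero hp hr) hpr
  have y1 := h.Y_eq (inv_ne_zero hp)
  have y2 := h.Y_eq (inv_ne_zero hr)
  have y3 := h.Y_eq (inv_ne_zero hq)
  rw [inv_inv] at y1 y2 y3
  have hadd : Y p⁻¹ * Y r⁻¹ = Y (p * r / (p + r))⁻¹ := by
    rw [h.addY]
    congr 1
    field_simp
    ring
  rw [y1, y2, y3] at hadd
  -- hadd : X p * w(-p) * X p * (X r * w(-r) * X r) = X q * w(-q) * X q
  have x1 := h.X_eq hpr
  have c1 := h.wY (neg_ne_zero.mpr hp) (p + r)⁻¹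
  have c2 := h.wY hr (p + r)⁻¹
  rw [← h.w_inv r] at hadd ⊢
  have e5 : X p * X (-((-p) ^ 2 * (p + r)⁻¹)) = X (p * r / (p + r)) := by
    rw [h.addX]; congr 1; field_simp; ring
  have e6 : X (-(r ^ 2 * (p + r)⁻¹)) * X r = X (p * r / (p + r)) := by
    rw [h.addX]; congr 1; field_simp; ring
  have e7 : X p * X r = Y (p + r)⁻¹ * stW X Y (p + r) * Y (p + r)⁻¹ := by
    rw [h.addX]; exact x1
  have key : X p * stW X Y (-p) * X p * (X r * (stW X Y r)⁻¹ * X r) =
      X (p * r / (p + r)) * (stW X Y (-p) * stW X Y (p + r) * (stW X Y r)⁻¹) *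
      X (p * r / (p + r)) := by
    calc X p * stW X Y (-p) * X p * (X r * (stW X Y r)⁻¹ * X r)
        = X p * stW X Y (-p) * (X p * X r) * ((stW X Y r)⁻¹ * X r) := by group
      _ = X p * stW X Y (-p) * (Y (p + r)⁻¹ * stW X Y (p + r) * Y (p + r)⁻¹) *
          ((stW X Y r)⁻¹ * X r) := by rw [e7]
      _ = (X p * (stW X Y (-p) * Y (p + r)⁻¹ * (stW X Y (-p))⁻¹)) *
          (stW X Y (-p) * stW X Y (p + r) * (stW X Y r)⁻¹) *
          ((stW X Y r * Y (p + r)⁻¹ * (stW X Y r)⁻¹) * X r) := by group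
      _ = (X p * X (-((-p) ^ 2 * (p + r)⁻¹))) *
          (stW X Y (-p) * stW X Y (p + r) * (stW X Y r)⁻¹) *
          (X (-(r ^ 2 * (p + r)⁻¹)) * X r) := by rw [c1, c2]
      _ = _ := by rw [e5, e6]
  rw [hadd] at key
  exact (mul_left_cancel (mul_right_cancel key)).symm

/-- The relation among the torus elements. -/
theorem h_rel (h : StRel X Y) {p r : K} (hp : p ≠ 0) (hr : r ≠ 0) (hpr : p + r ≠ 0) :
    (stH X Y p)⁻¹ * stH X Y (p + r) * (stH X Y r)⁻¹ =
      stH X Y (-((p + r) / (p * r))) * (stH X Y (-1))⁻¹ := by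
  have hq : p * r / (p + r) ≠ 0 := div_ne_zero (mul_ne_zero hp hr) hpr
  have e := h.w_rel hp hr hpr
  rw [← h.w_inv, ← h.w_inv, h.w_eq p, h.w_eq (p + r), h.w_eq r, h.w_eq (-(p * r / (p + r)))] at e
  have e1 := h.w1_h (neg_ne_zero.mpr hq)
  have e2 : (-(p * r / (p + r)))⁻¹ = -((p + r) / (p * r)) := by
    rw [inv_neg, inv_div]
  rw [e2] at e1
  rw [← e1, ← h.w1_sq]
  calc (stH X Y p)⁻¹ * stH X Y (p + r) * (stH X Y r)⁻¹
      = stW X Y 1 * ((stH X Y p * stW X Y 1)⁻¹ * (stH X Y (p + r) * stW X Y 1) *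
          (stH X Y r * stW X Y 1)⁻¹) := by group
    _ = stW X Y 1 * (stH X Y (-(p * r / (p + r))) * stW X Y 1) := by rw [e]
    _ = _ := by group

end StRel

end PartSt1

section PartSt2

/-- In a finite field of odd characteristic, the quotient of two non-squares is a square. -/
theorem st_isSquare_div {K : Type*} [Field K] [Finite K] {x y : K}
    (hx : ¬ IsSquare x) (hy : ¬ IsSquare y) : IsSquare (x / y) := by
  classical
  have := Fintype.ofFinite K
  have hy0 : y ≠ 0 := fun e => hy (e ▸ IsSquare.zero)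
  have hx0 : x ≠ 0 := fun e => hx (e ▸ IsSquare.zero)
  have e1 : quadraticChar K (x * y) = 1 := by
    rw [map_mul, quadraticChar_neg_one_iff_not_isSquare.mpr hx,
      quadraticChar_neg_one_iff_not_isSquare.mpr hy]
    norm_num
  obtain ⟨c, hc⟩ := (quadraticChar_one_iff_isSquare (mul_ne_zero hx0 hy0)).mp e1
  refine ⟨c / y, ?_⟩
  field_simp
  rw [hc]
  ring

/-- If `-1` is not a square in a finite field, then some sum of two non-zero squares is not a
square. -/
theorem st_exists_sq_add {K : Type*} [Field K] [Finite K] (hm : ¬ IsSquare (-1 : K)) :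
    ∃ p r : K, p ≠ 0 ∧ r ≠ 0 ∧ IsSquare p ∧ IsSquare r ∧ ¬ IsSquare (p + r) := by
  by_contra hcon
  push Not at hcon
  have hall : ∀ k : ℕ, IsSquare ((k : K)) := by
    intro k
    induction k with
    | zero => rw [Nat.cast_zero]; exact IsSquare.zero
    | succ k ih =>
      rw [Nat.cast_succ]
      by_cases hk : (k : K) = 0
      · rw [hk, zero_add]; exact IsSquare.one
      · exact hcon _ _ hk one_ne_zero ih IsSquare.one
  apply hm
  have hp : ringChar K ≠ 0 := CharP.ringChar_ne_zero_of_finite K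
  have e : ((ringChar K - 1 : ℕ) : K) = -1 := by
    have e1 : ((ringChar K - 1 : ℕ) : K) + 1 = 0 := by
      rw [← Nat.cast_succ, Nat.succ_eq_add_one, Nat.sub_add_cancel (Nat.pos_of_ne_zero hp)]
      exact ringChar.Nat.cast_ringChar
    exact eq_neg_of_add_eq_zero_left e1
  rw [← e]
  exact hall _

/-- The symbol argument: a function on a finite field with values in an abelian group which is
multiplicative with respect to squares and satisfies the torus relation is multiplicative. -/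
theorem st_symbol {K : Type*} [Field K] [Finite K] {M : Type*} [AddCommGroup M] (f : K → M)
    (m1 : ∀ t u : K, t ≠ 0 → u ≠ 0 → f (t ^ 2 * u) = f (t ^ 2) + f u)
    (rel : ∀ p r : K, p ≠ 0 → r ≠ 0 → p + r ≠ 0 →
      - f p + f (p + r) - f r = f (-((p + r) / (p * r))) - f (-1))
    (one : f 1 = 0) :
    ∀ t u : K, t ≠ 0 → u ≠ 0 → f (t * u) = f t + f u := by
  have hsq : ∀ t u : K, IsSquare t → t ≠ 0 → u ≠ 0 → f (t * u) = f t + f u := by
    rintro t u ⟨a, rfl⟩ ht hu
    have ha : a ≠ 0 := fun e => ht (by rw [e, mul_zero])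
    have e := m1 a u ha hu
    rwa [pow_two] at e
  by_cases h2 : ringChar K = 2
  · intro t u ht hu
    exact hsq t u (FiniteField.isSquare_of_char_two h2 t) ht hu
  have key : ∃ n₁ n₂ : K, ¬ IsSquare n₁ ∧ ¬ IsSquare n₂ ∧ f (n₁ * n₂) = f n₁ + f n₂ := by
    by_cases hm : IsSquare (-1 : K)
    · obtain ⟨i, hi⟩ := hm
      obtain ⟨n, hn⟩ := FiniteField.exists_nonsquare h2
      have hn0 : n ≠ 0 := fun e => hn (e ▸ IsSquare.zero)
      have hi0 : i ≠ 0 := by
        intro e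
        rw [e, mul_zero] at hi
        exact neg_ne_zero.mpr one_ne_zero hi
      have h20 : (2 : K) ≠ 0 := Ring.two_ne_zero h2
      have hnn : n + n ≠ 0 := by
        rw [← two_mul]; exact mul_ne_zero h20 hn0
      have hin : i / n ≠ 0 := div_ne_zero hi0 hn0
      have r1 := rel n n hn0 hn0 hnn
      have e1 : -((n + n) / (n * n)) = (i / n) * (i / n) * (n + n) := by
        field_simp
        linear_combination (2 : K) * hi
      have e2 : (-1 : K) = (i / n) * (i / n) * (n * n) := by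
        field_simp
        linear_combination hi
      have s1 := hsq ((i / n) * (i / n)) (n + n) ⟨_, rfl⟩ (mul_ne_zero hin hin) hnn
      have s2 := hsq ((i / n) * (i / n)) (n * n) ⟨_, rfl⟩ (mul_ne_zero hin hin)
        (mul_ne_zero hn0 hn0)
      rw [← e1] at s1
      rw [← e2] at s2
      rw [s1, s2] at r1
      refine ⟨n, n, hn, hn, ?_⟩
      have r2 : f (n * n) - (f n + f n) =
          (- f n + f (n + n) - f n) - (f (i / n * (i / n)) + f (n + n) -
            (f (i / n * (i / n)) + f (n * n))) := by abel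
      rw [r1, sub_self] at r2
      exact sub_eq_zero.mp r2
    · obtain ⟨p, r, hp0, hr0, ⟨p₀, hp⟩, ⟨r₀, hr⟩, hs⟩ := st_exists_sq_add hm
      have hs0 : p + r ≠ 0 := fun e => hs (e ▸ IsSquare.zero)
      have hp₀ : p₀ ≠ 0 := fun e => hp0 (by rw [hp, e, mul_zero])
      have hr₀ : r₀ ≠ 0 := fun e => hr0 (by rw [hr, e, mul_zero])
      have hc : (p₀ * r₀)⁻¹ ≠ 0 := inv_ne_zero (mul_ne_zero hp₀ hr₀)
      have r1 := rel p r hp0 hr0 hs0
      have e1 : -((p + r) / (p * r)) = (p₀ * r₀)⁻¹ * (p₀ * r₀)⁻¹ * (-(p + r)) := by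
        rw [hp, hr]
        field_simp
      have s1 := hsq ((p₀ * r₀)⁻¹ * (p₀ * r₀)⁻¹) (-(p + r)) ⟨_, rfl⟩ (mul_ne_zero hc hc)
        (neg_ne_zero.mpr hs0)
      rw [← e1] at s1
      have s2 := hsq p r ⟨p₀, hp⟩ hp0 hr0
      have s3 := hsq ((p₀ * r₀)⁻¹ * (p₀ * r₀)⁻¹) (p * r) ⟨_, rfl⟩ (mul_ne_zero hc hc)
        (mul_ne_zero hp0 hr0)
      have e3 : (p₀ * r₀)⁻¹ * (p₀ * r₀)⁻¹ * (p * r) = 1 := by
        rw [hp, hr]
        field_simp
      rw [e3, one, s2] at s3
      rw [s1] at r1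
      refine ⟨p + r, -1, hs, hm, ?_⟩
      have e4 : (p + r) * (-1 : K) = -(p + r) := by ring
      rw [e4]
      have r2 : f (-(p + r)) - (f (p + r) + f (-1)) =
          -((- f p + f (p + r) - f r) - (f ((p₀ * r₀)⁻¹ * (p₀ * r₀)⁻¹) + f (-(p + r)) - f (-1)))
          - (f ((p₀ * r₀)⁻¹ * (p₀ * r₀)⁻¹) + (f p + f r)) := by abel
      rw [r1, sub_self, ← s3] at r2
      rw [neg_zero, sub_zero] at r2
      exact sub_eq_zero.mp r2
  obtain ⟨n₁, n₂, hn₁, hn₂, hn⟩ := key
  have hn₁0 : n₁ ≠ 0 := fun e => hn₁ (e ▸ IsSquare.zero)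
  have hn₂0 : n₂ ≠ 0 := fun e => hn₂ (e ▸ IsSquare.zero)
  intro t u ht hu
  by_cases hts : IsSquare t
  · exact hsq t u hts ht hu
  by_cases hus : IsSquare u
  · rw [mul_comm, hsq u t hus hu ht, add_comm]
  have ha := st_isSquare_div hts hn₁
  have hb := st_isSquare_div hus hn₂
  have ha0 : t / n₁ ≠ 0 := div_ne_zero ht hn₁0
  have hb0 : u / n₂ ≠ 0 := div_ne_zero hu hn₂0
  have e1 : t = (t / n₁) * n₁ := by field_simp
  have e2 : u = (u / n₂) * n₂ := by field_simp
  have e3 : t * u = ((t / n₁) * (u / n₂)) * (n₁ * n₂) := by field_simp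
  have s1 := hsq (t / n₁) n₁ ha ha0 hn₁0
  have s2 := hsq (u / n₂) n₂ hb hb0 hn₂0
  have s3 := hsq ((t / n₁) * (u / n₂)) (n₁ * n₂) (ha.mul hb) (mul_ne_zero ha0 hb0)
    (mul_ne_zero hn₁0 hn₂0)
  have s4 := hsq (t / n₁) (u / n₂) ha ha0 hb0
  rw [← e1] at s1
  rw [← e2] at s2
  rw [← e3] at s3
  rw [s3, s4, hn, s1, s2]
  abel

end PartSt2

section PartSt3

variable {K : Type*} [Field K] {G : Type*} [Group G]

/-- The torus: the subgroup generated by the `h(t)`. -/
def stT (X Y : K → G) : Subgroup G := Subgroup.closure {g | ∃ t : K, t ≠ 0 ∧ g = stH X Y t}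

namespace StRel

variable {X Y : K → G}

theorem h_mem (_h : StRel X Y) {t : K} (ht : t ≠ 0) : stH X Y t ∈ stT X Y :=
  Subgroup.subset_closure ⟨t, ht, rfl⟩

/-- Elements of the torus act diagonally. -/
theorem torus_diag (h : StRel X Y) {η : G} (hη : η ∈ stT X Y) :
    ∃ s : K, s ≠ 0 ∧ (∀ u, η * X u * η⁻¹ = X (s * u)) ∧ (∀ u, η * Y u * η⁻¹ = Y (s⁻¹ * u)) := by
  unfold stT at hη
  induction hη using Subgroup.closure_induction with
  | mem x hx =>
    obtain ⟨t, ht, rfl⟩ := hx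
    refine ⟨t ^ 2, pow_ne_zero 2 ht, fun u => h.hX ht u, fun u => ?_⟩
    rw [h.hY ht, inv_pow]
  | one => exact ⟨1, one_ne_zero, fun u => by simp, fun u => by simp⟩
  | mul x y _ _ hx hy =>
    obtain ⟨s, hs, hx1, hx2⟩ := hx
    obtain ⟨s', hs', hy1, hy2⟩ := hy
    refine ⟨s * s', mul_ne_zero hs hs', fun u => ?_, fun u => ?_⟩
    · calc x * y * X u * (x * y)⁻¹ = x * (y * X u * y⁻¹) * x⁻¹ := by group
        _ = X (s * s' * u) := by rw [hy1, hx1, mul_assoc]
    · calc x * y * Y u * (x * y)⁻¹ = x * (y * Y u * y⁻¹) * x⁻¹ := by group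
        _ = Y ((s * s')⁻¹ * u) := by rw [hy2, hx2, mul_inv, mul_assoc]
  | inv x _ hx =>
    obtain ⟨s, hs, hx1, hx2⟩ := hx
    refine ⟨s⁻¹, inv_ne_zero hs, fun u => ?_, fun u => ?_⟩
    · have e := hx1 (s⁻¹ * u)
      rw [mul_inv_cancel_left₀ hs] at e
      rw [← e]; group
    · have e := hx2 (s * u)
      rw [inv_mul_cancel_left₀ hs] at e
      rw [inv_inv, ← e]; group

/-- The Weyl element normalizes the torus. -/
theorem w1_torus (h : StRel X Y) {η : G} (hη : η ∈ stT X Y) :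
    stW X Y 1 * η * (stW X Y 1)⁻¹ ∈ stT X Y := by
  unfold stT at hη
  induction hη using Subgroup.closure_induction with
  | mem x hx =>
    obtain ⟨t, ht, rfl⟩ := hx
    rw [h.w1_h ht]
    exact h.h_mem (inv_ne_zero ht)
  | one => simp
  | mul x y _ _ hx hy =>
    have e : stW X Y 1 * (x * y) * (stW X Y 1)⁻¹ =
        (stW X Y 1 * x * (stW X Y 1)⁻¹) * (stW X Y 1 * y * (stW X Y 1)⁻¹) := by group
    rw [e]; exact Subgroup.mul_mem _ hx hy
  | inv x _ hx =>
    have e : stW X Y 1 * x⁻¹ * (stW X Y 1)⁻¹ = (stW X Y 1 * x * (stW X Y 1)⁻¹)⁻¹ := by group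
    rw [e]; exact Subgroup.inv_mem _ hx

/-- The Borel subgroup `U T`. -/
def borel (h : StRel X Y) : Subgroup G where
  carrier := {g | ∃ a : K, ∃ η ∈ stT X Y, g = X a * η}
  one_mem' := ⟨0, 1, Subgroup.one_mem _, by rw [h.X_zero, one_mul]⟩
  mul_mem' := by
    rintro _ _ ⟨a, η, hη, rfl⟩ ⟨a', η', hη', rfl⟩
    obtain ⟨s, _, hs1, _⟩ := h.torus_diag hη
    refine ⟨a + s * a', η * η', Subgroup.mul_mem _ hη hη', ?_⟩
    rw [← h.addX, ← hs1]; group
  inv_mem' := by
    rintro _ ⟨a, η, hη, rfl⟩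
    obtain ⟨s, _, hs1, _⟩ := h.torus_diag (Subgroup.inv_mem _ hη)
    refine ⟨s * (-a), η⁻¹, Subgroup.inv_mem _ hη, ?_⟩
    rw [← hs1, ← h.X_inv]; group

theorem mem_borel (h : StRel X Y) {g : G} :
    g ∈ h.borel ↔ ∃ a : K, ∃ η ∈ stT X Y, g = X a * η := Iff.rfl

theorem X_mem_borel (h : StRel X Y) (a : K) : X a ∈ h.borel :=
  ⟨a, 1, Subgroup.one_mem _, (mul_one _).symm⟩

theorem torus_le_borel (h : StRel X Y) {η : G} (hη : η ∈ stT X Y) : η ∈ h.borel :=
  ⟨0, η, hη, by rw [h.X_zero, one_mul]⟩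

/-- The big cell together with the Borel subgroup. -/
def cells (h : StRel X Y) : Set G :=
  {g | g ∈ h.borel ∨ ∃ b₁ ∈ h.borel, ∃ b₂ ∈ h.borel, g = b₁ * stW X Y 1 * b₂}

theorem cells_borel_mul (h : StRel X Y) {b g : G} (hb : b ∈ h.borel) (hg : g ∈ h.cells) :
    b * g ∈ h.cells := by
  rcases hg with hg | ⟨b₁, hb₁, b₂, hb₂, rfl⟩
  · exact Or.inl (Subgroup.mul_mem _ hb hg)
  · exact Or.inr ⟨b * b₁, Subgroup.mul_mem _ hb hb₁, b₂, hb₂, by group⟩

theorem cells_w_mul (h : StRel X Y) {g : G} (hg : g ∈ h.cells) :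
    stW X Y 1 * g ∈ h.cells := by
  rcases hg with hg | ⟨b₁, hb₁, b₂, hb₂, rfl⟩
  · exact Or.inr ⟨1, Subgroup.one_mem _, g, hg, by group⟩
  · obtain ⟨a, η, hη, rfl⟩ := hb₁
    have hη' := h.w1_torus hη
    have hm1 : (stH X Y (-1))⁻¹ ∈ stT X Y :=
      Subgroup.inv_mem _ (h.h_mem (neg_ne_zero.mpr one_ne_zero))
    have e1 : stW X Y 1 * (X a * η * stW X Y 1 * b₂) =
        (stW X Y 1 * X a * (stW X Y 1)⁻¹) * ((stW X Y 1 * η * (stW X Y 1)⁻¹) *
          (stW X Y 1 * stW X Y 1) * b₂) := by group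
    rw [e1, h.w1_sq, h.wX one_ne_zero]
    have hb3 : stW X Y 1 * η * (stW X Y 1)⁻¹ * (stH X Y (-1))⁻¹ * b₂ ∈ h.borel :=
      Subgroup.mul_mem _ (h.torus_le_borel (Subgroup.mul_mem _ hη' hm1)) hb₂
    by_cases ha : a = 0
    · rw [ha, mul_zero, neg_zero, h.Y_zero, one_mul]
      exact Or.inl hb3
    · have ha' : -((1 : K)⁻¹ ^ 2 * a) ≠ 0 := by
        rw [inv_one, one_pow, one_mul]; exact neg_ne_zero.mpr ha
      rw [h.Y_eq ha', h.w_eq]
      refine Or.inr ⟨X (-((1 : K)⁻¹ ^ 2 * a))⁻¹ * stH X Y (-(-((1 : K)⁻¹ ^ 2 * a))⁻¹), ?_,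
        X (-((1 : K)⁻¹ ^ 2 * a))⁻¹ *
          (stW X Y 1 * η * (stW X Y 1)⁻¹ * (stH X Y (-1))⁻¹ * b₂), ?_, by group⟩
      · exact Subgroup.mul_mem _ (h.X_mem_borel _)
          (h.torus_le_borel (h.h_mem (neg_ne_zero.mpr (inv_ne_zero ha'))))
      · exact Subgroup.mul_mem _ (h.X_mem_borel _) hb3

theorem cells_Y_mul (h : StRel X Y) (c : K) {g : G} (hg : g ∈ h.cells) :
    Y c * g ∈ h.cells := by
  have e1 := h.wX (one_ne_zero (α := K)) (-c)
  have e2 : -((1 : K)⁻¹ ^ 2 * -c) = c := by rw [inv_one, one_pow, one_mul, neg_neg]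
  rw [e2] at e1
  have e3 : (stW X Y 1)⁻¹ = stH X Y (-1) * stW X Y 1 := by
    unfold stH
    rw [← h.w_inv]; group
  have e4 : Y c * g = stW X Y 1 * ((X (-c) * stH X Y (-1)) * (stW X Y 1 * g)) := by
    rw [← e1]
    calc stW X Y 1 * X (-c) * (stW X Y 1)⁻¹ * g
        = stW X Y 1 * X (-c) * (stH X Y (-1) * stW X Y 1) * g := by rw [← e3]
      _ = _ := by group
  rw [e4]
  apply h.cells_w_mul
  apply h.cells_borel_mul _ (h.cells_w_mul hg)
  exact Subgroup.mul_mem _ (h.X_mem_borel _)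
    (h.torus_le_borel (h.h_mem (neg_ne_zero.mpr one_ne_zero)))

/-- The Bruhat decomposition. -/
theorem bruhat (h : StRel X Y) (hgen : Subgroup.closure (Set.range X ∪ Set.range Y) = ⊤)
    (g : G) : g ∈ h.cells := by
  have hg : g ∈ Subgroup.closure (Set.range X ∪ Set.range Y) := by rw [hgen]; trivial
  have key : ∀ x ∈ Subgroup.closure (Set.range X ∪ Set.range Y),
      ∀ g' ∈ h.cells, x * g' ∈ h.cells ∧ x⁻¹ * g' ∈ h.cells := by
    intro x hx
    induction hx using Subgroup.closure_induction with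
    | mem x hx =>
      intro g' hg'
      rcases hx with ⟨c, rfl⟩ | ⟨c, rfl⟩
      · exact ⟨h.cells_borel_mul (h.X_mem_borel c) hg',
          by rw [h.X_inv]; exact h.cells_borel_mul (h.X_mem_borel _) hg'⟩
      · exact ⟨h.cells_Y_mul c hg', by rw [h.Y_inv]; exact h.cells_Y_mul _ hg'⟩
    | one => intro g' hg'; simpa using hg'
    | mul x y _ _ hx hy =>
      intro g' hg'
      refine ⟨?_, ?_⟩
      · rw [mul_assoc]; exact (hx _ (hy g' hg').1).1
      · rw [mul_inv_rev, mul_assoc]; exact (hy _ (hx g' hg').2).2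
    | inv x _ hx =>
      intro g' hg'
      rw [inv_inv]
      exact ⟨(hx g' hg').2, (hx g' hg').1⟩
  have := (key g hg 1 (Or.inl (Subgroup.one_mem _))).1
  rwa [mul_one] at this

end StRel

end PartSt3

section PartSt4

open scoped IsMulCommutative

/-- Multiplicative form of the symbol argument. -/
theorem st_symbol_mul {K : Type*} [Field K] [Finite K] {M : Type*} [CommGroup M] (f : K → M)
    (m1 : ∀ t u : K, t ≠ 0 → u ≠ 0 → f (t ^ 2 * u) = f (t ^ 2) * f u)
    (rel : ∀ p r : K, p ≠ 0 → r ≠ 0 → p + r ≠ 0 →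
      (f p)⁻¹ * f (p + r) / f r = f (-((p + r) / (p * r))) / f (-1))
    (one : f 1 = 1) :
    ∀ t u : K, t ≠ 0 → u ≠ 0 → f (t * u) = f t * f u :=
  st_symbol (M := Additive M) (fun t => Additive.ofMul (f t)) m1 rel one

variable {K : Type*} [Field K] {G : Type*} [Group G]

namespace StRel

variable {X Y : K → G}

section Pi

variable (h : StRel X Y) (π : G →* Matrix.SpecialLinearGroup (Fin 2) K)
  (hX : ∀ t, π (X t) = sl2U t) (hY : ∀ t, π (Y t) = sl2L t)

include h hX hY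

theorem pi_torus {η : G} (hη : η ∈ stT X Y) : (π η).1 0 1 = 0 ∧ (π η).1 1 0 = 0 := by
  obtain ⟨s, hs, h1, h2⟩ := h.torus_diag hη
  have e1 : π η * sl2U 1 = sl2U (s * 1) * π η := by
    rw [← hX, ← hX, ← map_mul, ← map_mul, ← h1 1]
    congr 1; group
  have e2 : π η * sl2L 1 = sl2L (s⁻¹ * 1) * π η := by
    rw [← hY, ← hY, ← map_mul, ← map_mul, ← h2 1]
    congr 1; group
  have a1 := congrArg (fun g : Matrix.SpecialLinearGroup (Fin 2) K => g.1 1 1) e1
  have a2 := congrArg (fun g : Matrix.SpecialLinearGroup (Fin 2) K => g.1 0 0) e2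
  simp only [sl2_mul_apply, sl2U_01, sl2U_10, sl2U_11, sl2L_00, sl2L_01, sl2L_10,
    mul_one, zero_mul, one_mul, add_zero, zero_add] at a1 a2
  exact ⟨by simpa using a2, by simpa using a1⟩

omit hY in
theorem pi_torus_central (hgen : Subgroup.closure (Set.range X ∪ Set.range Y) = ⊤)
    {η : G} (hη : η ∈ stT X Y) (h1 : π η = 1) (g : G) : η * g = g * η := by
  obtain ⟨s, hs, hs1, hs2⟩ := h.torus_diag hη
  have e1 : sl2U (1 : K) = sl2U (s * 1) := by
    rw [← hX, ← hX, ← hs1 1, map_mul, map_mul, map_inv, h1]; group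
  have hs' : s = 1 := by
    have := sl2U_injective e1
    rw [mul_one] at this
    exact this.symm
  subst hs'
  have hle : Subgroup.closure (Set.range X ∪ Set.range Y) ≤ Subgroup.centralizer {η} := by
    rw [Subgroup.closure_le]
    rintro x (⟨u, rfl⟩ | ⟨u, rfl⟩)
    · rw [SetLike.mem_coe, Subgroup.mem_centralizer_iff]
      intro y hy
      rw [Set.mem_singleton_iff] at hy
      rw [hy]
      have e := hs1 u
      rw [one_mul] at e
      calc η * X u = (η * X u * η⁻¹) * η := by group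
        _ = X u * η := by rw [e]
    · rw [SetLike.mem_coe, Subgroup.mem_centralizer_iff]
      intro y hy
      rw [Set.mem_singleton_iff] at hy
      rw [hy]
      have e := hs2 u
      rw [inv_one, one_mul] at e
      calc η * Y u = (η * Y u * η⁻¹) * η := by group
        _ = Y u * η := by rw [e]
  have hg : g ∈ Subgroup.centralizer {η} := hle (by rw [hgen]; trivial)
  exact Subgroup.mem_centralizer_iff.mp hg η rfl

omit h in
theorem pi_w1 : (π (stW X Y 1)).1 1 0 = -1 ∧ (π (stW X Y 1)).1 1 1 = 0 := by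
  unfold stW
  rw [map_mul, map_mul, hX, hY]
  constructor <;> simp [sl2_mul_apply]

theorem pi_borel {b : G} (hb : b ∈ h.borel) :
    (π b).1 1 0 = 0 ∧ (π b).1 0 0 * (π b).1 1 1 = 1 := by
  obtain ⟨a, η, hη, rfl⟩ := hb
  obtain ⟨d1, d2⟩ := pi_torus h π hX hY hη
  have hdet := sl2_det (π (X a * η))
  have e10 : (π (X a * η)).1 1 0 = 0 := by
    rw [map_mul, hX, sl2_mul_apply]
    simp [d2]
  rw [e10, mul_zero, sub_zero] at hdet
  exact ⟨e10, hdet⟩

theorem ker_le_torus (hgen : Subgroup.closure (Set.range X ∪ Set.range Y) = ⊤)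
    {g : G} (hg : π g = 1) : g ∈ stT X Y := by
  rcases h.bruhat hgen g with ⟨a, η, hη, rfl⟩ | ⟨b₁, hb₁, b₂, hb₂, rfl⟩
  · obtain ⟨d1, d2⟩ := pi_torus h π hX hY hη
    have e01 := congrArg (fun g : Matrix.SpecialLinearGroup (Fin 2) K => g.1 0 1) hg
    have e11 := congrArg (fun g : Matrix.SpecialLinearGroup (Fin 2) K => g.1 1 1) hg
    simp only [map_mul, hX, sl2_mul_apply, sl2U_00, sl2U_01, sl2U_10, sl2U_11, sl2_one_apply,
      d1, one_mul, zero_mul, zero_add] at e01 e11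
    have ha : a = 0 := by
      have : a * (π η).1 1 1 = 0 := by simpa using e01
      rcases mul_eq_zero.mp this with h0 | h0
      · exact h0
      · rw [h0] at e11; simp at e11
    rw [ha, h.X_zero, one_mul]
    exact hη
  · exfalso
    obtain ⟨p1, p2⟩ := pi_borel h π hX hY hb₁
    obtain ⟨q1, q2⟩ := pi_borel h π hX hY hb₂
    obtain ⟨w10, w11⟩ := pi_w1 π hX hY
    have e10 := congrArg (fun g : Matrix.SpecialLinearGroup (Fin 2) K => g.1 1 0) hg
    simp only [map_mul, sl2_mul_apply, sl2_one_apply, p1, q1, w10, w11, zero_mul, mul_zero,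
      zero_add, add_zero] at e10
    have hz : (π b₁).1 1 1 * (π b₂).1 0 0 = 0 := by
      have : (π b₁).1 1 1 * -1 * (π b₂).1 0 0 = 0 := by simpa using e10
      linear_combination (-1 : K) * this
    rcases mul_eq_zero.mp hz with h0 | h0
    · rw [h0, mul_zero] at p2; exact zero_ne_one p2
    · rw [h0, zero_mul] at q2; exact zero_ne_one q2

theorem pi_torus_ne_zero {η : G} (hη : η ∈ stT X Y) : (π η).1 0 0 ≠ 0 := by
  obtain ⟨d1, d2⟩ := pi_torus h π hX hY hη
  have hdet := sl2_det (π η)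
  rw [d1, zero_mul, sub_zero] at hdet
  intro e
  rw [e, zero_mul] at hdet
  exact zero_ne_one hdet

theorem torus_comm [Finite K] (hgen : Subgroup.closure (Set.range X ∪ Set.range Y) = ⊤) :
    IsMulCommutative ↥(stT X Y) := by
  let f : ↥(stT X Y) →* Kˣ := MonoidHom.mk'
    (fun η => Units.mk0 ((π η.1).1 0 0) (pi_torus_ne_zero h π hX hY η.2)) (by
      intro η η'
      apply Units.ext
      obtain ⟨d1, d2⟩ := pi_torus h π hX hY η.2
      simp only [Subgroup.coe_mul, map_mul, Units.val_mk0, Units.val_mul, sl2_mul_apply, d1,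
        zero_mul, add_zero])
  apply f.isMulCommutative_of_isCyclic_of_ker_le_center
  intro η hη
  have hη1 : (π η.1).1 0 0 = 1 := by
    have := congrArg Units.val (MonoidHom.mem_ker.mp hη)
    simpa [f] using this
  obtain ⟨d1, d2⟩ := pi_torus h π hX hY η.2
  have hdet := sl2_det (π η.1)
  rw [d1, zero_mul, sub_zero, hη1, one_mul] at hdet
  have hπ : π η.1 = 1 := by
    apply sl2_ext <;> simp [sl2_one_apply, hη1, d1, d2, hdet]
  rw [Subgroup.mem_center_iff]
  intro g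
  apply Subtype.ext
  have := pi_torus_central h π hX hgen η.2 hπ g.1
  simpa using this.symm

theorem h_mul [Finite K] (hgen : Subgroup.closure (Set.range X ∪ Set.range Y) = ⊤)
    {t u : K} (ht : t ≠ 0) (hu : u ≠ 0) : stH X Y (t * u) = stH X Y t * stH X Y u := by
  classical
  have := torus_comm h π hX hY hgen
  let f : K → ↥(stT X Y) := fun t => if ht : t ≠ 0 then ⟨stH X Y t, h.h_mem ht⟩ else 1
  have hf : ∀ t (ht : t ≠ 0), f t = ⟨stH X Y t, h.h_mem ht⟩ := fun t ht => dif_pos ht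
  have key := st_symbol_mul f (by
      intro t u ht hu
      have ht2 : t ^ 2 ≠ 0 := pow_ne_zero 2 ht
      rw [hf _ (mul_ne_zero ht2 hu), hf _ ht2, hf _ hu]
      apply Subtype.ext
      have e := h.h_conj_h ht hu
      have c : stH X Y t * stH X Y u = stH X Y u * stH X Y t :=
        setLike_mul_comm (h.h_mem ht) (h.h_mem hu)
      rw [c, mul_inv_cancel_right] at e
      have c2 : stH X Y (t ^ 2) * stH X Y u = stH X Y u * stH X Y (t ^ 2) :=
        setLike_mul_comm (h.h_mem ht2) (h.h_mem hu)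
      change stH X Y (t ^ 2 * u) = stH X Y (t ^ 2) * stH X Y u
      rw [c2, e, inv_mul_cancel_right]) (by
      intro p r hp hr hpr
      have hq : -((p + r) / (p * r)) ≠ 0 :=
        neg_ne_zero.mpr (div_ne_zero hpr (mul_ne_zero hp hr))
      rw [hf _ hp, hf _ hpr, hf _ hr, hf _ hq, hf _ (neg_ne_zero.mpr one_ne_zero)]
      apply Subtype.ext
      have e := h.h_rel hp hr hpr
      simpa [div_eq_mul_inv] using e) (by
      rw [hf _ one_ne_zero]
      apply Subtype.ext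
      exact h.h_one) t u ht hu
  rw [hf _ (mul_ne_zero ht hu), hf _ ht, hf _ hu] at key
  exact congrArg Subtype.val key

theorem torus_eq [Finite K] (hgen : Subgroup.closure (Set.range X ∪ Set.range Y) = ⊤)
    {η : G} (hη : η ∈ stT X Y) : ∃ t : K, t ≠ 0 ∧ η = stH X Y t := by
  unfold stT at hη
  induction hη using Subgroup.closure_induction with
  | mem x hx => exact hx
  | one => exact ⟨1, one_ne_zero, h.h_one.symm⟩
  | mul x y _ _ hx hy =>
    obtain ⟨t, ht, rfl⟩ := hx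
    obtain ⟨u, hu, rfl⟩ := hy
    exact ⟨t * u, mul_ne_zero ht hu, (h_mul h π hX hY hgen ht hu).symm⟩
  | inv x _ hx =>
    obtain ⟨t, ht, rfl⟩ := hx
    refine ⟨t⁻¹, inv_ne_zero ht, ?_⟩
    apply inv_eq_of_mul_eq_one_right
    rw [← h_mul h π hX hY hgen ht (inv_ne_zero ht), mul_inv_cancel₀ ht, h.h_one]

theorem pi_h {t : K} (ht : t ≠ 0) : (π (stH X Y t)).1 0 0 = t := by
  unfold stH
  rw [h.w_inv]
  unfold stW
  simp only [map_mul, hX, hY, sl2_mul_apply, sl2U_00, sl2U_01, sl2U_10, sl2U_11, sl2L_00,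
    sl2L_01, sl2L_10, sl2L_11]
  field_simp
  ring

/-- The Steinberg presentation of `SL₂` over a finite field: injectivity. -/
theorem pi_injective [Finite K] (hgen : Subgroup.closure (Set.range X ∪ Set.range Y) = ⊤) :
    Function.Injective π := by
  rw [injective_iff_map_eq_one]
  intro g hg
  obtain ⟨t, ht, rfl⟩ := torus_eq h π hX hY hgen (ker_le_torus h π hX hY hgen hg)
  have e := pi_h h π hX hY ht
  rw [hg, sl2_one_apply] at e
  simp only [if_true] at e
  rw [← e]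
  exact h.h_one

omit h in
theorem pi_surjective : Function.Surjective π := by
  rw [← MonoidHom.range_eq_top, eq_top_iff, ← sl2_generation]
  apply sup_le
  · intro g hg
    obtain ⟨t, rfl⟩ := (mem_lowerUnipotentSL2 g).mp hg
    exact ⟨Y t, hY t⟩
  · intro g hg
    obtain ⟨t, rfl⟩ := (mem_upperUnipotentSL2 g).mp hg
    exact ⟨X t, hX t⟩

end Pi

end StRel

end PartSt4

section PartSt5

variable {K : Type*} [Field K]

/-- The rank one Steinberg relations hold in `SL₂`. -/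
theorem sl2_stRel : StRel (sl2U : K → Matrix.SpecialLinearGroup (Fin 2) K) sl2L where
  addX := sl2U_mul
  addY := sl2L_mul
  relX := by
    intro t u ht
    rw [mul_inv_eq_iff_eq_mul]
    apply sl2_ext
    · simp only [sl2_mul_apply, sl2U_00, sl2U_01, sl2U_10, sl2U_11, sl2L_00, sl2L_01, sl2L_10,
        sl2L_11]
      field_simp
      ring
    · simp only [sl2_mul_apply, sl2U_00, sl2U_01, sl2U_10, sl2U_11, sl2L_00, sl2L_01, sl2L_10,
        sl2L_11]
      field_simp
      ring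
    · simp only [sl2_mul_apply, sl2U_00, sl2U_01, sl2U_10, sl2U_11, sl2L_00, sl2L_01, sl2L_10,
        sl2L_11]
      field_simp
      ring
    · simp only [sl2_mul_apply, sl2U_00, sl2U_01, sl2U_10, sl2U_11, sl2L_00, sl2L_01, sl2L_10,
        sl2L_11]
      field_simp
      ring

/-- The relators of the rank one Steinberg presentation. -/
def stRels (K : Type*) [Field K] : Set (FreeGroup (Bool × K)) :=
  {g : FreeGroup (Bool × K) | ∃ (b : Bool) (t u : K), g = FreeGroup.of (b, t) * FreeGroup.of (b, u) * (FreeGroup.of (b, t + u))⁻¹} ∪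
    {g | ∃ (b : Bool) (t u : K), t ≠ 0 ∧
      g = (FreeGroup.of (b, t) * FreeGroup.of (!b, -t⁻¹) * FreeGroup.of (b, t)) * FreeGroup.of (b, u) *
            (FreeGroup.of (b, t) * FreeGroup.of (!b, -t⁻¹) * FreeGroup.of (b, t))⁻¹ * (FreeGroup.of (!b, -(t⁻¹ ^ 2 * u)))⁻¹}

/-- The generator map into a group with two families. -/
def stGen {G : Type*} (X Y : K → G) (bt : Bool × K) : G :=
  match bt.1 with
  | true => X bt.2
  | false => Y bt.2

theorem stGen_lift_eq_one {G : Type*} [Group G] {X Y : K → G} (h : StRel X Y) :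
    ∀ r ∈ stRels K, FreeGroup.lift (stGen X Y) r = 1 := by
  rintro r (⟨b, t, u, rfl⟩ | ⟨b, t, u, ht, rfl⟩)
  · cases b
    · simp only [map_mul, map_inv, FreeGroup.lift_apply_of, stGen]
      rw [h.addY, mul_inv_cancel]
    · simp only [map_mul, map_inv, FreeGroup.lift_apply_of, stGen]
      rw [h.addX, mul_inv_cancel]
  · cases b
    · simp only [map_mul, map_inv, FreeGroup.lift_apply_of, stGen, Bool.not_false]
      rw [h.relY t u ht, mul_inv_cancel]
    · simp only [map_mul, map_inv, FreeGroup.lift_apply_of, stGen, Bool.not_true]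
      rw [h.relX t u ht, mul_inv_cancel]

theorem stRel_presented :
    StRel (fun t : K => (PresentedGroup.of (true, t) : PresentedGroup (stRels K)))
      (fun t : K => (PresentedGroup.of (false, t) : PresentedGroup (stRels K))) where
  addX := by
    intro t u
    have e := PresentedGroup.one_of_mem (rels := stRels K)
      (x := FreeGroup.of (true, t) * FreeGroup.of (true, u) * (FreeGroup.of (true, t + u))⁻¹)
      (Or.inl ⟨true, t, u, rfl⟩)
    rw [map_mul, map_mul, map_inv] at e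
    exact mul_inv_eq_one.mp e
  addY := by
    intro t u
    have e := PresentedGroup.one_of_mem (rels := stRels K)
      (x := FreeGroup.of (false, t) * FreeGroup.of (false, u) * (FreeGroup.of (false, t + u))⁻¹)
      (Or.inl ⟨false, t, u, rfl⟩)
    rw [map_mul, map_mul, map_inv] at e
    exact mul_inv_eq_one.mp e
  relX := by
    intro t u ht
    have e := PresentedGroup.one_of_mem (rels := stRels K)
      (x := (FreeGroup.of (true, t) * FreeGroup.of (false, -t⁻¹) * FreeGroup.of (true, t)) *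
        FreeGroup.of (true, u) *
        (FreeGroup.of (true, t) * FreeGroup.of (false, -t⁻¹) * FreeGroup.of (true, t))⁻¹ *
        (FreeGroup.of (false, -(t⁻¹ ^ 2 * u)))⁻¹)
      (Or.inr ⟨true, t, u, ht, rfl⟩)
    simp only [map_mul, map_inv] at e
    exact mul_inv_eq_one.mp e

theorem stRel_presented_gen :
    Subgroup.closure (Set.range (fun t : K => (PresentedGroup.of (true, t) : PresentedGroup (stRels K))) ∪
      Set.range (fun t : K => (PresentedGroup.of (false, t) : PresentedGroup (stRels K)))) = ⊤ := by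
  rw [eq_top_iff, ← PresentedGroup.closure_range_of (stRels K)]
  apply Subgroup.closure_mono
  rintro _ ⟨⟨b, t⟩, rfl⟩
  cases b
  · exact Or.inr ⟨t, rfl⟩
  · exact Or.inl ⟨t, rfl⟩

/-- The rank one Steinberg presentation of `SL₂` over a finite field. -/
theorem st_presentation [Finite K] :
    ∃ e : PresentedGroup (stRels K) ≃* Matrix.SpecialLinearGroup (Fin 2) K,
      (∀ t : K, e (PresentedGroup.of (true, t)) = sl2U t) ∧
      (∀ t : K, e (PresentedGroup.of (false, t)) = sl2L t) := by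
  let π : PresentedGroup (stRels K) →* Matrix.SpecialLinearGroup (Fin 2) K :=
    PresentedGroup.toGroup (stGen_lift_eq_one (sl2_stRel (K := K)))
  have hX : ∀ t : K, π (PresentedGroup.of (true, t)) = sl2U t := fun t =>
    PresentedGroup.toGroup.of (stGen_lift_eq_one (sl2_stRel (K := K)))
  have hY : ∀ t : K, π (PresentedGroup.of (false, t)) = sl2L t := fun t =>
    PresentedGroup.toGroup.of (stGen_lift_eq_one (sl2_stRel (K := K)))
  have hinj := StRel.pi_injective stRel_presented π hX hY stRel_presented_gen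
  have hsurj := StRel.pi_surjective π hX hY
  exact ⟨MulEquiv.ofBijective π ⟨hinj, hsurj⟩, hX, hY⟩

/-- Universal property: over a finite field, two families satisfying the rank one Steinberg
relations are the images of the unitriangular matrices under a homomorphism from `SL₂`. -/
theorem st_exists_hom [Finite K] {G : Type*} [Group G] {X Y : K → G} (h : StRel X Y) :
    ∃ φ : Matrix.SpecialLinearGroup (Fin 2) K →* G,
      (∀ t : K, φ (sl2U t) = X t) ∧ (∀ t : K, φ (sl2L t) = Y t) := by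
  obtain ⟨e, eX, eY⟩ := st_presentation (K := K)
  let ψ : PresentedGroup (stRels K) →* G := PresentedGroup.toGroup (stGen_lift_eq_one h)
  refine ⟨ψ.comp e.symm.toMonoidHom, fun t => ?_, fun t => ?_⟩
  · have e1 : e.symm (sl2U t) = PresentedGroup.of (true, t) := by
      rw [← eX, MulEquiv.symm_apply_apply]
    change ψ (e.symm (sl2U t)) = X t
    rw [e1]
    exact PresentedGroup.toGroup.of (stGen_lift_eq_one h)
  · have e1 : e.symm (sl2L t) = PresentedGroup.of (false, t) := by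
      rw [← eY, MulEquiv.symm_apply_apply]
    change ψ (e.symm (sl2L t)) = Y t
    rw [e1]
    exact PresentedGroup.toGroup.of (stGen_lift_eq_one h)

end PartSt5

end Cfsg.Agent.Helper83
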