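import Mathlib
import Cfsg.Agent.Helper8.S4504Defs
import Cfsg.Agent.Helper15.S4504Shape
import Cfsg.Agent.Helper15.B42Main

/-!
# S4504S (sub-CALL of S4504 STRUCT), piece DEC (helper83, double): tight counting of constituents
-/

universe u
set_option autoImplicit false
open Cfsg Cfsg.Agent.Helper77 Cfsg.Agent.Helper15 Cfsg.Agent.Helper8
open scoped ComplexConjugate

namespace Cfsg.Agent.Helper83

variable {G : Type u} [Group G] [Finite G]

/-- DEC: tight counting of the constituents of `α`. -/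
theorem s4504s_dec (p : ℕ) [Fact p.Prime] [Fintype G] (x : G) (hx : orderOf x = p)
    (α : G → ℂ) (hα : Cfsg.IsCharacter G α) (a : ℕ)
    (ha : Cfsg.classInner α (fun _ => (1 : ℂ)) = (a : ℂ))
    (S : Finset (Cfsg.IrrCharacter G))
    (hS1 : ∀ ζ ∈ S, (ζ : G → ℂ) ≠ fun _ => 1)
    (hS : ∀ ζ ∈ S, Cfsg.classInner α (ζ : G → ℂ) ≠ 0)
    (hμ : ∀ ζ ∈ S, ∃ m : ℕ, 1 ≤ m ∧
      (ζ : G → ℂ) 1 - b42Fix p x (ζ : G → ℂ) = ((m * (p - 1) : ℕ) : ℂ))
    (D r : ℕ) (hD : α 1 - b42Fix p x α = (D : ℂ)) (hDr : D = S.card * (p - 1) + r)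
    (hr : r < p - 1)
    (hnt : ∀ ξ : Cfsg.IrrCharacter G, (ξ : G → ℂ) ≠ (fun _ => 1) →
      (ξ : G → ℂ) 1 - b42Fix p x (ξ : G → ℂ) ≠ 0) :
    (∀ ζ ∈ S, (ζ : G → ℂ) 1 - b42Fix p x (ζ : G → ℂ) = ((p - 1 : ℕ) : ℂ)) ∧
    (r = 0 → ∀ g : G, α g = (a : ℂ) + ∑ ζ ∈ S, (ζ : G → ℂ) g) ∧
    (0 < r → ∀ (q R dmin : ℕ), (∀ ζ ∈ S, (ζ : G → ℂ) 1 = (q : ℂ)) →
      α 1 = ((a + S.card * q + R : ℕ) : ℂ) → R < 2 * dmin →
      (∀ ξ : Cfsg.IrrCharacter G, (ξ : G → ℂ) ≠ (fun _ => 1) →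
        dmin ≤ Cfsg.charDegree (ξ : G → ℂ)) →
      ∃ ψ : Cfsg.IrrCharacter G, ψ ∉ S ∧ (ψ : G → ℂ) ≠ (fun _ => 1) ∧
        (ψ : G → ℂ) 1 = (R : ℂ) ∧
        (ψ : G → ℂ) 1 - b42Fix p x (ψ : G → ℂ) = (r : ℂ) ∧
        ∀ g : G, α g = (a : ℂ) + ∑ ζ ∈ S, (ζ : G → ℂ) g + (ψ : G → ℂ) g) := by
  classical
  have hpp : p.Prime := Fact.out
  have hp : p ≠ 0 := hpp.ne_zero
  have hp1 : 0 < p - 1 := by
    have h1 := hpp.one_lt
    omega
  have hxp : x ^ p = 1 := by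
    rw [← hx]
    exact pow_orderOf_eq_one x
  have := Fintype.ofFinite (Cfsg.IrrCharacter G)
  obtain ⟨m, hm1, hm2⟩ := Cfsg.Agent.Helper15.char_decomp α hα
  have hnat : ∀ φ : Cfsg.IrrCharacter G, ∃ d : ℕ,
      (φ : G → ℂ) 1 - b42Fix p x (φ : G → ℂ) = (d : ℂ) := fun φ =>
    Cfsg.Agent.Helper72.b42c_diff_nat p hp x hxp (φ : G → ℂ)
      (Cfsg.Agent.Helper79.isCharacter_of_irr φ.2)
  choose d hd using hnat
  have hlin : b42Fix p x α = ∑ φ : Cfsg.IrrCharacter G, (m φ : ℂ) * b42Fix p x (φ : G → ℂ) := by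
    conv_lhs => rw [hm2]
    exact Cfsg.Agent.Helper72.b42c_fix_sum p x Finset.univ (fun φ => (m φ : ℂ))
      (fun φ => (φ : G → ℂ))
  have hval : ∀ g : G, α g = ∑ φ : Cfsg.IrrCharacter G, (m φ : ℂ) * (φ : G → ℂ) g := by
    intro g
    conv_lhs => rw [hm2]
    simp only [Finset.sum_apply, Pi.smul_apply, smul_eq_mul]
  have hsum : D = ∑ φ : Cfsg.IrrCharacter G, m φ * d φ := by
    have h1 : (D : ℂ) = ((∑ φ : Cfsg.IrrCharacter G, m φ * d φ : ℕ) : ℂ) := by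
      rw [← hD, hlin, hval 1, ← Finset.sum_sub_distrib]
      push_cast
      refine Finset.sum_congr rfl (fun φ _ => ?_)
      rw [← hd φ]
      ring
    exact_mod_cast h1
  -- the trivial character
  obtain ⟨triv, htriv⟩ : ∃ triv : Cfsg.IrrCharacter G, (triv : G → ℂ) = fun _ => 1 :=
    ⟨⟨fun _ => 1, Cfsg.Agent.Helper79.isIrrCharacter_one⟩, rfl⟩
  have hmtriv : m triv = a := by
    have h1 := hm1 triv
    rw [htriv, ha] at h1
    exact_mod_cast h1.symm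
  have htrivS : triv ∉ S := fun h => hS1 triv h htriv
  have hdtriv : d triv = 0 := by
    have h1 : b42Fix p x (triv : G → ℂ) = 1 := by
      rw [htriv]
      unfold b42Fix
      rw [Finset.sum_const, Finset.card_range, nsmul_eq_mul, mul_one,
        inv_mul_cancel₀ (Nat.cast_ne_zero.mpr hp)]
    have h2 := hd triv
    rw [h1, htriv] at h2
    have h3 : (d triv : ℂ) = 0 := by
      rw [← h2]
      ring
    exact_mod_cast h3
  have hntd : ∀ φ : Cfsg.IrrCharacter G, φ ≠ triv → d φ ≠ 0 := by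
    intro φ hφ h0
    have h1 : (φ : G → ℂ) ≠ fun _ => 1 := by
      intro h2
      apply hφ
      apply Subtype.ext
      rw [h2, htriv]
    apply hnt φ h1
    rw [hd φ, h0, Nat.cast_zero]
  have hmS : ∀ ζ ∈ S, 1 ≤ m ζ := by
    intro ζ hζ
    have h1 : m ζ ≠ 0 := by
      intro h
      apply hS ζ hζ
      rw [hm1 ζ, h, Nat.cast_zero]
    omega
  have hdS : ∀ ζ ∈ S, ∃ m' : ℕ, 1 ≤ m' ∧ d ζ = m' * (p - 1) := by
    intro ζ hζ
    obtain ⟨m', hm', h⟩ := hμ ζ hζ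
    refine ⟨m', hm', ?_⟩
    have h1 : (d ζ : ℂ) = ((m' * (p - 1) : ℕ) : ℂ) := by rw [← hd ζ, h]
    exact_mod_cast h1
  have hsplit : ∑ φ : Cfsg.IrrCharacter G, m φ * d φ
      = ∑ ζ ∈ S, m ζ * d ζ + ∑ φ ∈ Sᶜ, m φ * d φ :=
    (Finset.sum_add_sum_compl S (fun φ => m φ * d φ)).symm
  have hge : ∀ ζ ∈ S, p - 1 ≤ m ζ * d ζ := by
    intro ζ hζ
    obtain ⟨m', hm', h⟩ := hdS ζ hζ
    rw [h]
    calc p - 1 = 1 * (1 * (p - 1)) := by ring
      _ ≤ m ζ * (m' * (p - 1)) :=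
        Nat.mul_le_mul (hmS ζ hζ) (Nat.mul_le_mul_right _ hm')
  have hlow : S.card * (p - 1) ≤ ∑ ζ ∈ S, m ζ * d ζ := by
    calc S.card * (p - 1) = ∑ _ζ ∈ S, (p - 1) := by rw [Finset.sum_const, smul_eq_mul]
      _ ≤ ∑ ζ ∈ S, m ζ * d ζ := Finset.sum_le_sum hge
  have hSeq : ∑ ζ ∈ S, m ζ * d ζ = S.card * (p - 1) := by
    have hdvd : (p - 1) ∣ ∑ ζ ∈ S, m ζ * d ζ := by
      apply Finset.dvd_sum
      intro ζ hζ
      obtain ⟨m', -, h⟩ := hdS ζ hζ
      rw [h]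
      exact ⟨m ζ * m', by ring⟩
    obtain ⟨k, hk⟩ := hdvd
    have hle : ∑ ζ ∈ S, m ζ * d ζ ≤ S.card * (p - 1) + r := by
      rw [← hDr, hsum, hsplit]
      exact Nat.le_add_right _ _
    rw [hk] at hle hlow
    have h3 : S.card ≤ k := by
      by_contra hc
      have hc' : k + 1 ≤ S.card := by omega
      have h4 : (k + 1) * (p - 1) ≤ S.card * (p - 1) := Nat.mul_le_mul_right _ hc'
      have h5 : (k + 1) * (p - 1) = (p - 1) * k + (p - 1) := by ring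
      omega
    have h4 : k ≤ S.card := by
      by_contra hc
      have hc' : S.card + 1 ≤ k := by omega
      have h5 : (p - 1) * (S.card + 1) ≤ (p - 1) * k := Nat.mul_le_mul_left _ hc'
      have h6 : (p - 1) * (S.card + 1) = S.card * (p - 1) + (p - 1) := by ring
      omega
    have h5 : k = S.card := le_antisymm h4 h3
    rw [hk, h5, mul_comm]
  have hterm : ∀ ζ ∈ S, m ζ * d ζ = p - 1 := by
    have hsumeq : ∑ _ζ ∈ S, (p - 1) = ∑ ζ ∈ S, m ζ * d ζ := by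
      rw [hSeq, Finset.sum_const, smul_eq_mul]
    intro ζ hζ
    exact ((Finset.sum_eq_sum_iff_of_le hge).mp hsumeq ζ hζ).symm
  have hm1S : ∀ ζ ∈ S, m ζ = 1 ∧ d ζ = p - 1 := by
    intro ζ hζ
    obtain ⟨m', hm', h⟩ := hdS ζ hζ
    have h1 := hterm ζ hζ
    rw [h] at h1
    have h3 : m ζ * m' = 1 := by
      have h4 : m ζ * m' * (p - 1) = 1 * (p - 1) := by
        rw [one_mul, mul_assoc]
        exact h1
      exact Nat.eq_of_mul_eq_mul_right hp1 h4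
    have h4 : m ζ = 1 := Nat.eq_one_of_mul_eq_one_right h3
    have h5 : m' = 1 := by
      rw [h4, one_mul] at h3
      exact h3
    exact ⟨h4, by rw [h, h5, one_mul]⟩
  have hrest : ∑ φ ∈ Sᶜ, m φ * d φ = r := by
    have h1 := hsum
    rw [hsplit, hSeq, hDr] at h1
    omega
  have htrivSc : triv ∈ Sᶜ := Finset.mem_compl.mpr htrivS
  -- value of `α`, split
  have hvalsplit : ∀ g : G, α g = ∑ ζ ∈ S, (ζ : G → ℂ) g
      + ∑ φ ∈ Sᶜ, (m φ : ℂ) * (φ : G → ℂ) g := by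
    intro g
    rw [hval g, ← Finset.sum_add_sum_compl S]
    congr 1
    refine Finset.sum_congr rfl (fun ζ hζ => ?_)
    rw [(hm1S ζ hζ).1, Nat.cast_one, one_mul]
  refine ⟨?_, ?_, ?_⟩
  · intro ζ hζ
    rw [hd ζ, (hm1S ζ hζ).2]
  · intro hr0 g
    rw [hr0] at hrest
    have hz := Finset.sum_eq_zero_iff.mp hrest
    have hm0 : ∀ φ ∈ Sᶜ, φ ≠ triv → m φ = 0 := by
      intro φ hφ hne
      rcases Nat.mul_eq_zero.mp (hz φ hφ) with h | h
      · exact h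
      · exact absurd h (hntd φ hne)
    have h2 : ∑ φ ∈ Sᶜ, (m φ : ℂ) * (φ : G → ℂ) g = (a : ℂ) := by
      rw [Finset.sum_eq_single triv, hmtriv, htriv, mul_one]
      · intro φ hφ hne
        rw [hm0 φ hφ hne, Nat.cast_zero, zero_mul]
      · intro h
        exact absurd htrivSc h
    rw [hvalsplit g, h2, add_comm]
  · intro hr0 q R dmin hq hα1 hR hdmin
    obtain ⟨T, hT⟩ : ∃ T : Finset (Cfsg.IrrCharacter G), T = Sᶜ.erase triv := ⟨_, rfl⟩
    have hTmem : ∀ φ, φ ∈ T ↔ φ ≠ triv ∧ φ ∉ S := by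
      intro φ
      rw [hT, Finset.mem_erase, Finset.mem_compl]
    have hrestT : ∑ φ ∈ T, m φ * d φ = r := by
      rw [hT, Finset.sum_erase]
      · exact hrest
      · rw [hdtriv, mul_zero]
    -- degrees
    have hdegT : ∑ φ ∈ T, m φ * Cfsg.charDegree (φ : G → ℂ) = R := by
      have h1 : ((a + S.card * q + R : ℕ) : ℂ)
          = ((S.card * q + (a + ∑ φ ∈ T, m φ * Cfsg.charDegree (φ : G → ℂ)) : ℕ) : ℂ) := by
        rw [← hα1, hvalsplit 1, ← Finset.add_sum_erase Sᶜ _ htrivSc, ← hT, hmtriv, htriv]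
        push_cast
        congr 1
        · rw [Finset.sum_congr rfl (fun ζ hζ => hq ζ hζ), Finset.sum_const, nsmul_eq_mul]
        · congr 1
          · ring
          · refine Finset.sum_congr rfl (fun φ _ => ?_)
            rw [Cfsg.Agent.Helper80.irr_one_eq φ]
      have h2 : a + S.card * q + R
          = S.card * q + (a + ∑ φ ∈ T, m φ * Cfsg.charDegree (φ : G → ℂ)) := by
        exact_mod_cast h1
      omega
    have hdmin0 : 0 < dmin := by omega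
    have hmT : ∑ φ ∈ T, m φ ≤ 1 := by
      have h1 : (∑ φ ∈ T, m φ) * dmin ≤ R := by
        rw [← hdegT, Finset.sum_mul]
        refine Finset.sum_le_sum (fun φ hφ => ?_)
        have h2 : (φ : G → ℂ) ≠ fun _ => 1 := by
          intro h3
          apply ((hTmem φ).mp hφ).1
          apply Subtype.ext
          rw [h3, htriv]
        exact Nat.mul_le_mul_left _ (hdmin φ h2)
      by_contra hc
      have hc' : 2 ≤ ∑ φ ∈ T, m φ := by omega
      have h2 : 2 * dmin ≤ (∑ φ ∈ T, m φ) * dmin := Nat.mul_le_mul_right _ hc'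
      omega
    -- a constituent in `T`
    obtain ⟨ψ, hψT, hψ0⟩ : ∃ ψ ∈ T, m ψ * d ψ ≠ 0 := by
      by_contra hcon
      have h1 : ∑ φ ∈ T, m φ * d φ = 0 := by
        apply Finset.sum_eq_zero
        intro φ hφ
        by_contra h2
        exact hcon ⟨φ, hφ, h2⟩
      omega
    have hmψ : 1 ≤ m ψ := by
      have h1 : m ψ ≠ 0 := fun h => hψ0 (by rw [h, zero_mul])
      omega
    have hsplitT : ∑ φ ∈ T, m φ = m ψ + ∑ φ ∈ T.erase ψ, m φ :=
      (Finset.add_sum_erase T m hψT).symm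
    have hmψ1 : m ψ = 1 := by omega
    have hm0 : ∀ φ ∈ T, φ ≠ ψ → m φ = 0 := by
      intro φ hφ hne
      have h1 : ∑ φ ∈ T.erase ψ, m φ = 0 := by omega
      exact Finset.sum_eq_zero_iff.mp h1 φ (Finset.mem_erase.mpr ⟨hne, hφ⟩)
    have hdegψ : Cfsg.charDegree (ψ : G → ℂ) = R := by
      rw [← hdegT, Finset.sum_eq_single ψ, hmψ1, one_mul]
      · intro φ hφ hne
        rw [hm0 φ hφ hne, zero_mul]
      · intro h
        exact absurd hψT h
    have hdψ : d ψ = r := by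
      rw [← hrestT, Finset.sum_eq_single ψ, hmψ1, one_mul]
      · intro φ hφ hne
        rw [hm0 φ hφ hne, zero_mul]
      · intro h
        exact absurd hψT h
    have hψne : ψ ≠ triv := ((hTmem ψ).mp hψT).1
    refine ⟨ψ, ((hTmem ψ).mp hψT).2, ?_, ?_, ?_, ?_⟩
    · intro h3
      apply hψne
      apply Subtype.ext
      rw [h3, htriv]
    · rw [Cfsg.Agent.Helper80.irr_one_eq ψ, hdegψ]
    · rw [hd ψ, hdψ]
    · intro g
      have h2 : ∑ φ ∈ T, (m φ : ℂ) * (φ : G → ℂ) g = (ψ : G → ℂ) g := by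
        rw [Finset.sum_eq_single ψ, hmψ1, Nat.cast_one, one_mul]
        · intro φ hφ hne
          rw [hm0 φ hφ hne, Nat.cast_zero, zero_mul]
        · intro h
          exact absurd hψT h
      have h3 : ∑ φ ∈ Sᶜ, (m φ : ℂ) * (φ : G → ℂ) g = (a : ℂ) + (ψ : G → ℂ) g := by
        rw [← Finset.add_sum_erase Sᶜ _ htrivSc, ← hT, h2, hmtriv, htriv, mul_one]
      rw [hvalsplit g, h3]
      ring

end Cfsg.Agent.Helper83
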