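import Mathlib
import Cfsg.Agent.S0065

/-!
# Small 2-group lemmas (helper83), used for pieces E2 / E3 of helper11's CALL S2951

* `tg_comm_of_sq` : exponent 2 gives commutativity.
* `tg_four_enum`, `tg_four_exists` : enumeration of a subgroup of order 4.
* `tg_idx2` : membership rule for a subgroup of index 2.
* `tg_exists_central` : a nontrivial normal subgroup of a 2-group contains a central element.
* `tg_exists_central_mod` : an element outside a proper normal subgroup, central modulo it.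
* `tg_card_le_two_mul` : a subgroup with at most two cosets.
* `tg_conj_cases` : conjugates of a non-central element of a normal four-group.
-/

set_option autoImplicit false

namespace Cfsg.Agent.Helper83

variable {G : Type*} [Group G]

theorem tg_comm_of_sq (A : Subgroup G) (hA : ∀ a ∈ A, a * a = 1) {a b : G} (ha : a ∈ A)
    (hb : b ∈ A) : a * b = b * a := by
  have h1 := hA (a * b) (A.mul_mem ha hb)
  have ha' : a⁻¹ = a := inv_eq_of_mul_eq_one_left (hA a ha)
  have hb' : b⁻¹ = b := inv_eq_of_mul_eq_one_left (hA b hb)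
  have hab : (a * b)⁻¹ = a * b := inv_eq_of_mul_eq_one_left h1
  calc a * b = (a * b)⁻¹ := hab.symm
    _ = b⁻¹ * a⁻¹ := mul_inv_rev a b
    _ = b * a := by rw [ha', hb']

theorem tg_four_enum (U : Subgroup G) (hU : Nat.card U = 4) {z a : G} (hz : z ∈ U) (ha : a ∈ U)
    (hz1 : z ≠ 1) (ha1 : a ≠ 1) (haz : a ≠ z) (hzz : z * z = 1) :
    ∀ u ∈ U, u = 1 ∨ u = z ∨ u = a ∨ u = z * a := by
  classical
  have : Finite U := Nat.finite_of_card_ne_zero (by omega)
  have hfin : (U : Set G).Finite := Set.toFinite _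
  have hza1 : z * a ≠ 1 := by
    intro h
    apply haz
    have h2 : a = z⁻¹ := eq_inv_of_mul_eq_one_right h
    rw [h2]
    exact inv_eq_of_mul_eq_one_left hzz
  have hsub : ({1, z, a, z * a} : Set G) ⊆ (U : Set G) := by
    intro x hx
    simp only [Set.mem_insert_iff, Set.mem_singleton_iff] at hx
    rcases hx with rfl | rfl | rfl | rfl
    · exact U.one_mem
    · exact hz
    · exact ha
    · exact U.mul_mem hz ha
  have h3 : a ∉ ({z * a} : Set G) := by
    simp only [Set.mem_singleton_iff]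
    intro h
    apply hz1
    have h' : 1 * a = z * a := by rw [one_mul]; exact h
    exact (mul_right_cancel h').symm
  have h2 : z ∉ ({a, z * a} : Set G) := by
    simp only [Set.mem_insert_iff, Set.mem_singleton_iff, not_or]
    refine ⟨fun h => haz h.symm, fun h => ha1 ?_⟩
    have h' : z * 1 = z * a := by rw [mul_one]; exact h
    exact (mul_left_cancel h').symm
  have h1 : (1 : G) ∉ ({z, a, z * a} : Set G) := by
    simp only [Set.mem_insert_iff, Set.mem_singleton_iff, not_or]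
    exact ⟨fun h => hz1 h.symm, fun h => ha1 h.symm, fun h => hza1 h.symm⟩
  have hcard : ({1, z, a, z * a} : Set G).ncard = 4 := by
    rw [Set.ncard_insert_of_notMem h1, Set.ncard_insert_of_notMem h2,
      Set.ncard_insert_of_notMem h3, Set.ncard_singleton]
  have hUc : (U : Set G).ncard = 4 := by rw [← hU]; rfl
  have heq : ({1, z, a, z * a} : Set G) = (U : Set G) :=
    Set.eq_of_subset_of_ncard_le hsub (by rw [hcard, hUc]) hfin
  intro u hu
  have hu' : u ∈ ({1, z, a, z * a} : Set G) := by rw [heq]; exact hu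
  simpa only [Set.mem_insert_iff, Set.mem_singleton_iff] using hu'

theorem tg_four_exists (U : Subgroup G) (hU : Nat.card U = 4) (w : G) :
    ∃ a ∈ U, a ≠ 1 ∧ a ≠ w := by
  classical
  by_contra hcon
  push Not at hcon
  have : Finite U := Nat.finite_of_card_ne_zero (by omega)
  have hsub : (U : Set G) ⊆ ({1, w} : Set G) := by
    intro a ha
    by_cases h1 : a = 1
    · simp [h1]
    · simp [hcon a ha h1]
  have h2 : (U : Set G).ncard ≤ ({1, w} : Set G).ncard :=
    Set.ncard_le_ncard hsub (Set.toFinite _)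
  have h3 : ({1, w} : Set G).ncard ≤ 2 := by
    have := Set.ncard_insert_le (1 : G) ({w} : Set G)
    rw [Set.ncard_singleton] at this
    exact this
  have h4 : (U : Set G).ncard = 4 := by rw [← hU]; rfl
  omega

theorem tg_idx2 (A B : Subgroup G) (hAB : A ≤ B) (hcard : Nat.card B = 2 * Nat.card A)
    (hB : Nat.card B ≠ 0) :
    ∀ a ∈ B, ∀ b ∈ B, (a * b ∈ A ↔ (a ∈ A ↔ b ∈ A)) := by
  have hidx : (A.subgroupOf B).index = 2 := by
    have h1 := Subgroup.card_mul_index (A.subgroupOf B)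
    have h2 : Nat.card (A.subgroupOf B) = Nat.card A :=
      Nat.card_congr (Subgroup.subgroupOfEquivOfLe hAB).toEquiv
    rw [h2, hcard] at h1
    have hA : Nat.card A ≠ 0 := by
      intro h
      rw [h] at hcard
      omega
    have h3 : Nat.card A * (A.subgroupOf B).index = Nat.card A * 2 := by rw [h1]; ring
    exact Nat.eq_of_mul_eq_mul_left (Nat.pos_of_ne_zero hA) h3
  intro a ha b hb
  have h := Subgroup.mul_mem_iff_of_index_two hidx (a := (⟨a, ha⟩ : B)) (b := ⟨b, hb⟩)
  simpa only [Subgroup.mem_subgroupOf, Subgroup.coe_mul] using h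

theorem tg_exists_central (S U : Subgroup G) [Finite S] (hS : IsPGroup 2 S) (hUS : U ≤ S)
    (hUn : S ≤ Subgroup.normalizer (U : Set G)) (hU : U ≠ ⊥) :
    ∃ z ∈ U, z ≠ 1 ∧ ∀ s ∈ S, s * z = z * s := by
  have : Fact (Nat.Prime 2) := ⟨Nat.prime_two⟩
  have : Group.IsNilpotent S := hS.isNilpotent
  have : (U.subgroupOf S).Normal := (Subgroup.normal_subgroupOf_iff_le_normalizer hUS).2 hUn
  have hne : U.subgroupOf S ≠ ⊥ := by
    intro h
    apply hU
    rw [eq_bot_iff]
    intro u hu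
    have h1 : (⟨u, hUS hu⟩ : S) ∈ U.subgroupOf S := by
      rw [Subgroup.mem_subgroupOf]; exact hu
    rw [h, Subgroup.mem_bot] at h1
    rw [Subgroup.mem_bot]
    exact congrArg Subtype.val h1
  have h := Cfsg.Agent.S0065.result (U.subgroupOf S) hne
  obtain ⟨x, hx, hx1⟩ : ∃ x : S, x ∈ U.subgroupOf S ⊓ Subgroup.center S ∧ x ≠ 1 := by
    by_contra hcon
    apply h
    rw [eq_bot_iff]
    intro x hx
    rw [Subgroup.mem_bot]
    by_contra hx1
    exact hcon ⟨x, hx, hx1⟩
  refine ⟨x, ?_, ?_, ?_⟩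
  · exact Subgroup.mem_subgroupOf.1 hx.1
  · intro h1
    exact hx1 (Subtype.ext h1)
  · intro s hs
    have h2 := Subgroup.mem_center_iff.1 hx.2 ⟨s, hs⟩
    exact congrArg Subtype.val h2

theorem tg_exists_central_mod (S U : Subgroup G) [Finite S] (hS : IsPGroup 2 S) (hUS : U ≤ S)
    (hUn : S ≤ Subgroup.normalizer (U : Set G)) (hne : ¬ S ≤ U) :
    ∃ x ∈ S, x ∉ U ∧ ∀ s ∈ S, x⁻¹ * s⁻¹ * x * s ∈ U := by
  have : Fact (Nat.Prime 2) := ⟨Nat.prime_two⟩
  have hN : (U.subgroupOf S).Normal := (Subgroup.normal_subgroupOf_iff_le_normalizer hUS).2 hUn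
  have hQ : IsPGroup 2 (S ⧸ U.subgroupOf S) := hS.to_quotient _
  have : Nontrivial (S ⧸ U.subgroupOf S) := by
    obtain ⟨s, hs, hsU⟩ := SetLike.not_le_iff_exists.1 hne
    refine ⟨⟨((⟨s, hs⟩ : S) : S ⧸ U.subgroupOf S), 1, ?_⟩⟩
    intro h
    rw [QuotientGroup.eq_one_iff, Subgroup.mem_subgroupOf] at h
    exact hsU h
  have := hQ.center_nontrivial
  obtain ⟨y, hy, hy1⟩ :=
    (Subgroup.nontrivial_iff_exists_ne_one (Subgroup.center (S ⧸ U.subgroupOf S))).1 inferInstance
  obtain ⟨x, rfl⟩ := QuotientGroup.mk_surjective y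
  refine ⟨x, x.2, ?_, ?_⟩
  · intro hxU
    apply hy1
    rw [QuotientGroup.eq_one_iff, Subgroup.mem_subgroupOf]
    exact hxU
  · intro s hs
    have h1 := Subgroup.mem_center_iff.1 hy ((⟨s, hs⟩ : S) : S ⧸ U.subgroupOf S)
    have h2 : (((⟨s, hs⟩ : S) * x : S) : S ⧸ U.subgroupOf S) = ((x * ⟨s, hs⟩ : S) : S ⧸ U.subgroupOf S) := by
      simpa only [QuotientGroup.mk_mul] using h1
    rw [QuotientGroup.eq, Subgroup.mem_subgroupOf] at h2
    have h3 : x.1⁻¹ * s⁻¹ * x.1 * s = ((⟨s, hs⟩ * x : S)⁻¹ * (x * ⟨s, hs⟩) : S).1 := by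
      simp only [Subgroup.coe_mul, Subgroup.coe_inv, mul_inv_rev]
      group
    rw [h3]
    exact h2

theorem tg_card_le_two_mul (S A : Subgroup G) [Finite S] (hAS : A ≤ S)
    (h : ∀ s ∈ S, ∀ t ∈ S, s ∉ A → t ∉ A → s⁻¹ * t ∈ A) : Nat.card S ≤ 2 * Nat.card A := by
  classical
  have : Finite A := Finite.of_injective (Subgroup.inclusion hAS) (Subgroup.inclusion_injective hAS)
  by_cases hle : S ≤ A
  · have h1 : Nat.card S ≤ Nat.card A := Subgroup.card_le_of_le hle
    omega
  · obtain ⟨s₀, hs₀, hs₀A⟩ := SetLike.not_le_iff_exists.1 hle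
    have hsub : (S : Set G) ⊆ (A : Set G) ∪ (fun t => s₀ * t) '' (A : Set G) := by
      intro t ht
      by_cases htA : t ∈ A
      · exact Or.inl htA
      · right
        exact ⟨s₀⁻¹ * t, h s₀ hs₀ t ht hs₀A htA, by simp⟩
    have h1 : (S : Set G).ncard ≤ ((A : Set G) ∪ (fun t => s₀ * t) '' (A : Set G)).ncard :=
      Set.ncard_le_ncard hsub ((Set.toFinite _).union ((Set.toFinite _).image _))
    have h2 := Set.ncard_union_le (A : Set G) ((fun t => s₀ * t) '' (A : Set G))
    have h3 := Set.ncard_image_le (f := fun t => s₀ * t) (Set.toFinite (A : Set G))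
    have hS' : (S : Set G).ncard = Nat.card S := rfl
    have hA' : (A : Set G).ncard = Nat.card A := rfl
    omega

theorem tg_conj_cases (S U : Subgroup G) (hUn : S ≤ Subgroup.normalizer (U : Set G)) {z a : G}
    (henum : ∀ u ∈ U, u = 1 ∨ u = z ∨ u = a ∨ u = z * a) (hzc : ∀ s ∈ S, s * z = z * s)
    (ha : a ∈ U) (ha1 : a ≠ 1) (haz : a ≠ z) :
    ∀ s ∈ S, s * a * s⁻¹ = a ∨ s * a * s⁻¹ = z * a := by
  intro s hs
  have hmem : s * a * s⁻¹ ∈ U := ((Subgroup.mem_normalizer_iff).1 (hUn hs) a).1 ha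
  rcases henum _ hmem with h | h | h | h
  · exfalso
    apply ha1
    have h2 : a = s⁻¹ * (s * a * s⁻¹) * s := by group
    rw [h2, h]; group
  · exfalso
    apply haz
    have h2 : a = s⁻¹ * (s * a * s⁻¹) * s := by group
    rw [h2, h, mul_assoc, ← hzc s hs, ← mul_assoc, inv_mul_cancel, one_mul]
  · exact Or.inl h
  · exact Or.inr h

end Cfsg.Agent.Helper83
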