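import Mathlib
import Cfsg.Prelude.Def_GeometricClasses
import Cfsg.Prelude.Def_ClassicalGeometry
import Cfsg.Agent.Helper5.SympCard

/-!
# CALL S5975 piece CARD (helper83): the order of `spGL d F`.
-/

set_option autoImplicit false
set_option linter.style.haveILetI false

namespace Cfsg.Agent.Helper83

open Matrix Module

/-- PIECE CARD (the two BRIDGE statements are hypotheses; uses Helper5.card_sp) -/
theorem c3e_card {F : Type*} [Field F] [Fintype F] (d : ℕ)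
    (hb : ∀ g : Matrix.symplecticGroup (Fin d) F, ∃ G : GL (Fin d ⊕ Fin d) F,
      G ∈ Cfsg.spGL d F ∧ (G : Matrix (Fin d ⊕ Fin d) (Fin d ⊕ Fin d) F) = g.1)
    (hb' : ∀ G : GL (Fin d ⊕ Fin d) F, G ∈ Cfsg.spGL d F →
      (G : Matrix (Fin d ⊕ Fin d) (Fin d ⊕ Fin d) F) ∈ Matrix.symplecticGroup (Fin d) F) :
    Nat.card ↥(Cfsg.spGL d F) = Fintype.card F ^ (d ^ 2) *
      ∏ i ∈ Finset.range d, (Fintype.card F ^ (2 * (i + 1)) - 1) := by
  classical
  rw [← Cfsg.Agent.Helper5.card_sp (F := F) (m := d)]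
  refine Nat.card_congr (Equiv.ofBijective
    (fun G : ↥(Cfsg.spGL d F) => (⟨((G : GL (Fin d ⊕ Fin d) F) : Matrix (Fin d ⊕ Fin d) (Fin d ⊕ Fin d) F), hb' G.1 G.2⟩ :
      Matrix.symplecticGroup (Fin d) F)) ⟨?_, ?_⟩)
  · intro G G' h
    have h' : ((G : GL (Fin d ⊕ Fin d) F) : Matrix (Fin d ⊕ Fin d) (Fin d ⊕ Fin d) F) =
        ((G' : GL (Fin d ⊕ Fin d) F) : Matrix (Fin d ⊕ Fin d) (Fin d ⊕ Fin d) F) :=
      congrArg Subtype.val h
    exact Subtype.ext (Units.ext h')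
  · intro g
    obtain ⟨G, hG, hGg⟩ := hb g
    exact ⟨⟨G, hG⟩, Subtype.ext hGg⟩

end Cfsg.Agent.Helper83
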