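import Mathlib
import Cfsg.Prelude.Def_GeometricClasses
import Cfsg.Prelude.Def_ClassicalGeometry
import Cfsg.Agent.Helper5.SympCard

/-!
# CALL S5975 piece CARDK (helper83): the order of the symplectic group over `K'`.
-/

set_option autoImplicit false
set_option linter.style.haveILetI false

namespace Cfsg.Agent.Helper83

open Matrix Module

/-- PIECE CARDK (uses Helper5.card_sp) -/
theorem c3e_cardk {F : Type*} [Field F] [Fintype F] (K' : Type*) [Field K'] [Algebra F K']
    [Finite K'] (m : ℕ) :
    Nat.card (Matrix.symplecticGroup (Fin m) K') =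
      (Fintype.card F ^ Module.finrank F K') ^ (m ^ 2) *
        ∏ i ∈ Finset.range m, ((Fintype.card F ^ Module.finrank F K') ^ (2 * (i + 1)) - 1) := by
  classical
  letI : Fintype K' := Fintype.ofFinite K'
  rw [Cfsg.Agent.Helper5.card_sp (F := K') (m := m), Module.card_eq_pow_finrank (K := F) (V := K')]

end Cfsg.Agent.Helper83
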