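import Mathlib
import Cfsg.Prelude.Def_GeometricClasses
import Cfsg.Prelude.Def_ClassicalGeometry

/-!
# CALL S5975 piece JBASIS (helper83): for `J` with `J² = n` (`n` a non-square) there are vectors
`u`, `w` with `f(u, w) = 1` and `f(J u, w) = 0` for the symplectic form `f`.
-/

set_option autoImplicit false

namespace Cfsg.Agent.Helper83

open Matrix Module

/-- PIECE JBASIS -/
theorem c3e_jbasis {F : Type*} [Field F] (n : F) (hn : ¬ IsSquare n)
    (J : Matrix (Fin 2 ⊕ Fin 2) (Fin 2 ⊕ Fin 2) F) (hJ : J * J = n • (1 : Matrix _ _ F))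
    (hsa : ∀ u v, Cfsg.sympForm 2 F (J *ᵥ u) v = Cfsg.sympForm 2 F u (J *ᵥ v)) :
    ∃ u w : Fin 2 ⊕ Fin 2 → F, Cfsg.sympForm 2 F u w = 1 ∧ Cfsg.sympForm 2 F (J *ᵥ u) w = 0 := by
  classical
  -- an off-diagonal nonzero entry in the first column
  obtain ⟨i₀, hi₀, hJi₀⟩ : ∃ i₀ : Fin 2 ⊕ Fin 2, i₀ ≠ Sum.inl 0 ∧ J i₀ (Sum.inl 0) ≠ 0 := by
    by_contra hcon
    push Not at hcon
    apply hn
    refine ⟨J (Sum.inl 0) (Sum.inl 0), ?_⟩
    have h1 := congrFun (congrFun hJ (Sum.inl 0)) (Sum.inl 0)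
    rw [Matrix.mul_apply, Matrix.smul_apply, Matrix.one_apply_eq, smul_eq_mul, mul_one,
      Finset.sum_eq_single (Sum.inl 0)] at h1
    · exact h1.symm
    · intro b _ hb
      rw [hcon b hb, mul_zero]
    · intro hx; exact absurd (Finset.mem_univ _) hx
  -- the form in terms of the dot product
  have hform : ∀ a w' : Fin 2 ⊕ Fin 2 → F,
      Cfsg.sympForm 2 F a (-(Matrix.J (Fin 2) F *ᵥ w')) = a ⬝ᵥ w' := by
    intro a w'
    unfold Cfsg.sympForm
    rw [Matrix.mulVec_neg, Matrix.mulVec_mulVec, Matrix.J_squared, Matrix.neg_mulVec, neg_neg,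
      Matrix.one_mulVec]
  refine ⟨Pi.single (Sum.inl 0) 1,
    -(Matrix.J (Fin 2) F *ᵥ (Pi.single (Sum.inl 0) 1 +
      (-(J (Sum.inl 0) (Sum.inl 0)) / J i₀ (Sum.inl 0)) • Pi.single i₀ 1)), ?_, ?_⟩
  · rw [hform, dotProduct_add, dotProduct_smul, single_dotProduct, single_dotProduct,
      Pi.single_eq_same, Pi.single_eq_of_ne hi₀.symm]
    simp
  · rw [hform, dotProduct_add, dotProduct_smul, dotProduct_single, dotProduct_single,
      Matrix.mulVec_single_one]
    simp only [Matrix.col_apply, mul_one, smul_eq_mul]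
    field_simp
    ring

end Cfsg.Agent.Helper83
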