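import Mathlib
import Cfsg.Agent.Helper96.C3SDefs

/-!
# Pieces FND and HYPER+TR0 of CALL S5664 (helper96): nondegeneracy of `Tr ∘ φ`, and elements of
`K` with prescribed traces
-/

set_option autoImplicit false

namespace Cfsg.Agent.Helper83.C3S

open Module Cfsg.Agent.Helper96.C3S

variable {F K V : Type*} [Field F] [Field K] [Algebra F K] [AddCommGroup V] [Module F V]
  [Module K V] [IsScalarTower F K V]

/-- PIECE FND: `fT φ` is nondegenerate -/
theorem fT_nd [Finite F] [Finite K] (φ : LinearMap.BilinForm K V)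
    (nd : ∀ u, (∀ v, φ u v = 0) → u = 0) (u : V) (h : ∀ v, fT (F := F) φ u v = 0) : u = 0 := by
  apply nd u
  intro v
  apply trace_nd (F := F)
  intro k
  have h1 := h (k • v)
  rw [fT_apply, map_smul, smul_eq_mul] at h1
  exact h1

omit [AddCommGroup V] [Module F V] [Module K V] [IsScalarTower F K V] in
/-- PIECE HYPER: two elements of `K` lie in a common hyperplane `μ⁻¹ • ker Tr` -/
theorem exists_common_hyperplane [Finite F] [Finite K] (h3 : 3 ≤ finrank F K) (k₁ k₂ : K) :
    ∃ μ : K, μ ≠ 0 ∧ Algebra.trace F K (μ * k₁) = 0 ∧ Algebra.trace F K (μ * k₂) = 0 := by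
  have : Module.Finite F K := Module.Finite.of_finite
  let L : K →ₗ[F] F × F :=
    ((Algebra.trace F K).comp (LinearMap.mulRight F k₁)).prod
      ((Algebra.trace F K).comp (LinearMap.mulRight F k₂))
  have hlt : finrank F (F × F) < finrank F K := by
    rw [Module.finrank_prod, Module.finrank_self]; omega
  have hker : LinearMap.ker L ≠ ⊥ := LinearMap.ker_ne_bot_of_finrank_lt hlt
  obtain ⟨μ, hμ, hμ0⟩ := (Submodule.ne_bot_iff _).mp hker
  rw [LinearMap.mem_ker] at hμ
  refine ⟨μ, hμ0, ?_, ?_⟩
  · have := congrArg Prod.fst hμ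
    simpa [L] using this
  · have := congrArg Prod.snd hμ
    simpa [L] using this

omit [AddCommGroup V] [Module F V] [Module K V] [IsScalarTower F K V] in
/-- PIECE TR0: a nonzero element of trace zero -/
theorem exists_trace_zero [Finite F] [Finite K] (h2 : 2 ≤ finrank F K) :
    ∃ ζ : K, ζ ≠ 0 ∧ Algebra.trace F K ζ = 0 := by
  have : Module.Finite F K := Module.Finite.of_finite
  have hlt : finrank F F < finrank F K := by
    rw [Module.finrank_self]; omega
  have hker : LinearMap.ker (Algebra.trace F K) ≠ ⊥ := LinearMap.ker_ne_bot_of_finrank_lt hlt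
  obtain ⟨ζ, hζ, hζ0⟩ := (Submodule.ne_bot_iff _).mp hker
  exact ⟨ζ, hζ0, LinearMap.mem_ker.mp hζ⟩

end Cfsg.Agent.Helper83.C3S
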