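import Mathlib
import Cfsg.Agent.Helper96.C3SDefs

/-!
# Piece HEIS of CALL S5664 (helper96): the Heisenberg identity for `F`-Siegel elements
-/

set_option autoImplicit false

namespace Cfsg.Agent.Helper83.C3S

open Module Cfsg.Agent.Helper96.C3S

variable {F K V : Type*} [Field F] [Field K] [Algebra F K] [AddCommGroup V] [Module F V]
  [Module K V] [IsScalarTower F K V]

theorem fT_alt (φ : LinearMap.BilinForm K V) (alt : ∀ v, φ v v = 0) (v : V) :
    fT (F := F) φ v v = 0 := by
  rw [fT_apply, alt, map_zero]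

theorem fT_skew (φ : LinearMap.BilinForm K V) (alt : ∀ v, φ v v = 0) (x y : V) :
    fT (F := F) φ x y = - fT (F := F) φ y x := by
  have h := fT_alt (F := F) φ alt (x + y)
  simp only [map_add, LinearMap.add_apply, fT_alt (F := F) φ alt, zero_add, add_zero] at h
  exact eq_neg_of_add_eq_zero_right h

/-- PIECE HEIS (1/2): the Heisenberg identity -/
theorem eF_heis (φ : LinearMap.BilinForm K V) (alt : ∀ v, φ v v = 0) (u w w' : V)
    (h1 : fT (F := F) φ u w = 0) (h2 : fT (F := F) φ u w' = 0) :
    eF φ u w * eF φ u w' * eF φ u (-(w + w')) = tF φ u (fT (F := F) φ w' w) := by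
  have huu : fT (F := F) φ u u = 0 := fT_alt φ alt u
  have hww : fT (F := F) φ w w = 0 := fT_alt φ alt w
  have hw'w' : fT (F := F) φ w' w' = 0 := fT_alt φ alt w'
  have hwu : fT (F := F) φ w u = 0 := by rw [fT_skew φ alt, h1, neg_zero]
  have hw'u : fT (F := F) φ w' u = 0 := by rw [fT_skew φ alt, h2, neg_zero]
  have hww' : fT (F := F) φ w w' = - fT (F := F) φ w' w := fT_skew φ alt w w'
  refine LinearMap.ext fun v => ?_
  simp only [Module.End.mul_apply, eF_apply, tF_apply, map_add, map_smul, map_neg,
    huu, hww, hw'w', hwu, hw'u, hww', h1, h2]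
  module

/-- PIECE HEIS (2/2) -/
theorem eF_inv (φ : LinearMap.BilinForm K V) (alt : ∀ v, φ v v = 0) (u w : V)
    (h : fT (F := F) φ u w = 0) :
    eF (F := F) φ u w * eF φ u (-w) = 1 ∧ eF (F := F) φ u (-w) * eF φ u w = 1 := by
  have huu : fT (F := F) φ u u = 0 := fT_alt φ alt u
  have hww : fT (F := F) φ w w = 0 := fT_alt φ alt w
  have hwu : fT (F := F) φ w u = 0 := by rw [fT_skew φ alt, h, neg_zero]
  constructor
  · refine LinearMap.ext fun v => ?_
    simp only [Module.End.mul_apply, eF_apply, map_add, map_smul, map_neg,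
      huu, hww, hwu, h, Module.End.one_apply]
    module
  · refine LinearMap.ext fun v => ?_
    simp only [Module.End.mul_apply, eF_apply, map_add, map_smul, map_neg,
      huu, hww, hwu, h, Module.End.one_apply]
    module

end Cfsg.Agent.Helper83.C3S
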