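import Mathlib

/-!
# CALL S5982 (helper90), PIECE KER3 (helper83): kernels of three pairwise coprime polynomials in an
endomorphism are independent.
-/

set_option autoImplicit false

namespace Cfsg.Agent.Helper83

open Module Polynomial

section lin
variable {F : Type*} [Field F] {V : Type*} [AddCommGroup V] [Module F V] [FiniteDimensional F V]

/-! ## PIECE KER3 -/
theorem ker3_le (T : V →ₗ[F] V) (p₁ p₂ p₃ : Polynomial F) (h12 : IsCoprime p₁ p₂)
    (h13 : IsCoprime p₁ p₃) (h23 : IsCoprime p₂ p₃) :
    finrank F (LinearMap.ker (aeval T p₁)) + finrank F (LinearMap.ker (aeval T p₂))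
      + finrank F (LinearMap.ker (aeval T p₃)) ≤ finrank F V := by
  have hd12 := Polynomial.disjoint_ker_aeval_of_isCoprime T h12
  have hs12 := Polynomial.sup_ker_aeval_eq_ker_aeval_mul_of_coprime T h12
  have h123 : IsCoprime (p₁ * p₂) p₃ := IsCoprime.mul_left h13 h23
  have hd123 := Polynomial.disjoint_ker_aeval_of_isCoprime T h123
  have hs123 := Polynomial.sup_ker_aeval_eq_ker_aeval_mul_of_coprime T h123
  have e1 := Submodule.finrank_sup_add_finrank_inf_eq (LinearMap.ker (aeval T p₁))
    (LinearMap.ker (aeval T p₂))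
  rw [hd12.eq_bot, finrank_bot, add_zero, hs12] at e1
  have e2 := Submodule.finrank_sup_add_finrank_inf_eq (LinearMap.ker (aeval T (p₁ * p₂)))
    (LinearMap.ker (aeval T p₃))
  rw [hd123.eq_bot, finrank_bot, add_zero, hs123] at e2
  rw [← e1, ← e2]
  exact Submodule.finrank_le _

end lin

end Cfsg.Agent.Helper83
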