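import Mathlib

/-!
# CALL S5982 (helper90), PIECE KERIRR (helper83): for an irreducible factor `π` of the minimal
polynomial of `T`, the kernel of `π(T)` has dimension at least `deg π`.
-/

set_option autoImplicit false

namespace Cfsg.Agent.Helper83

open Module Polynomial

section lin
variable {F : Type*} [Field F] {V : Type*} [AddCommGroup V] [Module F V] [FiniteDimensional F V]

/-! ## PIECE KERIRR -/
theorem irr_le_ker (T : V →ₗ[F] V) (π : Polynomial F) (hπ : Irreducible π)
    (hdvd : π ∣ minpoly F T) : π.natDegree ≤ finrank F (LinearMap.ker (aeval T π)) := by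
  classical
  obtain ⟨g, hg⟩ := hdvd
  have hint : IsIntegral F T := Algebra.IsIntegral.isIntegral T
  have hm0 : minpoly F T ≠ 0 := minpoly.ne_zero hint
  have hg0 : g ≠ 0 := by
    rintro rfl
    rw [mul_zero] at hg
    exact hm0 hg
  have hπ0 : π ≠ 0 := hπ.ne_zero
  have hdpos : 0 < π.natDegree := hπ.natDegree_pos
  have hgT : aeval T g ≠ 0 := by
    intro h0
    have hd := minpoly.dvd F T h0
    rw [hg] at hd
    have := Polynomial.natDegree_le_of_dvd hd hg0
    rw [Polynomial.natDegree_mul hπ0 hg0] at this
    omega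
  obtain ⟨v, hv⟩ : ∃ v, aeval T g v ≠ 0 := by
    by_contra hcon
    push Not at hcon
    exact hgT (LinearMap.ext hcon)
  obtain ⟨w, hw⟩ : ∃ w, w = aeval T g v := ⟨_, rfl⟩
  rw [← hw] at hv
  have hπw : aeval T π w = 0 := by
    have e : aeval T π w = aeval T (π * g) v := by
      rw [map_mul, Module.End.mul_apply, hw]
    rw [e, ← hg, minpoly.aeval, LinearMap.zero_apply]
  -- evaluation at `w` of polynomials of degree `< deg π`
  let Ψ : Polynomial.degreeLT F π.natDegree →ₗ[F] V :=
    ((LinearMap.applyₗ w).comp (aeval T).toLinearMap).comp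
      (Polynomial.degreeLT F π.natDegree).subtype
  have hΨ : ∀ c : Polynomial.degreeLT F π.natDegree, Ψ c = aeval T (c : F[X]) w := fun c => rfl
  have hinj : Function.Injective Ψ := by
    rw [← LinearMap.ker_eq_bot, LinearMap.ker_eq_bot']
    intro c hc
    rw [hΨ] at hc
    by_contra hc0
    have hc0' : (c : F[X]) ≠ 0 := fun h => hc0 (Subtype.ext h)
    have hdeg : (c : F[X]).degree < π.natDegree := Polynomial.mem_degreeLT.mp c.2
    have hndvd : ¬ π ∣ (c : F[X]) := by
      intro hd
      have h1 := Polynomial.degree_le_of_dvd hd hc0'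
      rw [Polynomial.degree_eq_natDegree hπ0] at h1
      exact absurd (lt_of_le_of_lt h1 hdeg) (lt_irrefl _)
    obtain ⟨a, b, hab⟩ := hπ.coprime_iff_not_dvd.mpr hndvd
    have h1 : aeval T (a * π + b * (c : F[X])) w = w := by
      rw [hab, map_one, Module.End.one_apply]
    rw [map_add, map_mul, map_mul, LinearMap.add_apply, Module.End.mul_apply,
      Module.End.mul_apply, hπw, hc, map_zero, map_zero, add_zero] at h1
    exact hv h1.symm
  have hrange : LinearMap.range Ψ ≤ LinearMap.ker (aeval T π) := by
    rintro _ ⟨c, rfl⟩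
    rw [LinearMap.mem_ker, hΨ]
    have e : aeval T π (aeval T (c : F[X]) w) = aeval T (c : F[X]) (aeval T π w) := by
      rw [← Module.End.mul_apply, ← Module.End.mul_apply, ← map_mul, ← map_mul, mul_comm]
    rw [e, hπw, map_zero]
  calc π.natDegree = finrank F (Polynomial.degreeLT F π.natDegree) := by
        rw [LinearEquiv.finrank_eq (Polynomial.degreeLTEquiv F π.natDegree),
          Module.finrank_fin_fun]
    _ = finrank F (LinearMap.range Ψ) := (LinearMap.finrank_range_of_inj hinj).symm
    _ ≤ finrank F (LinearMap.ker (aeval T π)) := Submodule.finrank_mono hrange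

end lin

end Cfsg.Agent.Helper83
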