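import Mathlib
import Cfsg.Prelude.Def_RootSubgroups
import Cfsg.Agent.Helper53.BaerSuzuki

/-!
# Root involutions: basic lemmas

Elementary facts on involutions and dihedral configurations, and the isolated vertices of the
odd-order-product graph of a set of root involutions.
-/

namespace Cfsg.Agent.Helper83

open Cfsg

variable {G : Type*} [Group G]

theorem orderOf_mul_swap (a b : G) : orderOf (a * b) = orderOf (b * a) := by
  have h := MulEquiv.orderOf_eq (MulAut.conj a⁻¹) (a * b)
  rw [← h]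
  congr 1
  simp

theorem orderOf_conj_eq (g x : G) : orderOf (g * x * g⁻¹) = orderOf x := by
  have h := MulEquiv.orderOf_eq (MulAut.conj g) x
  rw [← h]
  simp [MulAut.conj_apply]

theorem eq_one_of_odd_of_pow_two {z : G} (hodd : Odd (orderOf z)) {k : ℕ}
    (hk : z ^ (2 ^ k) = 1) : z = 1 := by
  have h1 : orderOf z ∣ 2 ^ k := orderOf_dvd_of_pow_eq_one hk
  have h2 : Nat.Coprime (orderOf z) (2 ^ k) := Nat.Coprime.pow_right k hodd.coprime_two_right
  have h3 : orderOf z = 1 := Nat.Coprime.eq_one_of_dvd h2 h1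
  exact orderOf_eq_one_iff.mp h3

theorem pow_four_eq' (x : G) : x ^ 4 = (x * x) * (x * x) := by
  rw [show 4 = 2 * 2 from rfl, pow_mul, pow_two, pow_two]

theorem pow_odd_of_sq_one {v : G} (hv : v * v = 1) {k : ℕ} (hk : Odd k) : v ^ k = v := by
  obtain ⟨j, rfl⟩ := hk
  rw [pow_succ, pow_mul, pow_two, hv, one_pow, one_mul]

/-- **Lemma K.**  Let `a`, `e` be commuting involutions and `a₁` an involution with `a a₁` of odd
order.  Then `e a₁` and `a e a₁` are not both of order `4`. -/
theorem invol_lemmaK {a e a₁ : G} (ha : a * a = 1) (he : e * e = 1) (ha₁ : a₁ * a₁ = 1)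
    (hae : a * e = e * a) (hodd : Odd (orderOf (a * a₁))) (h4 : orderOf (e * a₁) = 4)
    (h4' : orderOf (a * e * a₁) = 4) : False := by
  have hai : a⁻¹ = a := inv_eq_of_mul_eq_one_left ha
  have ha₁i : a₁⁻¹ = a₁ := inv_eq_of_mul_eq_one_left ha₁
  obtain ⟨r, hr⟩ : ∃ r, r = a * a₁ := ⟨_, rfl⟩
  rw [← hr] at hodd
  have f0 : a₁ = a * r := by
    rw [hr, ← mul_assoc, ha, one_mul]
  have f1 : a * r * a = r⁻¹ := by
    rw [hr, mul_inv_rev, ha₁i, hai, ← mul_assoc a, ha, one_mul]
  obtain ⟨t, ht⟩ : ∃ t, t = e * r * e := ⟨_, rfl⟩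
  obtain ⟨s, hs⟩ : ∃ s, s = t * r := ⟨_, rfl⟩
  have e1 : (a * e * a₁) * (a * e * a₁) = s := by
    have h1 : a * e * a₁ = e * r := by rw [hae, hr, mul_assoc]
    rw [h1, hs, ht]; group
  have hs2 : s * s = 1 := by
    have h := pow_orderOf_eq_one (a * e * a₁)
    rw [h4'] at h
    calc s * s = (a * e * a₁) ^ 4 := by rw [← e1, pow_four_eq']
      _ = 1 := h
  have hs1 : s ≠ 1 := by
    intro h
    rw [h] at e1
    have h1 : orderOf (a * e * a₁) ∣ 2 := orderOf_dvd_of_pow_eq_one (by rw [pow_two]; exact e1)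
    rw [h4'] at h1
    exact absurd h1 (by norm_num)
  have hsi : s⁻¹ = s := inv_eq_of_mul_eq_one_left hs2
  have hti : t⁻¹ = e * r⁻¹ * e := by
    apply inv_eq_of_mul_eq_one_left
    calc e * r⁻¹ * e * t = e * r⁻¹ * (e * e) * r * e := by rw [ht]; group
      _ = e * r⁻¹ * 1 * r * e := by rw [he]
      _ = e * e := by group
      _ = 1 := he
  have e2 : (e * a₁) * (e * a₁) = t⁻¹ * r := by
    calc (e * a₁) * (e * a₁) = e * a * r * (e * a * r) := by rw [f0]; group
      _ = e * a * r * (a * e * r) := by rw [hae]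
      _ = e * (a * r * a) * e * r := by group
      _ = t⁻¹ * r := by rw [f1, hti]
  have hq : t⁻¹ * r = r * s * r := by
    have h1 : t⁻¹ = r * s⁻¹ := by rw [hs]; group
    rw [h1, hsi]
  have hqq : r * s * r * (r * s * r) = 1 := by
    have h := pow_orderOf_eq_one (e * a₁)
    rw [h4] at h
    calc r * s * r * (r * s * r) = (e * a₁) ^ 4 := by rw [← hq, ← e2, pow_four_eq']
      _ = 1 := h
  have h3 : s * (r * r) * s⁻¹ = (r * r)⁻¹ := by
    rw [hsi]
    calc s * (r * r) * s = r⁻¹ * (r * s * r * (r * s * r)) * r⁻¹ := by group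
      _ = (r * r)⁻¹ := by rw [hqq]; group
  obtain ⟨j, hj⟩ := hodd
  have h4r : (r * r) ^ (j + 1) = r := by
    rw [← pow_two, ← pow_mul, show 2 * (j + 1) = (2 * j + 1) + 1 by ring, pow_succ, ← hj,
      pow_orderOf_eq_one, one_mul]
  have h5 : s * r * s⁻¹ = r⁻¹ := by
    calc s * r * s⁻¹ = s * (r * r) ^ (j + 1) * s⁻¹ := by rw [h4r]
      _ = (s * (r * r) * s⁻¹) ^ (j + 1) := by rw [conj_pow]
      _ = ((r * r) ^ (j + 1))⁻¹ := by rw [h3, inv_pow]
      _ = r⁻¹ := by rw [h4r]
  have h6 : t * t = 1 := by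
    have h1 : t = s * r⁻¹ := by rw [hs]; group
    calc t * t = (s * r * s⁻¹)⁻¹ * (s * s) * r⁻¹ := by rw [h1]; group
      _ = 1 := by rw [h5, hs2]; group
  have h7 : r * r = 1 := by
    calc r * r = (e * e) * r * (e * e) * r * (e * e) := by rw [he]; group
      _ = e * (e * r * e * (e * r * e)) * e := by group
      _ = 1 := by rw [← ht, h6, mul_one, he]
  have hr1 : r = 1 := eq_one_of_odd_of_pow_two (k := 1) ⟨j, hj⟩ (by rw [pow_one, pow_two]; exact h7)
  apply hs1
  rw [hs, ht, hr1, mul_one, mul_one, he]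

namespace RI

variable {D : Set G}

theorem sq (hD : IsRootInvolutionSet D) {d : G} (hd : d ∈ D) : d * d = 1 := by
  have h := hD.orderOf_eq d hd
  have h2 := pow_orderOf_eq_one d
  rwa [h, pow_two] at h2

theorem inv (hD : IsRootInvolutionSet D) {d : G} (hd : d ∈ D) : d⁻¹ = d :=
  inv_eq_of_mul_eq_one_left (sq hD hd)

theorem ne_one (hD : IsRootInvolutionSet D) {d : G} (hd : d ∈ D) : d ≠ 1 := by
  intro h
  have h2 := hD.orderOf_eq d hd
  rw [h, orderOf_one] at h2
  exact absurd h2 (by norm_num)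

theorem oddAdj_symm {a b : G} (h : OddAdj D a b) : OddAdj D b a :=
  ⟨h.2.1, h.1, h.2.2.1.symm, by rw [orderOf_mul_swap]; exact h.2.2.2⟩

theorem path_symm' {a b : G} (h : Relation.ReflTransGen (OddAdj D) a b) :
    Relation.ReflTransGen (OddAdj D) b a := by
  induction h with
  | refl => exact Relation.ReflTransGen.refl
  | tail _ hZY ih => exact Relation.ReflTransGen.head (oddAdj_symm hZY) ih

theorem comp_eq_of_path {a b : G} (h : Relation.ReflTransGen (OddAdj D) a b) :
    elemComponentOf (OddAdj D) D a = elemComponentOf (OddAdj D) D b := by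
  ext x
  constructor
  · rintro ⟨hx, hp⟩
    exact ⟨hx, (path_symm' h).trans hp⟩
  · rintro ⟨hx, hp⟩
    exact ⟨hx, h.trans hp⟩

/-- **Lemma P.**  If `u`, `v`, `u v` are members of `D` with `u v = v u`, and `t ∈ D` commutes
with `v` and has product of odd order with `u`, then `t = u`. -/
theorem palpha (hD : IsRootInvolutionSet D) {u v t : G} (hu : u ∈ D) (hv : v ∈ D)
    (huv : u * v = v * u) (huvD : u * v ∈ D) (ht : t ∈ D) (htv : t * v = v * t)
    (hodd : Odd (orderOf (u * t))) : t = u := by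
  obtain ⟨z, hz⟩ : ∃ z, z = u * t := ⟨_, rfl⟩
  rw [← hz] at hodd
  have hvz : Commute v z := by
    rw [hz]
    exact (Commute.mul_right (show Commute v u from huv.symm) (show Commute v t from htv.symm))
  have hw : u * v * t = v * z := by rw [huv, hz, mul_assoc]
  have hww : (u * v * t) * (u * v * t) = z * z := by
    rw [hw, hvz.symm.mul_mul_mul_comm, sq hD hv, one_mul]
  have hz1 : z = 1 := by
    rcases hD.pair (u * v) huvD t ht with h | h | h
    · apply eq_one_of_odd_of_pow_two (k := 1) hodd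
      rw [pow_one, pow_two, ← hww]
      calc u * v * t * (u * v * t) = u * v * (t * (u * v)) * t := by group
        _ = u * v * (u * v * t) * t := by rw [h]
        _ = (u * v * (u * v)) * (t * t) := by group
        _ = 1 := by rw [sq hD huvD, sq hD ht, one_mul]
    · exfalso
      apply ne_one hD hv
      have h1 : (v * z) ^ orderOf (u * v * t) = 1 := by
        rw [← hw]; exact pow_orderOf_eq_one _
      rw [hvz.mul_pow, pow_odd_of_sq_one (sq hD hv) h] at h1
      have h2 : v = (z ^ orderOf (u * v * t))⁻¹ := eq_inv_of_mul_eq_one_left h1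
      have h3 : v ^ orderOf z = 1 := by
        rw [h2, inv_pow, ← pow_mul, mul_comm, pow_mul, pow_orderOf_eq_one, one_pow, inv_one]
      rwa [pow_odd_of_sq_one (sq hD hv) hodd] at h3
    · apply eq_one_of_odd_of_pow_two (k := 2) hodd
      have h1 := pow_orderOf_eq_one (u * v * t)
      rw [h.1] at h1
      calc z ^ 2 ^ 2 = (z * z) * (z * z) := by rw [show (2 : ℕ) ^ 2 = 4 from rfl, pow_four_eq']
        _ = (u * v * t) ^ 4 := by rw [← hww, pow_four_eq']
        _ = 1 := h1
  rw [hz] at hz1
  have h1 : t = u⁻¹ := eq_inv_of_mul_eq_one_right hz1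
  rw [h1, inv hD hu]


/-! ### Isolated vertices of the odd-order-product graph -/

theorem isolated_iff {w : G} :
    IsIsolatedElem (OddAdj D) D w ↔ w ∈ D ∧ ∀ b ∈ D, Odd (orderOf (w * b)) → b = w := by
  constructor
  · rintro ⟨hw, h⟩
    refine ⟨hw, fun b hb hodd => ?_⟩
    by_contra hne
    exact (h b).1 ⟨hw, hb, fun e => hne e.symm, hodd⟩
  · rintro ⟨hw, h⟩
    refine ⟨hw, fun b => ⟨?_, ?_⟩⟩
    · rintro ⟨-, hb, hne, hodd⟩
      exact hne (h b hb hodd).symm
    · rintro ⟨hb, -, hne, hodd⟩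
      rw [orderOf_mul_swap] at hodd
      exact hne (h b hb hodd)

theorem isolated_conj (hD : IsRootInvolutionSet D) {w : G}
    (hw : IsIsolatedElem (OddAdj D) D w) (g : G) :
    IsIsolatedElem (OddAdj D) D (g * w * g⁻¹) := by
  rw [isolated_iff] at hw ⊢
  refine ⟨hD.conj_mem w hw.1 g, fun b hb hodd => ?_⟩
  have h1 : g⁻¹ * b * g ∈ D := by
    have := hD.conj_mem b hb g⁻¹
    rwa [inv_inv] at this
  have h2 : w * (g⁻¹ * b * g) = g⁻¹ * (g * w * g⁻¹ * b) * g⁻¹⁻¹ := by group
  have h3 : Odd (orderOf (w * (g⁻¹ * b * g))) := by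
    rw [h2, orderOf_conj_eq]; exact hodd
  have h4 := hw.2 _ h1 h3
  rw [← h4]; group

theorem isolated_baer (hD : IsRootInvolutionSet D) {w : G}
    (hw : IsIsolatedElem (OddAdj D) D w) (g : G) :
    ∃ k : ℕ, (w * (g * w * g⁻¹)) ^ (2 ^ k) = 1 := by
  rw [isolated_iff] at hw
  have hw' := hD.conj_mem w hw.1 g
  rcases hD.pair w hw.1 _ hw' with h | h | h
  · refine ⟨1, ?_⟩
    rw [pow_one, pow_two]
    calc w * (g * w * g⁻¹) * (w * (g * w * g⁻¹))
        = w * ((g * w * g⁻¹) * w) * (g * w * g⁻¹) := by group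
      _ = w * (w * (g * w * g⁻¹)) * (g * w * g⁻¹) := by rw [h]
      _ = (w * w) * ((g * w * g⁻¹) * (g * w * g⁻¹)) := by group
      _ = 1 := by rw [sq hD hw.1, sq hD hw', one_mul]
  · refine ⟨0, ?_⟩
    rw [hw.2 _ hw' h, pow_zero, pow_one]
    exact sq hD hw.1
  · refine ⟨2, ?_⟩
    have := pow_orderOf_eq_one (w * (g * w * g⁻¹))
    rwa [h.1] at this

theorem closure_normal_of_conj {W : Set G} (h : ∀ w ∈ W, ∀ g : G, g * w * g⁻¹ ∈ W) :
    (Subgroup.closure W).Normal := by
  constructor
  intro n hn g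
  induction hn using Subgroup.closure_induction with
  | mem x hx => exact Subgroup.subset_closure (h x hx g)
  | one => simp
  | mul x y _ _ hx hy =>
    have e1 : g * (x * y) * g⁻¹ = (g * x * g⁻¹) * (g * y * g⁻¹) := by group
    rw [e1]; exact mul_mem hx hy
  | inv x _ hx =>
    have e1 : g * x⁻¹ * g⁻¹ = (g * x * g⁻¹)⁻¹ := by group
    rw [e1]; exact inv_mem hx

theorem closure_isolated_le_sylow [Finite G] (hD : IsRootInvolutionSet D) (P : Sylow 2 G) :
    Subgroup.closure {w | IsIsolatedElem (OddAdj D) D w} ≤ (P : Subgroup G) := by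
  rw [Subgroup.closure_le]
  intro w hw
  obtain ⟨N, hN, hNp, hwN⟩ :=
    Cfsg.Agent.Helper53.baer_suzuki_two w (sq hD hw.1) (isolated_baer hD hw)
  have := hN
  exact hNp.le_sylow_of_normal P hwN

theorem closure_isolated_normal (hD : IsRootInvolutionSet D) :
    (Subgroup.closure {w | IsIsolatedElem (OddAdj D) D w}).Normal :=
  closure_normal_of_conj (fun _ hw g => isolated_conj hD hw g)

theorem closure_isolated_inter [Finite G] (hD : IsRootInvolutionSet D) :
    (Subgroup.closure {w | IsIsolatedElem (OddAdj D) D w} : Set G) ∩ D =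
      {w | IsIsolatedElem (OddAdj D) D w} := by
  ext d
  constructor
  · rintro ⟨hdN, hdD⟩
    show IsIsolatedElem (OddAdj D) D d
    rw [isolated_iff]
    refine ⟨hdD, fun b hb hodd => ?_⟩
    have : Fact (Nat.Prime 2) := ⟨Nat.prime_two⟩
    obtain ⟨P⟩ : Nonempty (Sylow 2 G) := inferInstance
    have hN := closure_isolated_normal hD
    have h1 : (d * b) * (d * b) ∈ Subgroup.closure {w | IsIsolatedElem (OddAdj D) D w} := by
      have e1 : (d * b) * (d * b) = d * (b * d * b⁻¹) * (b * b) := by group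
      rw [e1, sq hD hb, mul_one]
      exact mul_mem hdN (hN.conj_mem d hdN b)
    have h2 := closure_isolated_le_sylow hD P h1
    obtain ⟨k, hk⟩ := P.2 ⟨_, h2⟩
    have hk' : ((d * b) * (d * b)) ^ (2 ^ k) = 1 := congrArg Subtype.val hk
    have h3 : (d * b) ^ (2 ^ (k + 1)) = 1 := by
      rw [pow_succ, mul_comm, pow_mul, pow_two]; exact hk'
    have h4 := eq_one_of_odd_of_pow_two hodd h3
    rw [eq_inv_of_mul_eq_one_right h4, inv hD hdD]
  · intro hd
    exact ⟨Subgroup.subset_closure hd, hd.1⟩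

/-- For a four-group `{1, a, e, e a}` inside `D ∪ {1}` and a neighbour `a₁` of `a` in the
odd-order-product graph, `a₁` is a neighbour of `e` or of `e a`. -/
theorem four_step (hD : IsRootInvolutionSet D) {a e a₁ : G} (ha : a ∈ D) (he : e ∈ D)
    (hea : e * a = a * e) (heaD : e * a ∈ D) (hadj : OddAdj D a a₁) :
    OddAdj D e a₁ ∨ OddAdj D (e * a) a₁ := by
  obtain ⟨-, ha₁, hne₁, hodd⟩ := hadj
  have hne1 : ¬ (a₁ * e = e * a₁) := by
    intro h
    exact hne₁ (palpha hD ha he hea.symm (by rw [← hea]; exact heaD) ha₁ h hodd).symm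
  have hne2 : ¬ (a₁ * (e * a) = (e * a) * a₁) := by
    intro h
    have e1 : a * (e * a) = (e * a) * a := by rw [← mul_assoc, ← hea]
    have e2 : a * (e * a) = e := by
      rw [hea, ← mul_assoc, sq hD ha, one_mul]
    exact hne₁ (palpha hD ha heaD e1 (by rw [e2]; exact he) ha₁ h hodd).symm
  rcases hD.pair e he a₁ ha₁ with h | h | h
  · exact absurd h.symm hne1
  · left
    exact ⟨he, ha₁, fun h' => hne1 (by rw [h']), h⟩
  · rcases hD.pair (e * a) heaD a₁ ha₁ with h' | h' | h'
    · exact absurd h'.symm hne2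
    · right
      exact ⟨heaD, ha₁, fun h'' => hne2 (by rw [h'']), h'⟩
    · exfalso
      exact invol_lemmaK (sq hD ha) (sq hD he) (sq hD ha₁) hea.symm hodd h.1
        (by rw [← hea]; exact h'.1)

theorem exists_adj_of_nontrivial {a : G}
    (hnt : ∃ a' ∈ elemComponentOf (OddAdj D) D a, a' ≠ a) : ∃ a₁, OddAdj D a a₁ := by
  obtain ⟨a', ⟨-, hpath⟩, hne'⟩ := hnt
  rcases Relation.ReflTransGen.cases_head hpath with h | ⟨c, hc, -⟩
  · exact absurd h.symm hne'
  · exact ⟨c, hc⟩

/-- The members of `D` commuting with `a`, different from `a`, with product with `a` in `D`, lie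
in the component of `a` or are isolated. -/
theorem productPartners_subset (hD : IsRootInvolutionSet D) {a : G} (ha : a ∈ D)
    (hnt : ∃ a' ∈ elemComponentOf (OddAdj D) D a, a' ≠ a) :
    productPartners D a ⊆
      elemComponentOf (OddAdj D) D a ∪ {w | IsIsolatedElem (OddAdj D) D w} := by
  rintro e ⟨⟨he, hea, hne⟩, heaD⟩
  by_cases hiso : IsIsolatedElem (OddAdj D) D e
  · right; exact hiso
  left
  obtain ⟨a₁, hadj⟩ := exists_adj_of_nontrivial hnt
  obtain ⟨e₁, hadj'⟩ : ∃ e₁, OddAdj D e e₁ := by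
    by_contra hcon
    push Not at hcon
    exact hiso ⟨he, fun b => ⟨hcon b, fun h => hcon b (oddAdj_symm h)⟩⟩
  rcases four_step hD ha he hea heaD hadj with h | h
  · exact ⟨he, (Relation.ReflTransGen.single hadj).tail (oddAdj_symm h)⟩
  · rcases four_step hD he ha hea.symm (by rw [← hea]; exact heaD) hadj' with h' | h'
    · exact ⟨he, (Relation.ReflTransGen.single h').tail (oddAdj_symm hadj')⟩
    · rw [← hea] at h'
      exact ⟨he, (((Relation.ReflTransGen.single hadj).tail (oddAdj_symm h)).tail h').tail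
        (oddAdj_symm hadj')⟩

/-- The commutator of two members of `D` in different non-trivial components lies in the subgroup
generated by the isolated vertices. -/
theorem comm_mem_closure_isolated (hD : IsRootInvolutionSet D) {a b : G} (ha : a ∈ D)
    (hb : b ∈ D) (hnta : ∃ a' ∈ elemComponentOf (OddAdj D) D a, a' ≠ a)
    (hntb : ∃ b' ∈ elemComponentOf (OddAdj D) D b, b' ≠ b)
    (hne : elemComponentOf (OddAdj D) D a ≠ elemComponentOf (OddAdj D) D b) :
    a * b * a⁻¹ * b⁻¹ ∈ Subgroup.closure {w | IsIsolatedElem (OddAdj D) D w} := by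
  rw [inv hD ha, inv hD hb]
  rcases hD.pair a ha b hb with h | h | h
  · have e1 : a * b * a * b = 1 := by
      calc a * b * a * b = a * (b * a) * b := by group
        _ = a * (a * b) * b := by rw [h]
        _ = (a * a) * (b * b) := by group
        _ = 1 := by rw [sq hD ha, sq hD hb, one_mul]
    rw [e1]; exact one_mem _
  · exfalso
    apply hne
    by_cases hab : a = b
    · rw [hab]
    · exact comp_eq_of_path (Relation.ReflTransGen.single ⟨ha, hb, hab, h⟩)
  · have hcD : a * b * a * b ∈ D := by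
      have e1 : a * b * a * b = (a * b) ^ 2 := by rw [pow_two]; group
      rw [e1]; exact h.2
    have h4 : (a * b) * (a * b) * ((a * b) * (a * b)) = 1 := by
      rw [← pow_four_eq', ← h.1]; exact pow_orderOf_eq_one _
    have k1 : a * b * a * b * a = b * a * b := by
      calc a * b * a * b * a
          = ((a * b) * (a * b) * ((a * b) * (a * b))) * (b⁻¹ * a⁻¹ * b⁻¹) := by group
        _ = b⁻¹ * a⁻¹ * b⁻¹ := by rw [h4, one_mul]
        _ = b * a * b := by rw [inv hD ha, inv hD hb]
    have k2 : a * (a * b * a * b) = b * a * b := by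
      calc a * (a * b * a * b) = (a * a) * b * a * b := by group
        _ = b * a * b := by rw [sq hD ha, one_mul]
    have k3 : a * b * a * b = b * a * b * a := by
      calc a * b * a * b
          = ((a * b) * (a * b) * ((a * b) * (a * b))) * (b⁻¹ * a⁻¹ * b⁻¹ * a⁻¹) := by group
        _ = b⁻¹ * a⁻¹ * b⁻¹ * a⁻¹ := by rw [h4, one_mul]
        _ = b * a * b * a := by rw [inv hD ha, inv hD hb]
    have k4 : (a * b * a * b) * b = a * b * a := by
      calc (a * b * a * b) * b = a * b * a * (b * b) := by group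
        _ = a * b * a := by rw [sq hD hb, mul_one]
    have k5 : b * (a * b * a * b) = a * b * a := by
      calc b * (a * b * a * b) = b * (b * a * b * a) := by rw [k3]
        _ = (b * b) * a * b * a := by group
        _ = a * b * a := by rw [sq hD hb, one_mul]
    have hbab : b * a * b ∈ D := by
      have := hD.conj_mem a ha b
      rwa [inv hD hb] at this
    have haba : a * b * a ∈ D := by
      have := hD.conj_mem b hb a
      rwa [inv hD ha] at this
    have hca : a * b * a * b ≠ a := by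
      intro hc
      apply ne_one hD ha
      have e1 : b * a * b = 1 := by rw [← k1, hc, sq hD ha]
      calc a = b⁻¹ * (b * a * b) * b⁻¹ := by group
        _ = (b * b)⁻¹ := by rw [e1]; group
        _ = 1 := by rw [sq hD hb, inv_one]
    have hcb : a * b * a * b ≠ b := by
      intro hc
      apply ne_one hD hb
      have e1 : a * b * a = 1 := by rw [← k4, hc, sq hD hb]
      calc b = a⁻¹ * (a * b * a) * a⁻¹ := by group
        _ = (a * a)⁻¹ := by rw [e1]; group
        _ = 1 := by rw [sq hD ha, inv_one]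
    have h1 := productPartners_subset hD ha hnta
      (show a * b * a * b ∈ productPartners D a from
        ⟨⟨hcD, k1.trans k2.symm, hca⟩, by rw [k1]; exact hbab⟩)
    have h2 := productPartners_subset hD hb hntb
      (show a * b * a * b ∈ productPartners D b from
        ⟨⟨hcD, k4.trans k5.symm, hcb⟩, by rw [k4]; exact haba⟩)
    rcases h1 with h1 | h1
    · rcases h2 with h2 | h2
      · exfalso
        apply hne
        exact (comp_eq_of_path h1.2).trans (comp_eq_of_path h2.2).symm
      · exact Subgroup.subset_closure h2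
    · exact Subgroup.subset_closure h1

end RI

end Cfsg.Agent.Helper83
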