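import Mathlib
import Cfsg.Agent.Helper57.J1oDefs

set_option autoImplicit false

/-!
helper83: PIECE P10 of CALL S4274 (helper57): no simple groups of order 5852, 8778, 11704.
-/

namespace Cfsg.Agent.Helper83

open Subgroup Cfsg.Agent.Helper57

universe u

/-- P10. -/
theorem j1o_no_simple_5852 (SD : J1oSylData.{u}) {H : Type u} [Group H] [Finite H]
    [IsSimpleGroup H]
    (h : Nat.card H = 5852) : False := by
  have : Fact (Nat.Prime 7) := ⟨by norm_num⟩
  obtain ⟨n, e, c, h1, h2, h3, h4, h5, h6, h7, -⟩ :=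
    SD H 7 (by rw [h]; norm_num) (by rw [h]; norm_num) (by rw [h]; norm_num)
  rw [h] at h1 h4
  have hm := j1o_mem_opts (by norm_num) h1 h2 h3 h5 h6
  rw [show j1oOpts 5852 7 = [(22, 2, 19)] from by decide +kernel] at hm
  simp only [List.mem_cons, Prod.mk.injEq, List.not_mem_nil, or_false] at hm
  obtain ⟨rfl, rfl, rfl⟩ := hm
  have := h7 19 (by norm_num) (by norm_num)
  omega

theorem j1o_no_simple_8778 (SD : J1oSylData.{u}) {H : Type u} [Group H] [Finite H]
    [IsSimpleGroup H]
    (h : Nat.card H = 8778) : False := by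
  have : Fact (Nat.Prime 7) := ⟨by norm_num⟩
  obtain ⟨n, e, c, h1, h2, h3, h4, h5, h6, h7, -⟩ :=
    SD H 7 (by rw [h]; norm_num) (by rw [h]; norm_num) (by rw [h]; norm_num)
  rw [h] at h1 h4
  have hm := j1o_mem_opts (by norm_num) h1 h2 h3 h5 h6
  rw [show j1oOpts 8778 7 = [(22, 3, 19), (57, 2, 11)] from by decide +kernel] at hm
  simp only [List.mem_cons, Prod.mk.injEq, List.not_mem_nil, or_false] at hm
  rcases hm with ⟨rfl, rfl, rfl⟩ | ⟨rfl, rfl, rfl⟩
  · have := h7 19 (by norm_num) (by norm_num)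
    omega
  · have := h7 11 (by norm_num) (by norm_num)
    omega

theorem j1o_no_simple_11704 (SD : J1oSylData.{u}) {H : Type u} [Group H] [Finite H]
    [IsSimpleGroup H]
    (h : Nat.card H = 11704) : False := by
  have : Fact (Nat.Prime 7) := ⟨by norm_num⟩
  obtain ⟨n, e, c, h1, h2, h3, h4, h5, h6, h7, -⟩ :=
    SD H 7 (by rw [h]; norm_num) (by rw [h]; norm_num) (by rw [h]; norm_num)
  rw [h] at h1 h4
  have hm := j1o_mem_opts (by norm_num) h1 h2 h3 h5 h6
  rw [show j1oOpts 11704 7 = [(22, 2, 38)] from by decide +kernel] at hm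
  simp only [List.mem_cons, Prod.mk.injEq, List.not_mem_nil, or_false] at hm
  obtain ⟨rfl, rfl, rfl⟩ := hm
  have := h7 19 (by norm_num) (by norm_num)
  omega

end Cfsg.Agent.Helper83
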