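import Mathlib
import Cfsg.Agent.Helper57.J1oDefs

set_option autoImplicit false

/-!
helper83: PIECE P11 of CALL S4274 (helper57): no simple group of order 17556.
-/

namespace Cfsg.Agent.Helper83

open Subgroup Cfsg.Agent.Helper57

universe u

/-- P11. -/
theorem j1o_no_simple_17556 (SD : J1oSylData.{u}) {H : Type u} [Group H] [Finite H]
    [IsSimpleGroup H]
    (h : Nat.card H = 17556) : False := by
  have p7 : Fact (Nat.Prime 7) := ⟨by norm_num⟩
  have p11 : Fact (Nat.Prime 11) := ⟨by norm_num⟩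
  have p19 : Fact (Nat.Prime 19) := ⟨by norm_num⟩
  -- p = 7
  obtain ⟨n7, e7, c7, a1, a2, a3, a4, a5, a6, a7, a8, a9, a10, a11⟩ :=
    SD H 7 (by rw [h]; norm_num) (by rw [h]; norm_num) (by rw [h]; norm_num)
  rw [h] at a1 a4
  have am := j1o_mem_opts (by norm_num) a1 a2 a3 a5 a6
  rw [show j1oOpts 17556 7 = [(22, 2, 57), (22, 3, 38), (22, 6, 19), (57, 2, 22), (1254, 2, 1)]
    from by decide +kernel] at am
  simp only [List.mem_cons, Prod.mk.injEq, List.not_mem_nil, or_false] at am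
  have a7c : n7 = 1254 ∧ e7 = 2 ∧ c7 = 1 := by
    rcases am with ⟨rfl, rfl, rfl⟩ | ⟨rfl, rfl, rfl⟩ | ⟨rfl, rfl, rfl⟩ | ⟨rfl, rfl, rfl⟩ | hh
    · have := a7 19 (by norm_num) (by norm_num)
      omega
    · have := a7 19 (by norm_num) (by norm_num)
      omega
    · have := a7 19 (by norm_num) (by norm_num)
      omega
    · have := a7 11 (by norm_num) (by norm_num)
      omega
    · exact hh
  obtain ⟨rfl, rfl, rfl⟩ := a7c
  -- p = 11
  obtain ⟨n11, e11, c11, b1, b2, b3, b4, b5, b6, b7, b8, b9, b10, b11⟩ :=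
    SD H 11 (by rw [h]; norm_num) (by rw [h]; norm_num) (by rw [h]; norm_num)
  rw [h] at b1 b4
  have bm := j1o_mem_opts (by norm_num) b1 b2 b3 b5 b6
  rw [show j1oOpts 17556 11 = [(133, 2, 6)] from by decide +kernel] at bm
  simp only [List.mem_cons, Prod.mk.injEq, List.not_mem_nil, or_false] at bm
  obtain ⟨rfl, rfl, rfl⟩ := bm
  -- p = 19
  obtain ⟨n19, e19, c19, d1, d2, d3, d4, d5, d6, d7, d8, d9, d10, d11⟩ :=
    SD H 19 (by rw [h]; norm_num) (by rw [h]; norm_num) (by rw [h]; norm_num)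
  rw [h] at d1 d4
  have dm := j1o_mem_opts (by norm_num) d1 d2 d3 d5 d6
  rw [show j1oOpts 17556 19 = [(77, 2, 6), (77, 3, 4), (77, 6, 2)] from by decide +kernel] at dm
  simp only [List.mem_cons, Prod.mk.injEq, List.not_mem_nil, or_false] at dm
  have hd9 : 2772 ≤ Nat.card {g : H // 19 ∣ orderOf g} := by
    rcases dm with ⟨rfl, rfl, rfl⟩ | ⟨rfl, rfl, rfl⟩ | ⟨rfl, rfl, rfl⟩ <;> omega
  -- disjointness
  have h711 : ∀ g : H, 7 ∣ orderOf g → 11 ∣ orderOf g → False := by
    intro g hg1 hg2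
    have hex := j1o_exists_orderOf_mul (by norm_num : Nat.Prime 7) (by norm_num : Nat.Prime 11)
      (by norm_num) g hg1 hg2
    have := (a11 11 (by norm_num) (by norm_num)).mpr hex
    omega
  have h719 : ∀ g : H, 7 ∣ orderOf g → 19 ∣ orderOf g → False := by
    intro g hg1 hg2
    have hex := j1o_exists_orderOf_mul (by norm_num : Nat.Prime 7) (by norm_num : Nat.Prime 19)
      (by norm_num) g hg1 hg2
    have := (a11 19 (by norm_num) (by norm_num)).mpr hex
    omega
  have h1119 : ∀ g : H, 11 ∣ orderOf g → 19 ∣ orderOf g → False := by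
    intro g hg1 hg2
    have hex := j1o_exists_orderOf_mul (by norm_num : Nat.Prime 11) (by norm_num : Nat.Prime 19)
      (by norm_num) g hg1 hg2
    have := (b11 19 (by norm_num) (by norm_num)).mpr hex
    omega
  have hcount := j1o_count4 (fun g : H => 7 ∣ orderOf g) (fun g : H => 11 ∣ orderOf g)
    (fun g : H => 19 ∣ orderOf g) (fun _ : H => False) (1 : H)
    (by rw [orderOf_one]; norm_num) (by rw [orderOf_one]; norm_num)
    (by rw [orderOf_one]; norm_num) (fun hf => hf)
    h711 h719 (fun _ _ hf => hf) h1119 (fun _ _ hf => hf) (fun _ _ hf => hf)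
  rw [h] at hcount
  omega

end Cfsg.Agent.Helper83
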