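import Mathlib
import Cfsg.Agent.Helper9.OrdTools
import Cfsg.Agent.Helper9.OrdTools2
import Cfsg.Agent.Helper9.OrdCount
import Cfsg.Agent.Helper57.J1oDefs
import Cfsg.Agent.Helper93.J1oP4
import Cfsg.Agent.Helper31.J1oP2
import Cfsg.Agent.Helper37.J1oP6
import Cfsg.Agent.Helper37.J1oP7

set_option autoImplicit false

/-!
helper83: PIECE P8 of CALL S4274 (helper57): the numerical Sylow data of a simple group at a
prime `p` exactly dividing its order.
-/

namespace Cfsg.Agent.Helper83

open Subgroup Cfsg.Agent.Helper57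

universe u

/-- P8. The numerical Sylow data of a simple group at a prime `p` with `p ∥ |H|`
(`J1oSylData` is defined in `Cfsg/Agent/Helper57/J1oDefs.lean`). -/
theorem j1o_syl_data : J1oSylData.{u} := by
  intro H _ _ _ p _ hpd hp2 hlt
  have hp : p.Prime := Fact.out
  obtain ⟨m, hm⟩ := hpd
  have hpm : ¬ p ∣ m := by
    rintro ⟨k, rfl⟩
    exact hp2 ⟨k, by rw [hm]; ring⟩
  have hS : ∀ Q : Sylow p H, Nat.card (Q : Subgroup H) = p := by
    intro Q
    have := Cfsg.Agent.Helper9.OrdTools.sylow_card (p := p) 1 m (by rw [hm, pow_one]) hpm Q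
    rwa [pow_one] at this
  obtain ⟨P⟩ : Nonempty (Sylow p H) := inferInstance
  have hP := hS P
  obtain ⟨-, hmod, hne, hNn⟩ := Cfsg.Agent.Helper9.OrdTools.sylow_num P
    (by rw [hP]; exact hp.one_lt) (by rw [hP]; exact hlt)
  obtain ⟨e, he1, he2, hNe, c, hc⟩ :=
    Cfsg.Agent.Helper9.OrdTools.normalizer_centralizer_prime P hP hlt
  have hn1 : 1 < Nat.card (Sylow p H) := by
    have : 0 < Nat.card (Sylow p H) := Nat.card_pos
    omega
  have hcard : Nat.card H = p * Nat.card (Sylow p H) * e * c := by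
    rw [← hNn, hNe, hc]; ring
  have hc0 : 0 < c := by
    rcases Nat.eq_zero_or_pos c with h | h
    · exfalso
      rw [h, mul_zero] at hcard
      have : 0 < Nat.card H := Nat.card_pos
      omega
    · exact h
  have hna : ∃ a b : H, a * b ≠ b * a := by
    by_contra hcon
    push Not at hcon
    have hnorm : (P : Subgroup H).Normal := by
      refine ⟨fun x hx g => ?_⟩
      rw [hcon g x, mul_inv_cancel_right]
      exact hx
    rcases hnorm.eq_bot_or_eq_top with h | h
    · rw [h, Subgroup.card_bot] at hP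
      exact hp.one_lt.ne hP
    · rw [h, Subgroup.card_top] at hP
      omega
  have hidx : (normalizer ((P : Subgroup H) : Set H)).index = Nat.card (Sylow p H) := by
    have h1 := (normalizer ((P : Subgroup H) : Set H)).card_mul_index
    rw [← hNn] at h1
    exact Nat.eq_of_mul_eq_mul_left Nat.card_pos h1
  have hNtop : normalizer ((P : Subgroup H) : Set H) ≠ ⊤ := by
    intro h
    rw [h, Subgroup.index_top] at hidx
    omega
  refine ⟨Nat.card (Sylow p H), e, c, hcard, hmod, hne, ?_, he1, he2, ?_, ?_, ?_, ?_, ?_⟩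
  · intro q hq hqd
    have h1 := Cfsg.Agent.Helper9.OrdTools.card_dvd_factorial_index
      (normalizer ((P : Subgroup H) : Set H)) hNtop
    rw [hidx] at h1
    exact (Nat.Prime.dvd_factorial hq).mp (hqd.trans h1)
  · intro q hq hqc
    have hqp : q ≠ p := by
      rintro rfl
      obtain ⟨k, rfl⟩ := hqc
      exact hp2 ⟨Nat.card (Sylow q H) * e * k, by rw [hcard]; ring⟩
    exact Cfsg.Agent.Helper37.j1o_mul_le_of_dvd_centralizer P hP hn1 q hq hqp
      (by rw [hc]; exact Dvd.dvd.mul_left hqc p)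
  · intro hn hp4 h2
    refine Cfsg.Agent.Helper37.j1o_sign P hP hn hp4 ?_ hna
    rw [hNe, hc]
    obtain ⟨k, hk⟩ := h2
    exact ⟨p * k, by rw [mul_left_comm, hk]; ring⟩
  · have h1 := Cfsg.Agent.Helper9.OrdTools.card_psing_ge hS (p * c) (fun Q => by
      rw [Cfsg.Agent.Helper9.OrdTools.card_centralizer_sylow_eq Q P, hc])
    rw [Nat.mul_div_cancel_left c hp.pos] at h1
    have h2 : p * c - c = (p - 1) * c := by
      rw [Nat.sub_mul, one_mul]
    rw [h2, ← mul_assoc] at h1
    exact h1
  · exact Cfsg.Agent.Helper31.j1o_card_orderOf_ge hS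
  · intro q hq hqp
    rw [← Cfsg.Agent.Helper93.j1o_dvd_centralizer_iff P hP q hq hqp, hc]
    constructor
    · intro h
      exact Dvd.dvd.mul_left h p
    · intro h
      exact (Nat.Coprime.dvd_mul_left ((Nat.coprime_primes hq hp).mpr hqp)).mp h

end Cfsg.Agent.Helper83
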