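import Mathlib
import Cfsg.Agent.Helper64.LW2Defs

set_option autoImplicit false
set_option linter.unusedSectionVars false

/-!
helper83: PIECE H4a of CALL S0745 (helper64): if every swap of `A` is induced by `G`, then `G`
induces the full symmetric group on `A`.
-/

namespace Cfsg.Agent.Helper83.LW2H4a

open Cfsg.Agent.Lead.LW Cfsg.Agent.Helper64.LW2

variable {α : Type*} [Fintype α] [DecidableEq α]

-- PIECE H4a
theorem induced_top_of_swaps (G : Subgroup (Equiv.Perm α)) (A : Finset α)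
    (h : ∀ p ∈ A, ∀ q ∈ A, p ≠ q →
      ∃ g ∈ G, g p = q ∧ g q = p ∧ ∀ c ∈ A, c ≠ p → c ≠ q → g c = c) :
    induced G A = ⊤ := by
  rw [eq_top_iff, ← Equiv.Perm.closure_isSwap, Subgroup.closure_le]
  rintro σ ⟨x, y, hxy, rfl⟩
  obtain ⟨g, hg, h1, h2, h3⟩ := h x.1 x.2 y.1 y.2 (fun e => hxy (Subtype.ext e))
  refine ⟨g, hg, fun z => ?_⟩
  by_cases hzx : z = x
  · subst hzx
    rw [h1, Equiv.swap_apply_left]
  · by_cases hzy : z = y
    · subst hzy
      rw [h2, Equiv.swap_apply_right]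
    · rw [Equiv.swap_apply_of_ne_of_ne hzx hzy]
      exact h3 z.1 z.2 (fun e => hzx (Subtype.ext e)) (fun e => hzy (Subtype.ext e))

end Cfsg.Agent.Helper83.LW2H4a
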