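import Mathlib
import Cfsg.Agent.Helper64.LW2Defs

set_option autoImplicit false
set_option linter.unusedSectionVars false

/-!
helper83: PIECE H4b of CALL S0745 (helper64): a `j`-homogeneous group inducing the full
symmetric group on every `j`-set is `j`-transitive.
-/

namespace Cfsg.Agent.Helper83.LW2H4b

open Cfsg.Agent.Lead.LW Cfsg.Agent.Helper64.LW2

variable {α : Type*} [Fintype α] [DecidableEq α]

-- PIECE H4b
theorem ktrans_of_induced_top (G : Subgroup (Equiv.Perm α)) (j : ℕ) (hG : Homog G j)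
    (h : ∀ A : Finset α, A.card = j → induced G A = ⊤) : KTrans G j := by
  intro x y
  obtain ⟨S, hSdef⟩ : ∃ S : Finset α, S = Finset.univ.map x := ⟨_, rfl⟩
  obtain ⟨T, hTdef⟩ : ∃ T : Finset α, T = Finset.univ.map y := ⟨_, rfl⟩
  have hS : S.card = j := by rw [hSdef, Finset.card_map, Finset.card_univ, Fintype.card_fin]
  have hT : T.card = j := by rw [hTdef, Finset.card_map, Finset.card_univ, Fintype.card_fin]
  obtain ⟨h0, hh0, hh⟩ := hG S T hS hT
  have hSmem : ∀ t : ↥T, ∃ i : Fin j, x i = h0⁻¹ (t : α) := by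
    intro t
    have h1 : h0⁻¹ (t : α) ∈ S := by
      rw [← hh, ← Equiv.Perm.mul_apply, mul_inv_cancel, Equiv.Perm.one_apply]
      exact t.2
    rw [hSdef] at h1
    obtain ⟨i, -, hi⟩ := Finset.mem_map.mp h1
    exact ⟨i, hi⟩
  choose ι hι using hSmem
  have hyT : ∀ i : Fin j, y i ∈ T := fun i => by
    rw [hTdef]; exact Finset.mem_map_of_mem _ (Finset.mem_univ i)
  have hxS : ∀ i : Fin j, x i ∈ S := fun i => by
    rw [hSdef]; exact Finset.mem_map_of_mem _ (Finset.mem_univ i)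
  have hf : Function.Injective (fun t : ↥T => (⟨y (ι t), hyT _⟩ : ↥T)) := by
    intro t t' htt
    have h1 : y (ι t) = y (ι t') := congrArg Subtype.val htt
    have h2 : ι t = ι t' := y.injective h1
    have h3 : h0⁻¹ (t : α) = h0⁻¹ (t' : α) := by rw [← hι t, ← hι t', h2]
    exact Subtype.ext (h0⁻¹.injective h3)
  obtain ⟨σ, hσdef⟩ : ∃ σ : Equiv.Perm ↥T, ∀ t : ↥T, (σ t : α) = y (ι t) :=
    ⟨Equiv.ofBijective _ (Finite.injective_iff_bijective.mp hf), fun t => rfl⟩
  have hσ : σ ∈ induced G T := by rw [h T hT]; exact Subgroup.mem_top _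
  obtain ⟨g, hg, hgσ⟩ := hσ
  refine ⟨g * h0, G.mul_mem hg hh0, fun i => ?_⟩
  have hxT : h0 (x i) ∈ T := (hh (x i)).mpr (hxS i)
  rw [Equiv.Perm.mul_apply]
  have h1 := hgσ ⟨h0 (x i), hxT⟩
  rw [hσdef] at h1
  have h2 : ι ⟨h0 (x i), hxT⟩ = i := by
    apply x.injective
    rw [hι, ← Equiv.Perm.mul_apply, inv_mul_cancel, Equiv.Perm.one_apply]
  rw [h2] at h1
  exact h1

end Cfsg.Agent.Helper83.LW2H4b
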