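import Mathlib
import Cfsg.Agent.Helper96.C3SDefs

/-!
# Pieces EXU and PERP2 of CALL S5664 (helper96): dual vectors and perpendicular hyperbolic pairs
for a nondegenerate alternating form
-/

set_option autoImplicit false

namespace Cfsg.Agent.Helper83.C3S

open Module Cfsg.Agent.Helper96.C3S

variable {K V : Type*} [Field K] [AddCommGroup V] [Module K V]

/-- every functional is `φ · u` for a nondegenerate alternating form on a finite-dimensional
space -/
theorem exists_repr_vec [Module.Finite K V] (φ : LinearMap.BilinForm K V) (alt : ∀ v, φ v v = 0)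
    (nd : ∀ u, (∀ v, φ u v = 0) → u = 0) (χ : V →ₗ[K] K) : ∃ u : V, ∀ v, φ v u = χ v := by
  have hinj : Function.Injective (φ.flip : V →ₗ[K] Module.Dual K V) := by
    rw [← LinearMap.ker_eq_bot, LinearMap.ker_eq_bot']
    intro u hu
    apply nd u
    intro v
    rw [skew alt u v]
    have h2 : φ v u = 0 := congrArg (fun f : Module.Dual K V => f v) hu
    rw [h2, neg_zero]
  have hsurj : Function.Surjective (φ.flip : V →ₗ[K] Module.Dual K V) :=
    (LinearMap.injective_iff_surjective_of_finrank_eq_finrank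
      (Subspace.dual_finrank_eq (K := K) (V := V)).symm).mp hinj
  obtain ⟨u, hu⟩ := hsurj χ
  refine ⟨u, fun v => ?_⟩
  have := congrArg (fun f : Module.Dual K V => f v) hu
  simpa using this

/-- PIECE EXU -/
theorem exists_dual_vec [Module.Finite K V] (φ : LinearMap.BilinForm K V) (alt : ∀ v, φ v v = 0)
    (nd : ∀ u, (∀ v, φ u v = 0) → u = 0) (x y : V) (hx : x ≠ 0) (hy : ∀ k : K, y ≠ k • x) :
    ∃ u : V, φ x u = 0 ∧ φ y u = 1 := by
  have _ := hx
  obtain ⟨χ, hχx, hχy⟩ := Cfsg.Agent.Helper98.c3_exists_dual (K := K) x y hy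
  obtain ⟨u, hu⟩ := exists_repr_vec φ alt nd χ
  exact ⟨u, by rw [hu, hχx], by rw [hu, hχy]⟩

/-- PIECE PERP2 -/
theorem exists_perp_pair [Module.Finite K V] (φ : LinearMap.BilinForm K V) (alt : ∀ v, φ v v = 0)
    (nd : ∀ u, (∀ v, φ u v = 0) → u = 0) (a b : V) (hab : φ a b = 1) (hd : 4 ≤ finrank K V) :
    ∃ w w' : V, φ w a = 0 ∧ φ w b = 0 ∧ φ w' a = 0 ∧ φ w' b = 0 ∧ φ w' w = 1 := by
  classical
  have hba : φ b a = -1 := by rw [skew alt b a, hab]
  have haa : φ a a = 0 := alt a
  have hbb : φ b b = 0 := alt b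
  -- a vector outside span {a, b}
  obtain ⟨x, hx⟩ : ∃ x : V, x ∉ Submodule.span K ({a, b} : Set V) := by
    by_contra hcon
    push Not at hcon
    have htop : Submodule.span K ({a, b} : Set V) = ⊤ := by
      rw [eq_top_iff]; intro y _; exact hcon y
    have h1 : finrank K (Submodule.span K (({a, b} : Finset V) : Set V)) ≤
        ({a, b} : Finset V).card := finrank_span_finset_le_card (R := K) ({a, b} : Finset V)
    rw [Finset.coe_insert, Finset.coe_singleton, htop, finrank_top] at h1
    have h2 : ({a, b} : Finset V).card ≤ 2 := Finset.card_insert_le _ _ |>.trans (by simp)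
    omega
  -- projection of x
  have hproj : ∀ v : V, φ (v - φ v b • a + φ v a • b) a = 0 ∧ φ (v - φ v b • a + φ v a • b) b = 0 := by
    intro v
    constructor
    · simp only [map_add, map_sub, map_smul, LinearMap.add_apply, LinearMap.sub_apply,
        LinearMap.smul_apply, smul_eq_mul, haa, hba]
      ring
    · simp only [map_add, map_sub, map_smul, LinearMap.add_apply, LinearMap.sub_apply,
        LinearMap.smul_apply, smul_eq_mul, hab, hbb]
      ring
  set w := x - φ x b • a + φ x a • b with hw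
  have hw0 : w ≠ 0 := by
    intro h0
    apply hx
    have hxe : x = φ x b • a - φ x a • b := by
      have : x - φ x b • a + φ x a • b = 0 := h0
      rw [← sub_eq_zero]
      rw [← this]; abel
    rw [hxe]
    exact Submodule.sub_mem _ (Submodule.smul_mem _ _ (Submodule.subset_span (by simp)))
      (Submodule.smul_mem _ _ (Submodule.subset_span (by simp)))
  have hwa : φ w a = 0 := (hproj x).1
  have hwb : φ w b = 0 := (hproj x).2
  obtain ⟨v, hv⟩ : ∃ v, φ w v ≠ 0 := by
    by_contra hcon
    push Not at hcon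
    exact hw0 (nd w hcon)
  set v' := v - φ v b • a + φ v a • b with hv'
  have hva : φ v' a = 0 := (hproj v).1
  have hvb : φ v' b = 0 := (hproj v).2
  have hwv' : φ w v' = φ w v := by
    simp only [hv', map_add, map_sub, map_smul, smul_eq_mul, hwa, hwb]
    ring
  have hv'w : φ v' w ≠ 0 := by
    rw [skew alt v' w, hwv']
    exact neg_ne_zero.mpr hv
  refine ⟨w, (φ v' w)⁻¹ • v', hwa, hwb, ?_, ?_, ?_⟩
  · rw [map_smul, LinearMap.smul_apply, hva, smul_zero]
  · rw [map_smul, LinearMap.smul_apply, hvb, smul_zero]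
  · rw [map_smul, LinearMap.smul_apply, smul_eq_mul, inv_mul_cancel₀ hv'w]

end Cfsg.Agent.Helper83.C3S
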