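import Mathlib
import Cfsg.Prelude.Def_GeometricClasses
import Cfsg.Agent.Helper69.E3Def
import Cfsg.Agent.Helper40.SemisimpleMat
import Cfsg.Agent.Helper66.E3INV

/-!
# Piece DIAG2 of CALL S5999 (helper69): a non-scalar involution of determinant one in `M₃(F)`
is conjugate to `diag(1, -1, -1)`
-/

set_option autoImplicit false

namespace Cfsg.Agent.Helper83

open Cfsg.Agent.Helper69

theorem e3u_diag2 {F : Type*} [Field F] [Fintype F] (h2 : (2 : F) ≠ 0)
    (y : Matrix (Fin 3) (Fin 3) F) (hy : y ^ 2 = 1) (hdet : y.det = 1)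
    (hns : ∀ c : F, y ≠ c • (1 : Matrix (Fin 3) (Fin 3) F)) :
    ∃ Q : Matrix (Fin 3) (Fin 3) F, Q.det ≠ 0 ∧ y * Q = Q * Matrix.diagonal ![1, -1, -1] := by
  obtain ⟨p, hp⟩ := CharP.exists F
  have hpp : p.Prime := CharP.char_is_prime F p
  have : Fact p.Prime := ⟨hpp⟩
  have hp2 : p ≠ 2 := by
    rintro rfl
    apply h2
    exact_mod_cast CharP.cast_eq_zero F 2
  have hcop : Nat.Coprime 2 p := by
    rw [Nat.coprime_comm]
    exact (Nat.Prime.coprime_iff_not_dvd hpp).mpr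
      (fun h => hp2 ((Nat.prime_dvd_prime_iff_eq hpp Nat.prime_two).mp h))
  obtain ⟨hT, hc⟩ := Cfsg.Agent.Helper66.e3inv_coeffs y hy hdet hns
  have hD2 : (Matrix.diagonal ![(1 : F), -1, -1]) ^ 2 = 1 := by
    rw [pow_two, Matrix.diagonal_mul_diagonal]
    ext i j
    fin_cases i <;> fin_cases j <;> simp [Matrix.diagonal]
  have hchar : (Matrix.diagonal ![(1 : F), -1, -1]).charpoly = y.charpoly := by
    rw [Cfsg.Agent.Helper66.e3inv_charpoly, Cfsg.Agent.Helper66.e3inv_charpoly y, hT, hc, hdet]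
    simp [Matrix.det_diagonal, Fin.prod_univ_three]
  obtain ⟨Q, hQdet, hQ⟩ := Cfsg.Agent.Helper40.exists_conj_matrix p hcop hcop _ y hD2 hy hchar
  exact ⟨Q, by rw [hQdet]; exact one_ne_zero, hQ.symm⟩

end Cfsg.Agent.Helper83
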