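import Mathlib
import Cfsg.Prelude.Def_GeometricClasses
import Cfsg.Prelude.Def_LieClassical
import Cfsg.Agent.Helper69.E4Def
import Cfsg.Agent.Helper69.E5Def
import Cfsg.Agent.Helper73.E5RFACTS
import Cfsg.Agent.Helper91.E5GEN2
import Cfsg.Agent.Helper73.E5COORD2
import Cfsg.Agent.Helper37.E5WORDS

set_option autoImplicit false
set_option linter.unusedVariables false
set_option linter.unusedSectionVars false

/-!
helper83: PIECE NF2 of CALL S6002 (helper69): normal form of the extraspecial group `2^{1+4}_-` of order 32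
inside `GL_4(F)` as signed words in `e5I`, `e5J a b`, `e4X2`, `e4Z2`.
-/

namespace Cfsg.Agent.Helper83
open Cfsg.Agent.Helper69
open scoped Matrix

section ring

variable {A : Type*} [Ring A]

theorem e5nf_fix (G u v : A) (huv : u * v = -(v * u)) (hGv : G * v = v * G ∨ G * v = -(v * G)) :
    ∃ α : ℕ, (G * u ^ α) * v = v * (G * u ^ α) := by
  rcases hGv with h | h
  · exact ⟨0, by rw [pow_zero, mul_one, h]⟩
  · refine ⟨1, ?_⟩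
    rw [pow_one, mul_assoc, huv, mul_neg, ← mul_assoc, h, neg_mul, neg_neg, mul_assoc]

theorem e5nf_keep (G u h : A) (huh : u * h = h * u) (α : ℕ) (hG : G * h = h * G) :
    (G * u ^ α) * h = h * (G * u ^ α) := by
  have hc : Commute (u ^ α) h := (show Commute u h from huh).pow_left α
  rw [mul_assoc, hc.eq, ← mul_assoc, hG, mul_assoc]

theorem e5nf_keep' (G u h : A) (huh : u * h = h * u) (α : ℕ)
    (hG : G * h = h * G ∨ G * h = -(h * G)) :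
    (G * u ^ α) * h = h * (G * u ^ α) ∨ (G * u ^ α) * h = -(h * (G * u ^ α)) := by
  have hc : Commute (u ^ α) h := (show Commute u h from huh).pow_left α
  rcases hG with hG | hG
  · left; rw [mul_assoc, hc.eq, ← mul_assoc, hG, mul_assoc]
  · right; rw [mul_assoc, hc.eq, ← mul_assoc, hG, neg_mul, mul_assoc]

end ring

section conj

variable {F : Type*} [Field F] {m n : Type*} [Fintype m] [Fintype n] [DecidableEq m] [DecidableEq n]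

theorem e5nf_conj_mul (C : Matrix m n F) (Ci : Matrix n m F) (h1 : C * Ci = 1) (M N : Matrix m m F) :
    Ci * (M * N) * C = (Ci * M * C) * (Ci * N * C) := by
  calc Ci * (M * N) * C = Ci * M * (1 : Matrix m m F) * N * C := by
        rw [Matrix.mul_one]; simp only [Matrix.mul_assoc]
    _ = Ci * M * (C * Ci) * N * C := by rw [h1]
    _ = (Ci * M * C) * (Ci * N * C) := by simp only [Matrix.mul_assoc]

theorem e5nf_conj_one (C : Matrix m n F) (Ci : Matrix n m F) (h2 : Ci * C = 1) :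
    Ci * (1 : Matrix m m F) * C = 1 := by
  rw [Matrix.mul_one, h2]

theorem e5nf_conj_pow (C : Matrix m n F) (Ci : Matrix n m F) (h1 : C * Ci = 1) (h2 : Ci * C = 1)
    (M : Matrix m m F) (k : ℕ) : Ci * M ^ k * C = (Ci * M * C) ^ k := by
  induction k with
  | zero => rw [pow_zero, pow_zero, e5nf_conj_one C Ci h2]
  | succ k ih => rw [pow_succ, pow_succ, e5nf_conj_mul C Ci h1, ih]

theorem e5nf_conj_neg (C : Matrix m n F) (Ci : Matrix n m F) (M : Matrix m m F) :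
    Ci * (-M) * C = -(Ci * M * C) := by
  rw [Matrix.mul_neg, Matrix.neg_mul]

theorem e5nf_conj_smul (C : Matrix m n F) (Ci : Matrix n m F) (c : F) (M : Matrix m m F) :
    Ci * (c • M) * C = c • (Ci * M * C) := by
  rw [Matrix.mul_smul, Matrix.smul_mul]

theorem e5nf_conj_inj (C : Matrix m n F) (Ci : Matrix n m F) (h1 : C * Ci = 1) (M N : Matrix m m F)
    (h : Ci * M * C = Ci * N * C) : M = N := by
  have e : ∀ X : Matrix m m F, C * (Ci * X * C) * Ci = X := by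
    intro X
    calc C * (Ci * X * C) * Ci = (C * Ci) * X * (C * Ci) := by simp only [Matrix.mul_assoc]
      _ = X := by rw [h1, Matrix.one_mul, Matrix.mul_one]
  have h3 : C * (Ci * M * C) * Ci = C * (Ci * N * C) * Ci := by rw [h]
  rw [e M, e N] at h3
  exact h3

end conj

theorem e5_normal_form {F : Type*} [Field F] (h2 : (2 : F) ≠ 0)
    (R : Subgroup (GL (Fin 2 ⊕ Fin 2) F)) (hRs : Cfsg.Geo.IsSymplecticTypeGroup 2 R)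
    (hRi : Cfsg.Geo.ActsAbsolutelyIrreducibly (Cfsg.Geo.matrixSet R))
    (hR5 : Nat.card R = 2 ^ 5) (hRZ : Nat.card (Subgroup.center R) = 2)
    (hRm : Cfsg.Geo.IsOfMinusType 2 R) :
    ∃ (a b : F) (C : Matrix (Fin 2 ⊕ Fin 2) (Fin 4) F) (Ci : Matrix (Fin 4) (Fin 2 ⊕ Fin 2) F),
      a ^ 2 + b ^ 2 = -1 ∧ C * Ci = 1 ∧ Ci * C = 1 ∧
      ∀ g : GL (Fin 2 ⊕ Fin 2) F, g ∈ R ↔
        ∃ s α β γ δ : ℕ, Ci * (g : Matrix (Fin 2 ⊕ Fin 2) (Fin 2 ⊕ Fin 2) F) * C =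
          (-1 : F) ^ s • e5W a b α β γ δ := by
  classical
  obtain ⟨hsq, hcomm, hsc, hm1⟩ := Cfsg.Agent.Helper73.e5_rfacts h2 R hRs hRi hR5 hRZ
  have hnc : ∀ g ∈ R, (∀ h ∈ R, g * h = h * g) →
      ∃ c : F, (g : Matrix (Fin 2 ⊕ Fin 2) (Fin 2 ⊕ Fin 2) F) = c • 1 := by
    intro g hg hall
    apply hRi.2
    rintro s ⟨h, hh, rfl⟩
    have h5 := congrArg
      (fun x : GL (Fin 2 ⊕ Fin 2) F => (x : Matrix (Fin 2 ⊕ Fin 2) (Fin 2 ⊕ Fin 2) F)) (hall h hh)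
    simpa using h5
  obtain ⟨i, j, x, z, hiR, hjR, hxR, hzR, hi, hj, hx, hz, hij, hxz, hix, hiz, hjx, hjz⟩ :=
    Cfsg.Agent.Helper91.e5_exists_gens h2 R (by rw [hR5]; norm_num) hsq hcomm hsc hm1 hnc hRm
  -- reindexing matrices
  obtain ⟨E, hE⟩ : ∃ E : Matrix (Fin 2 ⊕ Fin 2) (Fin 4) F,
      E = (1 : Matrix (Fin 4) (Fin 4) F).submatrix finSumFinEquiv (Equiv.refl (Fin 4)) := ⟨_, rfl⟩
  obtain ⟨Ei, hEi⟩ : ∃ Ei : Matrix (Fin 4) (Fin 2 ⊕ Fin 2) F,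
      Ei = (1 : Matrix (Fin 4) (Fin 4) F).submatrix (Equiv.refl (Fin 4)) finSumFinEquiv := ⟨_, rfl⟩
  have hE1 : E * Ei = 1 := by
    rw [hE, hEi, Matrix.submatrix_mul_equiv, Matrix.mul_one, Matrix.submatrix_one_equiv]
  have hE2 : Ei * E = 1 := by
    rw [hE, hEi, Matrix.submatrix_mul_equiv, Matrix.mul_one, Matrix.submatrix_one_equiv]
  have hi' : (Ei * (i : Matrix (Fin 2 ⊕ Fin 2) (Fin 2 ⊕ Fin 2) F) * E) ^ 2 = -1 := by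
    rw [← e5nf_conj_pow E Ei hE1 hE2, hi, e5nf_conj_neg, e5nf_conj_one E Ei hE2]
  have hj' : (Ei * (j : Matrix (Fin 2 ⊕ Fin 2) (Fin 2 ⊕ Fin 2) F) * E) ^ 2 = -1 := by
    rw [← e5nf_conj_pow E Ei hE1 hE2, hj, e5nf_conj_neg, e5nf_conj_one E Ei hE2]
  have hx' : (Ei * (x : Matrix (Fin 2 ⊕ Fin 2) (Fin 2 ⊕ Fin 2) F) * E) ^ 2 = 1 := by
    rw [← e5nf_conj_pow E Ei hE1 hE2, hx, e5nf_conj_one E Ei hE2]
  have hz' : (Ei * (z : Matrix (Fin 2 ⊕ Fin 2) (Fin 2 ⊕ Fin 2) F) * E) ^ 2 = 1 := by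
    rw [← e5nf_conj_pow E Ei hE1 hE2, hz, e5nf_conj_one E Ei hE2]
  have hij' : (Ei * (i : Matrix (Fin 2 ⊕ Fin 2) (Fin 2 ⊕ Fin 2) F) * E) *
      (Ei * (j : Matrix (Fin 2 ⊕ Fin 2) (Fin 2 ⊕ Fin 2) F) * E) =
      -((Ei * (j : Matrix (Fin 2 ⊕ Fin 2) (Fin 2 ⊕ Fin 2) F) * E) *
        (Ei * (i : Matrix (Fin 2 ⊕ Fin 2) (Fin 2 ⊕ Fin 2) F) * E)) := by
    rw [← e5nf_conj_mul E Ei hE1, ← e5nf_conj_mul E Ei hE1, hij, e5nf_conj_neg]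
  have hxz' : (Ei * (x : Matrix (Fin 2 ⊕ Fin 2) (Fin 2 ⊕ Fin 2) F) * E) *
      (Ei * (z : Matrix (Fin 2 ⊕ Fin 2) (Fin 2 ⊕ Fin 2) F) * E) =
      -((Ei * (z : Matrix (Fin 2 ⊕ Fin 2) (Fin 2 ⊕ Fin 2) F) * E) *
        (Ei * (x : Matrix (Fin 2 ⊕ Fin 2) (Fin 2 ⊕ Fin 2) F) * E)) := by
    rw [← e5nf_conj_mul E Ei hE1, ← e5nf_conj_mul E Ei hE1, hxz, e5nf_conj_neg]
  have hcm : ∀ M N : Matrix (Fin 2 ⊕ Fin 2) (Fin 2 ⊕ Fin 2) F, M * N = N * M →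
      (Ei * M * E) * (Ei * N * E) = (Ei * N * E) * (Ei * M * E) := by
    intro M N h
    rw [← e5nf_conj_mul E Ei hE1, ← e5nf_conj_mul E Ei hE1, h]
  obtain ⟨a, b, P, hab, hPi, hPj, hPx, hPz⟩ :=
    Cfsg.Agent.Helper73.e5_coord h2 _ _ _ _ hi' hj' hx' hz' hij' hxz'
      (hcm _ _ hix) (hcm _ _ hiz) (hcm _ _ hjx) (hcm _ _ hjz)
  obtain ⟨C, hC⟩ : ∃ C : Matrix (Fin 2 ⊕ Fin 2) (Fin 4) F,
      C = E * (P : Matrix (Fin 4) (Fin 4) F) := ⟨_, rfl⟩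
  obtain ⟨Ci, hCi⟩ : ∃ Ci : Matrix (Fin 4) (Fin 2 ⊕ Fin 2) F,
      Ci = ((P⁻¹ : GL (Fin 4) F) : Matrix (Fin 4) (Fin 4) F) * Ei := ⟨_, rfl⟩
  have hPP : (P : Matrix (Fin 4) (Fin 4) F) * ((P⁻¹ : GL (Fin 4) F) : Matrix (Fin 4) (Fin 4) F) = 1 := by
    rw [← Units.val_mul, mul_inv_cancel]; rfl
  have hPP' : ((P⁻¹ : GL (Fin 4) F) : Matrix (Fin 4) (Fin 4) F) * (P : Matrix (Fin 4) (Fin 4) F) = 1 := by
    rw [← Units.val_mul, inv_mul_cancel]; rfl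
  have hC1 : C * Ci = 1 := by
    rw [hC, hCi]
    calc E * (P : Matrix (Fin 4) (Fin 4) F) *
          (((P⁻¹ : GL (Fin 4) F) : Matrix (Fin 4) (Fin 4) F) * Ei)
        = E * ((P : Matrix (Fin 4) (Fin 4) F) *
            ((P⁻¹ : GL (Fin 4) F) : Matrix (Fin 4) (Fin 4) F)) * Ei := by
          simp only [Matrix.mul_assoc]
      _ = 1 := by rw [hPP, Matrix.mul_one, hE1]
  have hC2 : Ci * C = 1 := by
    rw [hC, hCi]
    calc ((P⁻¹ : GL (Fin 4) F) : Matrix (Fin 4) (Fin 4) F) * Ei *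
          (E * (P : Matrix (Fin 4) (Fin 4) F))
        = ((P⁻¹ : GL (Fin 4) F) : Matrix (Fin 4) (Fin 4) F) * (Ei * E) *
            (P : Matrix (Fin 4) (Fin 4) F) := by
          simp only [Matrix.mul_assoc]
      _ = 1 := by rw [hE2, Matrix.mul_one, hPP']
  have hgen : ∀ (M : Matrix (Fin 2 ⊕ Fin 2) (Fin 2 ⊕ Fin 2) F) (N : Matrix (Fin 4) (Fin 4) F),
      (Ei * M * E) * (P : Matrix (Fin 4) (Fin 4) F) = (P : Matrix (Fin 4) (Fin 4) F) * N →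
      Ci * M * C = N := by
    intro M N h
    rw [hC, hCi]
    calc ((P⁻¹ : GL (Fin 4) F) : Matrix (Fin 4) (Fin 4) F) * Ei * M *
          (E * (P : Matrix (Fin 4) (Fin 4) F))
        = ((P⁻¹ : GL (Fin 4) F) : Matrix (Fin 4) (Fin 4) F) *
            ((Ei * M * E) * (P : Matrix (Fin 4) (Fin 4) F)) := by
          simp only [Matrix.mul_assoc]
      _ = ((P⁻¹ : GL (Fin 4) F) : Matrix (Fin 4) (Fin 4) F) *
            ((P : Matrix (Fin 4) (Fin 4) F) * N) := by rw [h]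
      _ = N := by rw [← Matrix.mul_assoc, hPP', Matrix.one_mul]
  have hΦi : Ci * (i : Matrix (Fin 2 ⊕ Fin 2) (Fin 2 ⊕ Fin 2) F) * C = e5I F := hgen _ _ hPi
  have hΦj : Ci * (j : Matrix (Fin 2 ⊕ Fin 2) (Fin 2 ⊕ Fin 2) F) * C = e5J a b := hgen _ _ hPj
  have hΦx : Ci * (x : Matrix (Fin 2 ⊕ Fin 2) (Fin 2 ⊕ Fin 2) F) * C = e4X2 F := hgen _ _ hPx
  have hΦz : Ci * (z : Matrix (Fin 2 ⊕ Fin 2) (Fin 2 ⊕ Fin 2) F) * C = e4Z2 F := hgen _ _ hPz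
  have hword : ∀ (G : Matrix (Fin 2 ⊕ Fin 2) (Fin 2 ⊕ Fin 2) F) (α β γ δ : ℕ),
      Ci * (G * (i : Matrix (Fin 2 ⊕ Fin 2) (Fin 2 ⊕ Fin 2) F) ^ α *
        (j : Matrix (Fin 2 ⊕ Fin 2) (Fin 2 ⊕ Fin 2) F) ^ β *
        (x : Matrix (Fin 2 ⊕ Fin 2) (Fin 2 ⊕ Fin 2) F) ^ γ *
        (z : Matrix (Fin 2 ⊕ Fin 2) (Fin 2 ⊕ Fin 2) F) ^ δ) * C =
      (Ci * G * C) * e5W a b α β γ δ := by
    intro G α β γ δ
    unfold e5W
    rw [e5nf_conj_mul C Ci hC1, e5nf_conj_mul C Ci hC1, e5nf_conj_mul C Ci hC1,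
      e5nf_conj_mul C Ci hC1, e5nf_conj_pow C Ci hC1 hC2, e5nf_conj_pow C Ci hC1 hC2,
      e5nf_conj_pow C Ci hC1 hC2, e5nf_conj_pow C Ci hC1 hC2, hΦi, hΦj, hΦx, hΦz]
    simp only [Matrix.mul_assoc]
  refine ⟨a, b, C, Ci, hab, hC1, hC2, fun g => ⟨fun hg => ?_, fun hg => ?_⟩⟩
  · have hgi := hcomm g hg i hiR
    have hgj := hcomm g hg j hjR
    have hgx := hcomm g hg x hxR
    have hgz := hcomm g hg z hzR
    obtain ⟨α, hA⟩ := e5nf_fix (g : Matrix (Fin 2 ⊕ Fin 2) (Fin 2 ⊕ Fin 2) F) _ _ hij hgj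
    have hAi := e5nf_keep' (g : Matrix (Fin 2 ⊕ Fin 2) (Fin 2 ⊕ Fin 2) F)
      (i : Matrix (Fin 2 ⊕ Fin 2) (Fin 2 ⊕ Fin 2) F) _ rfl α hgi
    have hAx := e5nf_keep' (g : Matrix (Fin 2 ⊕ Fin 2) (Fin 2 ⊕ Fin 2) F) _ _ hix α hgx
    have hAz := e5nf_keep' (g : Matrix (Fin 2 ⊕ Fin 2) (Fin 2 ⊕ Fin 2) F) _ _ hiz α hgz
    have hji : (j : Matrix (Fin 2 ⊕ Fin 2) (Fin 2 ⊕ Fin 2) F) *
        (i : Matrix (Fin 2 ⊕ Fin 2) (Fin 2 ⊕ Fin 2) F) =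
        -((i : Matrix (Fin 2 ⊕ Fin 2) (Fin 2 ⊕ Fin 2) F) *
          (j : Matrix (Fin 2 ⊕ Fin 2) (Fin 2 ⊕ Fin 2) F)) := by rw [hij, neg_neg]
    obtain ⟨β, hB⟩ := e5nf_fix _ _ _ hji hAi
    have hBj := e5nf_keep _ (j : Matrix (Fin 2 ⊕ Fin 2) (Fin 2 ⊕ Fin 2) F) _ rfl β hA
    have hBx := e5nf_keep' _ _ _ hjx β hAx
    have hBz := e5nf_keep' _ _ _ hjz β hAz
    obtain ⟨γ, hCz⟩ := e5nf_fix _ _ _ hxz hBz
    have hCi' := e5nf_keep _ _ _ hix.symm γ hB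
    have hCj := e5nf_keep _ _ _ hjx.symm γ hBj
    have hCx := e5nf_keep' _ (x : Matrix (Fin 2 ⊕ Fin 2) (Fin 2 ⊕ Fin 2) F) _ rfl γ hBx
    have hzx : (z : Matrix (Fin 2 ⊕ Fin 2) (Fin 2 ⊕ Fin 2) F) *
        (x : Matrix (Fin 2 ⊕ Fin 2) (Fin 2 ⊕ Fin 2) F) =
        -((x : Matrix (Fin 2 ⊕ Fin 2) (Fin 2 ⊕ Fin 2) F) *
          (z : Matrix (Fin 2 ⊕ Fin 2) (Fin 2 ⊕ Fin 2) F)) := by rw [hxz, neg_neg]
    obtain ⟨δ, hDx⟩ := e5nf_fix _ _ _ hzx hCx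
    have hDi := e5nf_keep _ _ _ hiz.symm δ hCi'
    have hDj := e5nf_keep _ _ _ hjz.symm δ hCj
    have hDz := e5nf_keep _ (z : Matrix (Fin 2 ⊕ Fin 2) (Fin 2 ⊕ Fin 2) F) _ rfl δ hCz
    obtain ⟨G₄, hG₄⟩ : ∃ G₄ : Matrix (Fin 2 ⊕ Fin 2) (Fin 2 ⊕ Fin 2) F,
        G₄ = (g : Matrix (Fin 2 ⊕ Fin 2) (Fin 2 ⊕ Fin 2) F) *
          (i : Matrix (Fin 2 ⊕ Fin 2) (Fin 2 ⊕ Fin 2) F) ^ α *
          (j : Matrix (Fin 2 ⊕ Fin 2) (Fin 2 ⊕ Fin 2) F) ^ β *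
          (x : Matrix (Fin 2 ⊕ Fin 2) (Fin 2 ⊕ Fin 2) F) ^ γ *
          (z : Matrix (Fin 2 ⊕ Fin 2) (Fin 2 ⊕ Fin 2) F) ^ δ := ⟨_, rfl⟩
    rw [← hG₄] at hDx hDi hDj hDz
    have hg₄R : g * i ^ α * j ^ β * x ^ γ * z ^ δ ∈ R :=
      R.mul_mem (R.mul_mem (R.mul_mem (R.mul_mem hg (R.pow_mem hiR α)) (R.pow_mem hjR β))
        (R.pow_mem hxR γ)) (R.pow_mem hzR δ)
    have hg₄val : ((g * i ^ α * j ^ β * x ^ γ * z ^ δ : GL (Fin 2 ⊕ Fin 2) F) :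
        Matrix (Fin 2 ⊕ Fin 2) (Fin 2 ⊕ Fin 2) F) = G₄ := by
      rw [hG₄]; simp only [Units.val_mul, Units.val_pow_eq_pow_val]
    have hMI : (Ci * G₄ * C) * e5I F = e5I F * (Ci * G₄ * C) := by
      rw [← hΦi, ← e5nf_conj_mul C Ci hC1, ← e5nf_conj_mul C Ci hC1, hDi]
    have hMJ : (Ci * G₄ * C) * e5J a b = e5J a b * (Ci * G₄ * C) := by
      rw [← hΦj, ← e5nf_conj_mul C Ci hC1, ← e5nf_conj_mul C Ci hC1, hDj]
    have hMX : (Ci * G₄ * C) * e4X2 F = e4X2 F * (Ci * G₄ * C) := by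
      rw [← hΦx, ← e5nf_conj_mul C Ci hC1, ← e5nf_conj_mul C Ci hC1, hDx]
    have hMZ : (Ci * G₄ * C) * e4Z2 F = e4Z2 F * (Ci * G₄ * C) := by
      rw [← hΦz, ← e5nf_conj_mul C Ci hC1, ← e5nf_conj_mul C Ci hC1, hDz]
    obtain ⟨c, hc⟩ := Cfsg.Agent.Helper37.e5_scalar_of_commute h2 a b hab _ hMI hMJ hMX hMZ
    have hG₄c : G₄ = c • 1 := by
      apply e5nf_conj_inj C Ci hC1
      rw [hc, e5nf_conj_smul, e5nf_conj_one C Ci hC2]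
    have hΦ4 : Ci * G₄ * C = (Ci * (g : Matrix (Fin 2 ⊕ Fin 2) (Fin 2 ⊕ Fin 2) F) * C) *
        e5W a b α β γ δ := by rw [hG₄]; exact hword _ α β γ δ
    have ht : ∃ t : ℕ, (Ci * (g : Matrix (Fin 2 ⊕ Fin 2) (Fin 2 ⊕ Fin 2) F) * C) *
        e5W a b α β γ δ = (-1 : F) ^ t • (1 : Matrix (Fin 4) (Fin 4) F) := by
      rcases hsc _ hg₄R ⟨c, by rw [hg₄val]; exact hG₄c⟩ with h1 | h1
      · refine ⟨0, ?_⟩
        rw [hg₄val] at h1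
        rw [← hΦ4, h1, e5nf_conj_one C Ci hC2, pow_zero, one_smul]
      · refine ⟨1, ?_⟩
        rw [hg₄val] at h1
        rw [← hΦ4, h1, e5nf_conj_neg, e5nf_conj_one C Ci hC2, pow_one, neg_smul, one_smul]
    obtain ⟨t, ht⟩ := ht
    obtain ⟨k, hk⟩ := Cfsg.Agent.Helper37.e5_word_mul a b hab α β γ δ α β γ δ
    obtain ⟨k', hk'⟩ := Cfsg.Agent.Helper37.e5_word_mod a b hab (α + α) (β + β) (γ + γ) (δ + δ)
    have h0 : e5W a b ((α + α) % 2) ((β + β) % 2) ((γ + γ) % 2) ((δ + δ) % 2) = 1 := by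
      have hmod : ∀ n : ℕ, (n + n) % 2 = 0 := by intro n; omega
      rw [hmod, hmod, hmod, hmod]
      simp [e5W]
    have hWW : e5W a b α β γ δ * e5W a b α β γ δ =
        (-1 : F) ^ (k + k') • (1 : Matrix (Fin 4) (Fin 4) F) := by
      rw [hk, hk', h0, smul_smul, ← pow_add]
    have e1 : (Ci * (g : Matrix (Fin 2 ⊕ Fin 2) (Fin 2 ⊕ Fin 2) F) * C) * e5W a b α β γ δ *
        e5W a b α β γ δ = (-1 : F) ^ t • e5W a b α β γ δ := by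
      rw [ht, Matrix.smul_mul, Matrix.one_mul]
    have e2 : (Ci * (g : Matrix (Fin 2 ⊕ Fin 2) (Fin 2 ⊕ Fin 2) F) * C) * e5W a b α β γ δ *
        e5W a b α β γ δ =
        (-1 : F) ^ (k + k') • (Ci * (g : Matrix (Fin 2 ⊕ Fin 2) (Fin 2 ⊕ Fin 2) F) * C) := by
      rw [Matrix.mul_assoc, hWW, Matrix.mul_smul, Matrix.mul_one]
    have e3 : (-1 : F) ^ (k + k') * (-1 : F) ^ (k + k') = 1 := by
      rw [← pow_add]
      exact Even.neg_one_pow ⟨k + k', rfl⟩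
    refine ⟨k + k' + t, α, β, γ, δ, ?_⟩
    calc Ci * (g : Matrix (Fin 2 ⊕ Fin 2) (Fin 2 ⊕ Fin 2) F) * C
        = ((-1 : F) ^ (k + k') * (-1 : F) ^ (k + k')) •
            (Ci * (g : Matrix (Fin 2 ⊕ Fin 2) (Fin 2 ⊕ Fin 2) F) * C) := by rw [e3, one_smul]
      _ = (-1 : F) ^ (k + k') • ((-1 : F) ^ (k + k') •
            (Ci * (g : Matrix (Fin 2 ⊕ Fin 2) (Fin 2 ⊕ Fin 2) F) * C)) := by rw [smul_smul]
      _ = (-1 : F) ^ (k + k') • ((-1 : F) ^ t • e5W a b α β γ δ) := by rw [← e2, e1]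
      _ = (-1 : F) ^ (k + k' + t) • e5W a b α β γ δ := by rw [smul_smul, ← pow_add]
  · obtain ⟨s, α, β, γ, δ, hgW⟩ := hg
    obtain ⟨m₁, hm₁R, hm₁⟩ := hm1
    have hmem : m₁ ^ s * i ^ α * j ^ β * x ^ γ * z ^ δ ∈ R :=
      R.mul_mem (R.mul_mem (R.mul_mem (R.mul_mem (R.pow_mem hm₁R s) (R.pow_mem hiR α))
        (R.pow_mem hjR β)) (R.pow_mem hxR γ)) (R.pow_mem hzR δ)
    have hval : ((m₁ ^ s * i ^ α * j ^ β * x ^ γ * z ^ δ : GL (Fin 2 ⊕ Fin 2) F) :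
        Matrix (Fin 2 ⊕ Fin 2) (Fin 2 ⊕ Fin 2) F) =
        (g : Matrix (Fin 2 ⊕ Fin 2) (Fin 2 ⊕ Fin 2) F) := by
      apply e5nf_conj_inj C Ci hC1
      rw [hgW]
      simp only [Units.val_mul, Units.val_pow_eq_pow_val]
      rw [hword, e5nf_conj_pow C Ci hC1 hC2, hm₁, e5nf_conj_neg, e5nf_conj_one C Ci hC2]
      have hneg : (-1 : Matrix (Fin 4) (Fin 4) F) ^ s = (-1 : F) ^ s • (1 : Matrix (Fin 4) (Fin 4) F) := by
        have h5 : (-1 : Matrix (Fin 4) (Fin 4) F) = (-1 : F) • (1 : Matrix (Fin 4) (Fin 4) F) := by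
          rw [neg_smul, one_smul]
        rw [h5, smul_pow, one_pow]
      rw [hneg, Matrix.smul_mul, Matrix.one_mul]
    have hgeq : g = m₁ ^ s * i ^ α * j ^ β * x ^ γ * z ^ δ := Units.ext hval.symm
    rw [hgeq]; exact hmem

end Cfsg.Agent.Helper83
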