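import Mathlib
import Cfsg.Prelude.Def_GeometricClasses
import Cfsg.Prelude.Def_LieClassical
import Cfsg.Agent.Helper69.E4Def
import Cfsg.Agent.Helper69.E5Def
import Cfsg.Agent.Helper66.E5CF5A
import Cfsg.Agent.Helper66.E5CF5B

set_option autoImplicit false
set_option linter.unusedVariables false
set_option linter.unusedSectionVars false

/-!
helper83: PIECE CF5 of CALL S6002 (helper69), doubled: canonical basis `v, x v, x² v, x³ v` of a symplectic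
element of order 5 (`p ≡ ±2 mod 5`).
-/

namespace Cfsg.Agent.Helper83
open Cfsg.Agent.Helper69
open scoped Matrix

section cf5

variable {F : Type*} [Field F]

theorem e5cf_isom (x : Matrix (Fin 2 ⊕ Fin 2) (Fin 2 ⊕ Fin 2) F)
    (hx : xᵀ * Matrix.J (Fin 2) F * x = Matrix.J (Fin 2) F) (u w : Fin 2 ⊕ Fin 2 → F) :
    (x *ᵥ u) ⬝ᵥ (Matrix.J (Fin 2) F *ᵥ (x *ᵥ w)) = u ⬝ᵥ (Matrix.J (Fin 2) F *ᵥ w) := by
  have h1 : ∀ z : Fin 2 ⊕ Fin 2 → F, (x *ᵥ u) ⬝ᵥ z = u ⬝ᵥ (xᵀ *ᵥ z) := by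
    intro z
    calc (x *ᵥ u) ⬝ᵥ z = z ⬝ᵥ (x *ᵥ u) := dotProduct_comm _ _
      _ = (z ᵥ* x) ⬝ᵥ u := Matrix.dotProduct_mulVec _ _ _
      _ = (xᵀ *ᵥ z) ⬝ᵥ u := by rw [Matrix.mulVec_transpose]
      _ = u ⬝ᵥ (xᵀ *ᵥ z) := dotProduct_comm _ _
  rw [h1, Matrix.mulVec_mulVec, Matrix.mulVec_mulVec, hx]

theorem e5cf_skew (u w : Fin 2 ⊕ Fin 2 → F) :
    w ⬝ᵥ (Matrix.J (Fin 2) F *ᵥ u) = -(u ⬝ᵥ (Matrix.J (Fin 2) F *ᵥ w)) := by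
  calc w ⬝ᵥ (Matrix.J (Fin 2) F *ᵥ u) = (w ᵥ* Matrix.J (Fin 2) F) ⬝ᵥ u :=
        Matrix.dotProduct_mulVec _ _ _
    _ = ((Matrix.J (Fin 2) F)ᵀ *ᵥ w) ⬝ᵥ u := by rw [Matrix.mulVec_transpose]
    _ = (-(Matrix.J (Fin 2) F *ᵥ w)) ⬝ᵥ u := by rw [Matrix.J_transpose, Matrix.neg_mulVec]
    _ = -(u ⬝ᵥ (Matrix.J (Fin 2) F *ᵥ w)) := by rw [neg_dotProduct, dotProduct_comm]

theorem e5cf_alt (v : Fin 2 ⊕ Fin 2 → F) : v ⬝ᵥ (Matrix.J (Fin 2) F *ᵥ v) = 0 := by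
  simp [Matrix.J, dotProduct, Matrix.mulVec, Fintype.sum_sum_type, Fin.sum_univ_two,
    Matrix.fromBlocks_apply₁₁, Matrix.fromBlocks_apply₁₂, Matrix.fromBlocks_apply₂₁,
    Matrix.fromBlocks_apply₂₂, Matrix.one_apply]
  ring

theorem e5cf_gram_apply (B : Matrix (Fin 2 ⊕ Fin 2) (Fin 4) F) (k l : Fin 4) :
    (Bᵀ * Matrix.J (Fin 2) F * B) k l =
      (fun n => B n k) ⬝ᵥ (Matrix.J (Fin 2) F *ᵥ (fun n => B n l)) := by
  simp only [Matrix.mul_apply, Matrix.transpose_apply, dotProduct, Matrix.mulVec, Finset.sum_mul,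
    Finset.mul_sum]
  rw [Finset.sum_comm]
  refine Finset.sum_congr rfl (fun m _ => Finset.sum_congr rfl (fun n _ => ?_))
  ring

/-- the inverse of `e5G` -/
def e5GI (F : Type*) [Field F] : Matrix (Fin 4) (Fin 4) F :=
  !![0, -1, 0, -1; 1, 0, 0, 0; 0, 0, 0, -1; 1, 0, 1, 0]

theorem e5GI_mul : e5GI F * e5G F = 1 := by
  ext i j
  fin_cases i <;> fin_cases j <;> simp [e5GI, e5G, Matrix.mul_apply, Fin.sum_univ_four]

theorem e5_canon_five {F : Type*} [Field F] [Fintype F] {p : ℕ} [Fact p.Prime] [CharP F p]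
    (hF : Fintype.card F = p) (hp5 : p % 5 = 2 ∨ p % 5 = 3)
    (x : Matrix (Fin 2 ⊕ Fin 2) (Fin 2 ⊕ Fin 2) F)
    (hx : xᵀ * Matrix.J (Fin 2) F * x = Matrix.J (Fin 2) F)
    (hx5 : x ^ 5 = 1) (hx1 : x ≠ 1) :
    ∃ (B : Matrix (Fin 2 ⊕ Fin 2) (Fin 4) F) (Bi : Matrix (Fin 4) (Fin 2 ⊕ Fin 2) F),
      B * Bi = 1 ∧ Bi * B = 1 ∧ x * B = B * e5C F ∧
      Bᵀ * Matrix.J (Fin 2) F * B = e5G F := by
  classical
  obtain ⟨hcyc, -⟩ := Cfsg.Agent.Helper66.e5_cyclic_five hF hp5 x hx5 hx1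
  obtain ⟨v, hv1, hv2⟩ := Cfsg.Agent.Helper66.e5_good_vector_five hF hp5 x hx hx5 hx1
  obtain ⟨v1, hv1d⟩ : ∃ v1, v1 = x *ᵥ v := ⟨_, rfl⟩
  obtain ⟨v2, hv2d⟩ : ∃ v2, v2 = x *ᵥ v1 := ⟨_, rfl⟩
  obtain ⟨v3, hv3d⟩ : ∃ v3, v3 = x *ᵥ v2 := ⟨_, rfl⟩
  have hpow : ∀ k : ℕ, x ^ (k + 1) *ᵥ v = x *ᵥ (x ^ k *ᵥ v) := by
    intro k; rw [Matrix.mulVec_mulVec, pow_succ']
  have e1 : x ^ 1 *ᵥ v = v1 := by rw [pow_one, hv1d]
  have e2 : x ^ 2 *ᵥ v = v2 := by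
    have h := hpow 1
    rw [e1, ← hv2d] at h
    exact h
  have e3 : x ^ 3 *ᵥ v = v3 := by
    have h := hpow 2
    rw [e2, ← hv3d] at h
    exact h
  have e4 : x ^ 4 *ᵥ v = x *ᵥ v3 := by
    have h := hpow 3
    rw [e3] at h
    exact h
  have e5 : x *ᵥ (x *ᵥ v3) = v := by
    have h := hpow 4
    rw [e4] at h
    rw [← h, hx5, Matrix.one_mulVec]
  have hv4 : x *ᵥ v3 = -(v + v1 + v2 + v3) := by
    have h := congrArg (fun M : Matrix (Fin 2 ⊕ Fin 2) (Fin 2 ⊕ Fin 2) F => M *ᵥ v) hcyc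
    simp only [Matrix.add_mulVec, Matrix.zero_mulVec, Matrix.one_mulVec] at h
    rw [e4, e3, e2] at h
    have e1' : x *ᵥ v = v1 := hv1d.symm
    rw [e1'] at h
    funext n
    have hn := congrFun h n
    simp only [Pi.add_apply, Pi.zero_apply, Pi.neg_apply] at hn ⊢
    linear_combination hn
  -- the values of the form
  have w01 : v ⬝ᵥ (Matrix.J (Fin 2) F *ᵥ v1) = 1 := by rw [hv1d]; exact hv1
  have w02 : v ⬝ᵥ (Matrix.J (Fin 2) F *ᵥ v2) = 0 := by rw [← e2]; exact hv2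
  have w12 : v1 ⬝ᵥ (Matrix.J (Fin 2) F *ᵥ v2) = 1 := by
    rw [hv2d, hv1d, e5cf_isom x hx]; exact hv1
  have w23 : v2 ⬝ᵥ (Matrix.J (Fin 2) F *ᵥ v3) = 1 := by
    rw [hv3d, hv2d, e5cf_isom x hx, ← hv2d]; exact w12
  have w13 : v1 ⬝ᵥ (Matrix.J (Fin 2) F *ᵥ v3) = 0 := by
    rw [hv3d, hv1d, e5cf_isom x hx]; exact w02
  have w03 : v ⬝ᵥ (Matrix.J (Fin 2) F *ᵥ v3) = 0 := by
    have h : v ⬝ᵥ (Matrix.J (Fin 2) F *ᵥ v3) =
        (x *ᵥ (x *ᵥ v)) ⬝ᵥ (Matrix.J (Fin 2) F *ᵥ (x *ᵥ (x *ᵥ v3))) := by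
      rw [e5cf_isom x hx, e5cf_isom x hx]
    rw [h, e5, ← hv1d, ← hv2d, e5cf_skew, w02, neg_zero]
  obtain ⟨B, hB⟩ : ∃ B : Matrix (Fin 2 ⊕ Fin 2) (Fin 4) F,
      B = Matrix.of (fun n k => ![v, v1, v2, v3] k n) := ⟨_, rfl⟩
  have hB0 : (fun n => B n 0) = v := by rw [hB]; rfl
  have hB1 : (fun n => B n 1) = v1 := by rw [hB]; rfl
  have hB2 : (fun n => B n 2) = v2 := by rw [hB]; rfl
  have hB3 : (fun n => B n 3) = v3 := by rw [hB]; rfl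
  have hG : Bᵀ * Matrix.J (Fin 2) F * B = e5G F := by
    ext k l
    rw [e5cf_gram_apply]
    fin_cases k <;> fin_cases l
    · show (fun n => B n 0) ⬝ᵥ (Matrix.J (Fin 2) F *ᵥ (fun n => B n 0)) = _
      rw [hB0, e5cf_alt]; simp [e5G]
    · show (fun n => B n 0) ⬝ᵥ (Matrix.J (Fin 2) F *ᵥ (fun n => B n 1)) = _
      rw [hB0, hB1, w01]; simp [e5G]
    · show (fun n => B n 0) ⬝ᵥ (Matrix.J (Fin 2) F *ᵥ (fun n => B n 2)) = _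
      rw [hB0, hB2, w02]; simp [e5G]
    · show (fun n => B n 0) ⬝ᵥ (Matrix.J (Fin 2) F *ᵥ (fun n => B n 3)) = _
      rw [hB0, hB3, w03]; simp [e5G]
    · show (fun n => B n 1) ⬝ᵥ (Matrix.J (Fin 2) F *ᵥ (fun n => B n 0)) = _
      rw [hB0, hB1, e5cf_skew, w01]; simp [e5G]
    · show (fun n => B n 1) ⬝ᵥ (Matrix.J (Fin 2) F *ᵥ (fun n => B n 1)) = _
      rw [hB1, e5cf_alt]; simp [e5G]
    · show (fun n => B n 1) ⬝ᵥ (Matrix.J (Fin 2) F *ᵥ (fun n => B n 2)) = _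
      rw [hB1, hB2, w12]; simp [e5G]
    · show (fun n => B n 1) ⬝ᵥ (Matrix.J (Fin 2) F *ᵥ (fun n => B n 3)) = _
      rw [hB1, hB3, w13]; simp [e5G]
    · show (fun n => B n 2) ⬝ᵥ (Matrix.J (Fin 2) F *ᵥ (fun n => B n 0)) = _
      rw [hB0, hB2, e5cf_skew, w02]; simp [e5G]
    · show (fun n => B n 2) ⬝ᵥ (Matrix.J (Fin 2) F *ᵥ (fun n => B n 1)) = _
      rw [hB1, hB2, e5cf_skew, w12]; simp [e5G]
    · show (fun n => B n 2) ⬝ᵥ (Matrix.J (Fin 2) F *ᵥ (fun n => B n 2)) = _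
      rw [hB2, e5cf_alt]; simp [e5G]
    · show (fun n => B n 2) ⬝ᵥ (Matrix.J (Fin 2) F *ᵥ (fun n => B n 3)) = _
      rw [hB2, hB3, w23]; simp [e5G]
    · show (fun n => B n 3) ⬝ᵥ (Matrix.J (Fin 2) F *ᵥ (fun n => B n 0)) = _
      rw [hB0, hB3, e5cf_skew, w03]; simp [e5G]
    · show (fun n => B n 3) ⬝ᵥ (Matrix.J (Fin 2) F *ᵥ (fun n => B n 1)) = _
      rw [hB1, hB3, e5cf_skew, w13]; simp [e5G]
    · show (fun n => B n 3) ⬝ᵥ (Matrix.J (Fin 2) F *ᵥ (fun n => B n 2)) = _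
      rw [hB2, hB3, e5cf_skew, w23]; simp [e5G]
    · show (fun n => B n 3) ⬝ᵥ (Matrix.J (Fin 2) F *ᵥ (fun n => B n 3)) = _
      rw [hB3, e5cf_alt]; simp [e5G]
  have hxB : x * B = B * e5C F := by
    have hcol : ∀ k : Fin 4, (fun n => (x * B) n k) = x *ᵥ (fun n => B n k) := by
      intro k; funext n
      simp [Matrix.mul_apply, Matrix.mulVec, dotProduct]
    ext n k
    have hc : (x * B) n k = (x *ᵥ (fun n => B n k)) n := congrFun (hcol k) n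
    rw [hc]
    fin_cases k
    · show (x *ᵥ (fun n => B n 0)) n = _
      rw [hB0, ← hv1d, ← hB1]
      simp [Matrix.mul_apply, Fin.sum_univ_four, e5C]
    · show (x *ᵥ (fun n => B n 1)) n = _
      rw [hB1, ← hv2d, ← hB2]
      simp [Matrix.mul_apply, Fin.sum_univ_four, e5C]
    · show (x *ᵥ (fun n => B n 2)) n = _
      rw [hB2, ← hv3d, ← hB3]
      simp [Matrix.mul_apply, Fin.sum_univ_four, e5C]
    · show (x *ᵥ (fun n => B n 3)) n = _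
      rw [hB3, hv4, ← hB0, ← hB1, ← hB2, ← hB3]
      simp [Matrix.mul_apply, Fin.sum_univ_four, e5C]
      ring
  have hBi : (e5GI F * Bᵀ * Matrix.J (Fin 2) F) * B = 1 := by
    rw [Matrix.mul_assoc, Matrix.mul_assoc, ← Matrix.mul_assoc Bᵀ, hG, e5GI_mul]
  refine ⟨B, e5GI F * Bᵀ * Matrix.J (Fin 2) F, ?_, hBi, hxB, hG⟩
  exact (Matrix.mul_eq_one_comm_of_equiv finSumFinEquiv).mpr hBi

end cf5

end Cfsg.Agent.Helper83
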