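-- helper83: piece KF1 (double) of CALL S5666 (helper71): `kron_fix1`, with the extra hypothesis
-- `hn : 0 < n` (the statement of the skeleton is false for `n = 0`).
import Mathlib
import Cfsg.Agent.Helper71.SQMain
import Cfsg.Agent.Helper71.SGDefs

set_option autoImplicit false
set_option linter.unusedVariables false

namespace Cfsg.Agent.Helper83.SGKF1

open Matrix Cfsg.Agent.Helper71.T4 Cfsg.Agent.Helper71.SO Cfsg.Agent.Helper71.SQ
open Cfsg.Agent.Helper71.SG
open scoped Kronecker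

variable {F : Type*} [Field F] {m n : ℕ}

/-- Two vectors are linearly independent. -/
def Ind (d d₁ : Fin m → F) : Prop := ∀ x y : F, x • d + y • d₁ = 0 → x = 0 ∧ y = 0

theorem ind_of (d d₁ : Fin m → F) (hd : d ≠ 0) (h : ∀ c : F, d₁ ≠ c • d) : Ind d d₁ := by
  intro x y hxy
  have hy : y = 0 := by
    by_contra hy
    apply h (-(y⁻¹ * x))
    have h1 : y • d₁ = -(x • d) := eq_neg_of_add_eq_zero_right hxy
    calc d₁ = y⁻¹ • (y • d₁) := by rw [smul_smul, inv_mul_cancel₀ hy, one_smul]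
      _ = (-(y⁻¹ * x)) • d := by rw [h1, smul_neg, smul_smul, neg_smul]
  refine ⟨?_, hy⟩
  rw [hy, zero_smul, add_zero] at hxy
  exact (smul_eq_zero.mp hxy).resolve_right hd

theorem lin2 (u u₁ d d₁ : Fin m → F) (p p' s s' a₁ b₁ a₂ b₂ : F) (hind : Ind d d₁)
    (hΔ : a₁ * b₂ - a₂ * b₁ ≠ 0)
    (E1 : ∀ i, u i * p + u₁ i * p' = d i * a₁ + d₁ i * b₁)
    (E2 : ∀ i, u i * s + u₁ i * s' = d i * a₂ + d₁ i * b₂) :
    ∃ c₁ c₂ : F, u = c₁ • d + c₂ • d₁ := by
  by_cases hD : p * s' - p' * s = 0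
  · exfalso
    have h1 := hind (s' * a₁ - p' * a₂) (s' * b₁ - p' * b₂) (by
      funext i
      simp only [Pi.add_apply, Pi.smul_apply, smul_eq_mul, Pi.zero_apply]
      linear_combination p' * E2 i - s' * E1 i + u i * hD)
    have h2 := hind (s * a₁ - p * a₂) (s * b₁ - p * b₂) (by
      funext i
      simp only [Pi.add_apply, Pi.smul_apply, smul_eq_mul, Pi.zero_apply]
      linear_combination p * E2 i - s * E1 i - u₁ i * hD)
    obtain ⟨h1a, h1b⟩ := h1
    obtain ⟨h2a, h2b⟩ := h2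
    have hs' : s' = 0 := by
      have h3 : s' * (a₁ * b₂ - a₂ * b₁) = 0 := by linear_combination b₂ * h1a - a₂ * h1b
      exact (mul_eq_zero.mp h3).resolve_right hΔ
    have hp' : p' = 0 := by
      have h3 : p' * (a₁ * b₂ - a₂ * b₁) = 0 := by linear_combination b₁ * h1a - a₁ * h1b
      exact (mul_eq_zero.mp h3).resolve_right hΔ
    have hs : s = 0 := by
      have h3 : s * (a₁ * b₂ - a₂ * b₁) = 0 := by linear_combination b₂ * h2a - a₂ * h2b
      exact (mul_eq_zero.mp h3).resolve_right hΔ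
    have hp : p = 0 := by
      have h3 : p * (a₁ * b₂ - a₂ * b₁) = 0 := by linear_combination b₁ * h2a - a₁ * h2b
      exact (mul_eq_zero.mp h3).resolve_right hΔ
    have h3 := hind a₁ b₁ (by
      funext i
      simp only [Pi.add_apply, Pi.smul_apply, smul_eq_mul, Pi.zero_apply]
      have h4 := E1 i
      rw [hp, hp'] at h4
      linear_combination -h4)
    apply hΔ
    rw [h3.1, h3.2]
    ring
  · refine ⟨(p * s' - p' * s)⁻¹ * (s' * a₁ - p' * a₂),
      (p * s' - p' * s)⁻¹ * (s' * b₁ - p' * b₂), ?_⟩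
    funext i
    simp only [Pi.add_apply, Pi.smul_apply, smul_eq_mul]
    have h5 : u i * (p * s' - p' * s) = (s' * a₁ - p' * a₂) * d i + (s' * b₁ - p' * b₂) * d₁ i := by
      linear_combination s' * E1 i - p' * E2 i
    have h6 : u i = (p * s' - p' * s)⁻¹ * (u i * (p * s' - p' * s)) := by
      rw [mul_comm (u i), ← mul_assoc, inv_mul_cancel₀ hD, one_mul]
    rw [h6, h5]
    ring

/-- Vectors of a subspace of dimension at least three outside a given plane. -/
theorem exists_outside (hm : 4 ≤ m) (J : Matrix (Fin m) (Fin m) F) (b d d₁ : Fin m → F) :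
    ∃ d₂ : Fin m → F, bl J d₂ b = 0 ∧ ∀ c c' : F, d₂ ≠ c • d + c' • d₁ := by
  classical
  let f : (Fin m → F) →ₗ[F] F :=
    { toFun := fun x => bl J x b
      map_add' := fun x y => Cfsg.Agent.Helper11.SORT.bl_add_left J x y b
      map_smul' := fun c x => Cfsg.Agent.Helper11.SORT.bl_smul_left J c x b }
  have h1 := LinearMap.finrank_range_add_finrank_ker f
  have h2 : Module.finrank F (LinearMap.range f) ≤ 1 := by
    have h3 := Submodule.finrank_le (LinearMap.range f)
    rwa [Module.finrank_self] at h3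
  have h4 : Module.finrank F (Fin m → F) = m := by
    rw [Module.finrank_fin_fun]
  have h5 : 3 ≤ Module.finrank F (LinearMap.ker f) := by omega
  by_contra hcon
  push Not at hcon
  have hle : LinearMap.ker f ≤ Submodule.span F ({d, d₁} : Set (Fin m → F)) := by
    intro x hx
    obtain ⟨c, c', hcc⟩ := hcon x hx
    rw [Submodule.mem_span_pair]
    exact ⟨c, c', hcc.symm⟩
  have h6 := Submodule.finrank_mono hle
  have h7 : Module.finrank F (Submodule.span F ({d, d₁} : Set (Fin m → F))) ≤ 2 := by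
    have h8 : Module.finrank F (Submodule.span F
        ((({d, d₁} : Finset (Fin m → F))) : Set (Fin m → F))) ≤
        ({d, d₁} : Finset (Fin m → F)).card :=
      finrank_span_finset_le_card (R := F) ({d, d₁} : Finset (Fin m → F))
    have h9 : ({d, d₁} : Finset (Fin m → F)).card ≤ 2 := Finset.card_le_two
    have h10 : ((({d, d₁} : Finset (Fin m → F)) : Set (Fin m → F))) = ({d, d₁} : Set (Fin m → F)) := by
      simp
    rw [h10] at h8
    omega
  omega

/-- KF1 (with `0 < n`). -/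
theorem kron_fix1 (hm : 4 ≤ m) (hn : 0 < n) (h2 : (2 : F) ≠ 0) (J : Matrix (Fin m) (Fin m) F)
    (hJ : Jᵀ = -J) (hdetJ : J.det ≠ 0)
    (A : Matrix (Fin m) (Fin m) F) (B : Matrix (Fin n) (Fin n) F)
    (b : Fin m → F) (hb : b ≠ 0) (N : (Fin m × Fin n → F) → Prop)
    (hN0 : ∀ (d : Fin m → F) (z : Fin n → F), d ≠ 0 → N (pt d z) → z = 0)
    (hN1 : ∀ (v : Fin m × Fin n → F) (d : Fin m → F), d ≠ 0 →
      ∃ z' : Fin n → F, N (v + pt d z'))
    (hfix : ∀ v : Fin m × Fin n → F, N v →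
      (Tac J b 1 ⊗ₖ (1 : Matrix (Fin n) (Fin n) F)) *ᵥ v = v → (A ⊗ₖ B) *ᵥ v = v) :
    ∃ α : F, α ≠ 0 ∧ (∀ d : Fin m → F, bl J d b = 0 → A *ᵥ d = α • d) ∧
      B = α⁻¹ • (1 : Matrix (Fin n) (Fin n) F) := by
  classical
  have hbb : bl J b b = 0 := Cfsg.Agent.Helper53.SQET.et_bl_self h2 J hJ b
  -- pure tensors over `b^⊥` are fixed by the transvection
  have hfixpt : ∀ (d : Fin m → F) (z : Fin n → F), bl J d b = 0 →
      (Tac J b 1 ⊗ₖ (1 : Matrix (Fin n) (Fin n) F)) *ᵥ pt d z = pt d z := by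
    intro d z hd
    rw [kron_mulVec_pt, Cfsg.Agent.Helper53.SQET.tac_mulVec, hd, mul_zero, zero_smul, add_zero,
      Matrix.one_mulVec]
  -- the basic identity
  have stepA' : ∀ (d d₁ : Fin m → F) (z : Fin n → F), bl J d b = 0 → bl J d₁ b = 0 →
      Ind d d₁ → z ≠ 0 → ∃ z' : Fin n → F, (∀ c : F, z' ≠ c • z) ∧
        pt (A *ᵥ d) (B *ᵥ z) + pt (A *ᵥ d₁) (B *ᵥ z') = pt d z + pt d₁ z' := by
    intro d d₁ z hd hd₁ hind hz
    have hd₁0 : d₁ ≠ 0 := by
      rintro rfl
      have h1 := hind 0 1 (by simp)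
      exact one_ne_zero h1.2
    obtain ⟨z', hz'⟩ := hN1 (pt d z) d₁ hd₁0
    have hfixv := hfix _ hz' (by rw [Matrix.mulVec_add, hfixpt d z hd, hfixpt d₁ z' hd₁])
    rw [Matrix.mulVec_add, kron_mulVec_pt, kron_mulVec_pt] at hfixv
    refine ⟨z', ?_, hfixv⟩
    intro c hc
    have h1 : pt d z + pt d₁ z' = pt (d + c • d₁) z := by
      rw [hc, Cfsg.Agent.Helper96.T5.pt_add_left, Cfsg.Agent.Helper96.T5.pt_smul_left,
        Cfsg.Agent.Helper96.T5.pt_smul_right]
    rw [h1] at hz'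
    have h3 : d + c • d₁ ≠ 0 := by
      intro h4
      have h5 := hind 1 c (by rw [one_smul]; exact h4)
      exact one_ne_zero h5.1
    exact hz (hN0 _ _ h3 hz')
  obtain ⟨z₀, hz₀⟩ : ∃ z₀ : Fin n → F, z₀ ≠ 0 := by
    refine ⟨fun _ => 1, ?_⟩
    intro h1
    have h3 := congrFun h1 ⟨0, hn⟩
    simp at h3
  have stepA : ∀ d d₁ : Fin m → F, bl J d b = 0 → bl J d₁ b = 0 → Ind d d₁ →
      ∃ c₁ c₂ : F, A *ᵥ d = c₁ • d + c₂ • d₁ := by
    intro d d₁ hd hd₁ hind
    obtain ⟨z', hzz', heq⟩ := stepA' d d₁ z₀ hd hd₁ hind hz₀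
    obtain ⟨k₀, hk₀⟩ : ∃ k₀, z₀ k₀ ≠ 0 := by
      by_contra hcon
      push Not at hcon
      exact hz₀ (funext hcon)
    obtain ⟨l, hl⟩ : ∃ l, z' l ≠ (z' k₀ / z₀ k₀) * z₀ l := by
      by_contra hcon
      push Not at hcon
      exact hzz' (z' k₀ / z₀ k₀) (funext fun l => by
        rw [Pi.smul_apply, smul_eq_mul]
        exact hcon l)
    refine lin2 (A *ᵥ d) (A *ᵥ d₁) d d₁ ((B *ᵥ z₀) k₀) ((B *ᵥ z') k₀) ((B *ᵥ z₀) l)
      ((B *ᵥ z') l) (z₀ k₀) (z' k₀) (z₀ l) (z' l) hind ?_ ?_ ?_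
    · intro h1
      apply hl
      field_simp
      linear_combination h1
    · intro i
      have h1 := congrFun heq (i, k₀)
      simpa [pt] using h1
    · intro i
      have h1 := congrFun heq (i, l)
      simpa [pt] using h1
  -- `A` preserves every line of `b^⊥`
  have stepB : ∀ d : Fin m → F, bl J d b = 0 → d ≠ 0 → ∃ α : F, A *ᵥ d = α • d := by
    intro d hd hd0
    obtain ⟨d₁, hd₁, hne1⟩ := exists_outside hm J b d d
    obtain ⟨d₂, hd₂, hne2⟩ := exists_outside hm J b d d₁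
    have hind1 : Ind d d₁ := ind_of d d₁ hd0 (fun c => by
      have h1 := hne1 c 0
      rwa [zero_smul, add_zero] at h1)
    have hind2 : Ind d d₂ := ind_of d d₂ hd0 (fun c => by
      have h1 := hne2 c 0
      rwa [zero_smul, add_zero] at h1)
    obtain ⟨c₁, c₂, h1⟩ := stepA d d₁ hd hd₁ hind1
    obtain ⟨e₁, e₂, h3⟩ := stepA d d₂ hd hd₂ hind2
    have he : e₂ = 0 := by
      by_contra he
      apply hne2 ((c₁ - e₁) / e₂) (c₂ / e₂)
      have h4 : c₁ • d + c₂ • d₁ = e₁ • d + e₂ • d₂ := h1.symm.trans h3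
      funext i
      have h5 := congrFun h4 i
      simp only [Pi.add_apply, Pi.smul_apply, smul_eq_mul] at h5 ⊢
      field_simp
      linear_combination -h5
    refine ⟨e₁, ?_⟩
    rw [h3, he, zero_smul, add_zero]
  obtain ⟨α, hα⟩ := stepB b hbb hb
  have stepC : ∀ d : Fin m → F, bl J d b = 0 → A *ᵥ d = α • d := by
    intro d hd
    by_cases hdb : ∃ c : F, d = c • b
    · obtain ⟨c, rfl⟩ := hdb
      rw [Matrix.mulVec_smul, hα, smul_comm]
    · push Not at hdb
      have hind : Ind b d := ind_of b d hb hdb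
      have hd0 : d ≠ 0 := by
        intro h1
        apply hdb 0
        rw [h1, zero_smul]
      have hdb0 : d + b ≠ 0 := by
        intro h1
        have h3 := hind 1 1 (by rw [one_smul, one_smul, add_comm]; exact h1)
        exact one_ne_zero h3.1
      have hdbH : bl J (d + b) b = 0 := by
        rw [Cfsg.Agent.Helper11.SORT.bl_add_left, hd, hbb, add_zero]
      obtain ⟨αd, hαd⟩ := stepB d hd hd0
      obtain ⟨αs, hαs⟩ := stepB (d + b) hdbH hdb0
      rw [Matrix.mulVec_add, hαd, hα] at hαs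
      have h3 := hind (α - αs) (αd - αs) (by
        funext i
        have h4 := congrFun hαs i
        simp only [Pi.add_apply, Pi.smul_apply, smul_eq_mul, Pi.zero_apply] at h4 ⊢
        linear_combination h4)
      have h5 : αd = α := by
        have h6 := h3.1
        have h7 := h3.2
        linear_combination h7 - h6
      rw [hαd, h5]
  -- `α • B z = z`
  have stepD : ∀ z : Fin n → F, α • (B *ᵥ z) = z := by
    intro z
    by_cases hz : z = 0
    · rw [hz, Matrix.mulVec_zero, smul_zero]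
    · obtain ⟨d₁, hd₁, hne1⟩ := exists_outside hm J b b b
      have hind : Ind b d₁ := ind_of b d₁ hb (fun c => by
        have h1 := hne1 c 0
        rwa [zero_smul, add_zero] at h1)
      obtain ⟨z', hzz', heq⟩ := stepA' b d₁ z hbb hd₁ hind hz
      rw [hα, stepC d₁ hd₁] at heq
      funext k
      have h3 := hind (α * (B *ᵥ z) k - z k) (α * (B *ᵥ z') k - z' k) (by
        funext i
        have h4 := congrFun heq (i, k)
        simp only [pt, Pi.add_apply, Pi.smul_apply, smul_eq_mul, Pi.zero_apply] at h4 ⊢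
        linear_combination h4)
      rw [Pi.smul_apply, smul_eq_mul]
      exact sub_eq_zero.mp h3.1
  have hα0 : α ≠ 0 := by
    intro h0
    apply hz₀
    rw [← stepD z₀, h0, zero_smul]
  refine ⟨α, hα0, stepC, ?_⟩
  apply Matrix.toLin'.injective
  apply LinearMap.ext
  intro z
  rw [Matrix.toLin'_apply, Matrix.toLin'_apply, Matrix.smul_mulVec, Matrix.one_mulVec]
  calc B *ᵥ z = α⁻¹ • (α • (B *ᵥ z)) := by rw [smul_smul, inv_mul_cancel₀ hα0, one_smul]
    _ = α⁻¹ • z := by rw [stepD z]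

end Cfsg.Agent.Helper83.SGKF1
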