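import Mathlib

/-!
# S4504, piece RED (helper83, double), part a: pure group theory

`p ∥ |G|`, `x₀` of order `p`, `H` the normal closure of `x₀`: elements of order `p` are conjugate
into `⟨x₀⟩`; normal subgroups of `H` containing `x₀` are everything; `⟨x₀⟩` is not normal in `H`
unless `|H| = p`; Frattini decomposition `G = H N_G(⟨x₀⟩)`.
-/

set_option autoImplicit false

universe u

namespace Cfsg.Agent.Helper83

/-- In a finite group with `p² ∤ |G|`, any element of order `p` is conjugate into the subgroup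
generated by any other element of order `p`. -/
theorem red83_conj {G : Type u} [Group G] [Finite G] (p : ℕ) [Fact p.Prime]
    (hsq : ¬ p ^ 2 ∣ Nat.card G) (x y : G) (hx : orderOf x = p) (hy : orderOf y = p) :
    ∃ g : G, g * y * g⁻¹ ∈ Subgroup.zpowers x := by
  have hp : p.Prime := Fact.out
  have key : ∀ z : G, orderOf z = p →
      ∃ P : Sylow p G, (P : Subgroup G) = Subgroup.zpowers z := by
    intro z hz
    have hpg : IsPGroup p (Subgroup.zpowers z) := by
      apply IsPGroup.of_card (n := 1)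
      rw [Nat.card_zpowers, hz, pow_one]
    obtain ⟨P, hP⟩ := hpg.exists_le_sylow
    refine ⟨P, ?_⟩
    symm
    apply Subgroup.eq_of_le_of_card_ge hP
    rw [Nat.card_zpowers, hz]
    obtain ⟨k, hk⟩ := IsPGroup.iff_card.mp P.2
    have hdvd : p ^ k ∣ Nat.card G := by
      rw [← hk]
      exact Subgroup.card_subgroup_dvd_card _
    have hk2 : k < 2 := by
      by_contra hcon
      exact hsq ((pow_dvd_pow p (by omega)).trans hdvd)
    rw [hk]
    calc p ^ k ≤ p ^ 1 := Nat.pow_le_pow_right hp.pos (by omega)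
      _ = p := pow_one p
  obtain ⟨P, hP⟩ := key x hx
  obtain ⟨Q, hQ⟩ := key y hy
  obtain ⟨g, hg⟩ := MulAction.exists_smul_eq G Q P
  refine ⟨g, ?_⟩
  rw [← hP, ← hg, Sylow.coe_subgroup_smul]
  have h1 : g * y * g⁻¹ = MulAut.conj g • y := rfl
  rw [h1, Subgroup.smul_mem_pointwise_smul_iff, hQ]
  exact Subgroup.mem_zpowers y

section nc
variable {G : Type u} [Group G] [Finite G] (p : ℕ) [Fact p.Prime]

/-- every `G`-conjugate of `x₀` is conjugate into `⟨x₀⟩` by an element of the normal closure -/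
theorem red83_conj_in (hsq : ¬ p ^ 2 ∣ Nat.card G) (x₀ : G) (hx : orderOf x₀ = p) (g : G) :
    ∃ h : G, h ∈ Subgroup.normalClosure ({x₀} : Set G) ∧
      h * (g * x₀ * g⁻¹) * h⁻¹ ∈ Subgroup.zpowers x₀ := by
  obtain ⟨H, hH⟩ : ∃ H : Subgroup G, H = Subgroup.normalClosure ({x₀} : Set G) := ⟨_, rfl⟩
  have hHn : H.Normal := by
    rw [hH]
    exact Subgroup.normalClosure_normal
  have hxH : x₀ ∈ H := by
    rw [hH]
    exact Subgroup.subset_normalClosure (Set.mem_singleton x₀)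
  have hyH : g * x₀ * g⁻¹ ∈ H := hHn.conj_mem x₀ hxH g
  have hsqH : ¬ p ^ 2 ∣ Nat.card H :=
    fun hd => hsq (hd.trans (Subgroup.card_subgroup_dvd_card H))
  have hox : orderOf (⟨x₀, hxH⟩ : H) = p := by
    rw [Subgroup.orderOf_mk]
    exact hx
  have hoy : orderOf (⟨g * x₀ * g⁻¹, hyH⟩ : H) = p := by
    rw [Subgroup.orderOf_mk]
    have h1 : g * x₀ * g⁻¹ = (MulAut.conj g) x₀ := rfl
    rw [h1, MulEquiv.orderOf_eq]
    exact hx
  obtain ⟨h, hh⟩ := red83_conj p hsqH _ _ hox hoy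
  refine ⟨(h : G), by rw [← hH]; exact h.2, ?_⟩
  obtain ⟨k, hk⟩ := Subgroup.mem_zpowers_iff.mp hh
  rw [Subgroup.mem_zpowers_iff]
  refine ⟨k, ?_⟩
  have h2 := congrArg (Subtype.val) hk
  simpa using h2

/-- a normal subgroup of the normal closure `H` of `x₀` containing `x₀` is all of `H` -/
theorem red83_htop (hsq : ¬ p ^ 2 ∣ Nat.card G) (x₀ : G) (hx : orderOf x₀ = p)
    (H : Subgroup G) (hH : H = Subgroup.normalClosure ({x₀} : Set G)) (x : H)
    (hxx : (x : G) = x₀) (L : Subgroup H) (hL : L.Normal) (hxL : x ∈ L) : L = ⊤ := by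
  have hle : Subgroup.normalClosure ({x₀} : Set G) ≤ L.map H.subtype := by
    rw [Subgroup.normalClosure, Subgroup.closure_le]
    intro c hc
    rw [Group.mem_conjugatesOfSet_iff] at hc
    obtain ⟨b, hb, hbc⟩ := hc
    rw [Set.mem_singleton_iff] at hb
    rw [hb] at hbc
    obtain ⟨g, hg⟩ := isConj_iff.mp hbc
    obtain ⟨h, hhH, hh⟩ := red83_conj_in p hsq x₀ hx g
    rw [hg] at hh
    obtain ⟨k, hk⟩ := Subgroup.mem_zpowers_iff.mp hh
    have hhH' : h ∈ H := by
      rw [hH]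
      exact hhH
    refine ⟨(⟨h, hhH'⟩ : H)⁻¹ * x ^ k * ⟨h, hhH'⟩, ?_, ?_⟩
    · have h1 := hL.conj_mem (x ^ k) (L.zpow_mem hxL k) (⟨h, hhH'⟩ : H)⁻¹
      rw [inv_inv] at h1
      exact h1
    · show ((((⟨h, hhH'⟩ : H)⁻¹ * x ^ k * ⟨h, hhH'⟩ : H)) : G) = c
      rw [Subgroup.coe_mul, Subgroup.coe_mul, Subgroup.coe_inv, Subgroup.coe_zpow, hxx, hk]
      show h⁻¹ * (h * c * h⁻¹) * h = c
      group
  rw [eq_top_iff]
  intro h _
  have h1 : (h : G) ∈ L.map H.subtype := hle (by rw [← hH]; exact h.2)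
  obtain ⟨l, hl, hlh⟩ := Subgroup.mem_map.mp h1
  have h2 : l = h := Subtype.ext hlh
  rw [← h2]
  exact hl

/-- `⟨x⟩` is not normal in the normal closure, unless `G` has a normal subgroup of order `p` -/
theorem red83_hnn (hsq : ¬ p ^ 2 ∣ Nat.card G)
    (hnn : ∀ H : Subgroup G, H.Normal → Nat.card H ≠ p) (x₀ : G) (hx : orderOf x₀ = p)
    (H : Subgroup G) (hH : H = Subgroup.normalClosure ({x₀} : Set G)) (x : H)
    (hxx : (x : G) = x₀) : ¬ (Subgroup.zpowers x).Normal := by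
  intro hn
  have htop := red83_htop p hsq x₀ hx H hH x hxx (Subgroup.zpowers x) hn (Subgroup.mem_zpowers x)
  have hHn : H.Normal := by
    rw [hH]
    exact Subgroup.normalClosure_normal
  apply hnn H hHn
  have hox : orderOf x = p := by
    rw [← Subgroup.orderOf_coe, hxx]
    exact hx
  have h1 : Nat.card (Subgroup.zpowers x) = p := by
    rw [Nat.card_zpowers, hox]
  rw [htop, Subgroup.card_top] at h1
  exact h1

/-- Frattini: `G = H N_G(⟨x₀⟩)` -/
theorem red83_frat (hsq : ¬ p ^ 2 ∣ Nat.card G) (x₀ : G) (hx : orderOf x₀ = p)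
    (H : Subgroup G) (hH : H = Subgroup.normalClosure ({x₀} : Set G)) (g : G) :
    ∃ h ∈ H, ∃ n : G, n * x₀ * n⁻¹ ∈ Subgroup.zpowers x₀ ∧ g = h * n := by
  obtain ⟨h, hhH, hh⟩ := red83_conj_in p hsq x₀ hx g
  have hhH' : h ∈ H := by
    rw [hH]
    exact hhH
  refine ⟨h⁻¹, H.inv_mem hhH', h * g, ?_, by group⟩
  have h1 : h * g * x₀ * (h * g)⁻¹ = h * (g * x₀ * g⁻¹) * h⁻¹ := by group
  rw [h1]
  exact hh

end nc

/-- a normal subgroup not containing an element of order `p` has order prime to `p`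
(when `p² ∤ |U|`) -/
theorem red83_coprime {U : Type u} [Group U] [Finite U] (p : ℕ) [Fact p.Prime]
    (hsq : ¬ p ^ 2 ∣ Nat.card U) (x : U) (hx : orderOf x = p) (L : Subgroup U) (hL : L.Normal)
    (hxL : x ∉ L) : (Nat.card L).Coprime p := by
  have hp : p.Prime := Fact.out
  rw [Nat.coprime_comm, hp.coprime_iff_not_dvd]
  intro hdvd
  obtain ⟨y, hy⟩ := exists_prime_orderOf_dvd_card' p hdvd
  have hy' : orderOf (y : U) = p := by
    rw [Subgroup.orderOf_coe]
    exact hy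
  obtain ⟨g, hg⟩ := red83_conj p hsq (y : U) x hy' hx
  apply hxL
  have h1 : g * x * g⁻¹ ∈ L := (Subgroup.zpowers_le.mpr y.2) hg
  have h2 := hL.conj_mem _ h1 g⁻¹
  have h3 : g⁻¹ * (g * x * g⁻¹) * g⁻¹⁻¹ = x := by group
  rw [h3] at h2
  exact h2

end Cfsg.Agent.Helper83
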