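import Mathlib
import Cfsg.Prelude.Def_GeometricClasses

set_option autoImplicit false
set_option linter.unusedSectionVars false
set_option linter.style.haveILetI false

/-!
helper83: PIECE TRANS of CALL S5958 (helper90): `GL_n` is transitive on ordered
`a`-decompositions with `t` parts.
-/

namespace Cfsg.Agent.Helper83

open Module Polynomial

section
variable {F : Type*} [Field F] [Fintype F]

/-- PIECE TRANS -/
theorem mdec_trans {n t a : ℕ} (D D' : Fin t → Submodule F (Fin n → F))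
    (hD : Cfsg.Geo.IsMDecomposition a D) (hD' : Cfsg.Geo.IsMDecomposition a D') :
    ∃ g : GL (Fin n) F, ∀ j, (D j).map (Matrix.toLin' (g : Matrix (Fin n) (Fin n) F)) = D' j := by
  classical
  have hI := DirectSum.isInternal_submodule_of_iSupIndep_of_iSup_eq_top hD.indep hD.iSup_eq_top
  have hI' := DirectSum.isInternal_submodule_of_iSupIndep_of_iSup_eq_top hD'.indep
    hD'.iSup_eq_top
  obtain ⟨v, -⟩ : ∃ v : ∀ i, Basis (Fin a) F (D i), True :=
    ⟨fun i => Module.finBasisOfFinrankEq F (D i) (hD.finrank_eq i), trivial⟩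
  obtain ⟨v', -⟩ : ∃ v' : ∀ i, Basis (Fin a) F (D' i), True :=
    ⟨fun i => Module.finBasisOfFinrankEq F (D' i) (hD'.finrank_eq i), trivial⟩
  obtain ⟨b, hb⟩ : ∃ b : Basis (Σ _ : Fin t, Fin a) F (Fin n → F),
      ∀ x : (Σ _ : Fin t, Fin a), b x = (v x.1 x.2 : Fin n → F) :=
    ⟨hI.collectedBasis v, fun x => by rw [hI.collectedBasis_coe]⟩
  obtain ⟨b', hb'⟩ : ∃ b' : Basis (Σ _ : Fin t, Fin a) F (Fin n → F),
      ∀ x : (Σ _ : Fin t, Fin a), b' x = (v' x.1 x.2 : Fin n → F) :=
    ⟨hI'.collectedBasis v', fun x => by rw [hI'.collectedBasis_coe]⟩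
  obtain ⟨e, he⟩ : ∃ e : (Fin n → F) ≃ₗ[F] (Fin n → F), ∀ x, e (b x) = b' x :=
    ⟨b.equiv b' (Equiv.refl _), fun x => by rw [Basis.equiv_apply, Equiv.refl_apply]⟩
  have hAB : LinearMap.toMatrix' (e : (Fin n → F) →ₗ[F] (Fin n → F)) *
      LinearMap.toMatrix' (e.symm : (Fin n → F) →ₗ[F] (Fin n → F)) = 1 := by
    rw [← LinearMap.toMatrix'_comp, LinearEquiv.comp_coe, LinearEquiv.symm_trans_self,
      LinearEquiv.refl_toLinearMap, LinearMap.toMatrix'_id]
  have hBA : LinearMap.toMatrix' (e.symm : (Fin n → F) →ₗ[F] (Fin n → F)) *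
      LinearMap.toMatrix' (e : (Fin n → F) →ₗ[F] (Fin n → F)) = 1 := by
    rw [← LinearMap.toMatrix'_comp, LinearEquiv.comp_coe, LinearEquiv.self_trans_symm,
      LinearEquiv.refl_toLinearMap, LinearMap.toMatrix'_id]
  refine ⟨⟨_, _, hAB, hBA⟩, fun j => ?_⟩
  show (D j).map (Matrix.toLin' (LinearMap.toMatrix' (e : (Fin n → F) →ₗ[F] (Fin n → F)))) = D' j
  rw [Matrix.toLin'_toMatrix']
  apply Submodule.eq_of_le_of_finrank_eq
  · rw [Submodule.map_le_iff_le_comap]
    have hspan : D j = Submodule.span F (Set.range fun k => ((v j k : D j) : Fin n → F)) := by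
      have h1 := (v j).span_eq
      have h2 := congrArg (Submodule.map (D j).subtype) h1
      rw [Submodule.map_subtype_top, Submodule.map_span, ← Set.range_comp] at h2
      exact h2.symm
    rw [hspan, Submodule.span_le]
    rintro _ ⟨k, rfl⟩
    show e (v j k : Fin n → F) ∈ D' j
    rw [← hb ⟨j, k⟩, he, hb']
    exact (v' j k).2
  · rw [LinearEquiv.finrank_map_eq, hD.finrank_eq, hD'.finrank_eq]

end

end Cfsg.Agent.Helper83
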