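import Mathlib
import Cfsg.Agent.Helper96.C3SDefs
import Cfsg.Agent.Helper28.C3SELT
import Cfsg.Agent.Helper28.C3SCONJ
import Cfsg.Agent.Helper3.C3SBSP1
import Cfsg.Agent.Helper66.C3SBSP2
import Cfsg.Agent.Helper66.C3SCONJB
import Cfsg.Agent.Helper3.C3SINV
import Cfsg.Agent.Helper83.C3SFND

/-!
# Pieces FINB1 and FINB2 of CALL S5664 (helper96)
-/

set_option autoImplicit false

namespace Cfsg.Agent.Helper83.C3S

open Module Cfsg.Agent.Helper96.C3S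

variable {F K V : Type*} [Field F] [Field K] [Algebra F K] [AddCommGroup V] [Module F V]
  [Module K V] [IsScalarTower F K V]

/-- PIECE FINB1 -/
theorem fin_B1 [Fintype F] [Finite K] [Module.Finite K V] {φ : LinearMap.BilinForm K V}
    {P : Module.End F V → Prop} (h : Hyp φ P) (a b : V) (hab : φ a b = 1)
    (hW : InW K P (Wstar F K a b)) (ζ c : K) (hζ : Algebra.trace F K ζ = 0)
    (hc : Algebra.trace F K c = 0) : P (eF φ (ζ • a) (c • a)) := by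
  obtain ⟨e, he⟩ := trace_surj (F := F) (K := K) 1
  obtain ⟨B, hP1, hP2, hB1, hB2, hB3, hB4⟩ :=
    Cfsg.Agent.Helper3.C3S.bsp1 h a b hab hW e ζ he hζ
  obtain ⟨hBa, hBv, -, hBb⟩ :=
    Cfsg.Agent.Helper66.C3S.bsp2 φ h.alt a b hab e ζ he hζ B hB1 hB2 hB3 hB4
  have hconj := Cfsg.Agent.Helper66.C3S.conj_B φ h.alt a b hab ζ c hζ hc B hBa hBv hBb
  rw [← hconj]
  have hk1 : P ((kT φ a c).restrictScalars F) :=
    h.lin _ (Cfsg.Agent.Helper28.C3S.kT_iso φ h.alt a c)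
  have hk2 : P ((kT φ a (-c)).restrictScalars F) :=
    h.lin _ (Cfsg.Agent.Helper28.C3S.kT_iso φ h.alt a (-c))
  exact h.grp.mul _ _ hP1 (h.grp.mul _ _ (h.grp.mul _ _ hk1 hP2) hk2)

/-- PIECE FINB2 (torus) -/
theorem fin_B2 [Fintype F] [Finite K] [Module.Finite K V] {φ : LinearMap.BilinForm K V}
    {P : Module.End F V → Prop} (h : Hyp φ P) (h3 : 3 ≤ finrank F K) (a b : V) (hab : φ a b = 1)
    (hE : ∀ ζ c : K, Algebra.trace F K ζ = 0 → Algebra.trace F K c = 0 →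
      P (eF φ (ζ • a) (c • a))) (k₁ k₂ : K) : P (eF φ (k₁ • a) (k₂ • a)) := by
  obtain ⟨μ, hμ0, hμ1, hμ2⟩ := exists_common_hyperplane (F := F) h3 k₁ k₂
  have hPe := hE (μ * k₁) (μ * k₂) hμ1 hμ2
  have hg : P ((kH φ a b μ⁻¹).restrictScalars F) :=
    h.lin _ (Cfsg.Agent.Helper28.C3S.kH_iso φ h.alt a b hab μ⁻¹ (inv_ne_zero hμ0))
  obtain ⟨g', hgg', hg'g, hPg'⟩ := Cfsg.Agent.Helper3.C3S.p_inv h _ hg
  have hconj := Cfsg.Agent.Helper28.C3S.eF_conj φ ((kH φ a b μ⁻¹).restrictScalars F) g' hgg' hg'g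
    (h.iso _ hg) ((μ * k₁) • a) ((μ * k₂) • a)
  have hga : (kH φ a b μ⁻¹) a = μ⁻¹ • a := by
    rw [kH_apply, hab, h.alt a, mul_one, mul_zero, zero_smul, sub_zero, sub_smul, one_smul]
    abel
  have hg1 : ((kH φ a b μ⁻¹).restrictScalars F) ((μ * k₁) • a) = k₁ • a := by
    rw [LinearMap.restrictScalars_apply, map_smul, hga, smul_smul, mul_assoc, mul_comm k₁,
      ← mul_assoc, mul_inv_cancel₀ hμ0, one_mul]
  have hg2 : ((kH φ a b μ⁻¹).restrictScalars F) ((μ * k₂) • a) = k₂ • a := by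
    rw [LinearMap.restrictScalars_apply, map_smul, hga, smul_smul, mul_assoc, mul_comm k₂,
      ← mul_assoc, mul_inv_cancel₀ hμ0, one_mul]
  rw [hg1, hg2] at hconj
  rw [← hconj]
  exact h.grp.mul _ _ (h.grp.mul _ _ hg hPe) hPg'

end Cfsg.Agent.Helper83.C3S
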