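import Mathlib
import Cfsg.Prelude.Def_RootSubgroups
import Cfsg.Agent.Helper83.RankOne
import Cfsg.Agent.Helper83.RankOneGroup

set_option autoImplicit false
set_option maxHeartbeats 400000

namespace Cfsg.Agent.Helper83

open Cfsg
open scoped commutatorElement

variable {G : Type*} [Group G]

/-! ### General helpers -/

theorem comm_of_isMulCommutative {A : Subgroup G} (h : IsMulCommutative A) {a a' : G}
    (ha : a ∈ A) (ha' : a' ∈ A) : a * a' = a' * a := by
  have := h.is_comm.comm ⟨a, ha⟩ ⟨a', ha'⟩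
  exact congrArg Subtype.val this

theorem commute_of_commutator_eq_bot {A B : Subgroup G} (h : ⁅A, B⁆ = ⊥) {a b : G} (ha : a ∈ A)
    (hb : b ∈ B) : a * b = b * a := by
  have := Subgroup.commutator_mem_commutator ha hb
  rw [h, Subgroup.mem_bot, commutatorElement_def] at this
  calc a * b = (a * b * a⁻¹ * b⁻¹) * b * a := by group
    _ = b * a := by rw [this, one_mul]

theorem commutator_eq_bot_of_commute {A B : Subgroup G} (h : ∀ a ∈ A, ∀ b ∈ B, a * b = b * a) :
    ⁅A, B⁆ = ⊥ := by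
  rw [eq_bot_iff, Subgroup.commutator_le]
  intro a ha b hb
  rw [Subgroup.mem_bot, commutatorElement_def, h a ha b hb]
  group

theorem conjBy_le_of_mem {A U : Subgroup G} (hA : A ≤ U) {x : G} (hx : x ∈ U) : conjBy A x ≤ U := by
  have := conjBy_mono hA x
  rwa [conjBy_of_mem hx] at this

/-- If `A` and `C` commute elementwise, every element of `A ⊔ C` is a product `a * c`. -/
theorem exists_mul_of_mem_sup {A C : Subgroup G} (hc : ∀ a ∈ A, ∀ c ∈ C, a * c = c * a) :
    ∀ x ∈ A ⊔ C, ∃ a ∈ A, ∃ c ∈ C, x = a * c := by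
  apply sup_induction
  · intro a ha; exact ⟨a, ha, 1, C.one_mem, by simp⟩
  · intro c hc'; exact ⟨1, A.one_mem, c, hc', by simp⟩
  · exact ⟨1, A.one_mem, 1, C.one_mem, by simp⟩
  · rintro x y ⟨a, ha, c, hc', rfl⟩ ⟨a', ha', c', hc'', rfl⟩
    refine ⟨a * a', A.mul_mem ha ha', c * c', C.mul_mem hc' hc'', ?_⟩
    calc a * c * (a' * c') = a * (c * a') * c' := by group
      _ = a * (a' * c) * c' := by rw [hc a' ha' c hc']
      _ = a * a' * (c * c') := by group

/-- Induction over the join of a family of subgroups indexed by a set. -/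
theorem biSup_induction {S : Set (Subgroup G)} {Q : G → Prop} (hmem : ∀ A ∈ S, ∀ x ∈ A, Q x)
    (h1 : Q 1) (hmul : ∀ x y, Q x → Q y → Q (x * y)) : ∀ x ∈ ⨆ A ∈ S, A, Q x := by
  intro x hx
  refine Subgroup.iSup_induction (fun A : Subgroup G => ⨆ (_ : A ∈ S), A) (C := Q) hx ?_ h1 hmul
  intro A y hy
  refine Subgroup.iSup_induction (fun _ : A ∈ S => A) (C := Q) hy ?_ h1 hmul
  intro hA z hz
  exact hmem A hA z hz

/-! ### More on rank one pairs -/

theorem RO.not_commute {A B : Subgroup G} (h : IsRankOnePair A B) {a b : G} (ha : a ∈ A)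
    (ha1 : a ≠ 1) (hb : b ∈ B) (hb1 : b ≠ 1) : a * b ≠ b * a := by
  intro hab
  have hC : conjBy A b ∈ unipotentSubgroups A B :=
    conj_mem_unipotent (RO.A_mem_unipotent h) (Subgroup.mem_sup_right hb)
  have hfix : conjBy (conjBy A b) a = conjBy A b := by
    rw [conjBy_conjBy, hab, ← conjBy_conjBy, conjBy_of_mem ha]
  by_cases hAb : conjBy A b = A
  · exact hb1 (RO.eq_one_of_normalizes (RankOnePair_symm h) hb hAb)
  · exact ha1 (RO.eq_one_of_fixes h (RO.A_mem_unipotent h) hC (Ne.symm hAb) ha hfix)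

theorem RO.inf_eq_bot {A B : Subgroup G} (h : IsRankOnePair A B) : A ⊓ B = ⊥ := by
  rw [eq_bot_iff]
  rintro x ⟨hxA, hxB⟩
  rw [Subgroup.mem_bot]
  by_contra hx1
  exact RO.not_commute h hxA hx1 hxB hx1 rfl

theorem RO.commutator_ne_bot {A B : Subgroup G} (h : IsRankOnePair A B) : ⁅A, B⁆ ≠ ⊥ := by
  intro hbot
  obtain ⟨a, ha, ha1⟩ := RO.exists_ne_one_left h
  obtain ⟨b, hb, hb1⟩ := RO.exists_ne_one_right h
  exact RO.not_commute h ha ha1 hb hb1 (commute_of_commutator_eq_bot hbot ha hb)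

theorem RO.central_of_action_commutes' {A B : Subgroup G} (h : IsRankOnePair A B) {z : G}
    (hz : z ∈ A ⊔ B)
    (hc : ∀ x ∈ A ⊔ B, conjBy (conjBy A z) x = conjBy (conjBy A x) z) :
    z ∈ Subgroup.centralizer ((A ⊔ B : Subgroup G) : Set G) := by
  have hA : conjBy A z = A := by
    by_contra hne
    have hC : conjBy A z ∈ unipotentSubgroups A B := conj_mem_unipotent (RO.A_mem_unipotent h) hz
    obtain ⟨a, ha, ha1⟩ := RO.exists_ne_one_left h
    apply ha1
    apply RO.eq_one_of_fixes h (RO.A_mem_unipotent h) hC (Ne.symm hne) ha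
    rw [hc a (Subgroup.mem_sup_left ha), conjBy_of_mem ha]
  apply RO.mem_centralizer_of_normalizes h
  rintro C ⟨x, hx, rfl⟩
  rw [← hc x hx, hA]

/-- No non-identity element of `A` has all its commutators with `⟨A, B⟩` central in `⟨A, B⟩`. -/
theorem RO.no_central_commutators {A B : Subgroup G} (h : IsRankOnePair A B) {z : G} (hz : z ∈ A)
    (hz1 : z ≠ 1) :
    ¬ ∀ x ∈ A ⊔ B, ⁅x, z⁆ ∈ Subgroup.centralizer ((A ⊔ B : Subgroup G) : Set G) := by
  intro hc
  have hcent := RO.central_of_action_commutes' h (Subgroup.mem_sup_left hz) (by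
    intro x hx
    rw [conjBy_conjBy, conjBy_conjBy]
    have h1 : x * z = ⁅x, z⁆ * (z * x) := by rw [commutatorElement_def]; group
    rw [h1, ← conjBy_conjBy]
    apply conjBy_of_commute
    intro y hy
    have hy' : y ∈ A ⊔ B :=
      conjBy_le_of_mem le_sup_left (mul_mem (Subgroup.mem_sup_left hz) hx) hy
    exact (Subgroup.mem_centralizer_iff.mp (hc x hx) y hy').symm)
  apply RO.not_commute_all h hz hz1
  intro b hb
  exact (Subgroup.mem_centralizer_iff.mp hcent b (Subgroup.mem_sup_right hb)).symm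

/-! ### The commutator case -/

/-- Working form of the commutator case. -/
structure CC (S : Set (Subgroup G)) (A B : Subgroup G) : Prop where
  mem : ⁅A, B⁆ ∈ S
  central : ∀ c ∈ ⁅A, B⁆, ∀ x ∈ A ⊔ B, c * x = x * c
  surj_left : ∀ a ∈ A, a ≠ 1 → ∀ c ∈ ⁅A, B⁆, ∃ b ∈ B, ⁅a, b⁆ = c
  surj_right : ∀ b ∈ B, b ≠ 1 → ∀ c ∈ ⁅A, B⁆, ∃ a ∈ A, ⁅a, b⁆ = c

theorem comm_mul_right {A B : Subgroup G}
    (hc : ∀ c ∈ ⁅A, B⁆, ∀ x ∈ A ⊔ B, c * x = x * c) {a b b' : G} (ha : a ∈ A) (hb : b ∈ B)
    (hb' : b' ∈ B) : ⁅a, b * b'⁆ = ⁅a, b⁆ * ⁅a, b'⁆ := by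
  have h1 := hc _ (Subgroup.commutator_mem_commutator ha hb') b (Subgroup.mem_sup_right hb)
  rw [commutatorElement_def] at h1 ⊢
  rw [commutatorElement_def, commutatorElement_def]
  calc a * (b * b') * a⁻¹ * (b * b')⁻¹ = a * b * a⁻¹ * b⁻¹ * (b * (a * b' * a⁻¹ * b'⁻¹)) * b⁻¹ := by
        group
    _ = a * b * a⁻¹ * b⁻¹ * ((a * b' * a⁻¹ * b'⁻¹) * b) * b⁻¹ := by rw [h1]
    _ = a * b * a⁻¹ * b⁻¹ * (a * b' * a⁻¹ * b'⁻¹) := by group

theorem commElem_mem_sup {A B : Subgroup G} {a b : G} (ha : a ∈ A) (hb : b ∈ B) :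
    ⁅a, b⁆ ∈ A ⊔ B := by
  rw [commutatorElement_def]
  exact mul_mem (mul_mem (mul_mem (Subgroup.mem_sup_left ha) (Subgroup.mem_sup_right hb))
    (inv_mem (Subgroup.mem_sup_left ha))) (inv_mem (Subgroup.mem_sup_right hb))

theorem commutator_le_sup (A B : Subgroup G) : ⁅A, B⁆ ≤ A ⊔ B :=
  Subgroup.commutator_le.mpr fun _ ha _ hb => commElem_mem_sup ha hb

theorem comm_mul_left {A B : Subgroup G}
    (hc : ∀ c ∈ ⁅A, B⁆, ∀ x ∈ A ⊔ B, c * x = x * c) {a a' b : G} (ha : a ∈ A) (ha' : a' ∈ A)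
    (hb : b ∈ B) : ⁅a * a', b⁆ = ⁅a, b⁆ * ⁅a', b⁆ := by
  have h1 := hc _ (Subgroup.commutator_mem_commutator ha' hb) a (Subgroup.mem_sup_left ha)
  have h2 := hc _ (Subgroup.commutator_mem_commutator ha' hb) _ (commElem_mem_sup ha hb)
  rw [commutatorElement_def] at h1
  rw [commutatorElement_def, commutatorElement_def] at h2
  rw [commutatorElement_def, commutatorElement_def, commutatorElement_def]
  calc a * a' * b * (a * a')⁻¹ * b⁻¹ = (a * (a' * b * a'⁻¹ * b⁻¹)) * (b * a⁻¹ * b⁻¹) := by group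
    _ = ((a' * b * a'⁻¹ * b⁻¹) * a) * (b * a⁻¹ * b⁻¹) := by rw [h1]
    _ = (a' * b * a'⁻¹ * b⁻¹) * (a * b * a⁻¹ * b⁻¹) := by group
    _ = a * b * a⁻¹ * b⁻¹ * (a' * b * a'⁻¹ * b⁻¹) := h2

theorem commElem_one_right (a : G) : ⁅a, (1 : G)⁆ = 1 := by
  rw [commutatorElement_def]; group

theorem commElem_one_left (b : G) : ⁅(1 : G), b⁆ = 1 := by
  rw [commutatorElement_def]; group

theorem comm_inv_right {A B : Subgroup G}
    (hc : ∀ c ∈ ⁅A, B⁆, ∀ x ∈ A ⊔ B, c * x = x * c) {a b : G} (ha : a ∈ A) (hb : b ∈ B) :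
    ⁅a, b⁻¹⁆ = ⁅a, b⁆⁻¹ := by
  have h := comm_mul_right hc ha hb (B.inv_mem hb)
  rw [mul_inv_cancel, commElem_one_right] at h
  exact eq_inv_of_mul_eq_one_right h.symm

theorem comm_inv_left {A B : Subgroup G}
    (hc : ∀ c ∈ ⁅A, B⁆, ∀ x ∈ A ⊔ B, c * x = x * c) {a b : G} (ha : a ∈ A) (hb : b ∈ B) :
    ⁅a⁻¹, b⁆ = ⁅a, b⁆⁻¹ := by
  have h := comm_mul_left hc ha (A.inv_mem ha) hb
  rw [mul_inv_cancel, commElem_one_left] at h
  exact eq_inv_of_mul_eq_one_right h.symm

theorem CC.of {S : Set (Subgroup G)} {A B : Subgroup G} (h : RootCommutatorCase S A B) :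
    CC S A B := by
  obtain ⟨hmem, hcen, hl, hr⟩ := h
  refine ⟨hmem, hcen, ?_, ?_⟩
  · intro a ha ha1 c hc
    let T : Subgroup G :=
      { carrier := {c | ∃ b ∈ B, ⁅a, b⁆ = c}
        mul_mem' := by
          rintro x y ⟨b, hb, rfl⟩ ⟨b', hb', rfl⟩
          exact ⟨b * b', B.mul_mem hb hb', comm_mul_right hcen ha hb hb'⟩
        one_mem' := ⟨1, B.one_mem, commElem_one_right a⟩
        inv_mem' := by
          rintro x ⟨b, hb, rfl⟩
          exact ⟨b⁻¹, B.inv_mem hb, comm_inv_right hcen ha hb⟩ }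
    have hle : ⁅A, B⁆ ≤ T := by
      rw [← hl a ha ha1, Subgroup.closure_le]
      rintro x ⟨b, hb, rfl⟩
      exact ⟨b, hb, by rw [commutatorElement_def]⟩
    exact hle hc
  · intro b hb hb1 c hc
    let T : Subgroup G :=
      { carrier := {c | ∃ a ∈ A, ⁅a, b⁆ = c}
        mul_mem' := by
          rintro x y ⟨a, ha, rfl⟩ ⟨a', ha', rfl⟩
          exact ⟨a * a', A.mul_mem ha ha', comm_mul_left hcen ha ha' hb⟩
        one_mem' := ⟨1, A.one_mem, commElem_one_left b⟩
        inv_mem' := by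
          rintro x ⟨a, ha, rfl⟩
          exact ⟨a⁻¹, A.inv_mem ha, comm_inv_left hcen ha hb⟩ }
    have hle : ⁅A, B⁆ ≤ T := by
      rw [← hr b hb hb1, Subgroup.closure_le]
      rintro x ⟨a, ha, rfl⟩
      exact ⟨a, ha, by rw [commutatorElement_def]⟩
    exact hle hc

theorem CC.symm {S : Set (Subgroup G)} {A B : Subgroup G} (h : CC S A B) : CC S B A := by
  have e : ⁅B, A⁆ = ⁅A, B⁆ := Subgroup.commutator_comm B A
  refine ⟨by rw [e]; exact h.mem, ?_, ?_, ?_⟩
  · intro c hc x hx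
    rw [e] at hc
    rw [sup_comm] at hx
    exact h.central c hc x hx
  · intro b hb hb1 c hc
    rw [e] at hc
    obtain ⟨a, ha, hac⟩ := h.surj_right b hb hb1 c⁻¹ (inv_mem hc)
    refine ⟨a, ha, ?_⟩
    rw [← commutatorElement_inv, hac, inv_inv]
  · intro a ha ha1 c hc
    rw [e] at hc
    obtain ⟨b, hb, hbc⟩ := h.surj_left a ha ha1 c⁻¹ (inv_mem hc)
    refine ⟨b, hb, ?_⟩
    rw [← commutatorElement_inv, hbc, inv_inv]

theorem CC.conj_le_right {S : Set (Subgroup G)} {A B : Subgroup G} (_h : CC S A B) {a : G}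
    (ha : a ∈ A) : conjBy B a ≤ B ⊔ ⁅A, B⁆ := by
  intro y hy
  rw [mem_conjBy] at hy
  have : y = ⁅a, a⁻¹ * y * a⁆ * (a⁻¹ * y * a) := by rw [commutatorElement_def]; group
  rw [this]
  exact mul_mem (Subgroup.mem_sup_right (Subgroup.commutator_mem_commutator ha hy))
    (Subgroup.mem_sup_left hy)

theorem CC.conj_le_left {S : Set (Subgroup G)} {A B : Subgroup G} (_h : CC S A B) {b : G}
    (hb : b ∈ B) : conjBy A b ≤ A ⊔ ⁅A, B⁆ := by
  intro y hy
  rw [mem_conjBy] at hy
  have : y = (⁅b⁻¹ * y * b, b⁆)⁻¹ * (b⁻¹ * y * b) := by rw [commutatorElement_def]; group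
  rw [this]
  exact mul_mem (Subgroup.mem_sup_right (inv_mem (Subgroup.commutator_mem_commutator hy hb)))
    (Subgroup.mem_sup_left hy)

theorem CC.commute_sup_right {S : Set (Subgroup G)} {A B : Subgroup G} (h : CC S A B)
    (hB : IsMulCommutative B) : ∀ y ∈ B ⊔ ⁅A, B⁆, ∀ b ∈ B, y * b = b * y := by
  intro y hy b hb
  revert y
  apply sup_induction
  · intro y hy; exact comm_of_isMulCommutative hB hy hb
  · intro y hy; exact h.central y hy b (Subgroup.mem_sup_right hb)
  · simp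
  · intro y z hy hz
    rw [mul_assoc, hz, ← mul_assoc, hy, mul_assoc]

theorem CC.commute_sup_left {S : Set (Subgroup G)} {A B : Subgroup G} (h : CC S A B)
    (hA : IsMulCommutative A) : ∀ y ∈ A ⊔ ⁅A, B⁆, ∀ a ∈ A, y * a = a * y := by
  intro y hy a ha
  revert y
  apply sup_induction
  · intro y hy; exact comm_of_isMulCommutative hA hy ha
  · intro y hy; exact h.central y hy a (Subgroup.mem_sup_left ha)
  · simp
  · intro y z hy hz
    rw [mul_assoc, hz, ← mul_assoc, hy, mul_assoc]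

/-- If `g` normalizes `B` and `g A g⁻¹` lies in a subgroup commuting elementwise with `B`, then `A`
commutes elementwise with `B`. -/
theorem commute_of_conjBy_le {A B U : Subgroup G} {g : G} (hg : conjBy B g = B)
    (hle : conjBy A g ≤ U) (hU : ∀ y ∈ U, ∀ b ∈ B, y * b = b * y) :
    ∀ a ∈ A, ∀ b ∈ B, a * b = b * a := by
  intro a ha b hb
  have h1 : g * a * g⁻¹ ∈ U := hle (conj_mem_conjBy ha)
  have h2 : g * b * g⁻¹ ∈ B := by
    have := conj_mem_conjBy (g := g) hb
    rwa [hg] at this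
  have h3 := hU _ h1 _ h2
  calc a * b = g⁻¹ * ((g * a * g⁻¹) * (g * b * g⁻¹)) * g := by group
    _ = g⁻¹ * ((g * b * g⁻¹) * (g * a * g⁻¹)) * g := by rw [h3]
    _ = b * a := by group

theorem commElem_mul_left' (x y z : G) : ⁅x * y, z⁆ = x * ⁅y, z⁆ * x⁻¹ * ⁅x, z⁆ := by
  simp only [commutatorElement_def]; group

/-- If the commutators of `z` with `P` and with `Q` centralize `U ≥ P ⊔ Q`, so do the commutators
of `z` with `P ⊔ Q`. -/
theorem comm_central_induction {U P Q : Subgroup G} {z : G}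
    (hP : ∀ x ∈ P, ⁅x, z⁆ ∈ Subgroup.centralizer (U : Set G))
    (hQ : ∀ x ∈ Q, ⁅x, z⁆ ∈ Subgroup.centralizer (U : Set G)) (hle : P ⊔ Q ≤ U) :
    ∀ x ∈ P ⊔ Q, ⁅x, z⁆ ∈ Subgroup.centralizer (U : Set G) := by
  have key : ∀ x ∈ P ⊔ Q, x ∈ U ∧ ⁅x, z⁆ ∈ Subgroup.centralizer (U : Set G) := by
    apply sup_induction
    · intro x hx; exact ⟨hle (Subgroup.mem_sup_left hx), hP x hx⟩
    · intro x hx; exact ⟨hle (Subgroup.mem_sup_right hx), hQ x hx⟩
    · refine ⟨U.one_mem, ?_⟩
      rw [commElem_one_left]; exact Subgroup.one_mem _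
    · rintro x y ⟨hxU, hx⟩ ⟨hyU, hy⟩
      refine ⟨U.mul_mem hxU hyU, ?_⟩
      rw [commElem_mul_left']
      have h1 : x * ⁅y, z⁆ * x⁻¹ = ⁅y, z⁆ := by
        have := Subgroup.mem_centralizer_iff.mp hy x hxU
        rw [this]; group
      rw [h1]
      exact mul_mem hy hx
  exact fun x hx => (key x hx).2

/-! ### Sets of abstract root subgroups -/

/-- If `⁅A, B⁆` is a member of `S`, then `(A, B)` is not a rank one pair. -/
theorem not_rankOne_of_commutator_mem {S : Set (Subgroup G)} (hS : IsRootSubgroupSet S)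
    {A B : Subgroup G} (hA : A ∈ S) (hC : ⁅A, B⁆ ∈ S) : ¬ IsRankOnePair A B := by
  intro h
  have hCle : ⁅A, B⁆ ≤ A ⊔ B := commutator_le_sup A B
  have hCn : ∀ x ∈ A ⊔ B, conjBy ⁅A, B⁆ x = ⁅A, B⁆ := by
    intro x hx
    have hN : A ⊔ B ≤ Subgroup.normalizer ((⁅A, B⁆ : Subgroup G) : Set G) :=
      sup_le (Subgroup.normalizer_commutator_ge_left A B) (Subgroup.normalizer_commutator_ge_right A B)
    exact Subgroup.mem_normalizer_iff_map_conj_eq.mp (hN hx)
  obtain ⟨z, hz, hz1⟩ := RO.exists_ne_one_left h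
  apply RO.no_central_commutators h hz hz1
  have hAab := hS.commutative A hA
  rcases RO.normal_dichotomy h _ hCle hCn with h1 | h1
  · rcases hS.pair _ hC A hA with p | p | p
    · intro x hx
      have : ⁅x, z⁆ = 1 := by
        have hx' : x ∈ ⁅A, B⁆ ⊔ A := h1 hx
        have hcomm : ∀ x ∈ ⁅A, B⁆ ⊔ A, x * z = z * x := by
          apply sup_induction
          · intro c hc; exact commute_of_commutator_eq_bot p hc hz
          · intro a ha; exact comm_of_isMulCommutative hAab ha hz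
          · simp
          · intro y w hy hw
            rw [mul_assoc, hw, ← mul_assoc, hy, mul_assoc]
        rw [commutatorElement_def, hcomm x hx']; group
      rw [this]; exact Subgroup.one_mem _
    · exfalso
      exact hz1 (RO.eq_one_of_normalizes (RankOnePair_symm p) hz (hCn z (Subgroup.mem_sup_left hz)))
    · have p' := CC.of p
      have step : ∀ x ∈ ⁅A, B⁆ ⊔ A,
          ⁅x, z⁆ ∈ Subgroup.centralizer ((⁅A, B⁆ ⊔ A : Subgroup G) : Set G) := by
        apply comm_central_induction _ _ le_rfl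
        · intro c hc
          rw [Subgroup.mem_centralizer_iff]
          intro y hy
          exact (p'.central _ (Subgroup.commutator_mem_commutator hc hz) y hy).symm
        · intro a ha
          have : ⁅a, z⁆ = 1 := by
            rw [commutatorElement_def, comm_of_isMulCommutative hAab ha hz]; group
          rw [this]; exact Subgroup.one_mem _
      intro x hx
      exact Subgroup.centralizer_le (SetLike.coe_subset_coe.mpr h1) (step x (h1 hx))
  · apply comm_central_induction _ _ le_rfl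
    · intro a ha
      have : ⁅a, z⁆ = 1 := by
        rw [commutatorElement_def, comm_of_isMulCommutative hAab ha hz]; group
      rw [this]; exact Subgroup.one_mem _
    · intro b hb
      apply h1
      rw [Subgroup.commutator_comm]
      exact Subgroup.commutator_mem_commutator hb hz

/-- A member of `S` with a rank one partner meets every other member trivially. -/
theorem inf_eq_bot_or_eq {S : Set (Subgroup G)} (hS : IsRootSubgroupSet S) {A B C : Subgroup G}
    (hB : B ∈ S) (h : IsRankOnePair A B) (hC : C ∈ S) : A ⊓ C = ⊥ ∨ A = C := by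
  by_contra hcon
  push Not at hcon
  obtain ⟨hne, hAC⟩ := hcon
  obtain ⟨⟨x, hxA, hxC⟩, hx1⟩ := Subgroup.ne_bot_iff_exists_ne_one.mp hne
  have hx1 : x ≠ 1 := fun e => hx1 (Subtype.ext e)
  obtain ⟨b, hb, -, e⟩ := h.cond_left x hxA hx1
  rcases hS.pair C hC B hB with p | p | p
  · exact RO.not_commute_all h hxA hx1 (fun b hb => commute_of_commutator_eq_bot p hxC hb)
  · obtain ⟨b', hb', -, e'⟩ := p.cond_left x hxC hx1
    have hCeq : C = conjBy A (b' * b⁻¹) := by
      rw [← conjBy_conjBy, e, ← e', conjBy_conjBy]; simp [conjBy_one]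
    have hCΩ : C ∈ unipotentSubgroups A B :=
      ⟨b' * b⁻¹, mul_mem (Subgroup.mem_sup_right hb') (inv_mem (Subgroup.mem_sup_right hb)), hCeq⟩
    exact hx1 (RO.eq_one_of_fixes h (RO.A_mem_unipotent h) hCΩ hAC hxA (conjBy_of_mem hxC))
  · have p' := CC.of p
    have hle : conjBy A b⁻¹ ≤ B ⊔ ⁅C, B⁆ := by
      rw [e]; exact p'.conj_le_right (inv_mem hxC)
    have hcomm := commute_of_conjBy_le (conjBy_of_mem (B.inv_mem hb)) hle
      (p'.commute_sup_right (hS.commutative B hB))
    exact RO.not_commute_all h hxA hx1 (hcomm x hxA)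

/-- If `z ≠ 1` centralizes the rank one group `⟨A, B⟩`, no product `z a` with `1 ≠ a ∈ A` is a
non-identity element of a member of `S`. -/
theorem no_root_elem {S : Set (Subgroup G)} (hS : IsRootSubgroupSet S) {A B : Subgroup G}
    (hB : B ∈ S) (h : IsRankOnePair A B) {z : G}
    (hz : z ∈ Subgroup.centralizer ((A ⊔ B : Subgroup G) : Set G)) (hz1 : z ≠ 1) {a : G}
    (ha : a ∈ A) (ha1 : a ≠ 1) : z * a ∉ rootElements S := by
  rintro ⟨hne, C, hC, hyC⟩
  have hzc : ∀ x ∈ A ⊔ B, z * x = x * z := fun x hx =>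
    (Subgroup.mem_centralizer_iff.mp hz x hx).symm
  have hzc' : ∀ x ∈ A ⊔ B, z⁻¹ * x = x * z⁻¹ := by
    intro x hx
    have := hzc x hx
    calc z⁻¹ * x = z⁻¹ * (x * z) * z⁻¹ := by group
      _ = z⁻¹ * (z * x) * z⁻¹ := by rw [this]
      _ = x * z⁻¹ := by group
  have hBy : conjBy B (z * a)⁻¹ = conjBy B a⁻¹ := by
    rw [mul_inv_rev, ← conjBy_conjBy,
      conjBy_of_commute (fun b hb => hzc' b (Subgroup.mem_sup_right hb))]
  obtain ⟨b, hb, -, e⟩ := h.cond_left a ha ha1
  rcases hS.pair C hC B hB with p | p | p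
  · apply RO.not_commute_all h ha ha1
    intro b hb
    have h1 := commute_of_commutator_eq_bot p hyC hb
    have h2 := hzc' b (Subgroup.mem_sup_right hb)
    calc a * b = z⁻¹ * (z * a * b) := by group
      _ = z⁻¹ * (b * (z * a)) := by rw [h1]
      _ = (z⁻¹ * b) * (z * a) := by group
      _ = b * z⁻¹ * (z * a) := by rw [h2]
      _ = b * a := by group
  · obtain ⟨b', hb', -, e'⟩ := p.cond_left (z * a) hyC hne
    rw [hBy] at e'
    have hCeq : C = conjBy A (b' * b⁻¹) := by
      rw [← conjBy_conjBy, e, ← e', conjBy_conjBy]; simp [conjBy_one]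
    have hmem : b' * b⁻¹ ∈ A ⊔ B :=
      mul_mem (Subgroup.mem_sup_right hb') (inv_mem (Subgroup.mem_sup_right hb))
    have hCΩ : C ∈ unipotentSubgroups A B := ⟨b' * b⁻¹, hmem, hCeq⟩
    by_cases hCA : C = A
    · have hzA : z ∈ A := by
        have : z = (z * a) * a⁻¹ := by group
        rw [this]
        exact A.mul_mem (hCA ▸ hyC) (A.inv_mem ha)
      exact RO.not_commute_all h hzA hz1 (fun b hb => hzc b (Subgroup.mem_sup_right hb))
    · apply ha1
      apply RO.eq_one_of_fixes h (RO.A_mem_unipotent h) hCΩ (Ne.symm hCA) ha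
      have hCle : C ≤ A ⊔ B := by
        rw [hCeq]; exact conjBy_le_of_mem le_sup_left hmem
      have : a = z⁻¹ * (z * a) := by group
      rw [this, ← conjBy_conjBy, conjBy_of_mem hyC]
      exact conjBy_of_commute (fun c hc => hzc' c (hCle hc))
  · have p' := CC.of p
    have hle : conjBy A b⁻¹ ≤ B ⊔ ⁅C, B⁆ := by
      rw [e, ← hBy]; exact p'.conj_le_right (inv_mem hyC)
    have hcomm := commute_of_conjBy_le (conjBy_of_mem (B.inv_mem hb)) hle
      (p'.commute_sup_right (hS.commutative B hB))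
    exact RO.not_commute_all h ha ha1 (hcomm a ha)

/-- A member `A` of `S` with a rank one partner `B`, such that `⟨A, B⟩` lies in the rank one
group `⟨C, D⟩` of two members, is a conjugate of `C` under `⟨C, D⟩`. -/
theorem mem_unipotent_of_le {S : Set (Subgroup G)} (hS : IsRootSubgroupSet S)
    {A B C D : Subgroup G} (hA : A ∈ S) (hAB : IsRankOnePair A B) (hC : C ∈ S)
    (hCD : IsRankOnePair C D) (hle : A ⊔ B ≤ C ⊔ D) : A ∈ unipotentSubgroups C D := by
  by_contra hnot
  have hAle : A ≤ C ⊔ D := le_trans le_sup_left hle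
  have key : ∀ E ∈ unipotentSubgroups C D, ∀ a ∈ A, conjBy E a = E := by
    intro E hE a ha
    have hES : E ∈ S := by
      obtain ⟨y, -, rfl⟩ := hE
      exact hS.conj_mem C hC y
    have hEle : E ≤ C ⊔ D := by
      obtain ⟨y, hy, rfl⟩ := hE
      exact conjBy_le_of_mem le_sup_left hy
    rcases hS.pair A hA E hES with p | p | p
    · exact conjBy_of_commute (fun e he => commute_of_commutator_eq_bot p ha he)
    · exfalso
      apply hnot
      obtain ⟨x, hx, hEx⟩ := RO.B_mem_unipotent p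
      have hx' : x⁻¹ ∈ C ⊔ D := inv_mem (sup_le hAle hEle hx)
      have := conj_mem_unipotent hE hx'
      rwa [hEx, conjBy_inv_cancel] at this
    · have p' := CC.of p
      by_contra hne
      have hE' : conjBy E a ∈ unipotentSubgroups C D := conj_mem_unipotent hE (hAle ha)
      have hpair := (RO.pair_of_mem hCD hE' hE hne).1
      obtain ⟨y, hy, hy1⟩ := RO.exists_ne_one_left hpair
      apply RO.not_commute_all hpair hy hy1
      exact p'.commute_sup_right (hS.commutative E hES) y (p'.conj_le_right ha hy)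
  obtain ⟨a, ha, ha1⟩ := RO.exists_ne_one_left hAB
  have hcen := RO.mem_centralizer_of_normalizes hCD (fun E hE => key E hE a ha)
  apply RO.not_commute_all hAB ha ha1
  intro b hb
  exact (Subgroup.mem_centralizer_iff.mp hcen b (hle (Subgroup.mem_sup_right hb))).symm

/-! ### Isolated vertices -/

theorem exists_partner {S : Set (Subgroup G)} {A : Subgroup G} (hAS : A ∈ S)
    (hA : ¬ IsIsolatedIn (FAdj S) S A) : ∃ D ∈ S, IsRankOnePair A D := by
  by_contra hcon
  apply hA
  exact ⟨hAS, fun B => ⟨fun h => hcon ⟨B, h.2.1, h.2.2⟩,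
    fun h => hcon ⟨B, h.1, RankOnePair_symm h.2.2⟩⟩⟩

theorem not_isolated_of_partner {S : Set (Subgroup G)} {A D : Subgroup G} (hAS : A ∈ S)
    (hD : D ∈ S) (h : IsRankOnePair A D) : ¬ IsIsolatedIn (FAdj S) S A :=
  fun hiso => (hiso.2 D).1 ⟨hAS, hD, h⟩

/-- If every member of `S` has a rank one partner, an element all of whose commutators are central
is central. -/
theorem mem_center_of_commutators_central {S : Set (Subgroup G)} (hS : IsRootSubgroupSet S)
    (hF : ∀ A ∈ S, ∃ D ∈ S, IsRankOnePair A D) {z : G}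
    (hz : ∀ y : G, ⁅z, y⁆ ∈ Subgroup.center G) : z ∈ Subgroup.center G := by
  have key : ∀ x ∈ ⨆ A ∈ S, A, x * z = z * x := by
    apply biSup_induction
    · intro A hA a ha
      obtain ⟨D, hD, hAD⟩ := hF A hA
      by_contra hne
      have hζ : ⁅z, a⁆ ≠ 1 := by
        intro e
        apply hne
        rw [commutatorElement_def] at e
        calc a * z = (z * a * z⁻¹ * a⁻¹)⁻¹ * (z * a) := by group
          _ = z * a := by rw [e]; group
      have ha1 : a ≠ 1 := by
        rintro rfl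
        exact hζ (commElem_one_right z)
      have hcen : ⁅z, a⁆ ∈ Subgroup.centralizer ((A ⊔ D : Subgroup G) : Set G) := by
        rw [Subgroup.mem_centralizer_iff]
        intro y _
        exact Subgroup.mem_center_iff.mp (hz a) y
      apply no_root_elem hS hD hAD hcen hζ ha ha1
      have e : ⁅z, a⁆ * a = z * a * z⁻¹ := by rw [commutatorElement_def]; group
      rw [e]
      refine ⟨?_, conjBy A z, hS.conj_mem A hA z, conj_mem_conjBy ha⟩
      intro e1
      apply ha1
      calc a = z⁻¹ * (z * a * z⁻¹) * z := by group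
        _ = 1 := by rw [e1]; group
    · simp
    · intro x y hx hy
      rw [mul_assoc, hy, ← mul_assoc, hx, mul_assoc]
  rw [Subgroup.mem_center_iff]
  intro g
  exact key g (by rw [hS.generates]; trivial)

end Cfsg.Agent.Helper83
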