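import Mathlib
import Cfsg.Prelude.Def_RootSubgroups
import Cfsg.Agent.Helper83.RootSet

set_option autoImplicit false
set_option maxHeartbeats 400000

namespace Cfsg.Agent.Helper83

open Cfsg
open scoped commutatorElement

variable {G : Type*} [Group G]

/-- If `⁅A, B⁆` is a member of `S`, the pair `(A, B)` is in the commutator case. -/
theorem cc_of_commutator_mem {S : Set (Subgroup G)} (hS : IsRootSubgroupSet S) {A B : Subgroup G}
    (hA : A ∈ S) (hB : B ∈ S) (hC : ⁅A, B⁆ ∈ S) : CC S A B := by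
  rcases hS.pair A hA B hB with p | p | p
  · exact absurd p (hS.ne_bot _ hC)
  · exact absurd p (not_rankOne_of_commutator_mem hS hA hC)
  · exact CC.of p

theorem CC.commute_left {S : Set (Subgroup G)} {A B : Subgroup G} (h : CC S A B) {a c : G}
    (ha : a ∈ A) (hc : c ∈ ⁅A, B⁆) : c * a = a * c := h.central c hc a (Subgroup.mem_sup_left ha)

theorem CC.commute_right {S : Set (Subgroup G)} {A B : Subgroup G} (h : CC S A B) {b c : G}
    (hb : b ∈ B) (hc : c ∈ ⁅A, B⁆) : c * b = b * c := h.central c hc b (Subgroup.mem_sup_right hb)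

theorem CC.ne_left {S : Set (Subgroup G)} (hS : IsRootSubgroupSet S) {A B : Subgroup G}
    (h : CC S A B) : A ≠ ⁅A, B⁆ := by
  intro e
  apply hS.ne_bot _ h.mem
  apply commutator_eq_bot_of_commute
  intro a ha b hb
  rw [e] at ha
  exact h.commute_right hb ha

theorem CC.inf_eq_bot_left {S : Set (Subgroup G)} (hS : IsRootSubgroupSet S) {A B D : Subgroup G}
    (h : CC S A B) (hD : D ∈ S) (hAD : IsRankOnePair A D) : A ⊓ ⁅A, B⁆ = ⊥ := by
  rcases inf_eq_bot_or_eq hS hD hAD h.mem with e | e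
  · exact e
  · exact absurd e (h.ne_left hS)

/-- In the commutator case, if `A` has a rank one partner then no non-identity elements of `A` and
`B` commute. -/
theorem CC.not_commute_of_partner {S : Set (Subgroup G)} (hS : IsRootSubgroupSet S)
    {A B D : Subgroup G} (hA : A ∈ S) (h : CC S A B) (hD : D ∈ S) (hAD : IsRankOnePair A D)
    {a b : G} (ha : a ∈ A) (ha1 : a ≠ 1) (hb : b ∈ B) (hb1 : b ≠ 1) : a * b ≠ b * a := by
  intro hab
  have haAb : a ∈ conjBy A b := by
    rw [mem_conjBy]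
    have : b⁻¹ * a * b = a := by
      calc b⁻¹ * a * b = b⁻¹ * (a * b) := by group
        _ = a := by rw [hab]; group
    rw [this]; exact ha
  rcases inf_eq_bot_or_eq hS hD hAD (hS.conj_mem A hA b) with e | e
  · apply ha1
    have : a ∈ A ⊓ conjBy A b := ⟨ha, haAb⟩
    rwa [e, Subgroup.mem_bot] at this
  · apply hS.ne_bot _ h.mem
    rw [eq_bot_iff]
    intro c hc
    obtain ⟨a', ha', rfl⟩ := h.surj_right b hb hb1 c hc
    have h1 : ⁅a', b⁆ ∈ A := by
      have h2 : b * a'⁻¹ * b⁻¹ ∈ A := by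
        have := conj_mem_conjBy (g := b) (A.inv_mem ha')
        rwa [← e] at this
      have h3 : ⁅a', b⁆ = a' * (b * a'⁻¹ * b⁻¹) := by rw [commutatorElement_def]; group
      rw [h3]; exact A.mul_mem ha' h2
    have h4 : ⁅a', b⁆ ∈ A ⊓ ⁅A, B⁆ := ⟨h1, Subgroup.commutator_mem_commutator ha' hb⟩
    rwa [h.inf_eq_bot_left hS hD hAD] at h4

/-- In the commutator case `A ⁅A, B⁆` is covered by `⁅A, B⁆` and the conjugates of `A` under `B`. -/
theorem CC.cover {S : Set (Subgroup G)} {A B : Subgroup G} (h : CC S A B) :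
    ∀ x ∈ A ⊔ ⁅A, B⁆, x ∈ ⁅A, B⁆ ∨ ∃ b ∈ B, x ∈ conjBy A b := by
  intro x hx
  obtain ⟨a, ha, c, hc, rfl⟩ :=
    exists_mul_of_mem_sup (fun a ha c hc => (h.commute_left ha hc).symm) x hx
  by_cases ha1 : a = 1
  · left; rw [ha1, one_mul]; exact hc
  · right
    obtain ⟨b, hb, hbc⟩ := h.surj_left a ha ha1 c⁻¹ (inv_mem hc)
    refine ⟨b, hb, ?_⟩
    have h1 : c = b * a * b⁻¹ * a⁻¹ := by
      rw [commutatorElement_def] at hbc
      calc c = (c⁻¹)⁻¹ := by group
        _ = (a * b * a⁻¹ * b⁻¹)⁻¹ := by rw [hbc]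
        _ = b * a * b⁻¹ * a⁻¹ := by group
    have h2 : a * c = b * a * b⁻¹ := by
      rw [← h.commute_left ha hc, h1]; group
    rw [h2]
    exact conj_mem_conjBy ha

/-- The members of `S` inside `A ⁅A, B⁆` are `⁅A, B⁆` and the conjugates of `A` under `B`. -/
theorem CC.members {S : Set (Subgroup G)} (hS : IsRootSubgroupSet S) {A B D : Subgroup G}
    (hA : A ∈ S) (h : CC S A B) (hD : D ∈ S) (hAD : IsRankOnePair A D) {E : Subgroup G}
    (hE : E ∈ S) (hEle : E ≤ A ⊔ ⁅A, B⁆) : E = ⁅A, B⁆ ∨ ∃ b ∈ B, E = conjBy A b := by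
  by_cases hex : ∃ b ∈ B, E ⊓ conjBy A b ≠ ⊥
  · obtain ⟨b, hb, hne⟩ := hex
    right
    refine ⟨b, hb, ?_⟩
    rcases inf_eq_bot_or_eq hS (hS.conj_mem D hD b) (RO.conj hAD b) hE with e | e
    · rw [inf_comm] at e; exact absurd e hne
    · exact e.symm
  · push Not at hex
    have hEC : E ≤ ⁅A, B⁆ := by
      intro x hx
      by_cases hx1 : x = 1
      · rw [hx1]; exact Subgroup.one_mem _
      · rcases h.cover x (hEle hx) with hc | ⟨b, hb, hxb⟩
        · exact hc
        · exfalso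
          have : x ∈ E ⊓ conjBy A b := ⟨hx, hxb⟩
          rw [hex b hb, Subgroup.mem_bot] at this
          exact hx1 this
    left
    apply le_antisymm hEC
    obtain ⟨⟨e, he⟩, he1⟩ := Subgroup.ne_bot_iff_exists_ne_one.mp (hS.ne_bot E hE)
    have he1 : e ≠ 1 := fun h => he1 (Subtype.ext h)
    have heC : e ∈ ⁅A, B⁆ := hEC he
    rcases hS.pair E hE D hD with p | p | p
    · exfalso
      have hcen : e ∈ Subgroup.centralizer ((A ⊔ D : Subgroup G) : Set G) := by
        rw [Subgroup.mem_centralizer_iff]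
        apply sup_induction
        · intro a ha; exact (h.commute_left ha heC).symm
        · intro d hd; exact (commute_of_commutator_eq_bot p he hd).symm
        · simp
        · intro y z hy hz
          rw [mul_assoc, hz, ← mul_assoc, hy, mul_assoc]
      obtain ⟨a, ha, ha1⟩ := RO.exists_ne_one_left hAD
      obtain ⟨b, hb, hbe⟩ := h.surj_left a ha ha1 e⁻¹ (inv_mem heC)
      have h1 : e = b * a * b⁻¹ * a⁻¹ := by
        rw [commutatorElement_def] at hbe
        calc e = (e⁻¹)⁻¹ := by group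
          _ = (a * b * a⁻¹ * b⁻¹)⁻¹ := by rw [hbe]
          _ = b * a * b⁻¹ * a⁻¹ := by group
      have h2 : e * a = b * a * b⁻¹ := by rw [h1]; group
      apply no_root_elem hS hD hAD hcen he1 ha ha1
      rw [h2]
      refine ⟨?_, conjBy A b, hS.conj_mem A hA b, conj_mem_conjBy ha⟩
      intro e1
      apply ha1
      calc a = b⁻¹ * (b * a * b⁻¹) * b := by group
        _ = 1 := by rw [e1]; group
    · rcases inf_eq_bot_or_eq hS hD p h.mem with e' | e'
      · exfalso
        have : e ∈ E ⊓ ⁅A, B⁆ := ⟨he, heC⟩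
        rw [e', Subgroup.mem_bot] at this
        exact he1 this
      · rw [e']
    · have p' := CC.of p
      rcases hS.pair _ h.mem D hD with q | q | q
      · exfalso
        apply hS.ne_bot _ p'.mem
        rw [eq_bot_iff, ← q]
        exact Subgroup.commutator_mono hEC le_rfl
      · rcases inf_eq_bot_or_eq hS hD q hE with e' | e'
        · exfalso
          have : e ∈ ⁅A, B⁆ ⊓ E := ⟨heC, he⟩
          rw [e', Subgroup.mem_bot] at this
          exact he1 this
        · rw [e']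
      · have q' := CC.of q
        have hFF : ⁅E, D⁆ = ⁅⁅A, B⁆, D⁆ := (p.2.2.1 e he he1).symm.trans (q.2.2.1 e heC he1)
        intro c hc
        obtain ⟨d, hd, hd1⟩ := RO.exists_ne_one_right hAD
        obtain ⟨e', he', hee⟩ := p'.surj_right d hd hd1 ⁅c, d⁆
          (hFF ▸ Subgroup.commutator_mem_commutator hc hd)
        have hx : ⁅c * e'⁻¹, d⁆ = 1 := by
          rw [comm_mul_left q'.central hc (inv_mem (hEC he')) hd,
            comm_inv_left q'.central (hEC he') hd, hee, mul_inv_cancel]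
        have hcomm : d * (c * e'⁻¹) = (c * e'⁻¹) * d := by
          rw [commutatorElement_def] at hx
          calc d * (c * e'⁻¹) = (c * e'⁻¹ * d * (c * e'⁻¹)⁻¹ * d⁻¹)⁻¹ * ((c * e'⁻¹) * d) := by group
            _ = (c * e'⁻¹) * d := by rw [hx]; group
        have hx1 : c * e'⁻¹ = 1 := by
          by_contra hne
          exact CC.not_commute_of_partner hS hD q'.symm hA (RankOnePair_symm hAD) hd hd1
            (mul_mem hc (inv_mem (hEC he'))) hne hcomm
        have : c = e' := by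
          calc c = (c * e'⁻¹) * e' := by group
            _ = e' := by rw [hx1, one_mul]
        rw [this]; exact he'

theorem CC.membersIn_eq {S : Set (Subgroup G)} (hS : IsRootSubgroupSet S) {A B D : Subgroup G}
    (hA : A ∈ S) (h : CC S A B) (hD : D ∈ S) (hAD : IsRankOnePair A D) :
    membersIn S (A ⊔ ⁅A, B⁆) = (fun b : G => conjBy A b) '' (B : Set G) ∪ {⁅A, B⁆} := by
  ext E
  constructor
  · rintro ⟨hE, hEle⟩
    rcases h.members hS hA hD hAD hE hEle with e | ⟨b, hb, e⟩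
    · right; exact e
    · left; exact ⟨b, hb, e.symm⟩
  · rintro (⟨b, hb, rfl⟩ | e)
    · exact ⟨hS.conj_mem A hA b, h.conj_le_left hb⟩
    · rw [Set.mem_singleton_iff] at e
      rw [e]
      exact ⟨h.mem, le_sup_right⟩

theorem CC.partition {S : Set (Subgroup G)} (hS : IsRootSubgroupSet S) {A B D : Subgroup G}
    (hA : A ∈ S) (h : CC S A B) (hD : D ∈ S) (hAD : IsRankOnePair A D) :
    IsSubgroupPartition (A ⊔ ⁅A, B⁆) (membersIn S (A ⊔ ⁅A, B⁆)) := by
  refine ⟨fun E hE => hE.2, ?_, ?_⟩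
  · intro x hx _
    rcases h.cover x hx with hc | ⟨b, hb, hxb⟩
    · exact ⟨_, ⟨h.mem, le_sup_right⟩, hc⟩
    · exact ⟨_, ⟨hS.conj_mem A hA b, h.conj_le_left hb⟩, hxb⟩
  · rintro E₁ ⟨hE₁, hle₁⟩ E₂ ⟨hE₂, hle₂⟩ hne
    rcases h.members hS hA hD hAD hE₁ hle₁ with e₁ | ⟨b₁, -, e₁⟩
    · rcases h.members hS hA hD hAD hE₂ hle₂ with e₂ | ⟨b₂, -, e₂⟩
      · exact absurd (e₁.trans e₂.symm) hne
      · rcases inf_eq_bot_or_eq hS (hS.conj_mem D hD b₂) (RO.conj hAD b₂) hE₁ with e | e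
        · rw [inf_comm, e₂]; exact e
        · exact absurd (e₂.trans e).symm hne
    · rcases inf_eq_bot_or_eq hS (hS.conj_mem D hD b₁) (RO.conj hAD b₁) hE₂ with e | e
      · rw [e₁]; exact e
      · exact absurd (e₁.trans e) hne

theorem CC.linePartner {S : Set (Subgroup G)} (hS : IsRootSubgroupSet S) {A B D : Subgroup G}
    (hA : A ∈ S) (h : CC S A B) (hD : D ∈ S) (hAD : IsRankOnePair A D) :
    A ∈ linePartners S ⁅A, B⁆ := by
  refine ⟨⟨hA, h.ne_left hS, ?_⟩, ?_⟩
  · exact commutator_eq_bot_of_commute (fun c hc a ha => h.commute_left ha hc)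
  · rw [sup_comm]
    exact h.partition hS hA hD hAD

theorem CC.exists_equiv {S : Set (Subgroup G)} (hS : IsRootSubgroupSet S) {A B D : Subgroup G}
    (hA : A ∈ S) (h : CC S A B) (hD : D ∈ S) (hAD : IsRankOnePair A D) {a : G} (ha : a ∈ A)
    (ha1 : a ≠ 1) :
    ∃ φ : ↥B ≃* ↥⁅A, B⁆, ∀ b : ↥B, (φ b : G) = a⁻¹ * (b : G)⁻¹ * a * b := by
  have hmem : ∀ b : G, b ∈ B → a⁻¹ * b⁻¹ * a * b ∈ ⁅A, B⁆ := by
    intro b hb
    have := Subgroup.commutator_mem_commutator (A.inv_mem ha) (B.inv_mem hb)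
    rw [commutatorElement_def] at this
    simpa using this
  let f : ↥B →* ↥⁅A, B⁆ :=
    { toFun := fun b => ⟨a⁻¹ * (b : G)⁻¹ * a * b, hmem b b.2⟩
      map_one' := by
        apply Subtype.ext
        simp
      map_mul' := by
        intro b₁ b₂
        apply Subtype.ext
        simp only [Subgroup.coe_mul]
        have hc₁ := hmem b₁ b₁.2
        have hc₂ := hmem b₂ b₂.2
        have e1 := h.commute_right b₂.2 hc₁
        have e2 := h.central _ hc₁ _ (commutator_le_sup A B hc₂)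
        calc a⁻¹ * ((b₁ : G) * b₂)⁻¹ * a * (b₁ * b₂)
            = a⁻¹ * (b₂ : G)⁻¹ * a * ((a⁻¹ * (b₁ : G)⁻¹ * a * b₁) * b₂) := by group
          _ = a⁻¹ * (b₂ : G)⁻¹ * a * (b₂ * (a⁻¹ * (b₁ : G)⁻¹ * a * b₁)) := by rw [e1]
          _ = (a⁻¹ * (b₂ : G)⁻¹ * a * b₂) * (a⁻¹ * (b₁ : G)⁻¹ * a * b₁) := by group
          _ = (a⁻¹ * (b₁ : G)⁻¹ * a * b₁) * (a⁻¹ * (b₂ : G)⁻¹ * a * b₂) := e2.symm }
  have hinj : Function.Injective f := by
    rw [injective_iff_map_eq_one]
    intro b hb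
    have hb' : a⁻¹ * (b : G)⁻¹ * a * b = 1 := congrArg Subtype.val hb
    by_contra hne
    have hb1 : (b : G) ≠ 1 := fun e => hne (Subtype.ext e)
    apply CC.not_commute_of_partner hS hA h hD hAD ha ha1 b.2 hb1
    calc a * (b : G) = (b : G) * a * (a⁻¹ * (b : G)⁻¹ * a * b) := by group
      _ = b * a := by rw [hb', mul_one]
  have hsurj : Function.Surjective f := by
    rintro ⟨c, hc⟩
    obtain ⟨b, hb, hbc⟩ := h.surj_left a⁻¹ (A.inv_mem ha) (inv_ne_one.mpr ha1) c hc
    refine ⟨⟨b⁻¹, B.inv_mem hb⟩, ?_⟩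
    apply Subtype.ext
    rw [commutatorElement_def] at hbc
    change a⁻¹ * (b⁻¹)⁻¹ * a * b⁻¹ = c
    rw [inv_inv] at hbc ⊢
    exact hbc
  exact ⟨MulEquiv.ofBijective f ⟨hinj, hsurj⟩, fun b => rfl⟩

end Cfsg.Agent.Helper83
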