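import Mathlib
import Cfsg.Prelude.Def_RootSubgroups
import Cfsg.Agent.Helper83.RootSet2

set_option autoImplicit false
set_option maxHeartbeats 400000

namespace Cfsg.Agent.Helper83

open Cfsg
open scoped commutatorElement

variable {G : Type*} [Group G]

/-- Key step for the components of the rank one graph: an element `a b` of a member `E`, with
`1 ≠ a ∈ A`, `b ∈ B`, `A` and `B` commuting, `C` a rank one partner of `A` that is not a rank one
partner of `B`, forces `(E, C)` to be a rank one pair. -/
theorem rankOne_of_line {S : Set (Subgroup G)} (hS : IsRootSubgroupSet S) {A B C E : Subgroup G}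
    (hB : B ∈ S) (hC : C ∈ S) (hE : E ∈ S) (hAC : IsRankOnePair A C)
    (hAB : ∀ a ∈ A, ∀ b ∈ B, a * b = b * a) (hCB : ¬ IsRankOnePair C B) {a b : G} (ha : a ∈ A)
    (ha1 : a ≠ 1) (hb : b ∈ B) (hab : a * b ∈ E) : IsRankOnePair E C := by
  obtain ⟨c, hc, -, e⟩ := hAC.cond_left a ha ha1
  have hfC : ∀ c' ∈ C, ⁅c, b⁻¹⁆ * c' = c' * ⁅c, b⁻¹⁆ := by
    intro c' hc'
    rcases hS.pair C hC B hB with p | p | p
    · have h1 := commute_of_commutator_eq_bot p hc (B.inv_mem hb)
      have : ⁅c, b⁻¹⁆ = 1 := by rw [commutatorElement_def, h1]; group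
      rw [this, one_mul, mul_one]
    · exact absurd p hCB
    · exact (CC.of p).central _ (Subgroup.commutator_mem_commutator hc (B.inv_mem hb)) c'
        (Subgroup.mem_sup_left hc')
  have hg : conjBy C (c⁻¹ * ⁅c, b⁻¹⁆) = C := by
    rw [← conjBy_conjBy, conjBy_of_commute hfC, conjBy_of_mem (C.inv_mem hc)]
  have key : conjBy C (a * b)⁻¹ = conjBy A (c⁻¹ * ⁅c, b⁻¹⁆) := by
    have h1 : b⁻¹ * c⁻¹ = (c⁻¹ * ⁅c, b⁻¹⁆) * b⁻¹ := by rw [commutatorElement_def]; group
    rw [mul_inv_rev, ← conjBy_conjBy, ← e, conjBy_conjBy, h1, ← conjBy_conjBy,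
      conjBy_of_commute (fun a' ha' => (hAB a' ha' b⁻¹ (B.inv_mem hb)).symm)]
  rcases hS.pair E hE C hC with p | p | p
  · exfalso
    apply hAC.ne
    apply conjBy_injective (c⁻¹ * ⁅c, b⁻¹⁆)
    rw [← key, hg]
    exact conjBy_of_commute (fun c' hc' => commute_of_commutator_eq_bot p (E.inv_mem hab) hc')
  · exact p
  · exfalso
    have p' := CC.of p
    have hle : conjBy A (c⁻¹ * ⁅c, b⁻¹⁆) ≤ C ⊔ ⁅E, C⁆ := by
      rw [← key]; exact p'.conj_le_right (E.inv_mem hab)
    have hcomm := commute_of_conjBy_le hg hle (p'.commute_sup_right (hS.commutative C hC))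
    exact RO.not_commute_all hAC ha ha1 (hcomm a ha)

theorem fadj_symm {S : Set (Subgroup G)} {X Y : Subgroup G} (h : FAdj S X Y) : FAdj S Y X :=
  ⟨h.2.1, h.1, RankOnePair_symm h.2.2⟩

theorem path_symm {S : Set (Subgroup G)} {A B : Subgroup G}
    (h : Relation.ReflTransGen (FAdj S) A B) : Relation.ReflTransGen (FAdj S) B A := by
  induction h with
  | refl => exact Relation.ReflTransGen.refl
  | tail _ hZY ih => exact Relation.ReflTransGen.head (fadj_symm hZY) ih

theorem componentOf_eq_of_path {S : Set (Subgroup G)} {A B : Subgroup G}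
    (h : Relation.ReflTransGen (FAdj S) A B) :
    componentOf (FAdj S) S A = componentOf (FAdj S) S B := by
  have h' : Relation.ReflTransGen (FAdj S) B A := path_symm h
  ext X
  exact ⟨fun ⟨hX, hr⟩ => ⟨hX, h'.trans hr⟩, fun ⟨hX, hr⟩ => ⟨hX, h.trans hr⟩⟩

theorem exists_partner_of_component {S : Set (Subgroup G)} {A : Subgroup G}
    (h : ∃ A' ∈ componentOf (FAdj S) S A, A' ≠ A) : ∃ C ∈ S, IsRankOnePair A C := by
  obtain ⟨A', ⟨-, hr⟩, hne⟩ := h
  rcases Relation.ReflTransGen.cases_head hr with e | ⟨C, hAC, -⟩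
  · exact absurd e.symm hne
  · exact ⟨C, hAC.2.1, hAC.2.2⟩

/-- Members of different components of the rank one graph (both components of size `> 1`) are not
line partners. -/
theorem not_linePartner_of_components {S : Set (Subgroup G)} (hS : IsRootSubgroupSet S)
    {A B : Subgroup G} (hA : A ∈ S)
    (hne : componentOf (FAdj S) S A ≠ componentOf (FAdj S) S B)
    (hA2 : ∃ A' ∈ componentOf (FAdj S) S A, A' ≠ A)
    (hB2 : ∃ B' ∈ componentOf (FAdj S) S B, B' ≠ B) : B ∉ linePartners S A := by
  rintro ⟨⟨hBS, hBA, hcomm⟩, hpart⟩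
  obtain ⟨C, hC, hAC⟩ := exists_partner_of_component hA2
  obtain ⟨D, hD, hBD⟩ := exists_partner_of_component hB2
  obtain ⟨a, ha, ha1⟩ := RO.exists_ne_one_left hAC
  obtain ⟨b, hb, hb1⟩ := RO.exists_ne_one_left hBD
  have hAB : ∀ a ∈ A, ∀ b ∈ B, a * b = b * a :=
    fun a ha b hb => commute_of_commutator_eq_bot hcomm ha hb
  have hab1 : a * b ≠ 1 := by
    intro e
    have haB : a ∈ B := by
      have : a = b⁻¹ := eq_inv_of_mul_eq_one_left e
      rw [this]; exact B.inv_mem hb
    rcases inf_eq_bot_or_eq hS hC hAC hBS with e' | e'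
    · have : a ∈ A ⊓ B := ⟨ha, haB⟩
      rw [e', Subgroup.mem_bot] at this
      exact ha1 this
    · exact hBA e'.symm
  obtain ⟨E, ⟨hE, -⟩, habE⟩ := hpart.2.1 (a * b)
    (mul_mem (Subgroup.mem_sup_left ha) (Subgroup.mem_sup_right hb)) hab1
  have hCB : ¬ IsRankOnePair C B := by
    intro p
    apply hne
    apply componentOf_eq_of_path
    exact (Relation.ReflTransGen.single ⟨hA, hC, hAC⟩).tail ⟨hC, hBS, p⟩
  have hDA : ¬ IsRankOnePair D A := by
    intro p
    apply hne
    apply (componentOf_eq_of_path _).symm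
    exact (Relation.ReflTransGen.single ⟨hBS, hD, hBD⟩).tail ⟨hD, hA, p⟩
  have h1 : IsRankOnePair E C := rankOne_of_line hS hBS hC hE hAC hAB hCB ha ha1 hb habE
  have h2 : IsRankOnePair E D :=
    rankOne_of_line hS hA hD hE hBD (fun b hb a ha => (hAB a ha b hb).symm) hDA hb hb1 ha
      (by rw [← hAB a ha b hb]; exact habE)
  apply hne
  apply componentOf_eq_of_path
  exact (((Relation.ReflTransGen.single ⟨hA, hC, hAC⟩).tail ⟨hC, hE, RankOnePair_symm h1⟩).tail
    ⟨hE, hD, h2⟩).tail ⟨hD, hBS, RankOnePair_symm hBD⟩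

theorem conj_of_path {S : Set (Subgroup G)} {X Y : Subgroup G}
    (h : Relation.ReflTransGen (FAdj S) X Y) : ∃ g : G, Y = conjBy X g := by
  induction h with
  | refl => exact ⟨1, (conjBy_one X).symm⟩
  | tail _ hZY ih =>
    obtain ⟨g, rfl⟩ := ih
    obtain ⟨x, -, e⟩ := RO.B_mem_unipotent hZY.2.2
    exact ⟨x * g, by rw [e, conjBy_conjBy]⟩

/-- For a set of abstract root subgroups with more than one member, the rank one graph is connected
iff the set is a conjugacy class some member of which has a rank one partner. -/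
theorem connected_iff {S : Set (Subgroup G)} (hS : IsRootSubgroupSet S)
    (h2 : ∃ A ∈ S, ∃ B ∈ S, A ≠ B) :
    IsConnectedFamily (FAdj S) S ↔
      (IsConjClassOfSubgroups S ∧ ∃ A ∈ S, ¬ IsIsolatedIn (FAdj S) S A) := by
  constructor
  · intro hconn
    obtain ⟨A, hA, B, hB, hAB⟩ := h2
    refine ⟨⟨⟨A, hA⟩, fun X hX Y hY => conj_of_path (hconn X hX Y hY)⟩, A, hA, ?_⟩
    rcases Relation.ReflTransGen.cases_head (hconn A hA B hB) with e | ⟨C, hAC, -⟩
    · exact absurd e hAB
    · exact not_isolated_of_partner hA hAC.2.1 hAC.2.2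
  · rintro ⟨⟨-, hconj⟩, A₀, hA₀, hiso⟩
    obtain ⟨B₀, hB₀, hAB₀⟩ := exists_partner hA₀ hiso
    have hpart : ∀ A ∈ S, ∃ D ∈ S, IsRankOnePair A D := by
      intro A hA
      obtain ⟨g, rfl⟩ := hconj A₀ hA₀ A hA
      exact ⟨conjBy B₀ g, hS.conj_mem _ hB₀ g, RO.conj hAB₀ g⟩
    intro A hA B hB
    have key : ∀ g ∈ ⨆ E ∈ S, E, ∀ D ∈ S, Relation.ReflTransGen (FAdj S) A D →
        Relation.ReflTransGen (FAdj S) A (conjBy D g) := by
      apply biSup_induction
      · intro E hE e he D hD hr
        by_cases hfix : conjBy D e = D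
        · rw [hfix]; exact hr
        have hD'S : conjBy D e ∈ S := hS.conj_mem D hD e
        rcases hS.pair E hE D hD with p | p | p
        · exfalso
          apply hfix
          exact conjBy_of_commute (fun d hd => commute_of_commutator_eq_bot p he hd)
        · have p' := RankOnePair_symm p
          have h1 : conjBy D e ∈ unipotentSubgroups D E :=
            conj_mem_unipotent (RO.A_mem_unipotent p') (Subgroup.mem_sup_right he)
          have h2 := (RO.pair_of_mem p' (RO.A_mem_unipotent p') h1 (Ne.symm hfix)).1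
          exact hr.tail ⟨hD, hD'S, h2⟩
        · have p' := (CC.of p).symm
          obtain ⟨D₁, hD₁, hDD₁⟩ := hpart D hD
          have hline : conjBy D e ∈ linePartners S D := by
            refine ⟨⟨hD'S, hfix, ?_⟩, ?_⟩
            · apply commutator_eq_bot_of_commute
              intro d hd y hy
              exact (p'.commute_sup_left (hS.commutative D hD) y (p'.conj_le_left he hy) d hd).symm
            · have hsup : D ⊔ conjBy D e = D ⊔ ⁅D, E⁆ := by
                apply le_antisymm
                · exact sup_le le_sup_left (p'.conj_le_left he)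
                · refine sup_le le_sup_left ?_
                  have he1 : e ≠ 1 := by
                    rintro rfl
                    exact hfix (conjBy_one D)
                  intro c hc
                  obtain ⟨d, hd, rfl⟩ := p'.surj_right e he he1 c hc
                  have : ⁅d, e⁆ = d * (e * d⁻¹ * e⁻¹) := by rw [commutatorElement_def]; group
                  rw [this]
                  exact mul_mem (Subgroup.mem_sup_left hd)
                    (Subgroup.mem_sup_right (conj_mem_conjBy (D.inv_mem hd)))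
              rw [hsup]
              exact p'.partition hS hD hD₁ hDD₁
          have hcomp : componentOf (FAdj S) S D = componentOf (FAdj S) S (conjBy D e) := by
            by_contra hne'
            refine not_linePartner_of_components hS hD hne'
              ⟨D₁, ⟨hD₁, Relation.ReflTransGen.single ⟨hD, hD₁, hDD₁⟩⟩, hDD₁.ne.symm⟩
              ⟨conjBy D₁ e, ⟨hS.conj_mem D₁ hD₁ e, Relation.ReflTransGen.single
                ⟨hD'S, hS.conj_mem D₁ hD₁ e, RO.conj hDD₁ e⟩⟩, (RO.conj hDD₁ e).ne.symm⟩ hline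
          have hmem : conjBy D e ∈ componentOf (FAdj S) S D := by
            rw [hcomp]; exact ⟨hD'S, Relation.ReflTransGen.refl⟩
          exact hr.trans hmem.2
      · intro D _ hr
        rw [conjBy_one]; exact hr
      · intro x y hx hy D hD hr
        rw [← conjBy_conjBy]
        exact hx _ (hS.conj_mem D hD y) (hy D hD hr)
    obtain ⟨g, rfl⟩ := hconj A hA B hB
    exact key g (by rw [hS.generates]; trivial) A hA Relation.ReflTransGen.refl

end Cfsg.Agent.Helper83
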