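import Mathlib
import Cfsg.Prelude.Def_RootSubgroups
import Cfsg.Agent.Helper83.RootSet3

set_option autoImplicit false
set_option maxHeartbeats 400000

namespace Cfsg.Agent.Helper83

open Cfsg
open scoped commutatorElement

variable {G : Type*} [Group G]

/-- The configuration `A, B, C = ⁅A, B⁆, D` with `⁅D, C⁆ = A` (all members of `S`). -/
structure Cfg (S : Set (Subgroup G)) (A B D : Subgroup G) : Prop where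
  hS : IsRootSubgroupSet S
  hA : A ∈ S
  hB : B ∈ S
  hC : ⁅A, B⁆ ∈ S
  hD : D ∈ S
  hDC : ⁅D, ⁅A, B⁆⁆ = A

namespace Cfg

variable {S : Set (Subgroup G)} {A B D : Subgroup G}

theorem ccAB (h : Cfg S A B D) : CC S A B := cc_of_commutator_mem h.hS h.hA h.hB h.hC

theorem ccBA (h : Cfg S A B D) : CC S B A := h.ccAB.symm

theorem ccDC (h : Cfg S A B D) : CC S D ⁅A, B⁆ :=
  cc_of_commutator_mem h.hS h.hD h.hC (by rw [h.hDC]; exact h.hA)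

/-! Commutation facts -/

theorem comm_cb (h : Cfg S A B D) {b c : G} (hb : b ∈ B) (hc : c ∈ ⁅A, B⁆) : c * b = b * c :=
  h.ccAB.commute_right hb hc

theorem comm_ca (h : Cfg S A B D) {a c : G} (ha : a ∈ A) (hc : c ∈ ⁅A, B⁆) : c * a = a * c :=
  h.ccAB.commute_left ha hc

theorem comm_ad (h : Cfg S A B D) {a d : G} (ha : a ∈ A) (hd : d ∈ D) : a * d = d * a :=
  h.ccDC.commute_left hd (by rw [h.hDC]; exact ha)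

theorem comm_aa (h : Cfg S A B D) {a a' : G} (ha : a ∈ A) (ha' : a' ∈ A) : a * a' = a' * a :=
  comm_of_isMulCommutative (h.hS.commutative A h.hA) ha ha'

theorem comm_cc (h : Cfg S A B D) {c c' : G} (hc : c ∈ ⁅A, B⁆) (hc' : c' ∈ ⁅A, B⁆) :
    c * c' = c' * c :=
  comm_of_isMulCommutative (h.hS.commutative _ h.hC) hc hc'

/-! The maps `β_b = ⁅b, ·⁆ : A → C` and `δ_d = ⁅d, ·⁆ : C → A`. -/

theorem bA_mem (_h : Cfg S A B D) {b a : G} (hb : b ∈ B) (ha : a ∈ A) : ⁅b, a⁆ ∈ ⁅A, B⁆ := by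
  rw [Subgroup.commutator_comm A B]
  exact Subgroup.commutator_mem_commutator hb ha

theorem dC_mem (h : Cfg S A B D) {d c : G} (hd : d ∈ D) (hc : c ∈ ⁅A, B⁆) : ⁅d, c⁆ ∈ A := by
  have := Subgroup.commutator_mem_commutator hd hc
  rwa [h.hDC] at this

theorem bA_mul (h : Cfg S A B D) {b a a' : G} (hb : b ∈ B) (ha : a ∈ A) (ha' : a' ∈ A) :
    ⁅b, a * a'⁆ = ⁅b, a⁆ * ⁅b, a'⁆ := comm_mul_right h.ccBA.central hb ha ha'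

theorem bA_mul_left (h : Cfg S A B D) {b b' a : G} (hb : b ∈ B) (hb' : b' ∈ B) (ha : a ∈ A) :
    ⁅b * b', a⁆ = ⁅b, a⁆ * ⁅b', a⁆ := comm_mul_left h.ccBA.central hb hb' ha

theorem bA_inv (h : Cfg S A B D) {b a : G} (hb : b ∈ B) (ha : a ∈ A) :
    ⁅b, a⁻¹⁆ = ⁅b, a⁆⁻¹ := comm_inv_right h.ccBA.central hb ha

theorem bA_inv_left (h : Cfg S A B D) {b a : G} (hb : b ∈ B) (ha : a ∈ A) :
    ⁅b⁻¹, a⁆ = ⁅b, a⁆⁻¹ := comm_inv_left h.ccBA.central hb ha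

theorem dC_mul (h : Cfg S A B D) {d c c' : G} (hd : d ∈ D) (hc : c ∈ ⁅A, B⁆)
    (hc' : c' ∈ ⁅A, B⁆) : ⁅d, c * c'⁆ = ⁅d, c⁆ * ⁅d, c'⁆ :=
  comm_mul_right h.ccDC.central hd hc hc'

theorem dC_mul_left (h : Cfg S A B D) {d d' c : G} (hd : d ∈ D) (hd' : d' ∈ D)
    (hc : c ∈ ⁅A, B⁆) : ⁅d * d', c⁆ = ⁅d, c⁆ * ⁅d', c⁆ :=
  comm_mul_left h.ccDC.central hd hd' hc

theorem dC_inv (h : Cfg S A B D) {d c : G} (hd : d ∈ D) (hc : c ∈ ⁅A, B⁆) :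
    ⁅d, c⁻¹⁆ = ⁅d, c⁆⁻¹ := comm_inv_right h.ccDC.central hd hc

theorem dC_inv_left (h : Cfg S A B D) {d c : G} (hd : d ∈ D) (hc : c ∈ ⁅A, B⁆) :
    ⁅d⁻¹, c⁆ = ⁅d, c⁆⁻¹ := comm_inv_left h.ccDC.central hd hc

theorem bA_surj (h : Cfg S A B D) {b : G} (hb : b ∈ B) (hb1 : b ≠ 1) {c : G}
    (hc : c ∈ ⁅A, B⁆) : ∃ a ∈ A, ⁅b, a⁆ = c :=
  h.ccBA.surj_left b hb hb1 c (by rw [Subgroup.commutator_comm B A]; exact hc)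

theorem dC_surj (h : Cfg S A B D) {d : G} (hd : d ∈ D) (hd1 : d ≠ 1) {a : G}
    (ha : a ∈ A) : ∃ c ∈ ⁅A, B⁆, ⁅d, c⁆ = a :=
  h.ccDC.surj_left d hd hd1 a (by rw [h.hDC]; exact ha)


theorem dC_surj' (h : Cfg S A B D) {c : G} (hc : c ∈ ⁅A, B⁆) (hc1 : c ≠ 1) {a : G}
    (ha : a ∈ A) : ∃ d ∈ D, ⁅d, c⁆ = a :=
  h.ccDC.surj_right c hc hc1 a (by rw [h.hDC]; exact ha)

theorem inf_AC (h : Cfg S A B D) : A ⊓ ⁅A, B⁆ = ⊥ := by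
  rw [eq_bot_iff]
  rintro x ⟨hxA, hxC⟩
  rw [Subgroup.mem_bot]
  by_contra hx1
  apply h.hS.ne_bot _ h.hC
  rw [eq_bot_iff]
  intro c hc
  obtain ⟨b, hb, hbc⟩ := h.ccAB.surj_left x hxA hx1 c hc
  rw [Subgroup.mem_bot, ← hbc, commutatorElement_def, h.comm_cb hb hxC]
  group

theorem decomp_unique (h : Cfg S A B D) {a a' c c' : G} (ha : a ∈ A) (ha' : a' ∈ A)
    (hc : c ∈ ⁅A, B⁆) (hc' : c' ∈ ⁅A, B⁆) (e : a * c = a' * c') : a = a' ∧ c = c' := by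
  have h1 : a'⁻¹ * a = c' * c⁻¹ := by
    calc a'⁻¹ * a = a'⁻¹ * (a * c) * c⁻¹ := by group
      _ = c' * c⁻¹ := by rw [e]; group
  have h2 : a'⁻¹ * a ∈ A ⊓ ⁅A, B⁆ := by
    refine Subgroup.mem_inf.mpr ⟨A.mul_mem (A.inv_mem ha') ha, ?_⟩
    rw [h1]
    exact Subgroup.mul_mem _ hc' (Subgroup.inv_mem _ hc)
  rw [h.inf_AC, Subgroup.mem_bot] at h2
  have h3 : a = a' := by
    calc a = a' * (a'⁻¹ * a) := by group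
      _ = a' := by rw [h2, mul_one]
  refine ⟨h3, ?_⟩
  rw [h3] at e
  exact mul_left_cancel e

/-! Conjugation formulas -/

theorem conj_b_a (b a : G) : b * a * b⁻¹ = ⁅b, a⁆ * a := by
  rw [commutatorElement_def]; group

theorem conj_binv_a (h : Cfg S A B D) {b a : G} (hb : b ∈ B) (ha : a ∈ A) :
    b⁻¹ * a * b = ⁅b, a⁆⁻¹ * a := by
  rw [← h.bA_inv_left hb ha, commutatorElement_def]; group

theorem conj_b_c (h : Cfg S A B D) {b c : G} (hb : b ∈ B) (hc : c ∈ ⁅A, B⁆) :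
    b * c * b⁻¹ = c := by
  rw [← h.comm_cb hb hc]; group

theorem conj_binv_c (h : Cfg S A B D) {b c : G} (hb : b ∈ B) (hc : c ∈ ⁅A, B⁆) :
    b⁻¹ * c * b = c := by
  rw [mul_assoc, h.comm_cb hb hc]; group

theorem conj_d_c (d c : G) : d * c * d⁻¹ = ⁅d, c⁆ * c := by
  rw [commutatorElement_def]; group

theorem conj_dinv_c (h : Cfg S A B D) {d c : G} (hd : d ∈ D) (hc : c ∈ ⁅A, B⁆) :
    d⁻¹ * c * d = ⁅d, c⁆⁻¹ * c := by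
  rw [← h.dC_inv_left hd hc, commutatorElement_def]; group

theorem conj_d_a (h : Cfg S A B D) {d a : G} (hd : d ∈ D) (ha : a ∈ A) :
    d * a * d⁻¹ = a := by
  rw [← h.comm_ad ha hd]; group

theorem conj_dinv_a (h : Cfg S A B D) {d a : G} (hd : d ∈ D) (ha : a ∈ A) :
    d⁻¹ * a * d = a := by
  rw [mul_assoc, h.comm_ad ha hd]; group

/-- The pair `(B, D)` is a rank one pair. -/
theorem rankOne (h : Cfg S A B D) : IsRankOnePair B D := by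
  obtain ⟨c₀, hc₀, hc₀1⟩ : ∃ c ∈ ⁅A, B⁆, c ≠ 1 := by
    obtain ⟨x, hx⟩ := Subgroup.ne_bot_iff_exists_ne_one.mp (h.hS.ne_bot _ h.hC)
    exact ⟨x, x.2, fun e => hx (Subtype.ext e)⟩
  obtain ⟨a₀, ha₀, ha₀1⟩ : ∃ a ∈ A, a ≠ 1 := by
    obtain ⟨x, hx⟩ := Subgroup.ne_bot_iff_exists_ne_one.mp (h.hS.ne_bot _ h.hA)
    exact ⟨x, x.2, fun e => hx (Subtype.ext e)⟩
  rcases h.hS.pair B h.hB D h.hD with p | p | p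
  · exfalso
    obtain ⟨b, hb, hbc⟩ := h.ccAB.surj_left a₀ ha₀ ha₀1 c₀ hc₀
    obtain ⟨d, hd, hdc⟩ := h.dC_surj' hc₀ hc₀1 ha₀
    apply ha₀1
    rw [← hdc, ← hbc]
    have h1 : b * d = d * b := commute_of_commutator_eq_bot p hb hd
    have h2 : a₀ * d = d * a₀ := h.comm_ad ha₀ hd
    have h3 : d * ⁅a₀, b⁆ = ⁅a₀, b⁆ * d := by
      rw [commutatorElement_def]
      calc d * (a₀ * b * a₀⁻¹ * b⁻¹) = (d * a₀) * b * a₀⁻¹ * b⁻¹ := by group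
        _ = a₀ * (d * b) * a₀⁻¹ * b⁻¹ := by rw [← h2]; group
        _ = a₀ * b * (d * a₀⁻¹) * b⁻¹ := by rw [← h1]; group
        _ = a₀ * b * (a₀⁻¹ * (a₀ * d) * a₀⁻¹) * b⁻¹ := by group
        _ = a₀ * b * a₀⁻¹ * (d * b⁻¹) := by rw [h2]; group
        _ = a₀ * b * a₀⁻¹ * (b⁻¹ * (b * d) * b⁻¹) := by group
        _ = a₀ * b * a₀⁻¹ * b⁻¹ * d := by rw [h1]; group
    rw [commutatorElement_def (g₁ := d), h3]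
    group
  · exact p
  · exfalso
    have cc := CC.of p
    obtain ⟨b, hb, hb1⟩ : ∃ b ∈ B, b ≠ 1 := by
      obtain ⟨x, hx⟩ := Subgroup.ne_bot_iff_exists_ne_one.mp (h.hS.ne_bot _ h.hB)
      exact ⟨x, x.2, fun e => hx (Subtype.ext e)⟩
    obtain ⟨d, hd, hd1⟩ : ∃ d ∈ D, d ≠ 1 := by
      obtain ⟨x, hx⟩ := Subgroup.ne_bot_iff_exists_ne_one.mp (h.hS.ne_bot _ h.hD)
      exact ⟨x, x.2, fun e => hx (Subtype.ext e)⟩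
    have hg : (d⁻¹ * b * d) * b = b * (d⁻¹ * b * d) := by
      have he : ⁅b, d⁻¹⁆ ∈ ⁅B, D⁆ := Subgroup.commutator_mem_commutator hb (D.inv_mem hd)
      have h1 := cc.commute_left hb he
      have h2 : d⁻¹ * b * d = (⁅b, d⁻¹⁆)⁻¹ * b := by rw [commutatorElement_def]; group
      rw [h2]
      have h3 : (⁅b, d⁻¹⁆)⁻¹ * b = b * (⁅b, d⁻¹⁆)⁻¹ := by
        calc (⁅b, d⁻¹⁆)⁻¹ * b = (⁅b, d⁻¹⁆)⁻¹ * (b * ⁅b, d⁻¹⁆) * (⁅b, d⁻¹⁆)⁻¹ := by group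
          _ = b * (⁅b, d⁻¹⁆)⁻¹ := by rw [← h1]; group
      calc (⁅b, d⁻¹⁆)⁻¹ * b * b = (b * (⁅b, d⁻¹⁆)⁻¹) * b := by rw [h3]
        _ = b * ((⁅b, d⁻¹⁆)⁻¹ * b) := by group
    have key : ∀ c ∈ ⁅A, B⁆, ⁅b, ⁅d, ⁅b, ⁅d, c⁆⁆⁆⁆ = 1 := by
      intro c hc
      have ha₁ : ⁅d, c⁆ ∈ A := h.dC_mem hd hc
      have hc₁ : ⁅b, ⁅d, c⁆⁆ ∈ ⁅A, B⁆ := h.bA_mem hb ha₁
      have ha₂ : ⁅d, ⁅b, ⁅d, c⁆⁆⁆ ∈ A := h.dC_mem hd hc₁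
      have e1 : (d⁻¹ * b * d) * c * (d⁻¹ * b * d)⁻¹ =
          (⁅d, ⁅b, ⁅d, c⁆⁆⁆)⁻¹ * ⁅b, ⁅d, c⁆⁆ * c := by
        calc (d⁻¹ * b * d) * c * (d⁻¹ * b * d)⁻¹
            = d⁻¹ * (b * (d * c * d⁻¹) * b⁻¹) * d := by group
          _ = d⁻¹ * (b * (⁅d, c⁆ * c) * b⁻¹) * d := by rw [conj_d_c d c]
          _ = d⁻¹ * ((b * ⁅d, c⁆ * b⁻¹) * (b * c * b⁻¹)) * d := by group
          _ = d⁻¹ * ((⁅b, ⁅d, c⁆⁆ * ⁅d, c⁆) * c) * d := by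
              rw [conj_b_a b ⁅d, c⁆, h.conj_b_c hb hc]
          _ = (d⁻¹ * ⁅b, ⁅d, c⁆⁆ * d) * (d⁻¹ * ⁅d, c⁆ * d) * (d⁻¹ * c * d) := by group
          _ = ((⁅d, ⁅b, ⁅d, c⁆⁆⁆)⁻¹ * ⁅b, ⁅d, c⁆⁆) * ⁅d, c⁆ * ((⁅d, c⁆)⁻¹ * c) := by
              rw [h.conj_dinv_c hd hc₁, h.conj_dinv_a hd ha₁, h.conj_dinv_c hd hc]
          _ = (⁅d, ⁅b, ⁅d, c⁆⁆⁆)⁻¹ * ⁅b, ⁅d, c⁆⁆ * c := by group
      have e2 : b * ((d⁻¹ * b * d) * c * (d⁻¹ * b * d)⁻¹) * b⁻¹ =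
          (d⁻¹ * b * d) * c * (d⁻¹ * b * d)⁻¹ := by
        calc b * ((d⁻¹ * b * d) * c * (d⁻¹ * b * d)⁻¹) * b⁻¹
            = (b * (d⁻¹ * b * d)) * c * (b * (d⁻¹ * b * d))⁻¹ := by group
          _ = ((d⁻¹ * b * d) * b) * c * ((d⁻¹ * b * d) * b)⁻¹ := by rw [hg]
          _ = (d⁻¹ * b * d) * (b * c * b⁻¹) * (d⁻¹ * b * d)⁻¹ := by group
          _ = _ := by rw [h.conj_b_c hb hc]
      rw [e1] at e2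
      have e3 : b * ((⁅d, ⁅b, ⁅d, c⁆⁆⁆)⁻¹ * ⁅b, ⁅d, c⁆⁆ * c) * b⁻¹ =
          ⁅b, (⁅d, ⁅b, ⁅d, c⁆⁆⁆)⁻¹⁆ * ((⁅d, ⁅b, ⁅d, c⁆⁆⁆)⁻¹ * ⁅b, ⁅d, c⁆⁆ * c) := by
        calc b * ((⁅d, ⁅b, ⁅d, c⁆⁆⁆)⁻¹ * ⁅b, ⁅d, c⁆⁆ * c) * b⁻¹
            = (b * (⁅d, ⁅b, ⁅d, c⁆⁆⁆)⁻¹ * b⁻¹) * (b * ⁅b, ⁅d, c⁆⁆ * b⁻¹) * (b * c * b⁻¹) := by group
          _ = (⁅b, (⁅d, ⁅b, ⁅d, c⁆⁆⁆)⁻¹⁆ * (⁅d, ⁅b, ⁅d, c⁆⁆⁆)⁻¹) * ⁅b, ⁅d, c⁆⁆ * c := by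
              rw [conj_b_a b (⁅d, ⁅b, ⁅d, c⁆⁆⁆)⁻¹, h.conj_b_c hb hc₁, h.conj_b_c hb hc]
          _ = _ := by group
      rw [e3] at e2
      have e4 : ⁅b, (⁅d, ⁅b, ⁅d, c⁆⁆⁆)⁻¹⁆ = 1 := mul_eq_right.mp e2
      rw [h.bA_inv hb ha₂, inv_eq_one] at e4
      exact e4
    -- surjectivity chain
    obtain ⟨a₂, ha₂, e₂⟩ := h.bA_surj hb hb1 hc₀
    obtain ⟨c₁, hc₁, e₁⟩ := h.dC_surj hd hd1 ha₂
    obtain ⟨a₁, ha₁, e₁'⟩ := h.bA_surj hb hb1 hc₁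
    obtain ⟨c, hc, e⟩ := h.dC_surj hd hd1 ha₁
    apply hc₀1
    rw [← e₂, ← e₁, ← e₁', ← e]
    exact key c hc

end Cfg

end Cfsg.Agent.Helper83
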