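import Mathlib
import Cfsg.Prelude.Def_RootSubgroups
import Cfsg.Agent.Helper83.Line

set_option autoImplicit false
set_option maxHeartbeats 400000

namespace Cfsg.Agent.Helper83

open Cfsg
open scoped commutatorElement

variable {G : Type*} [Group G]

namespace Cfg

variable {S : Set (Subgroup G)} {A B D : Subgroup G}

theorem not_comm_ba (h : Cfg S A B D) {b a : G} (hb : b ∈ B) (hb1 : b ≠ 1) (ha : a ∈ A)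
    (ha1 : a ≠ 1) : b * a ≠ a * b :=
  CC.not_commute_of_partner h.hS h.hB h.ccBA h.hD h.rankOne hb hb1 ha ha1

theorem not_comm_dc (h : Cfg S A B D) {d c : G} (hd : d ∈ D) (hd1 : d ≠ 1) (hc : c ∈ ⁅A, B⁆)
    (hc1 : c ≠ 1) : d * c ≠ c * d :=
  CC.not_commute_of_partner h.hS h.hD h.ccDC h.hB (RankOnePair_symm h.rankOne) hd hd1 hc hc1

theorem bA_inj (h : Cfg S A B D) {b : G} (hb : b ∈ B) (hb1 : b ≠ 1) {a a' : G} (ha : a ∈ A)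
    (ha' : a' ∈ A) (e : ⁅b, a⁆ = ⁅b, a'⁆) : a = a' := by
  by_contra hne
  have h1 : ⁅b, a⁻¹ * a'⁆ = 1 := by
    rw [h.bA_mul hb (A.inv_mem ha) ha', h.bA_inv hb ha, e, inv_mul_cancel]
  have h2 : a⁻¹ * a' ≠ 1 := fun e' => hne (inv_mul_eq_one.mp e')
  exact h.not_comm_ba hb hb1 (A.mul_mem (A.inv_mem ha) ha') h2
    (commutatorElement_eq_one_iff_mul_comm.mp h1)

theorem dC_inj (h : Cfg S A B D) {d : G} (hd : d ∈ D) (hd1 : d ≠ 1) {c c' : G}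
    (hc : c ∈ ⁅A, B⁆) (hc' : c' ∈ ⁅A, B⁆) (e : ⁅d, c⁆ = ⁅d, c'⁆) : c = c' := by
  by_contra hne
  have h1 : ⁅d, c⁻¹ * c'⁆ = 1 := by
    rw [h.dC_mul hd (inv_mem hc) hc', h.dC_inv hd hc, e, inv_mul_cancel]
  have h2 : c⁻¹ * c' ≠ 1 := fun e' => hne (inv_mul_eq_one.mp e')
  exact h.not_comm_dc hd hd1 (mul_mem (inv_mem hc) hc') h2
    (commutatorElement_eq_one_iff_mul_comm.mp h1)

/-- The key relation: for partners `b`, `d` the maps `β_b` and `δ_d` are mutually inverse. -/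
theorem star (h : Cfg S A B D) {b d : G} (hb : b ∈ B) (hb1 : b ≠ 1) (hd : d ∈ D)
    (hcond : conjBy B d⁻¹ = conjBy D b⁻¹) {a : G} (ha : a ∈ A) : ⁅d, ⁅b, a⁆⁆ = a := by
  have hx : d⁻¹ * b * d ∈ conjBy B d⁻¹ := by
    have := conj_mem_conjBy (g := d⁻¹) hb
    rwa [inv_inv] at this
  rw [hcond, mem_conjBy, inv_inv] at hx
  set d' := b * (d⁻¹ * b * d) * b⁻¹ with hd'def
  have hd' : d' ∈ D := hx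
  have hg : d⁻¹ * b * d = b⁻¹ * d' * b := by rw [hd'def]; group
  have hc : ⁅b, a⁆ ∈ ⁅A, B⁆ := h.bA_mem hb ha
  have ha₁ : ⁅d, ⁅b, a⁆⁆ ∈ A := h.dC_mem hd hc
  have ha₁' : ⁅d', ⁅b, a⁆⁆ ∈ A := h.dC_mem hd' hc
  have hc₁ : ⁅b, ⁅d', ⁅b, a⁆⁆⁆ ∈ ⁅A, B⁆ := h.bA_mem hb ha₁'
  have e1 : (d⁻¹ * b * d) * a * (d⁻¹ * b * d)⁻¹ = (⁅d, ⁅b, a⁆⁆)⁻¹ * ⁅b, a⁆ * a := by
    calc (d⁻¹ * b * d) * a * (d⁻¹ * b * d)⁻¹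
        = d⁻¹ * (b * (d * a * d⁻¹) * b⁻¹) * d := by group
      _ = d⁻¹ * (b * a * b⁻¹) * d := by rw [h.conj_d_a hd ha]
      _ = d⁻¹ * (⁅b, a⁆ * a) * d := by rw [conj_b_a b a]
      _ = (d⁻¹ * ⁅b, a⁆ * d) * (d⁻¹ * a * d) := by group
      _ = (⁅d, ⁅b, a⁆⁆)⁻¹ * ⁅b, a⁆ * a := by rw [h.conj_dinv_c hd hc, h.conj_dinv_a hd ha]
  have e2 : (b⁻¹ * d' * b) * a * (b⁻¹ * d' * b)⁻¹ =
      (⁅b, ⁅d', ⁅b, a⁆⁆⁆)⁻¹ * ⁅d', ⁅b, a⁆⁆ * a := by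
    calc (b⁻¹ * d' * b) * a * (b⁻¹ * d' * b)⁻¹
        = b⁻¹ * (d' * (b * a * b⁻¹) * d'⁻¹) * b := by group
      _ = b⁻¹ * (d' * (⁅b, a⁆ * a) * d'⁻¹) * b := by rw [conj_b_a b a]
      _ = b⁻¹ * ((d' * ⁅b, a⁆ * d'⁻¹) * (d' * a * d'⁻¹)) * b := by group
      _ = b⁻¹ * ((⁅d', ⁅b, a⁆⁆ * ⁅b, a⁆) * a) * b := by
          rw [conj_d_c d' ⁅b, a⁆, h.conj_d_a hd' ha]
      _ = (b⁻¹ * ⁅d', ⁅b, a⁆⁆ * b) * (b⁻¹ * ⁅b, a⁆ * b) * (b⁻¹ * a * b) := by group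
      _ = ((⁅b, ⁅d', ⁅b, a⁆⁆⁆)⁻¹ * ⁅d', ⁅b, a⁆⁆) * ⁅b, a⁆ * ((⁅b, a⁆)⁻¹ * a) := by
          rw [h.conj_binv_a hb ha₁', h.conj_binv_c hb hc, h.conj_binv_a hb ha]
      _ = (⁅b, ⁅d', ⁅b, a⁆⁆⁆)⁻¹ * ⁅d', ⁅b, a⁆⁆ * a := by group
  rw [hg, e2] at e1
  have e3 : (⁅b, ⁅d', ⁅b, a⁆⁆⁆)⁻¹ * ⁅d', ⁅b, a⁆⁆ = (⁅d, ⁅b, a⁆⁆)⁻¹ * ⁅b, a⁆ :=
    mul_right_cancel e1
  have e4 : ⁅d', ⁅b, a⁆⁆ * (⁅b, ⁅d', ⁅b, a⁆⁆⁆)⁻¹ = (⁅d, ⁅b, a⁆⁆)⁻¹ * ⁅b, a⁆ := by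
    rw [← e3]
    exact (h.comm_ca ha₁' (inv_mem hc₁)).symm
  obtain ⟨e5, e6⟩ := h.decomp_unique ha₁' (A.inv_mem ha₁) (inv_mem hc₁) hc e4
  -- `⁅b, a⁆ = ⁅b, ⁅d, ⁅b, a⁆⁆⁆`
  have e7 : ⁅b, a⁆ = ⁅b, ⁅d, ⁅b, a⁆⁆⁆ := by
    calc ⁅b, a⁆ = (⁅b, ⁅d', ⁅b, a⁆⁆⁆)⁻¹ := e6.symm
      _ = ⁅b, (⁅d', ⁅b, a⁆⁆)⁻¹⁆ := (h.bA_inv hb ha₁').symm
      _ = ⁅b, ⁅d, ⁅b, a⁆⁆⁆ := by rw [e5, inv_inv]
  exact (h.bA_inj hb hb1 ha ha₁ e7).symm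

theorem star' (h : Cfg S A B D) {b d : G} (hb : b ∈ B) (hb1 : b ≠ 1) (hd : d ∈ D)
    (hcond : conjBy B d⁻¹ = conjBy D b⁻¹) {c : G} (hc : c ∈ ⁅A, B⁆) : ⁅b, ⁅d, c⁆⁆ = c := by
  obtain ⟨a, ha, rfl⟩ := h.bA_surj hb hb1 hc
  rw [h.star hb hb1 hd hcond ha]

/-- For partners `b`, `d`: the conjugate of `A` by `b` is the conjugate of `C` by `d`. -/
theorem conj_eq (h : Cfg S A B D) {b d : G} (hb : b ∈ B) (hb1 : b ≠ 1) (hd : d ∈ D)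
    (hcond : conjBy B d⁻¹ = conjBy D b⁻¹) : conjBy A b = conjBy ⁅A, B⁆ d := by
  ext x
  rw [mem_conjBy, mem_conjBy]
  constructor
  · intro hx
    have hc : ⁅b, b⁻¹ * x * b⁆ ∈ ⁅A, B⁆ := h.bA_mem hb hx
    have e1 : x = ⁅b, b⁻¹ * x * b⁆ * (b⁻¹ * x * b) := by
      rw [← conj_b_a]; group
    have e2 : d⁻¹ * x * d = ⁅b, b⁻¹ * x * b⁆ := by
      calc d⁻¹ * x * d = d⁻¹ * (⁅b, b⁻¹ * x * b⁆ * (b⁻¹ * x * b)) * d := by rw [← e1]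
        _ = (d⁻¹ * ⁅b, b⁻¹ * x * b⁆ * d) * (d⁻¹ * (b⁻¹ * x * b) * d) := by group
        _ = ((⁅d, ⁅b, b⁻¹ * x * b⁆⁆)⁻¹ * ⁅b, b⁻¹ * x * b⁆) * (b⁻¹ * x * b) := by
            rw [h.conj_dinv_c hd hc, h.conj_dinv_a hd hx]
        _ = ((b⁻¹ * x * b)⁻¹ * ⁅b, b⁻¹ * x * b⁆) * (b⁻¹ * x * b) := by
            rw [h.star hb hb1 hd hcond hx]
        _ = (b⁻¹ * x * b)⁻¹ * (⁅b, b⁻¹ * x * b⁆ * (b⁻¹ * x * b)) := by group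
        _ = (b⁻¹ * x * b)⁻¹ * ((b⁻¹ * x * b) * ⁅b, b⁻¹ * x * b⁆) := by rw [h.comm_ca hx hc]
        _ = ⁅b, b⁻¹ * x * b⁆ := by group
    rw [e2]; exact hc
  · intro hx
    have ha : ⁅d, d⁻¹ * x * d⁆ ∈ A := h.dC_mem hd hx
    have e1 : x = ⁅d, d⁻¹ * x * d⁆ * (d⁻¹ * x * d) := by
      rw [← conj_d_c]; group
    have e2 : b⁻¹ * x * b = ⁅d, d⁻¹ * x * d⁆ := by
      calc b⁻¹ * x * b = b⁻¹ * (⁅d, d⁻¹ * x * d⁆ * (d⁻¹ * x * d)) * b := by rw [← e1]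
        _ = (b⁻¹ * ⁅d, d⁻¹ * x * d⁆ * b) * (b⁻¹ * (d⁻¹ * x * d) * b) := by group
        _ = ((⁅b, ⁅d, d⁻¹ * x * d⁆⁆)⁻¹ * ⁅d, d⁻¹ * x * d⁆) * (d⁻¹ * x * d) := by
            rw [h.conj_binv_a hb ha, h.conj_binv_c hb hx]
        _ = ((d⁻¹ * x * d)⁻¹ * ⁅d, d⁻¹ * x * d⁆) * (d⁻¹ * x * d) := by
            rw [h.star' hb hb1 hd hcond hx]
        _ = (d⁻¹ * x * d)⁻¹ * (⁅d, d⁻¹ * x * d⁆ * (d⁻¹ * x * d)) := by group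
        _ = (d⁻¹ * x * d)⁻¹ * ((d⁻¹ * x * d) * ⁅d, d⁻¹ * x * d⁆) := by
            rw [← h.comm_ca ha hx]
        _ = ⁅d, d⁻¹ * x * d⁆ := by group
    rw [e2]; exact ha

theorem exists_partner_b (h : Cfg S A B D) {b : G} (hb : b ∈ B) (hb1 : b ≠ 1) :
    ∃ d ∈ D, d ≠ 1 ∧ conjBy A b = conjBy ⁅A, B⁆ d := by
  obtain ⟨d, hd, hd1, hcond⟩ := h.rankOne.cond_left b hb hb1
  exact ⟨d, hd, hd1, h.conj_eq hb hb1 hd hcond⟩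

theorem exists_partner_d (h : Cfg S A B D) {d : G} (hd : d ∈ D) (hd1 : d ≠ 1) :
    ∃ b ∈ B, b ≠ 1 ∧ conjBy A b = conjBy ⁅A, B⁆ d := by
  obtain ⟨b, hb, hb1, hcond⟩ := h.rankOne.cond_right d hd hd1
  exact ⟨b, hb, hb1, h.conj_eq hb hb1 hd hcond.symm⟩

end Cfg

end Cfsg.Agent.Helper83
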