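import Mathlib
import Cfsg.Prelude.Def_RootSubgroups
import Cfsg.Agent.Helper83.Line2

set_option autoImplicit false
set_option maxHeartbeats 400000

namespace Cfsg.Agent.Helper83

open Cfsg
open scoped commutatorElement

variable {G : Type*} [Group G]

namespace Cfg

variable {S : Set (Subgroup G)} {A B D : Subgroup G}

theorem conjBy_C_b (h : Cfg S A B D) {b : G} (hb : b ∈ B) : conjBy ⁅A, B⁆ b = ⁅A, B⁆ :=
  conjBy_of_commute (fun _ hc => (h.comm_cb hb hc).symm)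

theorem conjBy_A_d (h : Cfg S A B D) {d : G} (hd : d ∈ D) : conjBy A d = A :=
  conjBy_of_commute (fun _ ha => (h.comm_ad ha hd).symm)

/-- The orbit of `A` under `⟨B, D⟩` consists of `C` and the conjugates of `A` under `B`. -/
theorem orbit_sub (h : Cfg S A B D) :
    ∀ x ∈ B ⊔ D, conjBy A x = ⁅A, B⁆ ∨ ∃ b ∈ B, conjBy A x = conjBy A b := by
  have key : ∀ x ∈ B ⊔ D, ∀ E : Subgroup G, (E = ⁅A, B⁆ ∨ ∃ b ∈ B, E = conjBy A b) →
      (conjBy E x = ⁅A, B⁆ ∨ ∃ b ∈ B, conjBy E x = conjBy A b) := by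
    apply sup_induction
    · intro b' hb' E hE
      rcases hE with rfl | ⟨b, hb, rfl⟩
      · left; exact h.conjBy_C_b hb'
      · right; exact ⟨b' * b, B.mul_mem hb' hb, conjBy_conjBy A b b'⟩
    · intro d' hd' E hE
      rcases hE with rfl | ⟨b, hb, rfl⟩
      · by_cases hd'1 : d' = 1
        · left; rw [hd'1, conjBy_one]
        · obtain ⟨b', hb', -, e⟩ := h.exists_partner_d hd' hd'1
          right; exact ⟨b', hb', e.symm⟩
      · by_cases hb1 : b = 1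
        · right
          refine ⟨1, B.one_mem, ?_⟩
          rw [hb1, conjBy_one, h.conjBy_A_d hd']
        · obtain ⟨d, hd, -, e⟩ := h.exists_partner_b hb hb1
          rw [e, conjBy_conjBy]
          by_cases hdd : d' * d = 1
          · left; rw [hdd, conjBy_one]
          · obtain ⟨b'', hb'', -, e'⟩ := h.exists_partner_d (D.mul_mem hd' hd) hdd
            right; exact ⟨b'', hb'', e'.symm⟩
    · intro E hE
      rw [conjBy_one]; exact hE
    · intro x y hx hy E hE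
      rw [← conjBy_conjBy]
      exact hx _ (hy E hE)
  intro x hx
  exact key x hx A (Or.inr ⟨1, B.one_mem, (conjBy_one A).symm⟩)

theorem exists_ne_one_B (h : Cfg S A B D) : ∃ b ∈ B, b ≠ 1 := by
  obtain ⟨x, hx⟩ := Subgroup.ne_bot_iff_exists_ne_one.mp (h.hS.ne_bot _ h.hB)
  exact ⟨x, x.2, fun e => hx (Subtype.ext e)⟩

theorem exists_ne_one_C (h : Cfg S A B D) : ∃ c ∈ ⁅A, B⁆, c ≠ 1 := by
  obtain ⟨x, hx⟩ := Subgroup.ne_bot_iff_exists_ne_one.mp (h.hS.ne_bot _ h.hC)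
  exact ⟨x, x.2, fun e => hx (Subtype.ext e)⟩

theorem C_mem_orbit (h : Cfg S A B D) : ∃ x ∈ B ⊔ D, ⁅A, B⁆ = conjBy A x := by
  obtain ⟨b, hb, hb1⟩ := h.exists_ne_one_B
  obtain ⟨d, hd, -, e⟩ := h.exists_partner_b hb hb1
  refine ⟨d⁻¹ * b, mul_mem (Subgroup.mem_sup_right (D.inv_mem hd)) (Subgroup.mem_sup_left hb), ?_⟩
  rw [← conjBy_conjBy, e, conjBy_inv_cancel]

theorem orbit_eq_B (h : Cfg S A B D) :
    {E | ∃ x ∈ B ⊔ D, E = conjBy A x} = (fun b : G => conjBy A b) '' (B : Set G) ∪ {⁅A, B⁆} := by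
  ext E
  constructor
  · rintro ⟨x, hx, rfl⟩
    rcases h.orbit_sub x hx with e | ⟨b, hb, e⟩
    · right; exact e
    · left; exact ⟨b, hb, e.symm⟩
  · rintro (⟨b, hb, rfl⟩ | e)
    · exact ⟨b, Subgroup.mem_sup_left hb, rfl⟩
    · rw [Set.mem_singleton_iff] at e
      rw [e]
      exact h.C_mem_orbit

theorem orbit_eq_C (h : Cfg S A B D) :
    {E | ∃ x ∈ B ⊔ D, E = conjBy A x} = {E | ∃ x ∈ B ⊔ D, E = conjBy ⁅A, B⁆ x} := by
  obtain ⟨x₀, hx₀, e₀⟩ := h.C_mem_orbit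
  ext E
  constructor
  · rintro ⟨x, hx, rfl⟩
    refine ⟨x * x₀⁻¹, mul_mem hx (inv_mem hx₀), ?_⟩
    rw [e₀, conjBy_conjBy]
    congr 1
    group
  · rintro ⟨x, hx, rfl⟩
    refine ⟨x * x₀, mul_mem hx hx₀, ?_⟩
    rw [e₀, conjBy_conjBy]

theorem orbit_eq_D (h : Cfg S A B D) :
    {E | ∃ x ∈ B ⊔ D, E = conjBy A x} =
      (fun d : G => conjBy ⁅A, B⁆ d) '' (D : Set G) ∪ {A} := by
  rw [h.orbit_eq_B]
  ext E
  constructor
  · rintro (⟨b, hb, rfl⟩ | e)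
    · by_cases hb1 : b = 1
      · right
        rw [Set.mem_singleton_iff, hb1]
        exact conjBy_one A
      · obtain ⟨d, hd, -, e⟩ := h.exists_partner_b hb hb1
        left; exact ⟨d, hd, e.symm⟩
    · left
      rw [Set.mem_singleton_iff] at e
      exact ⟨1, D.one_mem, by rw [e]; exact conjBy_one _⟩
  · rintro (⟨d, hd, rfl⟩ | e)
    · by_cases hd1 : d = 1
      · right
        rw [Set.mem_singleton_iff, hd1]
        exact conjBy_one _
      · obtain ⟨b, hb, -, e⟩ := h.exists_partner_d hd hd1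
        left; exact ⟨b, hb, e⟩
    · left
      rw [Set.mem_singleton_iff] at e
      exact ⟨1, B.one_mem, by rw [e]; exact conjBy_one _⟩

theorem orbit_partition (h : Cfg S A B D) :
    IsSubgroupPartition (A ⊔ ⁅A, B⁆) {E | ∃ x ∈ B ⊔ D, E = conjBy A x} := by
  rw [h.orbit_eq_B]
  refine ⟨?_, ?_, ?_⟩
  · rintro E (⟨b, hb, rfl⟩ | e)
    · exact h.ccAB.conj_le_left hb
    · rw [Set.mem_singleton_iff] at e
      rw [e]; exact le_sup_right
  · intro x hx _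
    rcases h.ccAB.cover x hx with hc | ⟨b, hb, hxb⟩
    · exact ⟨_, Or.inr rfl, hc⟩
    · exact ⟨_, Or.inl ⟨b, hb, rfl⟩, hxb⟩
  · have hCb : ∀ b ∈ B, conjBy A b ⊓ ⁅A, B⁆ = ⊥ := by
      intro b hb
      rw [eq_bot_iff]
      intro x hx
      obtain ⟨hx1, hx2⟩ := Subgroup.mem_inf.mp hx
      have hx1' := mem_conjBy.mp hx1
      rw [h.conj_binv_c hb hx2] at hx1'
      have : x ∈ A ⊓ ⁅A, B⁆ := Subgroup.mem_inf.mpr ⟨hx1', hx2⟩
      rwa [h.inf_AC] at this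
    rintro E₁ (⟨b, hb, rfl⟩ | e₁) E₂ (⟨b', hb', rfl⟩ | e₂) hne
    · rw [eq_bot_iff]
      intro x hx
      obtain ⟨hx1, hx2⟩ := Subgroup.mem_inf.mp hx
      have hx1 : b⁻¹ * x * b ∈ A := mem_conjBy.mp hx1
      have hx2 : b'⁻¹ * x * b' ∈ A := mem_conjBy.mp hx2
      rw [Subgroup.mem_bot]
      by_contra hx
      have e1 : x = ⁅b, b⁻¹ * x * b⁆ * (b⁻¹ * x * b) := by rw [← conj_b_a]; group
      have e2 : x = ⁅b', b'⁻¹ * x * b'⁆ * (b'⁻¹ * x * b') := by rw [← conj_b_a]; group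
      have hc1 : ⁅b, b⁻¹ * x * b⁆ ∈ ⁅A, B⁆ := h.bA_mem hb hx1
      have hc2 : ⁅b', b'⁻¹ * x * b'⁆ ∈ ⁅A, B⁆ := h.bA_mem hb' hx2
      have e3 : (b⁻¹ * x * b) * ⁅b, b⁻¹ * x * b⁆ = (b'⁻¹ * x * b') * ⁅b', b'⁻¹ * x * b'⁆ := by
        rw [← h.comm_ca hx1 hc1, ← h.comm_ca hx2 hc2, ← e1, ← e2]
      obtain ⟨e4, e5⟩ := h.decomp_unique hx1 hx2 hc1 hc2 e3
      have ha1 : b⁻¹ * x * b ≠ 1 := by
        intro e
        apply hx
        calc x = b * (b⁻¹ * x * b) * b⁻¹ := by group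
          _ = 1 := by rw [e]; group
      rw [← e4] at e5
      have e6 : ⁅b'⁻¹ * b, b⁻¹ * x * b⁆ = 1 := by
        rw [h.bA_mul_left (B.inv_mem hb') hb hx1, h.bA_inv_left hb' hx1, e5, inv_mul_cancel]
      have e7 : b'⁻¹ * b = 1 := by
        by_contra hbb
        exact h.not_comm_ba (B.mul_mem (B.inv_mem hb') hb) hbb hx1 ha1
          (commutatorElement_eq_one_iff_mul_comm.mp e6)
      apply hne
      rw [inv_mul_eq_one.mp e7]
    · rw [Set.mem_singleton_iff] at e₂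
      rw [e₂]; exact hCb b hb
    · rw [Set.mem_singleton_iff] at e₁
      rw [e₁, inf_comm]; exact hCb b' hb'
    · rw [Set.mem_singleton_iff] at e₁ e₂
      exact absurd (e₁.trans e₂.symm) hne


theorem conjBy_eq_of_le {H N : Subgroup G} (hle : ∀ x ∈ H, conjBy N x ≤ N) :
    ∀ x ∈ H, conjBy N x = N := by
  intro x hx
  apply le_antisymm (hle x hx)
  have := conjBy_mono (hle x⁻¹ (H.inv_mem hx)) x
  rwa [conjBy_cancel_inv] at this

theorem normalizes_N (h : Cfg S A B D) : ∀ x ∈ B ⊔ D, conjBy (A ⊔ ⁅A, B⁆) x = A ⊔ ⁅A, B⁆ := by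
  have hB : ∀ b ∈ B, conjBy (A ⊔ ⁅A, B⁆) b = A ⊔ ⁅A, B⁆ := by
    apply conjBy_eq_of_le
    intro b hb
    rw [conjBy_sup]
    exact sup_le (h.ccAB.conj_le_left hb) (by rw [h.conjBy_C_b hb]; exact le_sup_right)
  have hD : ∀ d ∈ D, conjBy (A ⊔ ⁅A, B⁆) d = A ⊔ ⁅A, B⁆ := by
    apply conjBy_eq_of_le
    intro d hd
    rw [conjBy_sup]
    refine sup_le (by rw [h.conjBy_A_d hd]; exact le_sup_left) ?_
    have := h.ccDC.conj_le_right hd
    rwa [h.hDC, sup_comm] at this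
  apply sup_induction hB hD (conjBy_one _)
  intro x y hx hy
  rw [← conjBy_conjBy, hy, hx]

/-- The centralizer of `N = A C` in `⟨B, D⟩` is central in `⟨B, D⟩`. -/
theorem centralizer_central (h : Cfg S A B D) :
    ∀ x ∈ (B ⊔ D) ⊓ Subgroup.centralizer ((A ⊔ ⁅A, B⁆ : Subgroup G) : Set G),
      ∀ y ∈ B ⊔ D, x * y = y * x := by
  set K := (B ⊔ D) ⊓ Subgroup.centralizer ((A ⊔ ⁅A, B⁆ : Subgroup G) : Set G) with hK
  have hKn : ∀ x ∈ B ⊔ D, conjBy K x = K := by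
    apply conjBy_eq_of_le
    intro x hx y hy
    have hy' := mem_conjBy.mp hy
    obtain ⟨hy1, hy2⟩ := Subgroup.mem_inf.mp hy'
    refine Subgroup.mem_inf.mpr ⟨?_, ?_⟩
    · have : y = x * (x⁻¹ * y * x) * x⁻¹ := by group
      rw [this]
      exact mul_mem (mul_mem hx hy1) (inv_mem hx)
    · rw [Subgroup.mem_centralizer_iff]
      intro n hn
      have hn' : x⁻¹ * n * x ∈ A ⊔ ⁅A, B⁆ := by
        have : n ∈ conjBy (A ⊔ ⁅A, B⁆) x := by rw [h.normalizes_N x hx]; exact hn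
        exact mem_conjBy.mp this
      have e := Subgroup.mem_centralizer_iff.mp hy2 _ hn'
      calc n * y = x * ((x⁻¹ * n * x) * (x⁻¹ * y * x)) * x⁻¹ := by group
        _ = x * ((x⁻¹ * y * x) * (x⁻¹ * n * x)) * x⁻¹ := by rw [e]
        _ = y * n := by group
  rcases RO.normal_dichotomy h.rankOne K inf_le_left hKn with h1 | h1
  · exfalso
    obtain ⟨d, hd, hd1⟩ : ∃ d ∈ D, d ≠ 1 := by
      obtain ⟨x, hx⟩ := Subgroup.ne_bot_iff_exists_ne_one.mp (h.hS.ne_bot _ h.hD)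
      exact ⟨x, x.2, fun e => hx (Subtype.ext e)⟩
    obtain ⟨c, hc, hc1⟩ := h.exists_ne_one_C
    have key : ∀ y ∈ K ⊔ B, ∀ c ∈ ⁅A, B⁆, y * c = c * y := by
      apply sup_induction
      · intro k hk c hc
        have hk2 := (Subgroup.mem_inf.mp hk).2
        exact (Subgroup.mem_centralizer_iff.mp hk2 c (Subgroup.mem_sup_right hc)).symm
      · intro b hb c hc
        exact (h.comm_cb hb hc).symm
      · intro c _; simp
      · intro x y hx hy c hc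
        rw [mul_assoc, hy c hc, ← mul_assoc, hx c hc, mul_assoc]
    exact h.not_comm_dc hd hd1 hc hc1 (key d (h1 (Subgroup.mem_sup_right hd)) c hc)
  · intro x hx y hy
    exact (Subgroup.mem_centralizer_iff.mp (h1 hx) y hy).symm

end Cfg

/-- Statement S5036. -/
theorem line_rank_one {S : Set (Subgroup G)} (hS : IsRootSubgroupSet S)
    {A B D : Subgroup G} (hA : A ∈ S) (hB : B ∈ S) (hC : ⁅A, B⁆ ∈ S) (hD : D ∈ S)
    (hDC : ⁅D, ⁅A, B⁆⁆ = A) :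
    IsRankOnePair B D ∧
    {E | ∃ x ∈ B ⊔ D, E = conjBy A x} = {E | ∃ x ∈ B ⊔ D, E = conjBy ⁅A, B⁆ x} ∧
    {E | ∃ x ∈ B ⊔ D, E = conjBy A x} = (fun b : G => conjBy A b) '' (B : Set G) ∪ {⁅A, B⁆} ∧
    {E | ∃ x ∈ B ⊔ D, E = conjBy A x} = (fun d : G => conjBy ⁅A, B⁆ d) '' (D : Set G) ∪ {A} ∧
    IsSubgroupPartition (A ⊔ ⁅A, B⁆) {E | ∃ x ∈ B ⊔ D, E = conjBy A x} ∧
    ∀ x ∈ (B ⊔ D) ⊓ Subgroup.centralizer ((A ⊔ ⁅A, B⁆ : Subgroup G) : Set G),
      ∀ y ∈ B ⊔ D, x * y = y * x := by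
  have h : Cfg S A B D := ⟨hS, hA, hB, hC, hD, hDC⟩
  exact ⟨h.rankOne, h.orbit_eq_C, h.orbit_eq_B, h.orbit_eq_D, h.orbit_partition,
    h.centralizer_central⟩

end Cfsg.Agent.Helper83
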