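import Mathlib
import Cfsg.Prelude.Def_RootSubgroups
import Cfsg.Agent.Helper83.Line3

set_option autoImplicit false

namespace Cfsg.Agent.Helper83

open Cfsg
open scoped commutatorElement

variable {G : Type*} [Group G]

theorem conjBy_commutator (A B : Subgroup G) (g : G) :
    ⁅conjBy A g, conjBy B g⁆ = conjBy ⁅A, B⁆ g :=
  (Subgroup.map_commutator A B _).symm

theorem conj_commutatorElement (g a b : G) :
    ⁅g * a * g⁻¹, g * b * g⁻¹⁆ = g * ⁅a, b⁆ * g⁻¹ := by
  simp only [commutatorElement_def]; group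

/-- The commutator case is invariant under conjugation. -/
theorem CC.conj {S : Set (Subgroup G)} (hS : IsRootSubgroupSet S) {A B : Subgroup G}
    (h : CC S A B) (g : G) : CC S (conjBy A g) (conjBy B g) := by
  refine ⟨?_, ?_, ?_, ?_⟩
  · rw [conjBy_commutator]; exact hS.conj_mem _ h.mem g
  · intro c hc x hx
    rw [conjBy_commutator] at hc
    rw [← conjBy_sup] at hx
    have hc' := mem_conjBy.mp hc
    have hx' := mem_conjBy.mp hx
    have e := h.central _ hc' _ hx'
    calc c * x = g * ((g⁻¹ * c * g) * (g⁻¹ * x * g)) * g⁻¹ := by group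
      _ = g * ((g⁻¹ * x * g) * (g⁻¹ * c * g)) * g⁻¹ := by rw [e]
      _ = x * c := by group
  · intro a ha ha1 c hc
    rw [conjBy_commutator] at hc
    have hc' := mem_conjBy.mp hc
    have ha' := mem_conjBy.mp ha
    have ha1' : g⁻¹ * a * g ≠ 1 := by
      intro e
      apply ha1
      calc a = g * (g⁻¹ * a * g) * g⁻¹ := by group
        _ = 1 := by rw [e]; group
    obtain ⟨b, hb, hbc⟩ := h.surj_left _ ha' ha1' _ hc'
    refine ⟨g * b * g⁻¹, conj_mem_conjBy hb, ?_⟩
    have e1 : a = g * (g⁻¹ * a * g) * g⁻¹ := by group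
    rw [e1, conj_commutatorElement, hbc]
    group
  · intro b hb hb1 c hc
    rw [conjBy_commutator] at hc
    have hc' := mem_conjBy.mp hc
    have hb' := mem_conjBy.mp hb
    have hb1' : g⁻¹ * b * g ≠ 1 := by
      intro e
      apply hb1
      calc b = g * (g⁻¹ * b * g) * g⁻¹ := by group
        _ = 1 := by rw [e]; group
    obtain ⟨a, ha, hac⟩ := h.surj_right _ hb' hb1' _ hc'
    refine ⟨g * a * g⁻¹, conj_mem_conjBy ha, ?_⟩
    have e1 : b = g * (g⁻¹ * b * g) * g⁻¹ := by group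
    rw [e1, conj_commutatorElement, hac]
    group

/-- In a class containing a rank one pair, every member has a rank one partner. -/
theorem class_partner {S : Set (Subgroup G)} (hS : IsRootSubgroupClass S) {A B : Subgroup G}
    (hA : A ∈ S) (hB : B ∈ S) (hAB : IsRankOnePair A B) :
    ∀ E ∈ S, ∃ D ∈ S, IsRankOnePair E D := by
  intro E hE
  obtain ⟨g, rfl⟩ := hS.2.2 A hA E hE
  exact ⟨conjBy B g, hS.1.conj_mem B hB g, RO.conj hAB g⟩

theorem exists_ne_one_of_mem {S : Set (Subgroup G)} (hS : IsRootSubgroupSet S) {A : Subgroup G}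
    (hA : A ∈ S) : ∃ a ∈ A, a ≠ 1 := by
  obtain ⟨x, hx⟩ := Subgroup.ne_bot_iff_exists_ne_one.mp (hS.ne_bot _ hA)
  exact ⟨x, x.2, fun e => hx (Subtype.ext e)⟩

theorem conjBy_eq_of_commute {A : Subgroup G} {g : G} (h : ∀ a ∈ A, g * a = a * g) :
    conjBy A g = A := by
  ext x
  rw [mem_conjBy]
  constructor
  · intro hx
    have e := h _ hx
    have e3 : x = g⁻¹ * x * g := by
      have e2 : x * g = g⁻¹ * x * g * g := by
        rw [← e]; group
      exact mul_right_cancel e2
    rw [e3]; exact hx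
  · intro hx
    have e := h _ hx
    have e3 : g⁻¹ * x * g = x := by
      rw [mul_assoc, ← e]; group
    rw [e3]; exact hx

theorem commute_conjBy {A B : Subgroup G} (h : ∀ a ∈ A, ∀ b ∈ B, a * b = b * a) (g : G) :
    ∀ a ∈ conjBy A g, ∀ b ∈ conjBy B g, a * b = b * a := by
  intro x hx y hy
  have e := h _ (mem_conjBy.mp hx) _ (mem_conjBy.mp hy)
  calc x * y = g * ((g⁻¹ * x * g) * (g⁻¹ * y * g)) * g⁻¹ := by group
    _ = g * ((g⁻¹ * y * g) * (g⁻¹ * x * g)) * g⁻¹ := by rw [e]
    _ = y * x := by group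

/-- In a non-degenerate class every member is a commutator of two members in the commutator
case. -/
theorem exists_cc_of_nondeg {S : Set (Subgroup G)} (hS : IsRootSubgroupClass S)
    (hnd : IsNondegenerateRootSet S) {A : Subgroup G} (hA : A ∈ S) :
    ∃ E ∈ S, ∃ F ∈ S, CC S E F ∧ ⁅E, F⁆ = A := by
  obtain ⟨E₀, hE₀, F₀, hF₀, h0⟩ := hnd.2.2
  have hcc := CC.of h0
  obtain ⟨g, hg⟩ := hS.2.2 _ hcc.mem A hA
  refine ⟨conjBy E₀ g, hS.1.conj_mem _ hE₀ g, conjBy F₀ g, hS.1.conj_mem _ hF₀ g,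
    CC.conj hS.1 hcc g, ?_⟩
  rw [conjBy_commutator, ← hg]

theorem exists_line_commutator_partner_aux {S : Set (Subgroup G)} (hS : IsRootSubgroupSet S)
    {A B E F : Subgroup G} (hB : B ∈ S) (hAB : IsRankOnePair A B)
    (hE : E ∈ S) (hcc : CC S E F) (hEF : ⁅E, F⁆ = A)
    (hEB : IsRankOnePair E B) :
    ∃ C ∈ linePartners S A, C ∈ commutatorPartners S B := by
  obtain ⟨e, he, he1⟩ := RO.exists_ne_one_left hEB
  obtain ⟨b, hb, hb1, hcond1⟩ := hEB.cond_left e he he1
  obtain ⟨a', ha', ha'1, hcond2⟩ := hAB.cond_right b hb hb1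
  have hAm : conjBy A (a' * b⁻¹) = B := by
    rw [← conjBy_conjBy, ← hcond2, conjBy_cancel_inv]
  have hEm : conjBy B (a' * e⁻¹) = conjBy E (a' * b⁻¹) := by
    rw [← conjBy_conjBy, ← hcond1, conjBy_conjBy]
  obtain ⟨c, hc_def⟩ : ∃ c : G, c = e * a'⁻¹ := ⟨_, rfl⟩
  have hcinv : c⁻¹ = a' * e⁻¹ := by rw [hc_def]; group
  have hAE : ∀ x ∈ A, ∀ y ∈ E, x * y = y * x := by
    intro x hx y hy
    rw [← hEF] at hx
    exact hcc.central x hx y (Subgroup.mem_sup_left hy)
  have hBB : ⁅B, conjBy B c⁻¹⁆ = ⊥ := by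
    rw [hcinv, hEm]
    apply commutator_eq_bot_of_commute
    intro x hx y hy
    rw [← hAm] at hx
    exact commute_conjBy hAE _ x hx y hy
  have hEA : E ⊓ A = ⊥ := by
    rw [← hEF]; exact CC.inf_eq_bot_left hS hcc hB hEB
  have hcA : c ∉ A := by
    intro hcA
    have h1 : e ∈ A := by
      have h2 : e = c * a' := by rw [hc_def]; group
      rw [h2]; exact A.mul_mem hcA ha'
    have h3 : e ∈ E ⊓ A := Subgroup.mem_inf.mpr ⟨he, h1⟩
    rw [hEA] at h3
    exact he1 (Subgroup.mem_bot.mp h3)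
  have hc1 : c ≠ 1 := fun h => hcA (h ▸ A.one_mem)
  have hcmem : c ∈ E ⊔ ⁅E, F⁆ := by
    rw [hEF, hc_def]
    exact Subgroup.mul_mem _ (Subgroup.mem_sup_left he) (Subgroup.mem_sup_right (A.inv_mem ha'))
  rcases hcc.cover c hcmem with h | ⟨f, hf, hcf⟩
  · exact absurd (hEF ▸ h) hcA
  have hCS : conjBy E f ∈ S := hS.conj_mem _ hE f
  have hFf : conjBy F f = F := conjBy_of_mem hf
  have hccC : CC S (conjBy E f) F := by
    have h1 := CC.conj hS hcc f
    rwa [hFf] at h1
  have hCF : ⁅conjBy E f, F⁆ = A := by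
    have h1 : ⁅conjBy E f, conjBy F f⁆ = conjBy ⁅E, F⁆ f := conjBy_commutator E F f
    rw [hFf, hEF] at h1
    rw [h1]
    apply conjBy_eq_of_commute
    intro x hx
    rw [← hEF] at hx
    exact (hcc.central x hx f (Subgroup.mem_sup_right hf)).symm
  have hCline : conjBy E f ∈ linePartners S A := by
    have h1 := CC.linePartner hS hCS hccC (hS.conj_mem _ hB f) (RO.conj hEB f)
    rwa [hCF] at h1
  refine ⟨conjBy E f, hCline, hCS, ?_⟩
  rcases hS.pair B hB _ hCS with h | h | h
  · exfalso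
    have h1 : conjBy B c⁻¹ = B := by
      apply conjBy_eq_of_commute
      intro x hx
      exact (commute_of_commutator_eq_bot h hx (Subgroup.inv_mem _ hcf)).symm
    rw [hcinv, hEm] at h1
    have h2 : conjBy E (a' * b⁻¹) = conjBy A (a' * b⁻¹) := h1.trans hAm.symm
    have h3 : E = A := conjBy_injective _ h2
    exact CC.ne_left hS hcc (h3.trans hEF.symm)
  · exfalso
    have hu1 : B ∈ unipotentSubgroups B (conjBy E f) := RO.A_mem_unipotent h
    have hu2 : conjBy B c⁻¹ ∈ unipotentSubgroups B (conjBy E f) :=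
      ⟨c⁻¹, Subgroup.mem_sup_right (Subgroup.inv_mem _ hcf), rfl⟩
    have hne : B ≠ conjBy B c⁻¹ := by
      intro e1
      have h4 := RO.eq_one_of_normalizes (RankOnePair_symm h) (Subgroup.inv_mem _ hcf) e1.symm
      exact hc1 (inv_eq_one.mp h4)
    exact RO.commutator_ne_bot (RO.pair_of_mem h hu1 hu2 hne).1 hBB
  · exact h.1

theorem exists_line_commutator_partner {S : Set (Subgroup G)} (hS : IsRootSubgroupSet S)
    (hpart : ∀ E ∈ S, ∃ D ∈ S, IsRankOnePair E D)
    {A B E F : Subgroup G} (hB : B ∈ S) (hAB : IsRankOnePair A B)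
    (hE : E ∈ S) (hF : F ∈ S) (hcc : CC S E F) (hEF : ⁅E, F⁆ = A) :
    ∃ C ∈ linePartners S A, C ∈ commutatorPartners S B := by
  rcases hS.pair B hB E hE with h | h | h
  · obtain ⟨D, hD, hED⟩ := hpart E hE
    obtain ⟨e, he, he1⟩ := RO.exists_ne_one_left hED
    obtain ⟨f, hf, hf1⟩ := exists_ne_one_of_mem hS hF
    have hFf : conjBy F f = F := conjBy_of_mem hf
    have hccE' : CC S (conjBy E f) F := by
      have h1 := CC.conj hS hcc f
      rwa [hFf] at h1
    have hE'F : ⁅conjBy E f, F⁆ = A := by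
      have h1 : ⁅conjBy E f, conjBy F f⁆ = conjBy ⁅E, F⁆ f := conjBy_commutator E F f
      rw [hFf, hEF] at h1
      rw [h1]
      apply conjBy_eq_of_commute
      intro x hx
      rw [← hEF] at hx
      exact (hcc.central x hx f (Subgroup.mem_sup_right hf)).symm
    have hne : f * e ≠ e * f := fun h' =>
      CC.not_commute_of_partner hS hE hcc hD hED he he1 hf hf1 h'.symm
    have hfe : ⁅f, e⁆ ∈ A := by
      have h1 : ⁅f, e⁆ ∈ ⁅F, E⁆ := Subgroup.commutator_mem_commutator hf he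
      rw [Subgroup.commutator_comm F E, hEF] at h1
      exact h1
    have hro : IsRankOnePair (conjBy E f) B := by
      refine rankOne_of_line hS hE hB (hS.conj_mem _ hE f) hAB ?_ ?_ hfe ?_ he ?_
      · intro x hx y hy
        rw [← hEF] at hx
        exact hcc.central x hx y (Subgroup.mem_sup_left hy)
      · exact fun h' => RO.commutator_ne_bot h' h
      · intro h1
        exact hne (commutatorElement_eq_one_iff_mul_comm.mp h1)
      · have h2 : ⁅f, e⁆ * e = f * e * f⁻¹ := by rw [commutatorElement_def]; group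
        rw [h2]; exact conj_mem_conjBy he
    exact exists_line_commutator_partner_aux hS hB hAB (hS.conj_mem _ hE f) hccE' hE'F hro
  · exact exists_line_commutator_partner_aux hS hB hAB hE hcc hEF (RankOnePair_symm h)
  · obtain ⟨D, hD, hED⟩ := hpart E hE
    have h1 := CC.linePartner hS hE hcc hD hED
    rw [hEF] at h1
    exact ⟨E, h1, hE, h.1⟩

end Cfsg.Agent.Helper83
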