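import Mathlib
import Cfsg.Prelude.Def_RootSubgroups
import Cfsg.Agent.Helper83.Special

set_option autoImplicit false

namespace Cfsg.Agent.Helper83

open Cfsg
open scoped commutatorElement

variable {G : Type*} [Group G]

theorem commElem_mul_of_commute {a c w : G} (h1 : a * c = c * a) (h2 : c * w = w * c) :
    ⁅a, c⁻¹ * w⁆ = ⁅a, w⁆ := by
  have h3 : c * ⁅a, w⁆ = ⁅a, w⁆ * c := by
    rw [commutatorElement_def]
    have h1' : c * a⁻¹ = a⁻¹ * c := by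
      calc c * a⁻¹ = a⁻¹ * (a * c) * a⁻¹ := by group
        _ = a⁻¹ * (c * a) * a⁻¹ := by rw [h1]
        _ = a⁻¹ * c := by group
    have h2' : c * w⁻¹ = w⁻¹ * c := by
      calc c * w⁻¹ = w⁻¹ * (w * c) * w⁻¹ := by group
        _ = w⁻¹ * (c * w) * w⁻¹ := by rw [h2]
        _ = w⁻¹ * c := by group
    calc c * (a * w * a⁻¹ * w⁻¹) = (c * a) * w * a⁻¹ * w⁻¹ := by group
      _ = a * (c * w) * a⁻¹ * w⁻¹ := by rw [← h1]; group
      _ = a * w * (c * a⁻¹) * w⁻¹ := by rw [h2]; group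
      _ = a * w * a⁻¹ * (c * w⁻¹) := by rw [h1']; group
      _ = a * w * a⁻¹ * w⁻¹ * c := by rw [h2']; group
  have h4 : ⁅a, c⁻¹ * w⁆ = (a * c * a⁻¹)⁻¹ * ⁅a, w⁆ * c := by
    simp only [commutatorElement_def]; group
  have h5 : a * c * a⁻¹ = c := by rw [h1]; group
  rw [h4, h5, mul_assoc, ← h3]; group

theorem comm_conj_eq {S : Set (Subgroup G)} {A B C : Subgroup G}
    (hcc : CC S C B) (hAC : ∀ a ∈ A, ∀ c ∈ C, a * c = c * a) {a b c : G} (ha : a ∈ A) (hb : b ∈ B)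
    (hc : c ∈ C) : ⁅a, b * c * b⁻¹⁆ = ⁅a, ⁅c⁻¹, b⁆⁆ := by
  have h1 : a * c = c * a := hAC a ha c hc
  have h2 : c * (b * c * b⁻¹) = (b * c * b⁻¹) * c := by
    have hk : ⁅b, c⁆ ∈ ⁅C, B⁆ := by
      rw [Subgroup.commutator_comm C B]; exact Subgroup.commutator_mem_commutator hb hc
    have e1 := hcc.central _ hk c (Subgroup.mem_sup_left hc)
    have e2 : b * c * b⁻¹ = ⁅b, c⁆ * c := by rw [commutatorElement_def]; group
    rw [e2, ← mul_assoc, ← e1]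
  have h3 : ⁅c⁻¹, b⁆ = c⁻¹ * (b * c * b⁻¹) := by rw [commutatorElement_def]; group
  rw [h3, commElem_mul_of_commute h1 h2]

namespace Cfg

variable {S : Set (Subgroup G)} {A B D : Subgroup G}

/-- In the configuration of a line `A ⊔ ⁅A, B⁆` acted on by the rank one group `B ⊔ D`,
the rank one pair `(B, D)` is special. -/
theorem special (h : Cfg S A B D) : IsSpecialRankOnePair B D := by
  refine ⟨h.rankOne, ?_⟩
  intro b hb hb1 d hd hd1 hcond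
  -- the two elements act in the same way on `A`
  have hA : ∀ a ∈ A, (d⁻¹ * b * d) * a * (d⁻¹ * b * d)⁻¹ = (b⁻¹ * d⁻¹ * b) * a * (b⁻¹ * d⁻¹ * b)⁻¹ := by
    intro a ha
    have hα : ⁅b, a⁆ ∈ ⁅A, B⁆ := h.bA_mem hb ha
    have i1 : b * a * b⁻¹ = ⁅b, a⁆ * a := conj_b_a b a
    have i2 : d * a * d⁻¹ = a := h.conj_d_a hd ha
    have i2' : d⁻¹ * a * d = a := h.conj_dinv_a hd ha
    have i3 : d⁻¹ * ⁅b, a⁆ * d = a⁻¹ * ⁅b, a⁆ := by
      rw [h.conj_dinv_c hd hα, h.star hb hb1 hd hcond ha]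
    have i4 : ⁅b, a⁆ * a = a * ⁅b, a⁆ := h.comm_ca ha hα
    have i5 : b⁻¹ * ⁅b, a⁆ * b = ⁅b, a⁆ := h.conj_binv_c hb hα
    have l1 : (d⁻¹ * b * d) * a * (d⁻¹ * b * d)⁻¹ = ⁅b, a⁆ := by
      calc (d⁻¹ * b * d) * a * (d⁻¹ * b * d)⁻¹ = d⁻¹ * (b * (d * a * d⁻¹) * b⁻¹) * d := by group
        _ = d⁻¹ * (b * a * b⁻¹) * d := by rw [i2]
        _ = d⁻¹ * (⁅b, a⁆ * a) * d := by rw [i1]
        _ = (d⁻¹ * ⁅b, a⁆ * d) * (d⁻¹ * a * d) := by group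
        _ = (a⁻¹ * ⁅b, a⁆) * a := by rw [i3, i2']
        _ = a⁻¹ * (⁅b, a⁆ * a) := by group
        _ = a⁻¹ * (a * ⁅b, a⁆) := by rw [i4]
        _ = ⁅b, a⁆ := by group
    have l2 : (b⁻¹ * d⁻¹ * b) * a * (b⁻¹ * d⁻¹ * b)⁻¹ = ⁅b, a⁆ := by
      calc (b⁻¹ * d⁻¹ * b) * a * (b⁻¹ * d⁻¹ * b)⁻¹ = b⁻¹ * (d⁻¹ * (b * a * b⁻¹) * d) * b := by group
        _ = b⁻¹ * (d⁻¹ * (⁅b, a⁆ * a) * d) * b := by rw [i1]
        _ = b⁻¹ * ((d⁻¹ * ⁅b, a⁆ * d) * (d⁻¹ * a * d)) * b := by group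
        _ = b⁻¹ * ((a⁻¹ * ⁅b, a⁆) * a) * b := by rw [i3, i2']
        _ = b⁻¹ * (a⁻¹ * (⁅b, a⁆ * a)) * b := by group
        _ = b⁻¹ * (a⁻¹ * (a * ⁅b, a⁆)) * b := by rw [i4]
        _ = b⁻¹ * ⁅b, a⁆ * b := by group
        _ = ⁅b, a⁆ := i5
    rw [l1, l2]
  -- and on `⁅A, B⁆`
  have hC : ∀ c ∈ ⁅A, B⁆, (d⁻¹ * b * d) * c * (d⁻¹ * b * d)⁻¹ = (b⁻¹ * d⁻¹ * b) * c * (b⁻¹ * d⁻¹ * b)⁻¹ := by
    intro c hc
    have hα : ⁅d, c⁆ ∈ A := h.dC_mem hd hc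
    have j1 : d * c * d⁻¹ = ⁅d, c⁆ * c := conj_d_c d c
    have j2 : b * c * b⁻¹ = c := h.conj_b_c hb hc
    have j2' : b⁻¹ * c * b = c := h.conj_binv_c hb hc
    have j3 : b * ⁅d, c⁆ * b⁻¹ = c * ⁅d, c⁆ := by
      rw [conj_b_a b ⁅d, c⁆, h.star' hb hb1 hd hcond hc]
    have j3' : b⁻¹ * ⁅d, c⁆ * b = c⁻¹ * ⁅d, c⁆ := by
      rw [h.conj_binv_a hb hα, h.star' hb hb1 hd hcond hc]
    have j4 : c * ⁅d, c⁆ = ⁅d, c⁆ * c := h.comm_ca hα hc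
    have j5 : d⁻¹ * c * d = ⁅d, c⁆⁻¹ * c := h.conj_dinv_c hd hc
    have j6 : d⁻¹ * ⁅d, c⁆ * d = ⁅d, c⁆ := h.conj_dinv_a hd hα
    have l1 : (d⁻¹ * b * d) * c * (d⁻¹ * b * d)⁻¹ = ⁅d, c⁆⁻¹ * c * c := by
      calc (d⁻¹ * b * d) * c * (d⁻¹ * b * d)⁻¹ = d⁻¹ * (b * (d * c * d⁻¹) * b⁻¹) * d := by group
        _ = d⁻¹ * (b * (⁅d, c⁆ * c) * b⁻¹) * d := by rw [j1]
        _ = d⁻¹ * ((b * ⁅d, c⁆ * b⁻¹) * (b * c * b⁻¹)) * d := by group
        _ = d⁻¹ * ((c * ⁅d, c⁆) * c) * d := by rw [j3, j2]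
        _ = (d⁻¹ * c * d) * (d⁻¹ * ⁅d, c⁆ * d) * (d⁻¹ * c * d) := by group
        _ = (⁅d, c⁆⁻¹ * c) * ⁅d, c⁆ * (⁅d, c⁆⁻¹ * c) := by rw [j5, j6]
        _ = ⁅d, c⁆⁻¹ * (c * ⁅d, c⁆) * ⁅d, c⁆⁻¹ * c := by group
        _ = ⁅d, c⁆⁻¹ * (⁅d, c⁆ * c) * ⁅d, c⁆⁻¹ * c := by rw [j4]
        _ = c * ⁅d, c⁆⁻¹ * c := by group
        _ = ⁅d, c⁆⁻¹ * (⁅d, c⁆ * c) * ⁅d, c⁆⁻¹ * c := by group
        _ = ⁅d, c⁆⁻¹ * (c * ⁅d, c⁆) * ⁅d, c⁆⁻¹ * c := by rw [j4]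
        _ = ⁅d, c⁆⁻¹ * c * c := by group
    have l2 : (b⁻¹ * d⁻¹ * b) * c * (b⁻¹ * d⁻¹ * b)⁻¹ = ⁅d, c⁆⁻¹ * c * c := by
      calc (b⁻¹ * d⁻¹ * b) * c * (b⁻¹ * d⁻¹ * b)⁻¹ = b⁻¹ * (d⁻¹ * (b * c * b⁻¹) * d) * b := by group
        _ = b⁻¹ * (d⁻¹ * c * d) * b := by rw [j2]
        _ = b⁻¹ * (⁅d, c⁆⁻¹ * c) * b := by rw [j5]
        _ = (b⁻¹ * ⁅d, c⁆ * b)⁻¹ * (b⁻¹ * c * b) := by group
        _ = (c⁻¹ * ⁅d, c⁆)⁻¹ * c := by rw [j3', j2']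
        _ = ⁅d, c⁆⁻¹ * c * c := by group
    rw [l1, l2]
  -- hence `z = (b⁻¹ d⁻¹ b)⁻¹ (d⁻¹ b d)` centralizes the line
  obtain ⟨z, hz⟩ : ∃ z : G, z = (b⁻¹ * d⁻¹ * b)⁻¹ * (d⁻¹ * b * d) := ⟨_, rfl⟩
  have hzn : ∀ n : G, (d⁻¹ * b * d) * n * (d⁻¹ * b * d)⁻¹ = (b⁻¹ * d⁻¹ * b) * n * (b⁻¹ * d⁻¹ * b)⁻¹ →
      n * z = z * n := by
    intro n e
    symm
    calc z * n = (b⁻¹ * d⁻¹ * b)⁻¹ * ((d⁻¹ * b * d) * n * (d⁻¹ * b * d)⁻¹) * (d⁻¹ * b * d) := by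
          rw [hz]; group
      _ = (b⁻¹ * d⁻¹ * b)⁻¹ * ((b⁻¹ * d⁻¹ * b) * n * (b⁻¹ * d⁻¹ * b)⁻¹) * (d⁻¹ * b * d) := by rw [e]
      _ = n * z := by rw [hz]; group
  have hzc : z ∈ Subgroup.centralizer ((A ⊔ ⁅A, B⁆ : Subgroup G) : Set G) := by
    rw [Subgroup.mem_centralizer_iff]
    intro n hn
    refine sup_induction (Q := fun n => n * z = z * n) (fun x hx => hzn x (hA x hx))
      (fun x hx => hzn x (hC x hx)) (by simp) ?_ n hn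
    intro x y hx hy
    calc x * y * z = x * (y * z) := by group
      _ = x * (z * y) := by rw [hy]
      _ = (x * z) * y := by group
      _ = (z * x) * y := by rw [hx]
      _ = z * (x * y) := by group
  have hg1 : d⁻¹ * b * d ∈ conjBy B d⁻¹ := by
    rw [mem_conjBy]; convert hb using 1; group
  have hg2 : b⁻¹ * d⁻¹ * b ∈ conjBy D b⁻¹ := by
    rw [mem_conjBy]; convert D.inv_mem hd using 1; group
  have hzU : z ∈ conjBy B d⁻¹ := by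
    rw [hz]
    refine Subgroup.mul_mem _ (Subgroup.inv_mem _ ?_) hg1
    rw [hcond]; exact hg2
  have hzBD : z ∈ B ⊔ D := by
    rw [hz]
    refine Subgroup.mul_mem _ (Subgroup.inv_mem _ ?_) ?_
    · exact Subgroup.mul_mem _ (Subgroup.mul_mem _ (Subgroup.inv_mem _ (Subgroup.mem_sup_left hb))
        (Subgroup.inv_mem _ (Subgroup.mem_sup_right hd))) (Subgroup.mem_sup_left hb)
    · exact Subgroup.mul_mem _ (Subgroup.mul_mem _ (Subgroup.inv_mem _ (Subgroup.mem_sup_right hd))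
        (Subgroup.mem_sup_left hb)) (Subgroup.mem_sup_right hd)
  have hcen := h.centralizer_central z (Subgroup.mem_inf.mpr ⟨hzBD, hzc⟩)
  have hzB : z ∈ B := by
    have h1 := mem_conjBy.mp hzU
    have h2 : d⁻¹⁻¹ * z * d⁻¹ = z := by
      rw [inv_inv, ← hcen d (Subgroup.mem_sup_right hd)]; group
    rwa [h2] at h1
  have hzD : z ∈ D := by
    have hzU' := hzU
    rw [hcond] at hzU'
    have h1 := mem_conjBy.mp hzU'
    have h2 : b⁻¹⁻¹ * z * b⁻¹ = z := by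
      rw [inv_inv, ← hcen b (Subgroup.mem_sup_left hb)]; group
    rwa [h2] at h1
  have hz1 : z = 1 := by
    have h1 : z ∈ B ⊓ D := Subgroup.mem_inf.mpr ⟨hzB, hzD⟩
    rw [RO.inf_eq_bot h.rankOne] at h1
    exact Subgroup.mem_bot.mp h1
  rw [hz] at hz1
  calc d⁻¹ * b * d = (b⁻¹ * d⁻¹ * b) * ((b⁻¹ * d⁻¹ * b)⁻¹ * (d⁻¹ * b * d)) := by group
    _ = b⁻¹ * d⁻¹ * b := by rw [hz1]; group

end Cfg


/-- The configuration produced by a rank one pair `(A, B)` together with a member `C` commuting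
with `A` and in the commutator case with `B`. -/
theorem cfg_of_commutator_partner {S : Set (Subgroup G)} (hS : IsRootSubgroupSet S)
    (hpart : ∀ E ∈ S, ∃ D ∈ S, IsRankOnePair E D)
    {A B C : Subgroup G} (hA : A ∈ S) (hB : B ∈ S) (hAB : IsRankOnePair A B) (hC : C ∈ S)
    (hAC : ⁅A, C⁆ = ⊥) (hBC : ⁅B, C⁆ ∈ S) : Cfg S ⁅C, B⁆ A B := by
  have hK : ⁅C, B⁆ ∈ S := by rw [Subgroup.commutator_comm C B]; exact hBC
  have hcc : CC S C B := cc_of_commutator_mem hS hC hB hK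
  have hac : ∀ a ∈ A, ∀ c ∈ C, a * c = c * a :=
    fun a ha c hc => commute_of_commutator_eq_bot hAC ha hc
  obtain ⟨a, ha, ha1⟩ := RO.exists_ne_one_left hAB
  obtain ⟨b, hb, hb1, hcond⟩ := hAB.cond_left a ha ha1
  -- (C1)
  have hC1 : CC S (conjBy C b) A := by
    have h1 := CC.conj hS hcc a⁻¹
    have h2 : conjBy C a⁻¹ = C :=
      conjBy_eq_of_commute (fun c hc => hac a⁻¹ (A.inv_mem ha) c hc)
    rw [h2, ← hcond] at h1
    have h3 := CC.conj hS h1 b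
    rwa [conjBy_cancel_inv] at h3
  -- (C2)
  have hKA_eq : ⁅⁅C, B⁆, A⁆ = ⁅conjBy C b, A⁆ := by
    apply le_antisymm
    · rw [Subgroup.commutator_le]
      intro k hk x hx
      obtain ⟨c, hc, rfl⟩ := hcc.surj_right b hb hb1 k hk
      have e := comm_conj_eq hcc hac hx hb (C.inv_mem hc)
      rw [inv_inv] at e
      have e2 : ⁅⁅c, b⁆, x⁆ = ⁅x, b * c⁻¹ * b⁻¹⁆⁻¹ := by rw [e, commutatorElement_inv]
      rw [e2]
      apply Subgroup.inv_mem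
      rw [Subgroup.commutator_comm]
      exact Subgroup.commutator_mem_commutator hx (conj_mem_conjBy (C.inv_mem hc))
    · rw [Subgroup.commutator_le]
      intro c' hc' x hx
      have hc0 := mem_conjBy.mp hc'
      have e := comm_conj_eq hcc hac hx hb hc0
      have e1 : b * (b⁻¹ * c' * b) * b⁻¹ = c' := by group
      rw [e1] at e
      have e2 : ⁅c', x⁆ = ⁅x, c'⁆⁻¹ := (commutatorElement_inv x c').symm
      rw [e2, e]
      apply Subgroup.inv_mem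
      rw [Subgroup.commutator_comm]
      exact Subgroup.commutator_mem_commutator hx
        (Subgroup.commutator_mem_commutator (C.inv_mem hc0) hb)
  have hK' : ⁅⁅C, B⁆, A⁆ ∈ S := by rw [hKA_eq]; exact hC1.mem
  have hccK : CC S ⁅C, B⁆ A := cc_of_commutator_mem hS hK hA hK'
  have hbk : ∀ x ∈ B, ∀ k ∈ ⁅C, B⁆, x * k = k * x :=
    fun x hx k hk => (hcc.central k hk x (Subgroup.mem_sup_right hx)).symm
  have hkk' : ∀ k' ∈ ⁅⁅C, B⁆, A⁆, ∀ k ∈ ⁅C, B⁆, k' * k = k * k' :=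
    fun k' hk' k hk => hccK.central k' hk' k (Subgroup.mem_sup_left hk)
  have hb' : a * (b⁻¹ * a * b) * a⁻¹ ∈ B := by
    have h1 : b⁻¹ * a * b ∈ conjBy A b⁻¹ := by
      rw [mem_conjBy]; convert ha using 1; group
    rw [hcond, mem_conjBy] at h1
    convert h1 using 1; group
  -- (C3)
  have hT : ⁅B, ⁅⁅C, B⁆, A⁆⁆ ∈ S := by
    rcases hS.pair B hB _ hK' with h | h | h
    · exfalso
      have hak : ∀ k ∈ ⁅C, B⁆, a * k = k * a := by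
        intro k hk
        have hak' : ⁅a, k⁆ ∈ ⁅⁅C, B⁆, A⁆ := by
          rw [Subgroup.commutator_comm]; exact Subgroup.commutator_mem_commutator ha hk
        have e1 : a * (b⁻¹ * a * b) * a⁻¹ * ⁅a, k⁆ = ⁅a, k⁆ * (a * (b⁻¹ * a * b) * a⁻¹) :=
          commute_of_commutator_eq_bot h hb' hak'
        have e2 : a * (b⁻¹ * a * b) * a⁻¹ * k = k * (a * (b⁻¹ * a * b) * a⁻¹) := hbk _ hb' k hk
        have e3 : b * k = k * b := hbk _ hb k hk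
        have e4 : a * k * a⁻¹ = ⁅a, k⁆ * k := Cfg.conj_b_a a k
        have e5 : a * (b⁻¹ * a * b) * a⁻¹ * (a * k * a⁻¹) =
            (a * k * a⁻¹) * (a * (b⁻¹ * a * b) * a⁻¹) := by
          rw [e4, ← mul_assoc, e1, mul_assoc, e2, ← mul_assoc]
        have e7 : (b⁻¹ * a * b) * k = k * (b⁻¹ * a * b) := by
          calc (b⁻¹ * a * b) * k
              = a⁻¹ * (a * (b⁻¹ * a * b) * a⁻¹ * (a * k * a⁻¹)) * a := by group
            _ = a⁻¹ * ((a * k * a⁻¹) * (a * (b⁻¹ * a * b) * a⁻¹)) * a := by rw [e5]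
            _ = k * (b⁻¹ * a * b) := by group
        have e8 : b * k * b⁻¹ = k := by rw [e3]; group
        calc a * k = a * (b * k * b⁻¹) := by rw [e8]
          _ = b * ((b⁻¹ * a * b) * k) * b⁻¹ := by group
          _ = b * (k * (b⁻¹ * a * b)) * b⁻¹ := by rw [e7]
          _ = (b * k * b⁻¹) * a := by group
          _ = k * a := by rw [e8]
      obtain ⟨k', hk', hk'1⟩ := exists_ne_one_of_mem hS hK'
      obtain ⟨k, hk, hkk⟩ := hccK.surj_right a ha ha1 k' hk'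
      apply hk'1
      rw [← hkk]
      exact commutatorElement_eq_one_iff_mul_comm.mpr (hak k hk).symm
    · exfalso
      obtain ⟨k', hk', hk'1⟩ := exists_ne_one_of_mem hS hK'
      obtain ⟨k, hk, hkk⟩ := hccK.surj_right a ha ha1 k'⁻¹ (Subgroup.inv_mem _ hk')
      have e1 : ⁅a, k⁆ = k' := by rw [← commutatorElement_inv, hkk, inv_inv]
      have e2 : k' * k = a * k * a⁻¹ := by rw [← e1, commutatorElement_def]; group
      have hro : IsRankOnePair (conjBy ⁅C, B⁆ a) B := by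
        refine rankOne_of_line hS hK hB (hS.conj_mem _ hK a) (RankOnePair_symm h) hkk' ?_
          hk' hk'1 hk ?_
        · intro h'
          exact RO.commutator_ne_bot h' (commutator_eq_bot_of_commute hbk)
        · rw [e2]; exact conj_mem_conjBy hk
      have h1 := RO.conj hro a⁻¹
      rw [conjBy_inv_cancel, ← hcond] at h1
      have h2 := RO.conj h1 b
      rw [conjBy_cancel_inv] at h2
      have h3 : conjBy ⁅C, B⁆ b = ⁅C, B⁆ := conjBy_eq_of_commute (fun k hk => hbk b hb k hk)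
      rw [h3] at h2
      exact not_rankOne_of_commutator_mem hS hK hK' h2
    · exact h.1
  have hccT : CC S B ⁅⁅C, B⁆, A⁆ := cc_of_commutator_mem hS hB hK' hT
  -- (C4)
  have hDC : ⁅B, ⁅⁅C, B⁆, A⁆⁆ = ⁅C, B⁆ := by
    obtain ⟨c, hc, hc1⟩ := exists_ne_one_of_mem hS hC
    obtain ⟨DC, hDC, hCDC⟩ := hpart C hC
    obtain ⟨DK, hDK, hKDK⟩ := hpart _ hK
    obtain ⟨DT, hDT, hTDT⟩ := hpart _ hT
    have hb'1 : a * (b⁻¹ * a * b) * a⁻¹ ≠ 1 := by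
      intro e
      apply ha1
      have e' : a = b * (a⁻¹ * (a * (b⁻¹ * a * b) * a⁻¹) * a) * b⁻¹ := by group
      rw [e', e]; group
    obtain ⟨b', hb'def⟩ : ∃ b' : G, b' = a * (b⁻¹ * a * b) * a⁻¹ := ⟨_, rfl⟩
    rw [← hb'def] at hb' hb'1
    obtain ⟨k₁, hk₁def⟩ : ∃ k₁ : G, k₁ = ⁅b', c⁆ := ⟨_, rfl⟩
    have hk₁ : k₁ ∈ ⁅C, B⁆ := by
      rw [hk₁def, Subgroup.commutator_comm]; exact Subgroup.commutator_mem_commutator hb' hc
    have hk₁1 : k₁ ≠ 1 := by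
      intro e
      rw [hk₁def] at e
      exact CC.not_commute_of_partner hS hC hcc hDC hCDC hc hc1 hb' hb'1
        (commutatorElement_eq_one_iff_mul_comm.mp e).symm
    obtain ⟨y, hydef⟩ : ∃ y : G, y = ⁅a⁻¹, k₁⁆ := ⟨_, rfl⟩
    obtain ⟨x, hxdef⟩ : ∃ x : G, x = ⁅a, b * c * b⁻¹⁆ := ⟨_, rfl⟩
    have hy : y ∈ ⁅⁅C, B⁆, A⁆ := by
      rw [hydef, Subgroup.commutator_comm]
      exact Subgroup.commutator_mem_commutator (A.inv_mem ha) hk₁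
    have hx : x ∈ ⁅⁅C, B⁆, A⁆ := by
      rw [hxdef, comm_conj_eq hcc hac ha hb hc, Subgroup.commutator_comm]
      exact Subgroup.commutator_mem_commutator ha
        (Subgroup.commutator_mem_commutator (C.inv_mem hc) hb)
    have e1 : a⁻¹ * c * a = c := by rw [mul_assoc, ← hac a ha c hc]; group
    have e2 : a⁻¹ * k₁ * a = ⁅b⁻¹ * a * b, c⁆ := by
      rw [hk₁def, hb'def, commutatorElement_def, commutatorElement_def]
      calc a⁻¹ * (a * (b⁻¹ * a * b) * a⁻¹ * c * (a * (b⁻¹ * a * b) * a⁻¹)⁻¹ * c⁻¹) * a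
          = (b⁻¹ * a * b) * (a⁻¹ * c * a) * (b⁻¹ * a * b)⁻¹ * (a⁻¹ * c * a)⁻¹ := by group
        _ = (b⁻¹ * a * b) * c * (b⁻¹ * a * b)⁻¹ * c⁻¹ := by rw [e1]
    have e3 : b * ⁅b⁻¹ * a * b, c⁆ * b⁻¹ = ⁅a, b * c * b⁻¹⁆ := by
      rw [commutatorElement_def, commutatorElement_def]; group
    have e4 : b * k₁ * b⁻¹ = k₁ := by rw [hbk b hb k₁ hk₁]; group
    have e5 : b * y * b⁻¹ = x * k₁⁻¹ := by
      rw [hydef, hxdef, ← e3, ← e2, commutatorElement_def]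
      calc b * (a⁻¹ * k₁ * a⁻¹⁻¹ * k₁⁻¹) * b⁻¹
          = b * (a⁻¹ * k₁ * a) * b⁻¹ * (b * k₁ * b⁻¹)⁻¹ := by group
        _ = b * (a⁻¹ * k₁ * a) * b⁻¹ * k₁⁻¹ := by rw [e4]
    have hw : ⁅b, y⁆ = x * k₁⁻¹ * y⁻¹ := by
      rw [commutatorElement_def, e5]
    have hwT : ⁅b, y⁆ ∈ ⁅B, ⁅⁅C, B⁆, A⁆⁆ := Subgroup.commutator_mem_commutator hb hy
    have hKK' : ⁅C, B⁆ ⊓ ⁅⁅C, B⁆, A⁆ = ⊥ := CC.inf_eq_bot_left hS hccK hDK hKDK
    have hw1 : ⁅b, y⁆ ≠ 1 := by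
      intro e
      rw [hw] at e
      have e' : k₁ = y⁻¹ * x := by
        calc k₁ = y⁻¹ * (x * k₁⁻¹ * y⁻¹)⁻¹ * x := by group
          _ = y⁻¹ * x := by rw [e]; group
      have h1 : k₁ ∈ ⁅C, B⁆ ⊓ ⁅⁅C, B⁆, A⁆ :=
        Subgroup.mem_inf.mpr ⟨hk₁, e' ▸ Subgroup.mul_mem _ (Subgroup.inv_mem _ hy) hx⟩
      rw [hKK'] at h1
      exact hk₁1 (Subgroup.mem_bot.mp h1)
    have hwN : ⁅b, y⁆ ∈ ⁅C, B⁆ ⊔ ⁅⁅C, B⁆, A⁆ := by
      rw [hw]
      exact Subgroup.mul_mem _ (Subgroup.mul_mem _ (Subgroup.mem_sup_right hx)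
        (Subgroup.inv_mem _ (Subgroup.mem_sup_left hk₁))) (Subgroup.inv_mem _ (Subgroup.mem_sup_right hy))
    rcases hccK.cover _ hwN with h | ⟨a₂, ha₂, h⟩
    · exfalso
      rcases inf_eq_bot_or_eq hS hDT hTDT hK' with h1 | h1
      · have h2 : ⁅b, y⁆ ∈ ⁅B, ⁅⁅C, B⁆, A⁆⁆ ⊓ ⁅⁅C, B⁆, A⁆ := Subgroup.mem_inf.mpr ⟨hwT, h⟩
        rw [h1] at h2
        exact hw1 (Subgroup.mem_bot.mp h2)
      · have h2 := CC.ne_left hS hccT.symm
        apply h2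
        rw [Subgroup.commutator_comm ⁅⁅C, B⁆, A⁆ B]
        exact h1.symm
    · rcases inf_eq_bot_or_eq hS hDT hTDT (hS.conj_mem _ hK a₂) with h1 | h1
      · exfalso
        have h2 : ⁅b, y⁆ ∈ ⁅B, ⁅⁅C, B⁆, A⁆⁆ ⊓ conjBy ⁅C, B⁆ a₂ := Subgroup.mem_inf.mpr ⟨hwT, h⟩
        rw [h1] at h2
        exact hw1 (Subgroup.mem_bot.mp h2)
      · by_cases ha₂1 : a₂ = 1
        · rw [h1, ha₂1, conjBy_one]
        · exfalso
          apply hS.ne_bot _ hT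
          apply commutator_eq_bot_of_commute
          intro x hx k' hk'
          obtain ⟨k, hk, hkk⟩ := hccK.surj_right a₂ ha₂ ha₂1 k' hk'
          have ht : a₂ * k⁻¹ * a₂⁻¹ ∈ ⁅B, ⁅⁅C, B⁆, A⁆⁆ := by
            rw [h1]; exact conj_mem_conjBy (Subgroup.inv_mem _ hk)
          have e6 : k' = k * (a₂ * k⁻¹ * a₂⁻¹) := by
            rw [← hkk, commutatorElement_def]; group
          have e7 : x * k = k * x := hbk x hx k hk
          have e8 : (a₂ * k⁻¹ * a₂⁻¹) * x = x * (a₂ * k⁻¹ * a₂⁻¹) :=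
            hccT.central _ ht x (Subgroup.mem_sup_left hx)
          rw [e6]
          calc x * (k * (a₂ * k⁻¹ * a₂⁻¹)) = (x * k) * (a₂ * k⁻¹ * a₂⁻¹) := by group
            _ = k * (x * (a₂ * k⁻¹ * a₂⁻¹)) := by rw [e7]; group
            _ = k * (a₂ * k⁻¹ * a₂⁻¹) * x := by rw [← e8]; group
  exact ⟨hS, hK, hA, hK', hB, hDC⟩

/-- A rank one pair `(A, B)` of root subgroups for which some member `C` commutes with `A` and
is in the commutator case with `B` is special. -/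
theorem special_of_commutator_partner {S : Set (Subgroup G)} (hS : IsRootSubgroupSet S)
    (hpart : ∀ E ∈ S, ∃ D ∈ S, IsRankOnePair E D)
    {A B C : Subgroup G} (hA : A ∈ S) (hB : B ∈ S) (hAB : IsRankOnePair A B) (hC : C ∈ S)
    (hAC : ⁅A, C⁆ = ⊥) (hBC : ⁅B, C⁆ ∈ S) : IsSpecialRankOnePair A B :=
  (cfg_of_commutator_partner hS hpart hA hB hAB hC hAC hBC).special

/-- In a non-degenerate class of abstract root subgroups every rank one pair is special, and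
has a line partner of the first member in the commutator case with the second. -/
theorem nondeg_rankOne_special {S : Set (Subgroup G)} (hS : IsRootSubgroupClass S)
    (hnd : IsNondegenerateRootSet S) {A B : Subgroup G} (hA : A ∈ S) (hB : B ∈ S)
    (hAB : IsRankOnePair A B) :
    (∃ C ∈ linePartners S A, C ∈ commutatorPartners S B) ∧ IsSpecialRankOnePair A B := by
  have hpart := class_partner hS hA hB hAB
  obtain ⟨E, hE, F, hF, hcc, hEF⟩ := exists_cc_of_nondeg hS hnd hA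
  obtain ⟨C, hC1, hC2⟩ := exists_line_commutator_partner hS.1 hpart hB hAB hE hF hcc hEF
  exact ⟨⟨C, hC1, hC2⟩,
    special_of_commutator_partner hS.1 hpart hA hB hAB hC1.1.1 hC1.1.2.2 hC2.2⟩

end Cfsg.Agent.Helper83
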