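import Mathlib
import Cfsg.Prelude.Def_RootSubgroups
import Cfsg.Agent.Helper83.Special2

set_option autoImplicit false

namespace Cfsg.Agent.Helper83

open Cfsg
open scoped commutatorElement

variable {G : Type*} [Group G]

theorem linePartners_symm {S : Set (Subgroup G)} {A B : Subgroup G} (hA : A ∈ S)
    (h : B ∈ linePartners S A) : A ∈ linePartners S B := by
  obtain ⟨⟨_, hne, hc⟩, hp⟩ := h
  refine ⟨⟨hA, hne.symm, ?_⟩, ?_⟩
  · rw [Subgroup.commutator_comm]; exact hc
  · rw [sup_comm]; exact hp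

/-- In a non-degenerate class, a rank one pair is joined by a path of length three in the graph
of line partners. -/
theorem eadj_path_of_rankOne {S : Set (Subgroup G)} (hS : IsRootSubgroupClass S)
    (hnd : IsNondegenerateRootSet S) {A B : Subgroup G} (hA : A ∈ S) (hB : B ∈ S)
    (hAB : IsRankOnePair A B) : Relation.ReflTransGen (EAdj S S) A B := by
  have hpart := class_partner hS hA hB hAB
  obtain ⟨⟨C, hC1, hC2⟩, -⟩ := nondeg_rankOne_special hS hnd hA hB hAB
  have hCS : C ∈ S := hC1.1.1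
  have hK : ⁅C, B⁆ ∈ S := by rw [Subgroup.commutator_comm]; exact hC2.2
  have hccCB : CC S C B := cc_of_commutator_mem hS.1 hCS hB hK
  obtain ⟨D, hD, hCD⟩ := hpart C hCS
  obtain ⟨D', hD', hBD'⟩ := hpart B hB
  have h1 : C ∈ linePartners S ⁅C, B⁆ := CC.linePartner hS.1 hCS hccCB hD hCD
  have h2 : B ∈ linePartners S ⁅B, C⁆ := CC.linePartner hS.1 hB hccCB.symm hD' hBD'
  rw [Subgroup.commutator_comm B C] at h2
  have e1 : EAdj S S A C := ⟨hA, hCS, hC1⟩
  have e2 : EAdj S S C ⁅C, B⁆ := ⟨hCS, hK, linePartners_symm hK h1⟩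
  have e3 : EAdj S S ⁅C, B⁆ B := ⟨hK, hB, h2⟩
  exact Relation.ReflTransGen.trans (Relation.ReflTransGen.single e1)
    (Relation.ReflTransGen.trans (Relation.ReflTransGen.single e2) (Relation.ReflTransGen.single e3))

theorem nondeg_fconnected {S : Set (Subgroup G)} (hS : IsRootSubgroupClass S)
    (hnd : IsNondegenerateRootSet S) : IsConnectedFamily (FAdj S) S := by
  obtain ⟨A₀, hA₀, B₀, hB₀, hAB₀⟩ := hnd.2.1
  exact (connected_iff hS.1 ⟨A₀, hA₀, B₀, hB₀, hAB₀.ne⟩).mpr
    ⟨hS.2, A₀, hA₀, not_isolated_of_partner hA₀ hB₀ hAB₀⟩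

/-- In a non-degenerate class the graph of line partners and the commuting graph are connected. -/
theorem nondeg_connected {S : Set (Subgroup G)} (hS : IsRootSubgroupClass S)
    (hnd : IsNondegenerateRootSet S) :
    IsConnectedFamily (EAdj S S) S ∧ IsConnectedFamily (DAdj S) S := by
  have hF := nondeg_fconnected hS hnd
  have hE : IsConnectedFamily (EAdj S S) S := by
    intro A hA B hB
    have step : ∀ X Y, FAdj S X Y → Relation.ReflTransGen (EAdj S S) X Y :=
      fun X Y hXY => eadj_path_of_rankOne hS hnd hXY.1 hXY.2.1 hXY.2.2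
    exact Relation.ReflTransGen.lift' id step A B (hF A hA B hB)
  refine ⟨hE, ?_⟩
  intro A hA B hB
  have step : ∀ X Y, EAdj S S X Y → DAdj S X Y :=
    fun X Y h => ⟨h.1, h.2.1, h.2.2.1.2.1.symm, h.2.2.1.2.2⟩
  exact Relation.ReflTransGen.mono step A B (hE A hA B hB)

end Cfsg.Agent.Helper83
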