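import Mathlib
import Cfsg.Prelude.Def_RootSubgroups
import Cfsg.Agent.Helper83.Special

/-!
# Triangles of abstract root subgroups

Centralizer bookkeeping, the matched pairs of a rank one pair written with left conjugation, and the
configuration `ThetaCfg`: a rank one pair `(A, B)` with abelian `A`, `B` and an element `θ` centralizing
`B` such that `θ A θ⁻¹` is a different subgroup commuting elementwise with `A`.
-/

namespace Cfsg.Agent.Helper83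

open Cfsg

variable {G : Type*} [Group G]

/-- The centralizer of a subgroup. -/
abbrev czr (X : Subgroup G) : Subgroup G := Subgroup.centralizer (X : Set G)

theorem mem_czr {X : Subgroup G} {x : G} : x ∈ czr X ↔ ∀ y ∈ X, x * y = y * x := by
  rw [czr, Subgroup.mem_centralizer_iff]
  exact ⟨fun h y hy => (h y hy).symm, fun h y hy => (h y hy).symm⟩

theorem czr_conj_iff {X : Subgroup G} {g x : G} :
    x ∈ czr (conjBy X g) ↔ g⁻¹ * x * g ∈ czr X := by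
  rw [mem_czr, mem_czr]
  constructor
  · intro h y hy
    have e := h _ (conj_mem_conjBy (g := g) hy)
    calc g⁻¹ * x * g * y = g⁻¹ * (x * (g * y * g⁻¹)) * g := by group
      _ = g⁻¹ * ((g * y * g⁻¹) * x) * g := by rw [e]
      _ = y * (g⁻¹ * x * g) := by group
  · intro h y hy
    have e := h _ (mem_conjBy.mp hy)
    calc x * y = g * ((g⁻¹ * x * g) * (g⁻¹ * y * g)) * g⁻¹ := by group
      _ = g * ((g⁻¹ * y * g) * (g⁻¹ * x * g)) * g⁻¹ := by rw [e]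
      _ = y * x := by group

theorem czr_conj {X : Subgroup G} {x : G} (hx : x ∈ czr X) (g : G) :
    g * x * g⁻¹ ∈ czr (conjBy X g) := by
  rw [czr_conj_iff]
  have : g⁻¹ * (g * x * g⁻¹) * g = x := by group
  rwa [this]

theorem conjBy_of_mem_czr {X : Subgroup G} {x : G} (hx : x ∈ czr X) : conjBy X x = X :=
  conjBy_eq_of_commute (mem_czr.mp hx)

theorem czr_symm {X Y : Subgroup G} (h : X ≤ czr Y) : Y ≤ czr X := by
  intro y hy
  rw [mem_czr]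
  intro x hx
  exact (mem_czr.mp (h hx) y hy).symm

theorem czr_conj_le {X Y : Subgroup G} (h : X ≤ czr Y) (g : G) :
    conjBy X g ≤ czr (conjBy Y g) := by
  intro x hx
  rw [czr_conj_iff]
  exact h (mem_conjBy.mp hx)

theorem czr_comm {X : Subgroup G} {x y : G} (hx : x ∈ czr X) (hy : y ∈ X) : x * y = y * x :=
  mem_czr.mp hx y hy

theorem czr_conj_fix {X : Subgroup G} {x y : G} (hx : x ∈ czr X) (hy : y ∈ X) :
    x * y * x⁻¹ = y := by
  rw [czr_comm hx hy]; group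

theorem czr_conj_fix' {X : Subgroup G} {x y : G} (hx : x ∈ czr X) (hy : y ∈ X) :
    y * x * y⁻¹ = x := by
  rw [← czr_comm hx hy]; group

/-! ### Matched pairs with left conjugation -/

theorem RO.matchL {A B : Subgroup G} (h : IsRankOnePair A B) {a : G} (ha : a ∈ A) (ha1 : a ≠ 1) :
    ∃ b ∈ B, b ≠ 1 ∧ conjBy A b = conjBy B a := by
  obtain ⟨b, hb, hb1, e⟩ := h.cond_left a⁻¹ (A.inv_mem ha) (inv_ne_one.mpr ha1)
  rw [inv_inv] at e
  exact ⟨b⁻¹, B.inv_mem hb, inv_ne_one.mpr hb1, e⟩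

theorem RO.matchR {A B : Subgroup G} (h : IsRankOnePair A B) {b : G} (hb : b ∈ B) (hb1 : b ≠ 1) :
    ∃ a ∈ A, a ≠ 1 ∧ conjBy A b = conjBy B a := by
  obtain ⟨a, ha, ha1, e⟩ := h.cond_right b⁻¹ (B.inv_mem hb) (inv_ne_one.mpr hb1)
  rw [inv_inv] at e
  exact ⟨a⁻¹, A.inv_mem ha, inv_ne_one.mpr ha1, e.symm⟩

/-- An element centralizing `B` and normalizing `A` centralizes `A`. -/
theorem RO.czr_of_normalizes {A B : Subgroup G} (h : IsRankOnePair A B) {t : G} (ht : t ∈ czr B)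
    (hA : conjBy A t = A) : t ∈ czr A := by
  rw [mem_czr]
  intro a ha
  by_cases ha1 : a = 1
  · rw [ha1]; group
  obtain ⟨b, hb, hb1, e⟩ := RO.matchL h ha ha1
  have ha' : t * a * t⁻¹ ∈ A := by
    have := conj_mem_conjBy (g := t) ha
    rwa [hA] at this
  have e1 : conjBy (conjBy A b) t = conjBy A b := by
    rw [conjBy_conjBy, czr_comm ht hb, ← conjBy_conjBy, hA]
  have e2 : conjBy (conjBy B a) t = conjBy B (t * a * t⁻¹) := by
    rw [← conjBy_conjBy B t⁻¹ (t * a), conjBy_of_mem_czr (inv_mem ht), conjBy_conjBy]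
  have e3 : conjBy B (t * a * t⁻¹) = conjBy B a := by
    rw [← e2, ← e, e1]
  have := RO.conj_inj h ha' ha e3
  calc t * a = (t * a * t⁻¹) * t := by group
    _ = a * t := by rw [this]

/-- In a triangle (`A`, `C` commuting and different, both in rank one pairs with `B`), `A ∩ C = 1`. -/
theorem RO.tri_inf {A B C : Subgroup G} (hAB : IsRankOnePair A B) (hCB : IsRankOnePair C B)
    (hne : A ≠ C) (hc : A ≤ czr C) {g : G} (hgA : g ∈ A) (hgC : g ∈ C) : g = 1 := by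
  by_contra hg1
  obtain ⟨b₁, hb₁, -, e₁⟩ := RO.matchL hAB hgA hg1
  obtain ⟨b₂, hb₂, -, e₂⟩ := RO.matchL hCB hgC hg1
  have e : conjBy A (b₂⁻¹ * b₁) = C := by
    rw [← conjBy_conjBy, e₁, ← e₂, conjBy_inv_cancel]
  by_cases hb : b₂⁻¹ * b₁ = 1
  · rw [hb, conjBy_one] at e
    exact hne e
  obtain ⟨a', ha', -, e'⟩ := RO.matchR hAB (B.mul_mem (B.inv_mem hb₂) hb₁) hb
  rw [e] at e'
  have h1 : conjBy C a'⁻¹ = C := conjBy_of_mem_czr (hc (A.inv_mem ha'))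
  have h2 : C = B := by
    rw [← h1, e', conjBy_inv_cancel]
  exact hCB.ne h2

/-! ### The core computation -/

theorem tri_core {A B C : Subgroup G} (hA : A ≤ czr A) (hB : B ≤ czr B) (hC : C ≤ czr C)
    (hAC : A ≤ czr C) {a b c : G} (ha : a ∈ A) (hb : b ∈ B) (hc : c ∈ C)
    (e1 : conjBy A b = conjBy B a) (e2 : conjBy C b = conjBy B c) (ν : G) (hν : ν = c * a⁻¹) :
    ν ∈ czr A ∧ ν ∈ czr C ∧ conjBy B ν ≤ czr B ∧
      b⁻¹ * ν * b * ν⁻¹ ∈ czr B ∧ conjBy A (b⁻¹ * ν * b * ν⁻¹) = C := by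
  have hνA : ν ∈ czr A := by
    rw [hν]; exact mul_mem (czr_symm hAC hc) (hA (A.inv_mem ha))
  have hνC : ν ∈ czr C := by
    rw [hν]; exact mul_mem (hC hc) (hAC (A.inv_mem ha))
  have hνB : conjBy B ν ≤ czr B := by
    apply czr_symm
    have h1 : conjBy B a ≤ czr (conjBy B c) := by
      rw [← e1, ← e2]
      exact czr_conj_le hAC b
    have h2 := czr_conj_le h1 a⁻¹
    rw [conjBy_inv_cancel, conjBy_conjBy] at h2
    have h3 : a⁻¹ * c = ν := by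
      rw [hν]; exact (czr_comm (czr_symm hAC hc) (A.inv_mem ha)).symm
    rwa [h3] at h2
  have hθB : b⁻¹ * ν * b * ν⁻¹ ∈ czr B := by
    have h1 : b⁻¹ * ν * b * ν⁻¹ = b⁻¹ * (ν * b * ν⁻¹) := by group
    rw [h1]
    exact mul_mem (hB (B.inv_mem hb)) (hνB (conj_mem_conjBy hb))
  refine ⟨hνA, hνC, hνB, hθB, ?_⟩
  have h1 : b⁻¹ * ν * b * ν⁻¹ = b⁻¹ * (ν * (b * ν⁻¹)) := by group
  rw [h1, ← conjBy_conjBy, ← conjBy_conjBy, ← conjBy_conjBy,
    conjBy_of_mem_czr (inv_mem hνA), e1, conjBy_conjBy B a ν]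
  have h2 : ν * a = c := by rw [hν]; group
  rw [h2, ← e2, conjBy_inv_cancel]


/-! ### The configuration -/

/-- A rank one pair `(A, B)` with abelian `A` and `B`, and an element `θ` centralizing `B` such that
`θ A θ⁻¹` is different from `A` and commutes elementwise with `A`. -/
structure ThetaCfg (A B : Subgroup G) (θ : G) : Prop where
  ro : IsRankOnePair A B
  abA : A ≤ czr A
  abB : B ≤ czr B
  cz : θ ∈ czr B
  comm : A ≤ czr (conjBy A θ)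
  ne : conjBy A θ ≠ A

namespace ThetaCfg

variable {A B : Subgroup G} {θ : G}

theorem roC (h : ThetaCfg A B θ) : IsRankOnePair (conjBy A θ) B := by
  have := RO.conj h.ro θ
  rwa [conjBy_of_mem_czr h.cz] at this

theorem abC (h : ThetaCfg A B θ) : conjBy A θ ≤ czr (conjBy A θ) := czr_conj_le h.abA θ

theorem inf (h : ThetaCfg A B θ) {g : G} (hg : g ∈ A) (hg' : g ∈ conjBy A θ) : g = 1 :=
  RO.tri_inf h.ro h.roC (Ne.symm h.ne) h.comm hg hg'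

theorem conj_matched (h : ThetaCfg A B θ) {a b : G} (hb : b ∈ B)
    (e : conjBy A b = conjBy B a) : conjBy (conjBy A θ) b = conjBy B (θ * a * θ⁻¹) := by
  rw [conjBy_conjBy, ← czr_comm h.cz hb, ← conjBy_conjBy, e,
    ← conjBy_conjBy B θ⁻¹ (θ * a), conjBy_of_mem_czr (inv_mem h.cz), conjBy_conjBy]

/-- The core facts for a matched pair `(a, b)`, with `ν = θ a θ⁻¹ a⁻¹`. -/
theorem core (h : ThetaCfg A B θ) {a b : G} (ha : a ∈ A) (hb : b ∈ B)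
    (e : conjBy A b = conjBy B a) (ν : G) (hν : ν = θ * a * θ⁻¹ * a⁻¹) :
    ν ∈ czr A ∧ ν ∈ czr (conjBy A θ) ∧ conjBy B ν ≤ czr B ∧
      b⁻¹ * ν * b * ν⁻¹ ∈ czr B ∧ conjBy A (b⁻¹ * ν * b * ν⁻¹) = conjBy A θ :=
  tri_core h.abA h.abB h.abC h.comm ha hb (conj_mem_conjBy ha) e (h.conj_matched hb e) ν hν

/-- Replace `θ` by an element of the special form `b⁻¹ ν b ν⁻¹` attached to a matched pair `(a, b)`. -/
theorem normalize (h : ThetaCfg A B θ) {a b : G} (ha : a ∈ A) (hb : b ∈ B)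
    (e : conjBy A b = conjBy B a) :
    ∃ θ₁ ν : G, ThetaCfg A B θ₁ ∧ conjBy A θ₁ = conjBy A θ ∧
      (∀ x ∈ A, θ₁ * x * θ₁⁻¹ = θ * x * θ⁻¹) ∧ ν = θ₁ * a * θ₁⁻¹ * a⁻¹ ∧
      θ₁ = b⁻¹ * ν * b * ν⁻¹ ∧ ν ∈ czr A ∧ ν ∈ czr (conjBy A θ₁) ∧ conjBy B ν ≤ czr B := by
  obtain ⟨ν, hν⟩ : ∃ ν, ν = θ * a * θ⁻¹ * a⁻¹ := ⟨_, rfl⟩
  obtain ⟨hνA, hνC, hνB, hθB, hθA⟩ := h.core ha hb e ν hν
  obtain ⟨θ₁, hθ₁⟩ : ∃ θ₁, θ₁ = b⁻¹ * ν * b * ν⁻¹ := ⟨_, rfl⟩
  rw [← hθ₁] at hθB hθA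
  have h₁ : ThetaCfg A B θ₁ := ⟨h.ro, h.abA, h.abB, hθB, by rw [hθA]; exact h.comm,
    by rw [hθA]; exact h.ne⟩
  have ht : θ⁻¹ * θ₁ ∈ czr A := by
    apply RO.czr_of_normalizes h.ro (mul_mem (inv_mem h.cz) hθB)
    rw [← conjBy_conjBy, hθA, conjBy_inv_cancel]
  have hx : ∀ x ∈ A, θ₁ * x * θ₁⁻¹ = θ * x * θ⁻¹ := by
    intro x hx
    have e1 := czr_comm ht hx
    calc θ₁ * x * θ₁⁻¹ = θ * (θ⁻¹ * θ₁ * x) * θ₁⁻¹ := by group
      _ = θ * (x * (θ⁻¹ * θ₁)) * θ₁⁻¹ := by rw [e1]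
      _ = θ * x * θ⁻¹ := by group
  refine ⟨θ₁, ν, h₁, hθA, hx, ?_, hθ₁, hνA, by rw [hθA]; exact hνC, hνB⟩
  rw [hx a ha]; exact hν

end ThetaCfg


/-- A configuration normalized for a matched pair `(a, b)`: `θ = b⁻¹ ν b ν⁻¹` with
`ν = θ a θ⁻¹ a⁻¹`. -/
structure NCfg (A B : Subgroup G) (θ a b ν : G) : Prop where
  cfg : ThetaCfg A B θ
  ha : a ∈ A
  hb : b ∈ B
  e : conjBy A b = conjBy B a
  hν : ν = θ * a * θ⁻¹ * a⁻¹
  hθ : θ = b⁻¹ * ν * b * ν⁻¹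
  νA : ν ∈ czr A
  νC : ν ∈ czr (conjBy A θ)
  νB : conjBy B ν ≤ czr B

namespace NCfg

variable {A B : Subgroup G} {θ a b ν : G}

theorem not_czr (h : NCfg A B θ a b ν) : ν ∉ czr B := by
  intro hν
  apply h.cfg.ne
  have e1 : θ = 1 := by
    rw [h.hθ, mul_assoc b⁻¹, czr_comm hν h.hb]; group
  rw [e1, conjBy_one]

/-- An element `β` of `B` such that `β ν β⁻¹ ν⁻¹` normalizes `A` is trivial. -/
theorem eq_one_of_fix (h : NCfg A B θ a b ν) {β : G} (hβ : β ∈ B)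
    (hfix : conjBy A (β * ν * β⁻¹ * ν⁻¹) = A) : β = 1 := by
  by_contra hβ1
  obtain ⟨ω, hω⟩ : ∃ ω, ω = β * ν * β⁻¹ * ν⁻¹ := ⟨_, rfl⟩
  rw [← hω] at hfix
  have hωB : ω ∈ czr B := by
    have e1 : ω = β * (ν * β⁻¹ * ν⁻¹) := by rw [hω]; group
    rw [e1]
    exact mul_mem (h.cfg.abB hβ) (h.νB (conj_mem_conjBy (B.inv_mem hβ)))
  have hωA : ω ∈ czr A := RO.czr_of_normalizes h.cfg.ro hωB hfix
  obtain ⟨α, hα, -, eα⟩ := RO.matchR h.cfg.ro hβ hβ1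
  have h1 : β * ν * β⁻¹ ∈ czr (conjBy B α) := by
    rw [← eα]; exact czr_conj h.νA β
  have h2 : ω ∈ czr (conjBy B α) := by
    rw [czr_conj_iff]
    have e1 : α⁻¹ * ω * α = ω := by rw [mul_assoc, czr_comm hωA hα]; group
    rw [e1]; exact hωB
  have h3 : ν ∈ czr (conjBy B α) := by
    have e1 : ν = ω⁻¹ * (β * ν * β⁻¹) := by rw [hω]; group
    rw [e1]; exact mul_mem (inv_mem h2) h1
  rw [czr_conj_iff] at h3
  have e1 : α⁻¹ * ν * α = ν := by rw [mul_assoc, czr_comm h.νA hα]; group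
  rw [e1] at h3
  exact h.not_czr h3

/-- The partner of `a⁻¹` is `b⁻¹`. -/
theorem match_inv (h : NCfg A B θ a b ν) (ha1 : a ≠ 1) : conjBy A b⁻¹ = conjBy B a⁻¹ := by
  obtain ⟨b', hb', -, e'⟩ := RO.matchL h.cfg.ro (A.inv_mem h.ha) (inv_ne_one.mpr ha1)
  obtain ⟨θ', ν', -, hC', hx', hν', hθ', -, -, -⟩ := h.cfg.normalize (A.inv_mem h.ha) hb' e'
  have e1 : ν' = ν⁻¹ := by
    rw [hν', inv_inv]
    have e2 : θ' * a⁻¹ * θ'⁻¹ = (θ' * a * θ'⁻¹)⁻¹ := by group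
    have e3 : θ * a * θ⁻¹ = ν * a := by rw [h.hν]; group
    rw [e2, hx' a h.ha, e3, czr_comm h.νA h.ha]; group
  rw [e1, inv_inv] at hθ'
  have hfix : conjBy A ((b * b') * ν * (b * b')⁻¹ * ν⁻¹) = A := by
    have key : (b * b') * ν * (b * b')⁻¹ * ν⁻¹ = θ⁻¹ * (ν * (θ' * ν⁻¹)) := by
      obtain ⟨p, hp⟩ : ∃ p, p = ν * b⁻¹ * ν⁻¹ := ⟨_, rfl⟩
      obtain ⟨q, hq⟩ : ∃ q, q = ν * b'⁻¹ * ν⁻¹ := ⟨_, rfl⟩
      have hpB' : p ∈ conjBy B ν := by rw [hp]; exact conj_mem_conjBy (B.inv_mem h.hb)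
      have hqB' : q ∈ conjBy B ν := by rw [hq]; exact conj_mem_conjBy (B.inv_mem hb')
      have hpB : p ∈ czr B := h.νB hpB'
      have hqB : q ∈ czr B := h.νB hqB'
      have hpq : p * q = q * p := czr_comm (czr_conj_le h.cfg.abB ν hpB') hqB'
      have l1 : (b * b') * ν * (b * b')⁻¹ * ν⁻¹ = b * b' * (q * p) := by rw [hp, hq]; group
      have l2 : θ⁻¹ * (ν * (θ' * ν⁻¹)) = p * b * (q * b') := by
        rw [h.hθ, hθ', hp, hq]; group
      rw [l1, l2]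
      have c1 := czr_comm hpB h.hb
      have c2 := czr_comm hpB hb'
      have c3 := czr_comm hqB h.hb
      have c4 := czr_comm hqB hb'
      calc b * b' * (q * p) = b * (b' * q) * p := by group
        _ = b * (q * b') * p := by rw [c4]
        _ = (b * q) * (b' * p) := by group
        _ = (q * b) * (p * b') := by rw [c3, c2]
        _ = q * (b * p) * b' := by group
        _ = q * (p * b) * b' := by rw [c1]
        _ = (q * p) * b * b' := by group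
        _ = (p * q) * b * b' := by rw [hpq]
        _ = p * (q * b) * b' := by group
        _ = p * (b * q) * b' := by rw [c3]
        _ = p * b * (q * b') := by group
    rw [key, ← conjBy_conjBy, ← conjBy_conjBy, ← conjBy_conjBy, conjBy_of_mem_czr (inv_mem h.νA),
      hC', conjBy_of_mem_czr h.νC, conjBy_inv_cancel]
  have e2 : b' = b⁻¹ := eq_inv_of_mul_eq_one_right (h.eq_one_of_fix (B.mul_mem h.hb hb') hfix)
  rw [e2] at e'
  exact e'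

/-- The braid relation `b a⁻¹ b⁻¹ = a b a⁻¹` for a matched pair whose inverses are matched. -/
theorem braid (h : NCfg A B θ a b ν) (e' : conjBy A b⁻¹ = conjBy B a⁻¹) :
    b * a⁻¹ * b⁻¹ = a * b * a⁻¹ := by
  have R1 : a * θ * a⁻¹ = ν⁻¹ * θ := by rw [h.hν]; group
  have R2 : b⁻¹ * ν * b = θ * ν := by rw [h.hθ]; group
  have R3 : b⁻¹ * θ * b = θ := by
    have := czr_conj_fix' h.cfg.cz (B.inv_mem h.hb)
    rwa [inv_inv] at this
  have R4 : a * ν * a⁻¹ = ν := czr_conj_fix' h.νA h.ha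
  obtain ⟨n, hn⟩ : ∃ n, n = a * b⁻¹ * a := ⟨_, rfl⟩
  obtain ⟨n', hn'⟩ : ∃ n', n' = b⁻¹ * a * b⁻¹ := ⟨_, rfl⟩
  have S2a : n * θ * n⁻¹ = ν⁻¹ := by
    calc n * θ * n⁻¹ = a * (b⁻¹ * (a * θ * a⁻¹) * b) * a⁻¹ := by rw [hn]; group
      _ = a * (b⁻¹ * (ν⁻¹ * θ) * b) * a⁻¹ := by rw [R1]
      _ = a * ((b⁻¹ * ν * b)⁻¹ * (b⁻¹ * θ * b)) * a⁻¹ := by group
      _ = a * ((θ * ν)⁻¹ * θ) * a⁻¹ := by rw [R2, R3]
      _ = (a * ν * a⁻¹)⁻¹ := by group
      _ = ν⁻¹ := by rw [R4]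
  have S2b : n' * θ * n'⁻¹ = ν⁻¹ := by
    calc n' * θ * n'⁻¹ = b⁻¹ * (a * (b⁻¹ * θ * b) * a⁻¹) * b := by rw [hn']; group
      _ = b⁻¹ * (a * θ * a⁻¹) * b := by rw [R3]
      _ = b⁻¹ * (ν⁻¹ * θ) * b := by rw [R1]
      _ = (b⁻¹ * ν * b)⁻¹ * (b⁻¹ * θ * b) := by group
      _ = (θ * ν)⁻¹ * θ := by rw [R2, R3]
      _ = ν⁻¹ := by group
  have S2c : n * ν * n⁻¹ = ν⁻¹ * θ * ν := by
    calc n * ν * n⁻¹ = a * (b⁻¹ * (a * ν * a⁻¹) * b) * a⁻¹ := by rw [hn]; group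
      _ = a * (b⁻¹ * ν * b) * a⁻¹ := by rw [R4]
      _ = a * (θ * ν) * a⁻¹ := by rw [R2]
      _ = (a * θ * a⁻¹) * (a * ν * a⁻¹) := by group
      _ = ν⁻¹ * θ * ν := by rw [R1, R4]
  have S2d : n' * ν * n'⁻¹ = ν⁻¹ * θ * ν := by
    calc n' * ν * n'⁻¹ = b⁻¹ * (a * (b⁻¹ * ν * b) * a⁻¹) * b := by rw [hn']; group
      _ = b⁻¹ * (a * (θ * ν) * a⁻¹) * b := by rw [R2]
      _ = b⁻¹ * ((a * θ * a⁻¹) * (a * ν * a⁻¹)) * b := by group
      _ = b⁻¹ * (ν⁻¹ * θ * ν) * b := by rw [R1, R4]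
      _ = (b⁻¹ * ν * b)⁻¹ * (b⁻¹ * θ * b) * (b⁻¹ * ν * b) := by group
      _ = (θ * ν)⁻¹ * θ * (θ * ν) := by rw [R2, R3]
      _ = ν⁻¹ * θ * ν := by group
  obtain ⟨m, hm⟩ : ∃ m, m = n⁻¹ * n' := ⟨_, rfl⟩
  have Mθ : m * θ * m⁻¹ = θ := by
    calc m * θ * m⁻¹ = n⁻¹ * (n' * θ * n'⁻¹) * n := by rw [hm]; group
      _ = n⁻¹ * (n * θ * n⁻¹) * n := by rw [S2b, S2a]
      _ = θ := by group
  have Mν : m * ν * m⁻¹ = ν := by
    calc m * ν * m⁻¹ = n⁻¹ * (n' * ν * n'⁻¹) * n := by rw [hm]; group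
      _ = n⁻¹ * (n * ν * n⁻¹) * n := by rw [S2d, S2c]
      _ = ν := by group
  have nA : conjBy A n = B := by
    rw [hn, ← conjBy_conjBy, ← conjBy_conjBy, conjBy_of_mem h.ha, e', conjBy_cancel_inv]
  have n'A : conjBy A n' = B := by
    rw [hn', ← conjBy_conjBy, ← conjBy_conjBy, e', conjBy_cancel_inv,
      conjBy_of_mem (B.inv_mem h.hb)]
  have mA : conjBy A m = A := by
    rw [hm, ← conjBy_conjBy, n'A, ← nA, conjBy_inv_cancel]
  have ha₁ : m * a * m⁻¹ ∈ A := by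
    have := conj_mem_conjBy (g := m) h.ha
    rwa [mA] at this
  have hg : (m * a * m⁻¹)⁻¹ * a = 1 := by
    apply h.cfg.inf (mul_mem (inv_mem ha₁) h.ha)
    have e1 : θ * a * θ⁻¹ = ν * a := by rw [h.hν]; group
    have e2 : θ * (m * a * m⁻¹) * θ⁻¹ = ν * (m * a * m⁻¹) := by
      calc θ * (m * a * m⁻¹) * θ⁻¹
          = (m * θ * m⁻¹) * (m * a * m⁻¹) * (m * θ * m⁻¹)⁻¹ := by rw [Mθ]
        _ = m * (θ * a * θ⁻¹) * m⁻¹ := by group
        _ = m * (ν * a) * m⁻¹ := by rw [e1]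
        _ = (m * ν * m⁻¹) * (m * a * m⁻¹) := by group
        _ = ν * (m * a * m⁻¹) := by rw [Mν]
    have e3 : (m * a * m⁻¹)⁻¹ * a = θ * ((m * a * m⁻¹)⁻¹ * a) * θ⁻¹ := by
      calc (m * a * m⁻¹)⁻¹ * a = (ν * (m * a * m⁻¹))⁻¹ * (ν * a) := by group
        _ = (θ * (m * a * m⁻¹) * θ⁻¹)⁻¹ * (θ * a * θ⁻¹) := by rw [e2, e1]
        _ = θ * ((m * a * m⁻¹)⁻¹ * a) * θ⁻¹ := by group
    rw [e3]
    exact conj_mem_conjBy (mul_mem (inv_mem ha₁) h.ha)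
  have hma : m * a * m⁻¹ = a := inv_mul_eq_one.mp hg
  have hm2 : a * m * a⁻¹ = (b * a⁻¹ * b⁻¹) * (a * b⁻¹ * a⁻¹) := by
    rw [hm, hn, hn']; group
  have hm3 : a * m * a⁻¹ = m := by
    calc a * m * a⁻¹ = (m * a * m⁻¹) * m * a⁻¹ := by rw [hma]
      _ = m := by group
  have hmB' : m ∈ conjBy B a := by
    rw [← hm3, hm2]
    refine mul_mem ?_ (conj_mem_conjBy (B.inv_mem h.hb))
    rw [← h.e]
    exact conj_mem_conjBy (A.inv_mem h.ha)
  have hmB : m ∈ B := by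
    have h1 := mem_conjBy.mp hmB'
    have e1 : a⁻¹ * m * a = m := by
      calc a⁻¹ * m * a = a⁻¹ * (a * m * a⁻¹) * a := by rw [hm3]
        _ = m := by group
    rwa [e1] at h1
  have hm1 : m = 1 := RO.eq_one_of_normalizes (RankOnePair_symm h.cfg.ro) hmB mA
  have e4 : (b * a⁻¹ * b⁻¹) * (a * b⁻¹ * a⁻¹) = 1 := by rw [← hm2, hm1]; group
  calc b * a⁻¹ * b⁻¹ = (b * a⁻¹ * b⁻¹) * (a * b⁻¹ * a⁻¹) * (a * b * a⁻¹) := by group
    _ = a * b * a⁻¹ := by rw [e4, one_mul]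

end NCfg

/-- **Theorem (*)**: a rank one pair `(A, B)` with abelian unipotent subgroups and an element `θ`
centralizing `B` such that `θ A θ⁻¹ ≠ A` commutes elementwise with `A` is special. -/
theorem ThetaCfg.special {A B : Subgroup G} {θ : G} (h : ThetaCfg A B θ) :
    IsSpecialRankOnePair A B := by
  refine ⟨h.ro, ?_⟩
  intro a ha ha1 b hb hb1 e
  obtain ⟨θ₁, ν, h₁, -, -, hν, hθ, hνA, hνC, hνB⟩ :=
    h.normalize (A.inv_mem ha) (B.inv_mem hb) e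
  have hN : NCfg A B θ₁ a⁻¹ b⁻¹ ν := ⟨h₁, A.inv_mem ha, B.inv_mem hb, e, hν, hθ, hνA, hνC, hνB⟩
  have e' := hN.match_inv (inv_ne_one.mpr ha1)
  have key := hN.braid e'
  rw [inv_inv, inv_inv] at key
  exact key

/-- A triangle gives a configuration. -/
theorem thetaCfg_of_triangle {A B C : Subgroup G} (hAB : IsRankOnePair A B)
    (hCB : IsRankOnePair C B) (hA : A ≤ czr A) (hB : B ≤ czr B) (hC : C ≤ czr C)
    (hAC : A ≤ czr C) (hne : A ≠ C) : ∃ θ, ThetaCfg A B θ ∧ conjBy A θ = C := by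
  obtain ⟨a, ha, ha1⟩ := RO.exists_ne_one_left hAB
  obtain ⟨b, hb, hb1, e1⟩ := RO.matchL hAB ha ha1
  obtain ⟨c, hc, -, e2⟩ := RO.matchR hCB hb hb1
  obtain ⟨-, -, -, hθB, hθA⟩ := tri_core hA hB hC hAC ha hb hc e1 e2 _ rfl
  exact ⟨_, ⟨hAB, hA, hB, hθB, by rw [hθA]; exact hAC, by rw [hθA]; exact hne.symm⟩, hθA⟩

/-- In a triangle (`A`, `C` different and commuting elementwise, both in rank one pairs with `B`,
all three abelian) the rank one pair `(A, B)` is special. -/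
theorem special_of_triangle {A B C : Subgroup G} (hAB : IsRankOnePair A B)
    (hCB : IsRankOnePair C B) (hA : A ≤ czr A) (hB : B ≤ czr B) (hC : C ≤ czr C)
    (hAC : A ≤ czr C) (hne : A ≠ C) : IsSpecialRankOnePair A B := by
  obtain ⟨θ, h, -⟩ := thetaCfg_of_triangle hAB hCB hA hB hC hAC hne
  exact h.special

end Cfsg.Agent.Helper83
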