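import Mathlib
import Cfsg.Prelude.Def_RootSubgroups
import Cfsg.Agent.Helper83.Triangle

/-!
# The cubic lemma

In a normalized configuration for the pair `(A, D)`, with `Θ(d) = ν d ν⁻¹ d⁻¹` for `d ∈ D`, the
conjugates `Θ(d) A Θ(d)⁻¹` (`d ≠ 1`) are different from `A` and commute with `A`, and for
`d₁, d₂, d₃ ∈ D` the element `a₀` is a product of elements of these conjugates for the seven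
products of the `dᵢ`.
-/

namespace Cfsg.Agent.Helper83

open Cfsg

variable {G : Type*} [Group G]

/-- The element `x y x⁻¹ y⁻¹`. -/
def cm (x y : G) : G := x * y * x⁻¹ * y⁻¹

theorem cm_one (x : G) : cm x 1 = 1 := by simp [cm]

/-- `y ↦ t y t⁻¹ y⁻¹` is multiplicative on an abelian subgroup `X` commuting with `t X t⁻¹`. -/
theorem cm_mul {X : Subgroup G} {t : G} (hX : X ≤ czr X) (hXt : X ≤ czr (conjBy X t)) {x y : G}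
    (hx : x ∈ X) (hy : y ∈ X) : cm t (x * y) = cm t x * cm t y := by
  have c1 : x⁻¹ * (t * y * t⁻¹) = (t * y * t⁻¹) * x⁻¹ :=
    czr_comm (hXt (X.inv_mem hx)) (conj_mem_conjBy hy)
  have c2 : y⁻¹ * x⁻¹ = x⁻¹ * y⁻¹ := czr_comm (hX (X.inv_mem hy)) (X.inv_mem hx)
  simp only [cm]
  calc t * (x * y) * t⁻¹ * (x * y)⁻¹ = (t * x * t⁻¹) * (t * y * t⁻¹) * (y⁻¹ * x⁻¹) := by group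
    _ = (t * x * t⁻¹) * ((t * y * t⁻¹) * x⁻¹) * y⁻¹ := by rw [c2]; group
    _ = (t * x * t⁻¹) * (x⁻¹ * (t * y * t⁻¹)) * y⁻¹ := by rw [c1]
    _ = t * x * t⁻¹ * x⁻¹ * (t * y * t⁻¹ * y⁻¹) := by group

theorem cm_inv {X : Subgroup G} {t : G} (hX : X ≤ czr X) (hXt : X ≤ czr (conjBy X t)) {x : G}
    (hx : x ∈ X) : cm t x⁻¹ = (cm t x)⁻¹ := by
  have h1 := cm_mul hX hXt hx (X.inv_mem hx)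
  rw [mul_inv_cancel, cm_one] at h1
  exact eq_inv_of_mul_eq_one_right h1.symm

theorem cm_comm {X : Subgroup G} {t : G} (hX : X ≤ czr X) (hXt : X ≤ czr (conjBy X t)) {x y : G}
    (hx : x ∈ X) (hy : y ∈ X) : cm t x * cm t y = cm t y * cm t x := by
  rw [← cm_mul hX hXt hx hy, ← cm_mul hX hXt hy hx, czr_comm (hX hx) hy]

theorem n2_aux {θ ν a₀ d₀ d₁ a₂ : G} (hθ : θ = d₀⁻¹ * ν * d₀ * ν⁻¹) (h1 : a₀ * ν * a₀⁻¹ = ν)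
    (h2 : ν⁻¹ * a₂ * ν = a₂) (ha₂ : a₂ = d₀⁻¹ * (a₀ * d₁ * a₀⁻¹) * d₀) :
    a₀ * cm ν d₁ * a₀⁻¹ = d₀ * cm θ a₂ * d₀⁻¹ := by
  have e1 : a₀ * cm ν d₁ * a₀⁻¹ =
      (a₀ * ν * a₀⁻¹) * (a₀ * d₁ * a₀⁻¹) * (a₀ * ν * a₀⁻¹)⁻¹ * (a₀ * d₁ * a₀⁻¹)⁻¹ := by
    simp only [cm]; group
  have e2 : d₀ * cm θ a₂ * d₀⁻¹ =
      ν * (d₀ * (ν⁻¹ * a₂ * ν) * d₀⁻¹) * ν⁻¹ * (d₀ * a₂ * d₀⁻¹)⁻¹ := by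
    rw [hθ]; simp only [cm]; group
  have e3 : d₀ * a₂ * d₀⁻¹ = a₀ * d₁ * a₀⁻¹ := by rw [ha₂]; group
  rw [e1, e2, h1, h2, e3]

namespace NCfg

variable {A D : Subgroup G} {θ a₀ d₀ ν : G}

theorem nu_eq (h : NCfg A D θ a₀ d₀ ν) : ν = cm θ a₀ := h.hν

theorem theta_eq (h : NCfg A D θ a₀ d₀ ν) : θ = cm ν d₀ := by
  rw [h.hθ]
  simp only [cm]
  have e1 : ν * d₀ * ν⁻¹ ∈ czr D := h.νB (conj_mem_conjBy h.hb)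
  have e2 := czr_comm e1 (D.inv_mem h.hb)
  calc d₀⁻¹ * ν * d₀ * ν⁻¹ = d₀⁻¹ * (ν * d₀ * ν⁻¹) := by group
    _ = ν * d₀ * ν⁻¹ * d₀⁻¹ := e2.symm

theorem f1 (h : NCfg A D θ a₀ d₀ ν) {a : G} (ha : a ∈ A) : conjBy D (cm θ a) ≤ czr D := by
  by_cases ha1 : a = 1
  · rw [ha1, cm_one, conjBy_one]; exact h.cfg.abB
  obtain ⟨d, hd, -, e⟩ := RO.matchL h.cfg.ro ha ha1
  exact (h.cfg.core ha hd e _ rfl).2.2.1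

theorem n1 (h : NCfg A D θ a₀ d₀ ν) {a a' : G} (ha : a ∈ A) (ha' : a' ∈ A) :
    conjBy D (cm θ a) ≤ czr (conjBy D (cm θ a')) := by
  have h1 := czr_conj_le (h.f1 (A.mul_mem (A.inv_mem ha') ha)) (cm θ a')
  rw [conjBy_conjBy, ← cm_mul h.cfg.abA h.cfg.comm ha' (A.mul_mem (A.inv_mem ha') ha)] at h1
  have e1 : a' * (a'⁻¹ * a) = a := by group
  rwa [e1] at h1

/-- The elements commuting with all the conjugates `N(a) D N(a)⁻¹`. -/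
def InZ (A D : Subgroup G) (θ x : G) : Prop := ∀ a ∈ A, x ∈ czr (conjBy D (cm θ a))

theorem inZ_of_mem (h : NCfg A D θ a₀ d₀ ν) {a u : G} (ha : a ∈ A)
    (hu : u ∈ conjBy D (cm θ a)) : InZ A D θ u :=
  fun _ ha' => h.n1 ha ha' hu

theorem inZ_D (h : NCfg A D θ a₀ d₀ ν) {d : G} (hd : d ∈ D) : InZ A D θ d := by
  apply h.inZ_of_mem A.one_mem
  rw [cm_one, conjBy_one]; exact hd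

theorem inZ_conj (h : NCfg A D θ a₀ d₀ ν) {d : G} (hd : d ∈ D) : InZ A D θ (ν * d * ν⁻¹) := by
  apply h.inZ_of_mem h.ha
  rw [← h.nu_eq]; exact conj_mem_conjBy hd

theorem inZ_cm (h : NCfg A D θ a₀ d₀ ν) {d : G} (hd : d ∈ D) : InZ A D θ (cm ν d) :=
  fun a ha => mul_mem (h.inZ_conj hd a ha) (h.inZ_D (D.inv_mem hd) a ha)

theorem cm_mem_czr (h : NCfg A D θ a₀ d₀ ν) {d : G} (hd : d ∈ D) : cm ν d ∈ czr D := by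
  have := h.inZ_cm hd 1 A.one_mem
  rwa [cm_one, conjBy_one] at this

theorem th_mul (h : NCfg A D θ a₀ d₀ ν) {d d' : G} (hd : d ∈ D) (hd' : d' ∈ D) :
    cm ν (d * d') = cm ν d * cm ν d' :=
  cm_mul h.cfg.abB (czr_symm h.νB) hd hd'

theorem th_comm (h : NCfg A D θ a₀ d₀ ν) {d d' : G} (hd : d ∈ D) (hd' : d' ∈ D) :
    cm ν d * cm ν d' = cm ν d' * cm ν d :=
  cm_comm h.cfg.abB (czr_symm h.νB) hd hd'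

/-- `Θ(d) A Θ(d)⁻¹` commutes with `A`. -/
theorem th_comm_A (h : NCfg A D θ a₀ d₀ ν) {d : G} (hd : d ∈ D) (hd1 : d ≠ 1) :
    A ≤ czr (conjBy A (cm ν d)) := by
  apply czr_symm
  obtain ⟨a, ha, -, e⟩ := RO.matchR h.cfg.ro hd hd1
  have h1 := czr_conj_le h.νB a
  rw [conjBy_conjBy, ← czr_comm h.νA ha, ← conjBy_conjBy, ← e, conjBy_conjBy] at h1
  have h2 := czr_conj_le h1 d⁻¹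
  rw [conjBy_inv_cancel, conjBy_conjBy] at h2
  have e1 : cm ν d = (d⁻¹ * (ν * d)) * ν⁻¹ := by
    simp only [cm]
    have e2 : ν * d * ν⁻¹ ∈ czr D := h.νB (conj_mem_conjBy hd)
    have e3 := czr_comm e2 (D.inv_mem hd)
    calc ν * d * ν⁻¹ * d⁻¹ = d⁻¹ * (ν * d * ν⁻¹) := e3
      _ = (d⁻¹ * (ν * d)) * ν⁻¹ := by group
  rw [e1, ← conjBy_conjBy, conjBy_of_mem_czr (inv_mem h.νA)]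
  exact h2

/-- `Θ(d) A Θ(d)⁻¹ ≠ A` for `d ≠ 1`. -/
theorem th_ne (h : NCfg A D θ a₀ d₀ ν) {d : G} (hd : d ∈ D) (hd1 : d ≠ 1) :
    conjBy A (cm ν d) ≠ A := by
  intro hfix
  apply hd1
  apply h.eq_one_of_fix hd
  have e1 : d * ν * d⁻¹ * ν⁻¹ = (cm ν d)⁻¹ := by simp only [cm]; group
  rw [e1]
  exact conjBy_inv_of_eq hfix

theorem n2 (h : NCfg A D θ a₀ d₀ ν) {d₁ : G} (hd₁ : d₁ ∈ D) :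
    ∃ a₂ ∈ A, a₀ * cm ν d₁ * a₀⁻¹ = d₀ * cm θ a₂ * d₀⁻¹ := by
  have h1 : a₀ * d₁ * a₀⁻¹ ∈ conjBy A d₀ := by
    rw [h.e]; exact conj_mem_conjBy hd₁
  have h2 : d₀⁻¹ * (a₀ * d₁ * a₀⁻¹) * d₀ ∈ A := mem_conjBy.mp h1
  refine ⟨_, h2, n2_aux h.hθ (czr_conj_fix' h.νA h.ha) ?_ rfl⟩
  have := czr_conj_fix (inv_mem h.νA) h2
  rwa [inv_inv] at this


/-- The element `E₁ = x₂ y x₂⁻¹ y⁻¹`, `y = x₁ a₀ x₁⁻¹ a₀⁻¹`, commutes with `x₃`. -/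
theorem e1_fix (h : NCfg A D θ a₀ d₀ ν) {d₁ d₂ d₃ : G} (h₁ : d₁ ∈ D) (h₂ : d₂ ∈ D)
    (h₃ : d₃ ∈ D) (x₁ x₂ x₃ : G) (hx₁ : x₁ = cm ν d₁) (hx₂ : x₂ = cm ν d₂) (hx₃ : x₃ = cm ν d₃) :
    x₃ * (x₂ * (x₁ * a₀ * x₁⁻¹ * a₀⁻¹) * x₂⁻¹ * (x₁ * a₀ * x₁⁻¹ * a₀⁻¹)⁻¹) * x₃⁻¹ =
      x₂ * (x₁ * a₀ * x₁⁻¹ * a₀⁻¹) * x₂⁻¹ * (x₁ * a₀ * x₁⁻¹ * a₀⁻¹)⁻¹ := by
  obtain ⟨a₂, ha₂, hr⟩ := h.n2 h₁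
  rw [← hx₁] at hr
  obtain ⟨ν₂, hν₂⟩ : ∃ ν₂, ν₂ = cm θ a₂ := ⟨_, rfl⟩
  rw [← hν₂] at hr
  obtain ⟨w₁, hw₁⟩ : ∃ w₁, w₁ = ν₂⁻¹ * d₂ * ν₂ := ⟨_, rfl⟩
  obtain ⟨w₂, hw₂⟩ : ∃ w₂, w₂ = (ν₂⁻¹ * ν) * d₂⁻¹ * (ν₂⁻¹ * ν)⁻¹ := ⟨_, rfl⟩
  have hw₁m : w₁ ∈ conjBy D (cm θ a₂⁻¹) := by
    rw [cm_inv h.cfg.abA h.cfg.comm ha₂, ← hν₂, hw₁]
    have := conj_mem_conjBy (g := ν₂⁻¹) h₂
    rwa [inv_inv] at this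
  have hw₂m : w₂ ∈ conjBy D (cm θ (a₂⁻¹ * a₀)) := by
    rw [cm_mul h.cfg.abA h.cfg.comm (A.inv_mem ha₂) h.ha, cm_inv h.cfg.abA h.cfg.comm ha₂,
      ← hν₂, ← h.nu_eq, hw₂]
    exact conj_mem_conjBy (D.inv_mem h₂)
  have hw : ν₂⁻¹ * x₂⁻¹ * ν₂ = w₁ * w₂ := by
    rw [hx₂, hw₁, hw₂]; simp only [cm]; group
  have key : ∀ x, InZ A D θ x → x * (w₁ * w₂) = (w₁ * w₂) * x := by
    intro x hx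
    have c1 := czr_comm (hx _ (A.inv_mem ha₂)) hw₁m
    have c2 := czr_comm (hx _ (A.mul_mem (A.inv_mem ha₂) h.ha)) hw₂m
    calc x * (w₁ * w₂) = (x * w₁) * w₂ := by group
      _ = (w₁ * x) * w₂ := by rw [c1]
      _ = w₁ * (x * w₂) := by group
      _ = w₁ * (w₂ * x) := by rw [c2]
      _ = (w₁ * w₂) * x := by group
  have k0 := key d₀ (h.inZ_D h.hb)
  have k1 := key x₁ (by rw [hx₁]; exact h.inZ_cm h₁)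
  have k3 := key x₃ (by rw [hx₃]; exact h.inZ_cm h₃)
  have c23 : x₃ * x₂ = x₂ * x₃ := by rw [hx₂, hx₃]; exact h.th_comm h₃ h₂
  have c20 : x₂ * d₀ = d₀ * x₂ := by rw [hx₂]; exact czr_comm (h.cm_mem_czr h₂) h.hb
  have c20' : d₀⁻¹ * x₂⁻¹ * d₀ = x₂⁻¹ := by
    calc d₀⁻¹ * x₂⁻¹ * d₀ = (d₀⁻¹ * (x₂ * d₀))⁻¹ := by group
      _ = (d₀⁻¹ * (d₀ * x₂))⁻¹ := by rw [c20]
      _ = x₂⁻¹ := by group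
  have hE : x₂ * (x₁ * a₀ * x₁⁻¹ * a₀⁻¹) * x₂⁻¹ * (x₁ * a₀ * x₁⁻¹ * a₀⁻¹)⁻¹ = x₂ * (w₁ * w₂) := by
    calc x₂ * (x₁ * a₀ * x₁⁻¹ * a₀⁻¹) * x₂⁻¹ * (x₁ * a₀ * x₁⁻¹ * a₀⁻¹)⁻¹
        = x₂ * x₁ * ((a₀ * x₁ * a₀⁻¹)⁻¹ * x₂⁻¹ * (a₀ * x₁ * a₀⁻¹)) * x₁⁻¹ := by group
      _ = x₂ * x₁ * ((d₀ * ν₂ * d₀⁻¹)⁻¹ * x₂⁻¹ * (d₀ * ν₂ * d₀⁻¹)) * x₁⁻¹ := by rw [hr]
      _ = x₂ * x₁ * (d₀ * (ν₂⁻¹ * (d₀⁻¹ * x₂⁻¹ * d₀) * ν₂) * d₀⁻¹) * x₁⁻¹ := by group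
      _ = x₂ * x₁ * (d₀ * (ν₂⁻¹ * x₂⁻¹ * ν₂) * d₀⁻¹) * x₁⁻¹ := by rw [c20']
      _ = x₂ * x₁ * (d₀ * (w₁ * w₂) * d₀⁻¹) * x₁⁻¹ := by rw [hw]
      _ = x₂ * x₁ * ((w₁ * w₂) * d₀ * d₀⁻¹) * x₁⁻¹ := by rw [k0]
      _ = x₂ * (x₁ * (w₁ * w₂)) * x₁⁻¹ := by group
      _ = x₂ * ((w₁ * w₂) * x₁) * x₁⁻¹ := by rw [k1]
      _ = x₂ * (w₁ * w₂) := by group
  rw [hE]
  calc x₃ * (x₂ * (w₁ * w₂)) * x₃⁻¹ = (x₃ * x₂) * (w₁ * w₂) * x₃⁻¹ := by group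
    _ = (x₂ * x₃) * (w₁ * w₂) * x₃⁻¹ := by rw [c23]
    _ = x₂ * (x₃ * (w₁ * w₂)) * x₃⁻¹ := by group
    _ = x₂ * ((w₁ * w₂) * x₃) * x₃⁻¹ := by rw [k3]
    _ = x₂ * (w₁ * w₂) := by group

/-- **The cubic lemma.**  If `T` contains every conjugate of `A` that is different from `A` and
commutes with `A`, and `d₁, d₂, d₃ ∈ D` have all seven products different from `1`, then
`a₀ ∈ T`. -/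
theorem cubic (h : NCfg A D θ a₀ d₀ ν) (T : Subgroup G)
    (hT : ∀ g : G, conjBy A g ≠ A → A ≤ czr (conjBy A g) → conjBy A g ≤ T)
    {d₁ d₂ d₃ : G} (h₁ : d₁ ∈ D) (h₂ : d₂ ∈ D) (h₃ : d₃ ∈ D) (n₁ : d₁ ≠ 1) (n₂ : d₂ ≠ 1)
    (n₃ : d₃ ≠ 1) (n₂₁ : d₂ * d₁ ≠ 1) (n₃₁ : d₃ * d₁ ≠ 1) (n₃₂ : d₃ * d₂ ≠ 1)
    (n₃₂₁ : d₃ * d₂ * d₁ ≠ 1) : a₀ ∈ T := by
  have mem : ∀ d ∈ D, d ≠ 1 → cm ν d * a₀ * (cm ν d)⁻¹ ∈ T := fun d hd hd1 =>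
    hT _ (h.th_ne hd hd1) (h.th_comm_A hd hd1) (conj_mem_conjBy h.ha)
  obtain ⟨x₁, hx₁⟩ : ∃ x₁, x₁ = cm ν d₁ := ⟨_, rfl⟩
  obtain ⟨x₂, hx₂⟩ : ∃ x₂, x₂ = cm ν d₂ := ⟨_, rfl⟩
  obtain ⟨x₃, hx₃⟩ : ∃ x₃, x₃ = cm ν d₃ := ⟨_, rfl⟩
  have key := h.e1_fix h₁ h₂ h₃ x₁ x₂ x₃ hx₁ hx₂ hx₃
  have m1 : x₁ * a₀ * x₁⁻¹ ∈ T := by rw [hx₁]; exact mem d₁ h₁ n₁
  have m2 : x₂ * a₀ * x₂⁻¹ ∈ T := by rw [hx₂]; exact mem d₂ h₂ n₂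
  have m3 : x₃ * a₀ * x₃⁻¹ ∈ T := by rw [hx₃]; exact mem d₃ h₃ n₃
  have m21 : (x₂ * x₁) * a₀ * (x₂ * x₁)⁻¹ ∈ T := by
    rw [hx₁, hx₂, ← h.th_mul h₂ h₁]; exact mem _ (D.mul_mem h₂ h₁) n₂₁
  have m31 : (x₃ * x₁) * a₀ * (x₃ * x₁)⁻¹ ∈ T := by
    rw [hx₁, hx₃, ← h.th_mul h₃ h₁]; exact mem _ (D.mul_mem h₃ h₁) n₃₁
  have m32 : (x₃ * x₂) * a₀ * (x₃ * x₂)⁻¹ ∈ T := by
    rw [hx₂, hx₃, ← h.th_mul h₃ h₂]; exact mem _ (D.mul_mem h₃ h₂) n₃₂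
  have m321 : (x₃ * x₂ * x₁) * a₀ * (x₃ * x₂ * x₁)⁻¹ ∈ T := by
    rw [hx₁, hx₂, hx₃, ← h.th_mul h₃ h₂, ← h.th_mul (D.mul_mem h₃ h₂) h₁]
    exact mem _ (D.mul_mem (D.mul_mem h₃ h₂) h₁) n₃₂₁
  have e1 : (x₂ * a₀ * x₂⁻¹) * ((x₂ * x₁) * a₀ * (x₂ * x₁)⁻¹)⁻¹ *
      (x₃ * (x₂ * (x₁ * a₀ * x₁⁻¹ * a₀⁻¹) * x₂⁻¹ * (x₁ * a₀ * x₁⁻¹ * a₀⁻¹)⁻¹) * x₃⁻¹) *
      (x₁ * a₀ * x₁⁻¹) =
      (x₂ * a₀ * x₂⁻¹) * ((x₂ * x₁) * a₀ * (x₂ * x₁)⁻¹)⁻¹ *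
      ((x₃ * x₂ * x₁) * a₀ * (x₃ * x₂ * x₁)⁻¹) * ((x₃ * x₂) * a₀ * (x₃ * x₂)⁻¹)⁻¹ *
      (x₃ * a₀ * x₃⁻¹) * ((x₃ * x₁) * a₀ * (x₃ * x₁)⁻¹)⁻¹ * (x₁ * a₀ * x₁⁻¹) := by group
  have e2 : (x₂ * a₀ * x₂⁻¹) * ((x₂ * x₁) * a₀ * (x₂ * x₁)⁻¹)⁻¹ *
      (x₂ * (x₁ * a₀ * x₁⁻¹ * a₀⁻¹) * x₂⁻¹ * (x₁ * a₀ * x₁⁻¹ * a₀⁻¹)⁻¹) *
      (x₁ * a₀ * x₁⁻¹) = a₀ := by group
  rw [key] at e1
  rw [e2] at e1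
  rw [e1]
  exact mul_mem (mul_mem (mul_mem (mul_mem (mul_mem (mul_mem m2 (inv_mem m21)) m321)
    (inv_mem m32)) m3) (inv_mem m31)) m1

end NCfg

/-- The cubic lemma for a configuration: some non-identity element of `A` lies in `T`. -/
theorem ThetaCfg.cubic {A D : Subgroup G} {θ : G} (h : ThetaCfg A D θ) (T : Subgroup G)
    (hT : ∀ g : G, conjBy A g ≠ A → A ≤ czr (conjBy A g) → conjBy A g ≤ T)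
    {d₁ d₂ d₃ : G} (h₁ : d₁ ∈ D) (h₂ : d₂ ∈ D) (h₃ : d₃ ∈ D) (n₁ : d₁ ≠ 1) (n₂ : d₂ ≠ 1)
    (n₃ : d₃ ≠ 1) (n₂₁ : d₂ * d₁ ≠ 1) (n₃₁ : d₃ * d₁ ≠ 1) (n₃₂ : d₃ * d₂ ≠ 1)
    (n₃₂₁ : d₃ * d₂ * d₁ ≠ 1) : ∃ a ∈ A, a ≠ 1 ∧ a ∈ T := by
  obtain ⟨a, ha, ha1⟩ := RO.exists_ne_one_left h.ro
  obtain ⟨d, hd, -, e⟩ := RO.matchL h.ro ha ha1
  obtain ⟨θ₁, ν, h', -, -, hν, hθ, hνA, hνC, hνB⟩ := h.normalize ha hd e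
  have hN : NCfg A D θ₁ a d ν := ⟨h', ha, hd, e, hν, hθ, hνA, hνC, hνB⟩
  exact ⟨a, ha, ha1, hN.cubic T hT h₁ h₂ h₃ n₁ n₂ n₃ n₂₁ n₃₁ n₃₂ n₃₂₁⟩


end Cfsg.Agent.Helper83
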