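import Mathlib
import Cfsg.Prelude.Def_GeometricClasses

set_option autoImplicit false
set_option linter.unusedSectionVars false
set_option linter.style.haveILetI false

/-!
helper83: PIECE FREE of CALL S5958 (helper90): `t!` divides the number of ordered
`a`-decompositions with `t` parts (the symmetric group acts freely by reindexing).
-/

namespace Cfsg.Agent.Helper83

open Module Polynomial

section
variable {F : Type*} [Field F] [Fintype F]

theorem imfree_reindex {n t a : ℕ} {D : Fin t → Submodule F (Fin n → F)}
    (hD : Cfsg.Geo.IsMDecomposition a D) (σ : Equiv.Perm (Fin t)) :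
    Cfsg.Geo.IsMDecomposition a (fun i => D (σ i)) :=
  { two_le := hD.two_le
    pos := hD.pos
    finrank_eq := fun i => hD.finrank_eq (σ i)
    indep := hD.indep.comp σ.injective
    iSup_eq_top := by rw [← hD.iSup_eq_top]; exact Equiv.iSup_comp (g := D) σ }

theorem imfree_injective {n t a : ℕ} {D : Fin t → Submodule F (Fin n → F)}
    (hD : Cfsg.Geo.IsMDecomposition a D) : Function.Injective D := by
  apply hD.indep.injective
  intro i h
  have h1 := hD.finrank_eq i
  rw [h, finrank_bot] at h1
  have h2 := hD.pos
  omega

/-- PIECE FREE -/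
theorem mdec_factorial_dvd {n t a : ℕ} :
    Nat.factorial t ∣
      Nat.card {D : Fin t → Submodule F (Fin n → F) // Cfsg.Geo.IsMDecomposition a D} := by
  letI : MulAction (Equiv.Perm (Fin t))
      {D : Fin t → Submodule F (Fin n → F) // Cfsg.Geo.IsMDecomposition a D} :=
    { smul := fun σ D => ⟨fun i => D.1 (σ.symm i), imfree_reindex D.2 σ.symm⟩
      one_smul := fun D => Subtype.ext rfl
      mul_smul := fun σ τ D => Subtype.ext rfl }
  have hstab : ∀ b : {D : Fin t → Submodule F (Fin n → F) // Cfsg.Geo.IsMDecomposition a D},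
      MulAction.stabilizer (Equiv.Perm (Fin t)) b = ⊥ := by
    intro b
    rw [Subgroup.eq_bot_iff_forall]
    intro σ hσ
    rw [MulAction.mem_stabilizer_iff] at hσ
    have h1 : (fun i => b.1 (σ.symm i)) = b.1 := congrArg Subtype.val hσ
    apply Equiv.ext
    intro i
    have h2 : b.1 (σ.symm (σ i)) = b.1 (σ i) := congrFun h1 (σ i)
    rw [Equiv.symm_apply_apply] at h2
    exact (imfree_injective b.2 h2).symm
  have e := MulAction.selfEquivOrbitsQuotientProd hstab
  rw [Nat.card_congr e, Nat.card_prod, Nat.card_perm, Nat.card_fin]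
  exact Dvd.intro_left _ rfl

end

end Cfsg.Agent.Helper83
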