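import Mathlib
import Cfsg.Agent.Helper90.IMDefs

set_option autoImplicit false
set_option linter.unusedSectionVars false

/-!
helper83: PIECE PEEL of CALL S5958 (helper90): peeling invariant summands of dimension `a`.
-/

namespace Cfsg.Agent.Helper83

open Module Polynomial Cfsg.Agent.Helper90.IM

theorem peel_snoc_indep {α : Type*} [CompleteLattice α] [IsModularLattice α] {t : ℕ}
    (D' : Fin t → α) (U' : α) (h1 : iSupIndep D') (h2 : Disjoint (⨆ i, D' i) U') :
    iSupIndep (@Fin.snoc t (fun _ => α) D' U') := by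
  intro i
  refine Fin.lastCases ?_ (fun k => ?_) i
  · rw [Fin.snoc_last]
    refine h2.symm.mono_right ?_
    refine iSup₂_le fun j hj => ?_
    revert hj
    refine Fin.lastCases ?_ (fun k' => ?_) j
    · intro hj
      exact absurd rfl hj
    · intro _
      rw [Fin.snoc_castSucc]
      exact le_iSup D' k'
  · rw [Fin.snoc_castSucc]
    have h3 : (⨆ j, ⨆ (_ : j ≠ Fin.castSucc k), (@Fin.snoc t (fun _ => α) D' U') j) ≤
        (⨆ j, ⨆ (_ : j ≠ k), D' j) ⊔ U' := by
      refine iSup₂_le fun j hj => ?_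
      revert hj
      refine Fin.lastCases ?_ (fun k' => ?_) j
      · intro _
        rw [Fin.snoc_last]
        exact le_sup_right
      · intro hj
        rw [Fin.snoc_castSucc]
        exact le_sup_of_le_left (le_iSup₂_of_le k' (fun e => hj (by rw [e])) le_rfl)
    refine Disjoint.mono_right h3 ?_
    apply Disjoint.disjoint_sup_right_of_disjoint_sup_left (h1 k)
    refine h2.mono_left ?_
    exact sup_le (le_iSup D' k) (iSup₂_le fun j _ => le_iSup D' j)

section
variable {F : Type*} [Field F] {V : Type*} [AddCommGroup V] [Module F V] [FiniteDimensional F V]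

theorem peel_aux (T : V →ₗ[F] V) (a : ℕ)
    (hcompl : ∀ U W : Submodule F V, U ≤ W → U.map T ≤ U → W.map T ≤ W →
      ∃ U' : Submodule F V, U' ≤ W ∧ U'.map T ≤ U' ∧ U ⊓ U' = ⊥ ∧ U ⊔ U' = W)
    (hsub : ∀ (j : ℕ) (W : Submodule F V), W.map T ≤ W → finrank F W = a * (j + 1) →
      ∃ U : Submodule F V, U ≤ W ∧ U.map T ≤ U ∧ finrank F U = a * j) :
    ∀ (t : ℕ) (W : Submodule F V), W.map T ≤ W → finrank F W = a * t →
      ∃ D : Fin t → Submodule F V, (∀ i, finrank F (D i) = a) ∧ iSupIndep D ∧ iSup D = W ∧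
        ∀ j, (D j).map T ≤ D j := by
  intro t
  induction t with
  | zero =>
    intro W hW hfin
    refine ⟨fun i => i.elim0, fun i => i.elim0, fun i => i.elim0, ?_, fun i => i.elim0⟩
    rw [mul_zero] at hfin
    rw [iSup_of_empty]
    exact (Submodule.finrank_eq_zero.mp hfin).symm
  | succ t ih =>
    intro W hW hfin
    obtain ⟨U, hUW, hU, hUfin⟩ := hsub t W hW hfin
    obtain ⟨U', hU'W, hU', hdisj, hsup⟩ := hcompl U W hUW hU hW
    obtain ⟨D', hD'1, hD'2, hD'3, hD'4⟩ := ih U hU hUfin
    have hU'fin : finrank F U' = a := by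
      have h1 := Submodule.finrank_sup_add_finrank_inf_eq U U'
      rw [hsup, hdisj, finrank_bot, hfin, hUfin, Nat.mul_succ] at h1
      omega
    refine ⟨@Fin.snoc t (fun _ => Submodule F V) D' U', ?_, ?_, ?_, ?_⟩
    · intro i
      refine Fin.lastCases ?_ (fun k => ?_) i
      · rw [Fin.snoc_last]
        exact hU'fin
      · rw [Fin.snoc_castSucc]
        exact hD'1 k
    · exact peel_snoc_indep D' U' hD'2 (by rw [hD'3, disjoint_iff]; exact hdisj)
    · apply le_antisymm
      · refine iSup_le fun i => ?_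
        refine Fin.lastCases ?_ (fun k => ?_) i
        · rw [Fin.snoc_last]
          exact hU'W
        · rw [Fin.snoc_castSucc]
          exact (hD'3 ▸ le_iSup D' k).trans hUW
      · rw [← hsup, ← hD'3]
        refine sup_le (iSup_le fun k => ?_) ?_
        · exact le_iSup_of_le (Fin.castSucc k) (by rw [Fin.snoc_castSucc])
        · exact le_iSup_of_le (Fin.last t) (by rw [Fin.snoc_last])
    · intro i
      refine Fin.lastCases ?_ (fun k => ?_) i
      · rw [Fin.snoc_last]
        exact hU'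
      · rw [Fin.snoc_castSucc]
        exact hD'4 k

/-- PIECE PEEL -/
theorem peel (T : V →ₗ[F] V) (hinj : Function.Injective T) (a : ℕ)
    (hcompl : ∀ U W : Submodule F V, U ≤ W → U.map T ≤ U → W.map T ≤ W →
      ∃ U' : Submodule F V, U' ≤ W ∧ U'.map T ≤ U' ∧ U ⊓ U' = ⊥ ∧ U ⊔ U' = W)
    (hsub : ∀ (j : ℕ) (W : Submodule F V), W.map T ≤ W → finrank F W = a * (j + 1) →
      ∃ U : Submodule F V, U ≤ W ∧ U.map T ≤ U ∧ finrank F U = a * j)
    (t : ℕ) (ht : finrank F V = a * t) :
    ∃ D : Fin t → Submodule F V, IsDec T a D 1 := by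
  obtain ⟨D, h1, h2, h3, h4⟩ := peel_aux T a hcompl hsub t ⊤ le_top
    (by rw [finrank_top]; exact ht)
  refine ⟨D, h1, h2, h3, fun j => ?_⟩
  rw [Equiv.Perm.one_apply]
  apply Submodule.eq_of_le_of_finrank_eq (h4 j)
  exact (Submodule.equivMapOfInjective T hinj (D j)).finrank_eq.symm

end

end Cfsg.Agent.Helper83
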