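import Mathlib
import Cfsg.Agent.Helper90.IMDefs

set_option autoImplicit false
set_option linter.unusedSectionVars false

/-!
helper83: PIECE UP of CALL S5958 (helper90): if `T` (of prime order `r`) moves a summand of a
decomposition into `t` subspaces of dimension `a`, then
`dim ker (T - 1) + a (r - 1) ≤ a t`.
-/

namespace Cfsg.Agent.Helper83

open Module Polynomial Cfsg.Agent.Helper90.IM

section
variable {F : Type*} [Field F] {V : Type*} [AddCommGroup V] [Module F V] [FiniteDimensional F V]

/-- PIECE UP -/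
theorem fix_le_of_moved (T : V →ₗ[F] V) (r : ℕ) (hr : r.Prime) (hT : T ^ r = 1) {t a : ℕ}
    (D : Fin t → Submodule F V) (σ : Equiv.Perm (Fin t)) (hD : IsDec T a D σ) (j : Fin t)
    (hj : σ j ≠ j) : finrank F (LinearMap.ker (T - 1)) + a * (r - 1) ≤ a * t := by
  classical
  obtain ⟨hfin, hind, hsup, hmap⟩ := hD
  -- `finrank V = a * t`
  have hV : finrank F V = a * t := by
    have hI := DirectSum.isInternal_submodule_of_iSupIndep_of_iSup_eq_top hind hsup
    have b : Basis (Σ _ : Fin t, Fin a) F V :=
      hI.collectedBasis (fun i => Module.finBasisOfFinrankEq F (D i) (hfin i))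
    rw [Module.finrank_eq_card_basis b, Fintype.card_sigma]
    simp [mul_comm]
  rcases Nat.eq_zero_or_pos a with ha | ha
  · subst ha
    have h1 := Submodule.finrank_le (LinearMap.ker (T - 1))
    omega
  -- `D` is injective
  have hDinj : Function.Injective D := by
    apply hind.injective
    intro i h
    have h1 := hfin i
    rw [h, finrank_bot] at h1
    omega
  -- powers
  have hpow : ∀ (i : ℕ) (l : Fin t), (D l).map (T ^ i) = D ((σ ^ i) l) := by
    intro i
    induction i with
    | zero =>
      intro l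
      rw [pow_zero, pow_zero, Module.End.one_eq_id, Submodule.map_id, Equiv.Perm.one_apply]
    | succ i ih =>
      intro l
      rw [pow_succ', Module.End.mul_eq_comp, Submodule.map_comp, ih, hmap, pow_succ',
        Equiv.Perm.mul_apply]
  have hσr : σ ^ r = 1 := by
    apply Equiv.ext
    intro l
    apply hDinj
    rw [← hpow r l, hT, Module.End.one_eq_id, Submodule.map_id, Equiv.Perm.one_apply]
  -- the orbit of `j` has `r` elements
  have hm_ne : ∀ i k : ℕ, i < k → k < r → (σ ^ i) j ≠ (σ ^ k) j := by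
    intro i k hik hkr heq
    have h1 : (σ ^ (k - i)) j = j := by
      have h0 : (σ ^ k) j = (σ ^ i) ((σ ^ (k - i)) j) := by
        rw [← Equiv.Perm.mul_apply, ← pow_add, Nat.add_sub_cancel' hik.le]
      rw [h0] at heq
      exact ((σ ^ i).injective heq).symm
    have hcop : Nat.Coprime (k - i) r := by
      rw [Nat.coprime_comm, Nat.Prime.coprime_iff_not_dvd hr]
      intro hdvd
      have := Nat.le_of_dvd (by omega) hdvd
      omega
    obtain ⟨x, -, hx⟩ := Nat.exists_mul_mod_eq_one_of_coprime hcop hr.one_lt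
    have h2 : ∀ n : ℕ, ((σ ^ (k - i)) ^ n) j = j := by
      intro n
      induction n with
      | zero => rw [pow_zero, Equiv.Perm.one_apply]
      | succ n ih => rw [pow_succ, Equiv.Perm.mul_apply, h1, ih]
    have h3 : σ ^ ((k - i) * x) = σ := by
      rw [pow_eq_pow_mod _ hσr, hx, pow_one]
    apply hj
    have h4 := h2 x
    rw [← pow_mul, h3] at h4
    exact h4
  -- the chain of subspaces
  obtain ⟨B, hB⟩ : ∃ B : ℕ → Submodule F V,
      ∀ k, B k = ⨆ i ∈ Finset.Ico k r, D ((σ ^ i) j) := ⟨_, fun k => rfl⟩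
  have hBr : B r = ⊥ := by
    rw [hB]
    simp
  have hBmono : ∀ k, B (k + 1) ≤ B k := by
    intro k
    rw [hB, hB]
    refine iSup₂_le fun i hi => ?_
    rw [Finset.mem_Ico] at hi
    exact le_iSup₂_of_le i (Finset.mem_Ico.mpr ⟨by omega, hi.2⟩) le_rfl
  have hBdisj : ∀ k, 1 ≤ k → Disjoint (D j) (B k) := by
    intro k hk
    refine (hind j).mono_right ?_
    rw [hB]
    refine iSup₂_le fun i hi => ?_
    rw [Finset.mem_Ico] at hi
    refine le_iSup₂_of_le ((σ ^ i) j) ?_ le_rfl
    intro heq
    exact hm_ne 0 i (by omega) hi.2 (by rw [pow_zero, Equiv.Perm.one_apply]; exact heq.symm)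
  have hBmap : ∀ k, (B k).map T ≤ B (k + 1) ⊔ D j := by
    intro k
    rw [hB, Submodule.map_iSup]
    refine iSup_le fun i => ?_
    rw [Submodule.map_iSup]
    refine iSup_le fun hi => ?_
    rw [hmap]
    rw [Finset.mem_Ico] at hi
    rcases Nat.lt_or_ge (i + 1) r with h | h
    · refine le_sup_of_le_left ?_
      rw [hB]
      refine le_iSup₂_of_le (i + 1) (Finset.mem_Ico.mpr ⟨by omega, h⟩) ?_
      rw [pow_succ', Equiv.Perm.mul_apply]
    · have hir : i + 1 = r := by omega
      refine le_sup_of_le_right ?_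
      have h0 : σ ((σ ^ i) j) = j := by
        rw [← Equiv.Perm.mul_apply, ← pow_succ', hir, hσr, Equiv.Perm.one_apply]
      rw [h0]
  have hstep : ∀ k, 1 ≤ k → ∀ w : V, w ∈ B k → T w = w → w ∈ B (k + 1) := by
    intro k hk w hw hTw
    have h0 : T w ∈ (B k).map T := Submodule.mem_map_of_mem hw
    rw [hTw] at h0
    have h1 : w ∈ (B (k + 1) ⊔ D j) ⊓ B k := ⟨hBmap k h0, hw⟩
    rw [sup_inf_assoc_of_le (D j) (hBmono k), (hBdisj k hk).eq_bot, sup_bot_eq] at h1
    exact h1
  have hall : ∀ k, 1 ≤ k → k ≤ r → ∀ w : V, w ∈ B 1 → T w = w → w ∈ B k := by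
    intro k hk
    induction k, hk using Nat.le_induction with
    | base =>
      intro _ w hw _
      exact hw
    | succ k hk ih =>
      intro hkr w hw hTw
      exact hstep k hk w (ih (by omega) w hw hTw) hTw
  have hdisjK : LinearMap.ker (T - 1) ⊓ B 1 = ⊥ := by
    rw [eq_bot_iff]
    rintro w ⟨hwK, hwB⟩
    have hTw : T w = w := by
      have h0 := LinearMap.mem_ker.mp hwK
      rw [LinearMap.sub_apply, Module.End.one_apply, sub_eq_zero] at h0
      exact h0
    have h1 := hall r hr.one_lt.le le_rfl w hwB hTw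
    rw [hBr] at h1
    exact h1
  -- lower bound for the dimension of `B k`
  have hBfin : ∀ d k, k + d = r → 1 ≤ k → a * d ≤ finrank F (B k) := by
    intro d
    induction d with
    | zero =>
      intro k _ _
      simp
    | succ d ih =>
      intro k hkd hk
      have h1 := ih (k + 1) (by omega) (by omega)
      have hle : D ((σ ^ k) j) ⊔ B (k + 1) ≤ B k := by
        refine sup_le ?_ (hBmono k)
        rw [hB]
        exact le_iSup₂_of_le k (Finset.mem_Ico.mpr ⟨le_rfl, by omega⟩) le_rfl
      have hdis : D ((σ ^ k) j) ⊓ B (k + 1) = ⊥ := by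
        rw [← disjoint_iff]
        refine (hind ((σ ^ k) j)).mono_right ?_
        rw [hB]
        refine iSup₂_le fun i hi => ?_
        rw [Finset.mem_Ico] at hi
        refine le_iSup₂_of_le ((σ ^ i) j) ?_ le_rfl
        intro heq
        exact hm_ne k i (by omega) hi.2 heq.symm
      have h2 := Submodule.finrank_sup_add_finrank_inf_eq (D ((σ ^ k) j)) (B (k + 1))
      rw [hdis, finrank_bot, hfin] at h2
      have h3 := Submodule.finrank_mono hle
      rw [Nat.mul_succ]
      omega
  have h1 := hBfin (r - 1) 1 (by have := hr.one_lt; omega) le_rfl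
  have h2 := Submodule.finrank_sup_add_finrank_inf_eq (LinearMap.ker (T - 1)) (B 1)
  rw [hdisjK, finrank_bot] at h2
  have h3 := Submodule.finrank_le (LinearMap.ker (T - 1) ⊔ B 1)
  rw [hV] at h3
  omega

end

end Cfsg.Agent.Helper83
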