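import Mathlib
import Cfsg.Agent.Helper64.LW2Defs

set_option autoImplicit false
set_option linter.unusedSectionVars false

/-!
helper83: PIECE H1 of CALL S0745 (helper64): homogeneity from pretransitivity on `j`-sets.
-/

namespace Cfsg.Agent.Helper83.LW2H1

open Cfsg.Agent.Lead.LW Cfsg.Agent.Helper64.LW2
open scoped Pointwise

variable {α : Type*} [Fintype α] [DecidableEq α]

-- PIECE H1
theorem homog_of_pretransitive (G : Subgroup (Equiv.Perm α)) (j : ℕ)
    (h : MulAction.IsPretransitive G (Set.powersetCard α j)) : Homog G j := by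
  intro S T hS hT
  obtain ⟨g, hg⟩ := h.exists_smul_eq
    (⟨S, Set.powersetCard.mem_iff.mpr hS⟩ : Set.powersetCard α j)
    ⟨T, Set.powersetCard.mem_iff.mpr hT⟩
  have h1 : ((g • (⟨S, Set.powersetCard.mem_iff.mpr hS⟩ : Set.powersetCard α j) :
      Set.powersetCard α j) : Finset α) = T :=
    congrArg (fun x : Set.powersetCard α j => (x : Finset α)) hg
  have h2 : g • S = T := (Set.powersetCard.coe_smul (g := g)
    (s := (⟨S, Set.powersetCard.mem_iff.mpr hS⟩ : Set.powersetCard α j))).symm.trans h1
  refine ⟨g.1, g.2, fun a => ?_⟩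
  rw [← h2]
  have h3 : (g : Equiv.Perm α) a = g • a := rfl
  rw [h3, Finset.smul_mem_smul_finset_iff]

end Cfsg.Agent.Helper83.LW2H1
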