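import Mathlib

/-!
# Levi's theorem on 2-Engel groups, Neumann's lemma on splitting automorphisms of order 3,
and a lemma on groups K.S3 of exponent dividing 4 (helper83)
-/

set_option autoImplicit false

namespace Cfsg.Agent.Helper83

open scoped commutatorElement

section Levi
variable {K : Type*} [Group K]

theorem levi_comm_left (h2 : ∀ x g : K, Commute x (g * x * g⁻¹)) (x g : K) :
    Commute ⁅x, g⁆ x := by
  have h := h2 x g
  have h' : Commute x (g * x⁻¹ * g⁻¹) := by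
    have e : g * x⁻¹ * g⁻¹ = (g * x * g⁻¹)⁻¹ := by group
    rw [e]; exact h.inv_right
  have e : ⁅x, g⁆ = x * (g * x⁻¹ * g⁻¹) := by rw [commutatorElement_def]; group
  rw [e]
  exact (Commute.refl x).mul_left h'.symm

theorem levi_comm_right (h2 : ∀ x g : K, Commute x (g * x * g⁻¹)) (x g : K) :
    Commute ⁅x, g⁆ g := by
  have h := h2 g x
  rw [commutatorElement_def]
  exact h.symm.mul_left (Commute.refl g).inv_left

theorem levi_inv_left (h2 : ∀ x g : K, Commute x (g * x * g⁻¹)) (a b : K) :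
    ⁅a⁻¹, b⁆ = ⁅a, b⁆⁻¹ := by
  have h := levi_comm_left h2 a b
  have e : ⁅a⁻¹, b⁆ = a⁻¹ * ⁅a, b⁆⁻¹ * a := by simp only [commutatorElement_def]; group
  rw [e]
  have h' : Commute ⁅a, b⁆⁻¹ a := h.inv_left
  rw [mul_assoc, h'.eq, ← mul_assoc, inv_mul_cancel, one_mul]

theorem levi_inv_right (h2 : ∀ x g : K, Commute x (g * x * g⁻¹)) (a b : K) :
    ⁅a, b⁻¹⁆ = ⁅a, b⁆⁻¹ := by
  have h := levi_comm_right h2 a b
  have e : ⁅a, b⁻¹⁆ = b⁻¹ * ⁅a, b⁆⁻¹ * b := by simp only [commutatorElement_def]; group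
  rw [e]
  have h' : Commute ⁅a, b⁆⁻¹ b := h.inv_left
  rw [mul_assoc, h'.eq, ← mul_assoc, inv_mul_cancel, one_mul]

theorem levi_Q (h2 : ∀ x g : K, Commute x (g * x * g⁻¹)) (g v : K) :
    g * (g * v * g⁻¹) * g⁻¹ = g * v * g⁻¹ * v⁻¹ * (g * v * g⁻¹) := by
  have h := (levi_comm_left h2 g v).eq
  rw [commutatorElement_def] at h
  calc g * (g * v * g⁻¹) * g⁻¹ = (g * (g * v * g⁻¹ * v⁻¹)) * (v * g⁻¹) := by group
    _ = (g * v * g⁻¹ * v⁻¹ * g) * (v * g⁻¹) := by rw [h]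
    _ = _ := by group

theorem levi_E2 (h2 : ∀ x g : K, Commute x (g * x * g⁻¹)) (g v : K) :
    g⁻¹ * v * g = v * (g * v * g⁻¹)⁻¹ * v := by
  have h := levi_Q h2 g (g⁻¹ * v * g)
  have h' : g * v * g⁻¹ = v * (g⁻¹ * v * g)⁻¹ * v := by
    calc g * v * g⁻¹ = g * (g * (g⁻¹ * v * g) * g⁻¹) * g⁻¹ := by group
      _ = _ := h
      _ = v * (g⁻¹ * v * g)⁻¹ * v := by group
  calc g⁻¹ * v * g = (v⁻¹ * (v * (g⁻¹ * v * g)⁻¹ * v) * v⁻¹)⁻¹ := by group
    _ = (v⁻¹ * (g * v * g⁻¹) * v⁻¹)⁻¹ := by rw [← h']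
    _ = _ := by group

theorem levi_anti (h2 : ∀ x g : K, Commute x (g * x * g⁻¹)) (g h u : K) :
    ⁅g, ⁅h, u⁆⁆ * ⁅h, ⁅g, u⁆⁆ = 1 := by
  have hv := levi_E2 h2 h u
  have h3 := levi_Q h2 (g * h) (h⁻¹ * u * h)
  have h4 := levi_E2 h2 g (h⁻¹ * u * h)
  have hz : h * (g * u * g⁻¹) * h⁻¹ = u * (g⁻¹ * (h⁻¹ * u * h) * g)⁻¹ * u := by
    have e : g * (h * (g * u * g⁻¹) * h⁻¹) * g⁻¹
        = (g * u * g⁻¹) * (h⁻¹ * u * h)⁻¹ * (g * u * g⁻¹) := by
      calc _ = (g * h) * ((g * h) * (h⁻¹ * u * h) * (g * h)⁻¹) * (g * h)⁻¹ := by group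
        _ = _ := h3
        _ = _ := by group
    calc h * (g * u * g⁻¹) * h⁻¹ = g⁻¹ * (g * (h * (g * u * g⁻¹) * h⁻¹) * g⁻¹) * g := by group
      _ = g⁻¹ * ((g * u * g⁻¹) * (h⁻¹ * u * h)⁻¹ * (g * u * g⁻¹)) * g := by rw [e]
      _ = _ := by group
  have e1 : ⁅h, ⁅g, u⁆⁆ = (h * (g * u * g⁻¹) * h⁻¹) * (h * u * h⁻¹)⁻¹ * u * (g * u * g⁻¹)⁻¹ := by
    simp only [commutatorElement_def]; group
  rw [e1, hz, h4, hv]
  simp only [commutatorElement_def]
  group

theorem levi_swap12 (h2 : ∀ x g : K, Commute x (g * x * g⁻¹)) (g h u : K) :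
    ⁅g, ⁅h, u⁆⁆ = ⁅h, ⁅g, u⁆⁆⁻¹ :=
  eq_inv_of_mul_eq_one_left (levi_anti h2 g h u)

theorem levi_swap23 (h2 : ∀ x g : K, Commute x (g * x * g⁻¹)) (g h u : K) :
    ⁅g, ⁅h, u⁆⁆ = ⁅g, ⁅u, h⁆⁆⁻¹ := by
  rw [← levi_inv_right h2, commutatorElement_inv]

theorem levi_cyc (h2 : ∀ x g : K, Commute x (g * x * g⁻¹)) (g h u : K) :
    ⁅g, ⁅h, u⁆⁆ = ⁅h, ⁅u, g⁆⁆ := by
  rw [levi_swap12 h2 g h u, levi_swap23 h2 h g u, inv_inv]

/-- **Levi**: in a group in which every element commutes with all its conjugates and which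
has no elements of order `3`, all commutators are central. -/
theorem levi_central (h2 : ∀ x g : K, Commute x (g * x * g⁻¹))
    (h3 : ∀ c : K, c ^ 3 = 1 → c = 1) (a b c : K) : Commute ⁅a, b⁆ c := by
  have key : ∀ x y z : K, ⁅z, ⁅x, y⁆⁆ = 1 := by
    intro x y z
    set d := ⁅z, ⁅x, y⁆⁆ with hd
    have hw : ⁅z, ⁅x, y⁆⁆ = x * z * ⁅y, ⁅z⁻¹, x⁻¹⁆⁆⁻¹ * z⁻¹ * y * ⁅x⁻¹, ⁅y⁻¹, z⁆⁆⁻¹ * y⁻¹ * x⁻¹ := by
      group
    have e1 : ⁅y, ⁅z⁻¹, x⁻¹⁆⁆ = d := by
      rw [levi_inv_left h2 z x⁻¹, levi_inv_right h2 z x, inv_inv, levi_cyc h2 y z x]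
    have e2 : ⁅x⁻¹, ⁅y⁻¹, z⁆⁆ = d := by
      rw [levi_inv_left h2 y z, levi_inv_left h2 x ⁅y, z⁆⁻¹, levi_inv_right h2 x ⁅y, z⁆, inv_inv,
        levi_cyc h2 x y z, levi_cyc h2 y z x]
    have cz : Commute d z := levi_comm_left h2 z ⁅x, y⁆
    have cx : Commute d x := by
      have : d = ⁅x, ⁅y, z⁆⁆ := levi_cyc h2 z x y
      rw [this]; exact levi_comm_left h2 x ⁅y, z⁆
    have cy : Commute d y := by
      have : d = ⁅y, ⁅z, x⁆⁆ := by rw [hd, levi_cyc h2 z x y, levi_cyc h2 x y z]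
      rw [this]; exact levi_comm_left h2 y ⁅z, x⁆
    rw [e1, e2] at hw
    have h5 : d = d⁻¹ * d⁻¹ := by
      calc d = x * z * d⁻¹ * z⁻¹ * y * d⁻¹ * y⁻¹ * x⁻¹ := hw
        _ = x * (z * d⁻¹ * z⁻¹) * (y * d⁻¹ * y⁻¹) * x⁻¹ := by group
        _ = x * d⁻¹ * d⁻¹ * x⁻¹ := by
          rw [cz.inv_left.symm.eq, mul_inv_cancel_right, cy.inv_left.symm.eq, mul_inv_cancel_right]
        _ = d⁻¹ * d⁻¹ := by
          rw [mul_assoc x, (cx.inv_left.mul_left cx.inv_left).symm.eq, mul_inv_cancel_right]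
    apply h3
    calc d ^ 3 = d * d * d := by rw [pow_succ, pow_two]
      _ = d * d * (d⁻¹ * d⁻¹) := by rw [← h5]
      _ = 1 := by group
  have := key a b c
  exact ((commutatorElement_eq_one_iff_commute).mp this).symm

end Levi

section Neumann
variable {G : Type*} [Group G]

theorem neumann_prod (K : Subgroup G) (u : G)
    (hu : ∀ k ∈ K, (k * u) ^ 3 = 1) (x : G) (hx : x ∈ K) :
    x * (u * x * u⁻¹) * (u * u * x * u⁻¹ * u⁻¹) = 1 := by
  have hu3 : u * u * u = 1 := by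
    have h := hu 1 K.one_mem
    rwa [one_mul, pow_succ, pow_succ, pow_one] at h
  have h1 : (x * u) * (x * u) * (x * u) = 1 := by
    have h := hu x hx
    rwa [pow_succ, pow_succ, pow_one] at h
  calc x * (u * x * u⁻¹) * (u * u * x * u⁻¹ * u⁻¹)
      = ((x * u) * (x * u) * (x * u)) * (u * u * u)⁻¹ := by group
    _ = 1 := by rw [h1, hu3]; simp

theorem neumann_commute (K : Subgroup G) (u : G)
    (hu : ∀ k ∈ K, (k * u) ^ 3 = 1) (x : G) (hx : x ∈ K) : Commute x (u * x * u⁻¹) := by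
  have hA := neumann_prod K u hu x hx
  have hB' := neumann_prod K u hu x⁻¹ (K.inv_mem hx)
  have ec : u * x⁻¹ * u⁻¹ = (u * x * u⁻¹)⁻¹ := by group
  have ed : u * u * x⁻¹ * u⁻¹ * u⁻¹ = (u * u * x * u⁻¹ * u⁻¹)⁻¹ := by simp [mul_assoc]
  rw [ec, ed] at hB'
  generalize u * x * u⁻¹ = c at hA hB' ⊢
  generalize u * u * x * u⁻¹ * u⁻¹ = d at hA hB'
  have hB : d * (c * x) = 1 := by
    calc d * (c * x) = (x⁻¹ * c⁻¹ * d⁻¹)⁻¹ := by group
      _ = 1 := by rw [hB']; simp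
  have e1 : x * c = d⁻¹ := eq_inv_of_mul_eq_one_left hA
  have e2 : c * x = d⁻¹ := eq_inv_of_mul_eq_one_right hB
  exact e1.trans e2.symm

theorem neumann_engel (K : Subgroup G) [hK : K.Normal] (y : G)
    (hy : ∀ g ∈ K, ∀ k ∈ K, (k * (y * g)) ^ 3 = 1)
    (hy2 : ∀ g ∈ K, ∀ k ∈ K, (k * (y * y * g)) ^ 3 = 1)
    (x g : G) (hx : x ∈ K) (hg : g ∈ K) : Commute x (g * x * g⁻¹) := by
  have hx' : g * x * g⁻¹ ∈ K := hK.conj_mem x hx g
  have hy1 : ∀ k ∈ K, (k * y) ^ 3 = 1 := by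
    intro k hk
    have := hy 1 K.one_mem k hk
    rwa [mul_one] at this
  have hA := neumann_prod K y hy1 (g * x * g⁻¹) hx'
  have c1 : Commute x ((y * g) * x * (y * g)⁻¹) := neumann_commute K (y * g) (hy g hg) x hx
  have c2 : Commute x ((y * y * g) * x * (y * y * g)⁻¹) :=
    neumann_commute K (y * y * g) (hy2 g hg) x hx
  have e : g * x * g⁻¹ = (((y * g) * x * (y * g)⁻¹) * ((y * y * g) * x * (y * y * g)⁻¹))⁻¹ := by
    have h : (g * x * g⁻¹) * (((y * g) * x * (y * g)⁻¹) * ((y * y * g) * x * (y * y * g)⁻¹)) = 1 := by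
      calc _ = g * x * g⁻¹ * (y * (g * x * g⁻¹) * y⁻¹) * (y * y * (g * x * g⁻¹) * y⁻¹ * y⁻¹) := by
            group
        _ = 1 := hA
    exact eq_inv_of_mul_eq_one_left h
  rw [e]
  exact (c1.mul_right c2).inv_right

end Neumann

section S3
variable {G : Type*} [Group G]

theorem s3_sq_eq_one (K : Subgroup G) [hK : K.Normal]
    (hcl : ∀ a ∈ K, ∀ b ∈ K, ∀ c ∈ K, Commute ⁅a, b⁆ c)
    (y s : G)
    (hfpf : ∀ k ∈ K, Commute y k → k = 1)
    (hyc : ∀ n ∈ K, Commute n (y * n * y⁻¹))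
    (hs : s * s = 1) (hsy : s * y * s = y⁻¹)
    (h4 : ∀ t : G, t * t = 1 → ∀ n ∈ K, (t * n) ^ 4 = 1)
    (n : G) (hn : n ∈ K) : n * n = 1 := by
  have hcj : ∀ t : G, t * t = 1 → ∀ n ∈ K, t * n * t ∈ K := by
    intro t ht n hn
    have hti : t⁻¹ = t := inv_eq_of_mul_eq_one_right ht
    have h := hK.conj_mem n hn t
    rwa [hti] at h
  have hI : ∀ t : G, t * t = 1 → ∀ n ∈ K, (t * n * t * n) * (t * n * t * n) = 1 := by
    intro t ht n hn
    have h := h4 t ht n hn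
    rw [pow_succ, pow_succ, pow_succ, pow_one] at h
    calc (t * n * t * n) * (t * n * t * n) = (t * n) * (t * n) * (t * n) * (t * n) := by group
      _ = 1 := h
  have hInvY : ∀ t : G, t * t = 1 → t * y * t = y⁻¹ → t * y⁻¹ * t = y := by
    intro t ht hty
    have hti : t⁻¹ = t := inv_eq_of_mul_eq_one_right ht
    calc t * y⁻¹ * t = (t⁻¹ * y * t⁻¹)⁻¹ := by group
      _ = (t * y * t)⁻¹ := by rw [hti]
      _ = y := by rw [hty, inv_inv]
  have hInvYt : ∀ t : G, t * t = 1 → t * y * t = y⁻¹ →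
      ((y * t) * (y * t) = 1 ∧ (y * t) * y * (y * t) = y⁻¹) := by
    intro t ht hty
    constructor
    · calc (y * t) * (y * t) = y * (t * y * t) := by group
        _ = 1 := by rw [hty]; group
    · calc (y * t) * y * (y * t) = y * (t * y * t) * (t * t)⁻¹ * (t * y * t) := by group
        _ = y⁻¹ := by rw [hty, ht]; group
  have hconjY : ∀ t : G, t * t = 1 → t * y * t = y⁻¹ → ∀ x : G,
      (y * t) * x * (y * t) = y * (t * x * t) * y⁻¹ := by
    intro t ht hty x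
    calc (y * t) * x * (y * t) = y * (t * x * t) * (t * t)⁻¹ * (t * y * t) := by group
      _ = _ := by rw [ht, hty]; group
  -- central elements are involutions
  have h1 : ∀ a ∈ K, (∀ b ∈ K, Commute a b) → a * a = 1 := by
    intro a ha hac
    have key : ∀ t : G, t * t = 1 → t * (a * a) * t = (a * a)⁻¹ := by
      intro t ht
      have hm := hcj t ht a ha
      have hc : Commute a (t * a * t) := hac _ hm
      have h := hI t ht a ha
      have e : (t * a * t * a) * (t * a * t * a) = (t * (a * a) * t) * (a * a) := by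
        calc (t * a * t * a) * (t * a * t * a) = (t * a * t) * (a * (t * a * t)) * a := by group
          _ = (t * a * t) * ((t * a * t) * a) * a := by rw [hc.eq]
          _ = (t * a * (t * t) * a * t) * (a * a) := by group
          _ = _ := by rw [ht]; group
      rw [e] at h
      exact eq_inv_of_mul_eq_one_left h
    have e1 := key s hs
    have e2 := key (y * s) (hInvYt s hs hsy).1
    rw [hconjY s hs hsy, e1] at e2
    have hc : Commute y (a * a)⁻¹ := by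
      show y * (a * a)⁻¹ = (a * a)⁻¹ * y
      calc y * (a * a)⁻¹ = (y * (a * a)⁻¹ * y⁻¹) * y := by group
        _ = _ := by rw [e2]
    have h := hfpf _ (K.inv_mem (K.mul_mem ha ha)) hc
    exact inv_eq_one.mp h
  have hcomK : ∀ a ∈ K, ∀ b ∈ K, ⁅a, b⁆ ∈ K := fun a ha b hb => by
    rw [commutatorElement_def]
    exact K.mul_mem (K.mul_mem (K.mul_mem ha hb) (K.inv_mem ha)) (K.inv_mem hb)
  have h2 : ∀ a ∈ K, ∀ b ∈ K, ⁅a, b⁆ * ⁅a, b⁆ = 1 := fun a ha b hb =>
    h1 _ (hcomK a ha b hb) (fun c hc => hcl a ha b hb c hc)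
  have h5 : ∀ a ∈ K, ∀ b ∈ K, (a * b) * (a * b) = ⁅b, a⁆ * (a * a) * (b * b) := by
    intro a ha b hb
    have hc : Commute ⁅b, a⁆ a := hcl b hb a ha a ha
    calc (a * b) * (a * b) = a * ⁅b, a⁆ * a * b * b := by
          simp only [commutatorElement_def]; group
      _ = ⁅b, a⁆ * a * a * b * b := by rw [hc.symm.eq]
      _ = _ := by group
  have h7 : ∀ t : G, t * t = 1 → ∀ n ∈ K, ∀ n' ∈ K,
      Commute (t * n * t * n) (t * n' * t * n') := by
    intro t ht n hn n' hn'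
    have hmK : t * n * t ∈ K := hcj t ht n hn
    have hm'K : t * n' * t ∈ K := hcj t ht n' hn'
    generalize hm : t * n * t = m at hmK ⊢
    generalize hm' : t * n' * t = m' at hm'K ⊢
    have hA : (m * n) * (m * n) = 1 := by rw [← hm]; exact hI t ht n hn
    have hB : (m' * n') * (m' * n') = 1 := by rw [← hm']; exact hI t ht n' hn'
    have hAB := hI t ht (n * n') (K.mul_mem hn hn')
    have e : t * (n * n') * t * (n * n') = ⁅m', n⁆ * ((m * n) * (m' * n')) := by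
      have hc : Commute ⁅m', n⁆ m := hcl m' hm'K n hn m hmK
      calc t * (n * n') * t * (n * n') = (t * n * t) * (t * t)⁻¹ * (t * n' * t) * n * n' := by
            group
        _ = m * m' * n * n' := by rw [ht, hm, hm']; group
        _ = m * ⁅m', n⁆ * n * m' * n' := by simp only [commutatorElement_def]; group
        _ = ⁅m', n⁆ * m * n * m' * n' := by rw [hc.symm.eq]
        _ = _ := by group
    rw [e] at hAB
    have hz2 : ⁅m', n⁆ * ⁅m', n⁆ = 1 := h2 m' hm'K n hn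
    have hAK : m * n ∈ K := K.mul_mem hmK hn
    have hBK : m' * n' ∈ K := K.mul_mem hm'K hn'
    have hzc : Commute ⁅m', n⁆ ((m * n) * (m' * n')) := hcl m' hm'K n hn _ (K.mul_mem hAK hBK)
    have hXX : ((m * n) * (m' * n')) * ((m * n) * (m' * n')) = 1 := by
      have e2 : (⁅m', n⁆ * ((m * n) * (m' * n'))) * (⁅m', n⁆ * ((m * n) * (m' * n')))
          = (⁅m', n⁆ * ⁅m', n⁆) * (((m * n) * (m' * n')) * ((m * n) * (m' * n'))) := by
        calc (⁅m', n⁆ * ((m * n) * (m' * n'))) * (⁅m', n⁆ * ((m * n) * (m' * n')))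
            = ⁅m', n⁆ * (((m * n) * (m' * n')) * ⁅m', n⁆) * ((m * n) * (m' * n')) := by group
          _ = ⁅m', n⁆ * (⁅m', n⁆ * ((m * n) * (m' * n'))) * ((m * n) * (m' * n')) := by
            rw [hzc.symm.eq]
          _ = _ := by group
      rw [e2, hz2, one_mul] at hAB
      exact hAB
    have h5' := h5 (m * n) hAK (m' * n') hBK
    rw [hXX, hA, hB, mul_one, mul_one] at h5'
    exact ((commutatorElement_eq_one_iff_commute).mp h5'.symm).symm
  have h8 : ∀ t : G, t * t = 1 → t * y * t = y⁻¹ → ∀ n ∈ K,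
      Commute n (y⁻¹ * (t * n * t) * y) := by
    intro t ht hty n hn
    have hty' := hInvY t ht hty
    have hmK : t * n * t ∈ K := hcj t ht n hn
    have hn'K : y * n * y⁻¹ ∈ K := hK.conj_mem n hn y
    have hm'K : y⁻¹ * (t * n * t) * y ∈ K := by
      have h := hK.conj_mem _ hmK y⁻¹
      rwa [inv_inv] at h
    have e' : t * (y * n * y⁻¹) * t = y⁻¹ * (t * n * t) * y := by
      calc t * (y * n * y⁻¹) * t
          = (t * y * t) * (t * t)⁻¹ * (t * n * t) * (t * t)⁻¹ * (t * y⁻¹ * t) := by group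
        _ = _ := by rw [hty, hty', ht]; group
    have hc := h7 t ht n hn (y * n * y⁻¹) hn'K
    rw [e'] at hc
    have c1 : Commute n (y * n * y⁻¹) := hyc n hn
    have c2 : Commute (y⁻¹ * (t * n * t) * y) (t * n * t) := by
      have h := hyc _ hm'K
      have e : y * (y⁻¹ * (t * n * t) * y) * y⁻¹ = t * n * t := by group
      rwa [e] at h
    have l4 : y * ⁅n, y⁻¹ * (t * n * t) * y⁆ * y⁻¹ = ⁅y * n * y⁻¹, t * n * t⁆ := by
      simp only [commutatorElement_def]; group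
    generalize hm : t * n * t = m at hmK hm'K hc c2 l4 ⊢
    generalize hn' : y * n * y⁻¹ = n' at hn'K hc c1 l4
    generalize hm' : y⁻¹ * m * y = m' at hm'K hc c2 l4 ⊢
    have l1 : (m * n) * (m' * n') = ⁅n, m'⁆ * (m * m' * n * n') := by
      have hcc : Commute ⁅n, m'⁆ m := hcl n hn m' hm'K m hmK
      calc (m * n) * (m' * n') = m * ⁅n, m'⁆ * m' * n * n' := by
            simp only [commutatorElement_def]; group
        _ = ⁅n, m'⁆ * m * m' * n * n' := by rw [hcc.symm.eq]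
        _ = _ := by group
    have l2 : (m' * n') * (m * n) = ⁅n', m⁆ * (m * m' * n * n') := by
      have hcc : Commute ⁅n', m⁆ m' := hcl n' hn'K m hmK m' hm'K
      calc (m' * n') * (m * n) = m' * ⁅n', m⁆ * m * n' * n := by
            simp only [commutatorElement_def]; group
        _ = ⁅n', m⁆ * m' * m * n' * n := by rw [hcc.symm.eq]
        _ = ⁅n', m⁆ * (m' * m) * (n' * n) := by group
        _ = ⁅n', m⁆ * (m * m') * (n * n') := by rw [c2.eq, c1.symm.eq]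
        _ = _ := by group
    have l3 : ⁅n, m'⁆ = ⁅n', m⁆ := by
      have h := hc.eq
      rw [l1, l2] at h
      exact mul_right_cancel h
    have l5 : Commute y ⁅n, m'⁆ := by
      show y * ⁅n, m'⁆ = ⁅n, m'⁆ * y
      calc y * ⁅n, m'⁆ = (y * ⁅n, m'⁆ * y⁻¹) * y := by group
        _ = ⁅n, m'⁆ * y := by rw [l4, ← l3]
    have l6 := hfpf _ (hcomK n hn m' hm'K) l5
    exact (commutatorElement_eq_one_iff_commute).mp l6
  have h9 : ∀ t : G, t * t = 1 → t * y * t = y⁻¹ → ∀ n ∈ K, t * (n * n) * t = (n * n)⁻¹ := by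
    intro t ht hty n hn
    obtain ⟨ht', hty''⟩ := hInvYt t ht hty
    have hc := h8 (y * t) ht' hty'' n hn
    have e : y⁻¹ * ((y * t) * n * (y * t)) * y = t * n * t := by
      calc y⁻¹ * ((y * t) * n * (y * t)) * y = t * n * (t * t)⁻¹ * t * (t * y * t) * y := by group
        _ = _ := by rw [ht, hty]; group
    rw [e] at hc
    have h := hI t ht n hn
    have e2 : (t * n * t * n) * (t * n * t * n) = (t * (n * n) * t) * (n * n) := by
      calc (t * n * t * n) * (t * n * t * n) = (t * n * t) * (n * (t * n * t)) * n := by group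
        _ = (t * n * t) * ((t * n * t) * n) * n := by rw [hc.eq]
        _ = (t * n * (t * t) * n * t) * (n * n) := by group
        _ = _ := by rw [ht]; group
    rw [e2] at h
    exact eq_inv_of_mul_eq_one_left h
  have e1 := h9 s hs hsy n hn
  have e2 := h9 (y * s) (hInvYt s hs hsy).1 (hInvYt s hs hsy).2 n hn
  rw [hconjY s hs hsy, e1] at e2
  have hc : Commute y (n * n)⁻¹ := by
    show y * (n * n)⁻¹ = (n * n)⁻¹ * y
    calc y * (n * n)⁻¹ = (y * (n * n)⁻¹ * y⁻¹) * y := by group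
      _ = _ := by rw [e2]
  have h := hfpf _ (K.inv_mem (K.mul_mem hn hn)) hc
  exact inv_eq_one.mp h

end S3

end Cfsg.Agent.Helper83
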