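import Mathlib
import Cfsg.Prelude.Def_RootSubgroups
import Cfsg.Agent.Helper83.Special2
import Cfsg.Agent.Helper83.Line3

set_option autoImplicit false

namespace Cfsg.Agent.Helper83

open Cfsg
open scoped commutatorElement

variable {G : Type*} [Group G]

theorem sup_commutative {P Q : Subgroup G} (hP : ∀ x ∈ P, ∀ y ∈ P, x * y = y * x)
    (hQ : ∀ x ∈ Q, ∀ y ∈ Q, x * y = y * x) (hPQ : ∀ x ∈ P, ∀ y ∈ Q, x * y = y * x) :
    ∀ x ∈ P ⊔ Q, ∀ y ∈ P ⊔ Q, x * y = y * x := by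
  have h1 : ∀ x ∈ P, ∀ y ∈ P ⊔ Q, x * y = y * x := by
    intro x hx
    apply sup_induction (hP x hx) (hPQ x hx) (by simp)
    intro y z hy hz
    calc x * (y * z) = (x * y) * z := by group
      _ = (y * x) * z := by rw [hy]
      _ = y * (x * z) := by group
      _ = y * (z * x) := by rw [hz]
      _ = y * z * x := by group
  have h2 : ∀ x ∈ Q, ∀ y ∈ P ⊔ Q, x * y = y * x := by
    intro x hx
    apply sup_induction (fun y hy => (hPQ y hy x hx).symm) (hQ x hx) (by simp)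
    intro y z hy hz
    calc x * (y * z) = (x * y) * z := by group
      _ = (y * x) * z := by rw [hy]
      _ = y * (x * z) := by group
      _ = y * (z * x) := by rw [hz]
      _ = y * z * x := by group
  intro x hx y hy
  revert x
  apply sup_induction (fun x hx => h1 x hx y hy) (fun x hx => h2 x hx y hy) (by simp)
  intro x z hx hz
  calc x * z * y = x * (z * y) := by group
    _ = x * (y * z) := by rw [hz]
    _ = (x * y) * z := by group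
    _ = (y * x) * z := by rw [hx]
    _ = y * (x * z) := by group

/-- Two commuting members `P`, `Q` of a line `L` both in rank one position with `F`: some member
of the line other than `P` is in the commutator case with `F`. -/
theorem exists_cc_point {S : Set (Subgroup G)} (hS : IsRootSubgroupSet S) {P Q F L : Subgroup G}
    (hP : P ∈ S) (hF : F ∈ S) (hPL : P ≤ L) (hQL : Q ≤ L)
    (hcomm : ∀ x ∈ P, ∀ y ∈ Q, x * y = y * x) (hPQ : P ⊓ Q = ⊥)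
    (hcover : ∀ x ∈ L, x ≠ 1 → ∃ C ∈ S, C ≤ L ∧ x ∈ C)
    (hPF : IsRankOnePair P F) (hQF : IsRankOnePair Q F) :
    ∃ C ∈ S, C ≤ L ∧ C ≠ P ∧ ⁅F, C⁆ ∈ S := by
  obtain ⟨e, he, he1⟩ := RO.exists_ne_one_left hQF
  obtain ⟨b, hb, hb1, hcond1⟩ := hQF.cond_left e he he1
  obtain ⟨a', ha', ha'1, hcond2⟩ := hPF.cond_right b hb hb1
  have hAm : conjBy P (a' * b⁻¹) = F := by
    rw [← conjBy_conjBy, ← hcond2, conjBy_cancel_inv]
  have hEm : conjBy F (a' * e⁻¹) = conjBy Q (a' * b⁻¹) := by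
    rw [← conjBy_conjBy, ← hcond1, conjBy_conjBy]
  obtain ⟨c, hc_def⟩ : ∃ c : G, c = e * a'⁻¹ := ⟨_, rfl⟩
  have hcinv : c⁻¹ = a' * e⁻¹ := by rw [hc_def]; group
  have hBB : ⁅F, conjBy F c⁻¹⁆ = ⊥ := by
    rw [hcinv, hEm]
    apply commutator_eq_bot_of_commute
    intro x hx y hy
    rw [← hAm] at hx
    exact commute_conjBy hcomm _ x hx y hy
  have hcP : c ∉ P := by
    intro hcP
    have h1 : e ∈ P := by
      have h2 : e = c * a' := by rw [hc_def]; group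
      rw [h2]; exact P.mul_mem hcP ha'
    have h3 : e ∈ P ⊓ Q := Subgroup.mem_inf.mpr ⟨h1, he⟩
    rw [hPQ] at h3
    exact he1 (Subgroup.mem_bot.mp h3)
  have hc1 : c ≠ 1 := fun h => hcP (h ▸ P.one_mem)
  have hcL : c ∈ L := by
    rw [hc_def]
    exact L.mul_mem (hQL he) (L.inv_mem (hPL ha'))
  obtain ⟨C, hC, hCL, hcC⟩ := hcover c hcL hc1
  have hCP : C ≠ P := fun h => hcP (h ▸ hcC)
  refine ⟨C, hC, hCL, hCP, ?_⟩
  rcases hS.pair F hF C hC with h | h | h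
  · exfalso
    have h1 : conjBy F c⁻¹ = F := by
      apply conjBy_eq_of_commute
      intro x hx
      exact (commute_of_commutator_eq_bot h hx (Subgroup.inv_mem _ hcC)).symm
    rw [hcinv, hEm] at h1
    have h2 : conjBy Q (a' * b⁻¹) = conjBy P (a' * b⁻¹) := h1.trans hAm.symm
    have h3 : Q = P := conjBy_injective _ h2
    rw [h3, inf_idem] at hPQ
    exact hS.ne_bot P hP hPQ
  · exfalso
    have hu1 : F ∈ unipotentSubgroups F C := RO.A_mem_unipotent h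
    have hu2 : conjBy F c⁻¹ ∈ unipotentSubgroups F C :=
      ⟨c⁻¹, Subgroup.mem_sup_right (Subgroup.inv_mem _ hcC), rfl⟩
    have hne : F ≠ conjBy F c⁻¹ := by
      intro e1
      have h4 := RO.eq_one_of_normalizes (RankOnePair_symm h) (Subgroup.inv_mem _ hcC) e1.symm
      exact hc1 (inv_eq_one.mp h4)
    exact RO.commutator_ne_bot (RO.pair_of_mem h hu1 hu2 hne).1 hBB
  · exact h.1

/-- If `C` commutes with `P`, is in the commutator case with a rank one partner `F` of `P`, and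
every product `p c` lies in a member of `S`, then `⁅⁅C, F⁆, P⁆ = C`. -/
theorem comm_comm_eq {S : Set (Subgroup G)} (hS : IsRootSubgroupSet S)
    (hpart : ∀ E ∈ S, ∃ D ∈ S, IsRankOnePair E D) {P F C : Subgroup G} (hP : P ∈ S) (hF : F ∈ S)
    (hPF : IsRankOnePair P F) (hC : C ∈ S) (hPC : ⁅P, C⁆ = ⊥) (hFC : ⁅F, C⁆ ∈ S)
    (hcover : ∀ p ∈ P, ∀ c ∈ C, p * c ≠ 1 → ∃ E ∈ S, p * c ∈ E) :
    ⁅⁅C, F⁆, P⁆ = C := by
  have cfg := cfg_of_commutator_partner hS hpart hP hF hPF hC hPC hFC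
  have hK : ⁅C, F⁆ ∈ S := cfg.hA
  have hK' : ⁅⁅C, F⁆, P⁆ ∈ S := cfg.hC
  have hccCF : CC S C F := cc_of_commutator_mem hS hC hF hK
  obtain ⟨c, hc, hc1⟩ := exists_ne_one_of_mem hS hC
  obtain ⟨p, hp, hp1⟩ := RO.exists_ne_one_left hPF
  obtain ⟨d, hd, hd1⟩ := RO.exists_ne_one_right hPF
  obtain ⟨DC, hDC, hCDC⟩ := hpart C hC
  have hk₀ : ⁅d, c⁆ ∈ ⁅C, F⁆ := by
    rw [Subgroup.commutator_comm]; exact Subgroup.commutator_mem_commutator hd hc
  have hk₀' : ⁅d, c⁆ ∈ ⁅F, ⁅⁅C, F⁆, P⁆⁆ := by rw [cfg.hDC]; exact hk₀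
  obtain ⟨k', hk', hkk⟩ := cfg.ccDC.surj_left d hd hd1 _ hk₀'
  have hpc : ∀ x ∈ P, ∀ y ∈ C, x * y = y * x := fun x hx y hy =>
    commute_of_commutator_eq_bot hPC hx hy
  -- z = c * k'⁻¹ commutes with d
  have e1 : ⁅d, c⁆ * c = c * ⁅d, c⁆ := hccCF.central _ hk₀ c (Subgroup.mem_sup_left hc)
  have e2 : k' * ⁅d, c⁆ = ⁅d, c⁆ * k' := cfg.comm_ca hk₀ hk'
  have hzd : d * (c * k'⁻¹) * d⁻¹ = c * k'⁻¹ := by
    have f1 : d * c * d⁻¹ = ⁅d, c⁆ * c := Cfg.conj_d_c d c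
    have f2 : d * k' * d⁻¹ = ⁅d, c⁆ * k' := by rw [Cfg.conj_d_c d k', hkk]
    calc d * (c * k'⁻¹) * d⁻¹ = (d * c * d⁻¹) * (d * k' * d⁻¹)⁻¹ := by group
      _ = (⁅d, c⁆ * c) * (⁅d, c⁆ * k')⁻¹ := by rw [f1, f2]
      _ = (c * ⁅d, c⁆) * (k' * ⁅d, c⁆)⁻¹ := by rw [e1, e2]
      _ = c * k'⁻¹ := by group
  have hzd' : d * (c * k'⁻¹) = (c * k'⁻¹) * d := by
    calc d * (c * k'⁻¹) = (d * (c * k'⁻¹) * d⁻¹) * d := by group
      _ = (c * k'⁻¹) * d := by rw [hzd]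
  -- z commutes with P
  have hzP : ∀ x ∈ P, x * (c * k'⁻¹) = (c * k'⁻¹) * x := by
    intro x hx
    have f1 : x * c = c * x := hpc x hx c hc
    have f2 : k' * x = x * k' := cfg.comm_cb hx hk'
    calc x * (c * k'⁻¹) = (x * c) * k'⁻¹ := by group
      _ = (c * x) * k'⁻¹ := by rw [f1]
      _ = c * k'⁻¹ * (k' * x) * k'⁻¹ := by group
      _ = c * k'⁻¹ * (x * k') * k'⁻¹ := by rw [f2]
      _ = (c * k'⁻¹) * x := by group
  -- z commutes with K = ⁅C, F⁆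
  have hzK : ∀ k ∈ ⁅C, F⁆, k * (c * k'⁻¹) = (c * k'⁻¹) * k := by
    intro k hk
    have f1 : k * c = c * k := hccCF.central _ hk c (Subgroup.mem_sup_left hc)
    have f2 : k' * k = k * k' := cfg.comm_ca hk hk'
    calc k * (c * k'⁻¹) = (k * c) * k'⁻¹ := by group
      _ = (c * k) * k'⁻¹ := by rw [f1]
      _ = c * k'⁻¹ * (k' * k) * k'⁻¹ := by group
      _ = c * k'⁻¹ * (k * k') * k'⁻¹ := by rw [f2]
      _ = (c * k'⁻¹) * k := by group
  -- z centralizes P ⊔ F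
  have hsup : P ⊔ conjBy P d = P ⊔ F := by
    have hne : P ≠ conjBy P d := by
      intro e'
      exact hd1 (RO.eq_one_of_normalizes (RankOnePair_symm hPF) hd e'.symm)
    exact (RO.pair_of_mem hPF (RO.A_mem_unipotent hPF)
      (conj_mem_unipotent (RO.A_mem_unipotent hPF) (Subgroup.mem_sup_right hd)) hne).2
  have hzPF : ∀ y ∈ P ⊔ F, y * (c * k'⁻¹) = (c * k'⁻¹) * y := by
    rw [← hsup]
    apply sup_induction hzP
    · intro y hy
      have hy' := mem_conjBy.mp hy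
      have f1 := hzP _ hy'
      calc y * (c * k'⁻¹) = d * ((d⁻¹ * y * d) * (c * k'⁻¹)) * d⁻¹ * (d * (c * k'⁻¹) * d⁻¹)⁻¹ * (c * k'⁻¹) := by
            group
        _ = d * ((c * k'⁻¹) * (d⁻¹ * y * d)) * d⁻¹ * (c * k'⁻¹)⁻¹ * (c * k'⁻¹) := by rw [f1, hzd]
        _ = (d * (c * k'⁻¹) * d⁻¹) * y := by group
        _ = (c * k'⁻¹) * y := by rw [hzd]
    · simp
    · intro x y hx hy
      calc x * y * (c * k'⁻¹) = x * (y * (c * k'⁻¹)) := by group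
        _ = x * ((c * k'⁻¹) * y) := by rw [hy]
        _ = (x * (c * k'⁻¹)) * y := by group
        _ = ((c * k'⁻¹) * x) * y := by rw [hx]
        _ = (c * k'⁻¹) * (x * y) := by group
  by_cases hz : c * k'⁻¹ = 1
  · have e3 : c = k' := mul_inv_eq_one.mp hz
    rcases inf_eq_bot_or_eq hS hDC hCDC hK' with h | h
    · exfalso
      have h2 : c ∈ C ⊓ ⁅⁅C, F⁆, P⁆ := Subgroup.mem_inf.mpr ⟨hc, e3 ▸ hk'⟩
      rw [h] at h2
      exact hc1 (Subgroup.mem_bot.mp h2)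
    · exact h.symm
  · exfalso
    have hccPK : CC S P ⁅C, F⁆ := cfg.ccBA
    have hPK' : P ⊓ ⁅P, ⁅C, F⁆⁆ = ⊥ := CC.inf_eq_bot_left hS hccPK hF hPF
    have hk'2 : k' ∈ ⁅P, ⁅C, F⁆⁆ := by rw [Subgroup.commutator_comm]; exact hk'
    have hpk1 : p * k' ≠ 1 := by
      intro e'
      have e'' : p = k'⁻¹ := mul_eq_one_iff_eq_inv.mp e'
      have h2 : p ∈ P ⊓ ⁅P, ⁅C, F⁆⁆ := Subgroup.mem_inf.mpr ⟨hp, e'' ▸ Subgroup.inv_mem _ hk'2⟩
      rw [hPK'] at h2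
      exact hp1 (Subgroup.mem_bot.mp h2)
    have hpk : p * k' ∈ P ⊔ ⁅P, ⁅C, F⁆⁆ :=
      Subgroup.mul_mem _ (Subgroup.mem_sup_left hp) (Subgroup.mem_sup_right hk'2)
    have hzpk : (c * k'⁻¹) * (p * k') = p * c := by
      have f1 : k' * p = p * k' := cfg.comm_cb hp hk'
      have f2 : p * c = c * p := hpc p hp c hc
      calc (c * k'⁻¹) * (p * k') = c * k'⁻¹ * (p * k') := by group
        _ = c * k'⁻¹ * (k' * p) := by rw [f1]
        _ = c * p := by group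
        _ = p * c := f2.symm
    have hpc1 : p * c ≠ 1 := by
      intro e'
      apply hz
      have e3 : (c * k'⁻¹) * (p * k') = 1 := by rw [hzpk, e']
      -- z * (p k') = 1 with z central... derive contradiction differently
      have e4 : c * k'⁻¹ = (p * k')⁻¹ := mul_eq_one_iff_eq_inv.mp e3
      -- then z⁻¹ = p k' commutes with P ⊔ F; but p ≠ 1 and (P, F) rank one
      exfalso
      have e5 : ∀ y ∈ F, y * (p * k') = (p * k') * y := by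
        intro y hy
        have f1 := hzPF y (Subgroup.mem_sup_right hy)
        rw [e4] at f1
        calc y * (p * k') = (p * k') * ((p * k')⁻¹ * y) * (p * k') := by group
          _ = (p * k') * (y * (p * k')⁻¹) * (p * k') := by rw [f1]
          _ = (p * k') * y := by group
      -- c = p⁻¹, so c ∈ P; then c commutes... use C ∩ P
      have e6 : c = p⁻¹ := by
        calc c = p⁻¹ * (p * c) := by group
          _ = p⁻¹ := by rw [e', mul_one]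
      have hcP : c ∈ P := e6 ▸ P.inv_mem hp
      -- C ⊓ P ≠ ⊥ so C = P, but then ⁅F, P⁆ ∈ S contradicts rank one
      rcases inf_eq_bot_or_eq hS hDC hCDC hP with h | h
      · have h2 : c ∈ C ⊓ P := Subgroup.mem_inf.mpr ⟨hc, hcP⟩
        rw [h] at h2
        exact hc1 (Subgroup.mem_bot.mp h2)
      · rw [h] at hFC
        have hFP : ⁅P, F⁆ ∈ S := by rw [Subgroup.commutator_comm]; exact hFC
        exact not_rankOne_of_commutator_mem hS hP hFP hPF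
    obtain ⟨E, hE, hpcE⟩ := hcover p hp c hc hpc1
    rcases hccPK.cover _ hpk with h | ⟨k₂, hk₂, h⟩
    · have h2 : p ∈ P ⊓ ⁅P, ⁅C, F⁆⁆ := by
        refine Subgroup.mem_inf.mpr ⟨hp, ?_⟩
        have e' : p = (p * k') * k'⁻¹ := by group
        rw [e']
        exact Subgroup.mul_mem _ h (Subgroup.inv_mem _ hk'2)
      rw [hPK'] at h2
      exact hp1 (Subgroup.mem_bot.mp h2)
    · have hE'F : IsRankOnePair (conjBy P k₂) F := by
        have h3 := RO.conj hPF k₂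
        rwa [conjBy_eq_of_commute (A := F) (fun x hx => cfg.comm_ad hk₂ hx)] at h3
      have hzc : c * k'⁻¹ ∈ Subgroup.centralizer ((conjBy P k₂ ⊔ F : Subgroup G) : Set G) := by
        rw [Subgroup.mem_centralizer_iff]
        apply sup_induction
        · intro y hy
          have hy' := mem_conjBy.mp hy
          have f1 := hzP _ hy'
          have f2 := hzK k₂ hk₂
          have f3 : k₂⁻¹ * (c * k'⁻¹) = (c * k'⁻¹) * k₂⁻¹ := by
            calc k₂⁻¹ * (c * k'⁻¹) = k₂⁻¹ * ((c * k'⁻¹) * k₂) * k₂⁻¹ := by group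
              _ = k₂⁻¹ * (k₂ * (c * k'⁻¹)) * k₂⁻¹ := by rw [f2]
              _ = (c * k'⁻¹) * k₂⁻¹ := by group
          calc y * (c * k'⁻¹) = k₂ * ((k₂⁻¹ * y * k₂) * (k₂⁻¹ * (c * k'⁻¹))) * k₂ * k₂⁻¹ * k₂ * k₂⁻¹ := by
                group
            _ = k₂ * ((k₂⁻¹ * y * k₂) * ((c * k'⁻¹) * k₂⁻¹)) * k₂ * k₂⁻¹ * k₂ * k₂⁻¹ := by rw [f3]
            _ = k₂ * ((k₂⁻¹ * y * k₂) * (c * k'⁻¹)) * k₂⁻¹ := by group
            _ = k₂ * ((c * k'⁻¹) * (k₂⁻¹ * y * k₂)) * k₂⁻¹ := by rw [f1]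
            _ = (k₂ * (c * k'⁻¹)) * k₂⁻¹ * y := by group
            _ = ((c * k'⁻¹) * k₂) * k₂⁻¹ * y := by rw [f2]
            _ = (c * k'⁻¹) * y := by group
        · intro y hy
          exact hzPF y (Subgroup.mem_sup_right hy)
        · simp
        · intro x y hx hy
          calc x * y * (c * k'⁻¹) = x * (y * (c * k'⁻¹)) := by group
            _ = x * ((c * k'⁻¹) * y) := by rw [hy]
            _ = (x * (c * k'⁻¹)) * y := by group
            _ = ((c * k'⁻¹) * x) * y := by rw [hx]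
            _ = (c * k'⁻¹) * (x * y) := by group
      have hno := no_root_elem hS hF hE'F hzc hz h hpk1
      apply hno
      rw [hzpk]
      exact ⟨hpc1, E, hE, hpcE⟩


/-- The structure of a line through `P`: some member `C ≠ P` of the line is the commutator of `P`
with a member `K` of `S` in the commutator case with `P`. -/
theorem line_point_structure {S : Set (Subgroup G)} (hS : IsRootSubgroupSet S)
    (hpart : ∀ E ∈ S, ∃ D ∈ S, IsRankOnePair E D) {P Q : Subgroup G} (hP : P ∈ S)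
    (hQ : Q ∈ linePartners S P) :
    ∃ C ∈ S, ∃ K ∈ S, ∃ F ∈ S, C ≠ P ∧ P ⊔ C = P ⊔ Q ∧ IsRankOnePair P F ∧ CC S P K ∧
      ⁅P, K⁆ = C := by
  obtain ⟨⟨hQS, hQP, hPQ⟩, hle, hcov, hdisj⟩ := hQ
  obtain ⟨F, hF, hPF⟩ := hpart P hP
  have hpq : ∀ x ∈ P, ∀ y ∈ Q, x * y = y * x :=
    fun x hx y hy => commute_of_commutator_eq_bot hPQ hx hy
  have hLcomm : ∀ x ∈ P ⊔ Q, ∀ y ∈ P ⊔ Q, x * y = y * x :=
    sup_commutative (fun x hx y hy => comm_of_isMulCommutative (hS.commutative P hP) hx hy)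
      (fun x hx y hy => comm_of_isMulCommutative (hS.commutative Q hQS) hx hy) hpq
  have hPm : P ∈ membersIn S (P ⊔ Q) := ⟨hP, le_sup_left⟩
  have hQm : Q ∈ membersIn S (P ⊔ Q) := ⟨hQS, le_sup_right⟩
  have hinfPQ : P ⊓ Q = ⊥ := hdisj P hPm Q hQm hQP.symm
  have hcover : ∀ x ∈ P ⊔ Q, x ≠ 1 → ∃ C ∈ S, C ≤ P ⊔ Q ∧ x ∈ C := by
    intro x hx hx1
    obtain ⟨C, ⟨hC, hCL⟩, hxC⟩ := hcov x hx hx1
    exact ⟨C, hC, hCL, hxC⟩
  have hex : ∃ C ∈ S, C ≤ P ⊔ Q ∧ C ≠ P ∧ ⁅F, C⁆ ∈ S := by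
    rcases hS.pair F hF Q hQS with h | h | h
    · obtain ⟨p₀, hp₀, hp₀1⟩ := RO.exists_ne_one_left hPF
      obtain ⟨q₀, hq₀, hq₀1⟩ := exists_ne_one_of_mem hS hQS
      have hpq1 : p₀ * q₀ ≠ 1 := by
        intro e
        have e' : p₀ = q₀⁻¹ := mul_eq_one_iff_eq_inv.mp e
        have h2 : p₀ ∈ P ⊓ Q := Subgroup.mem_inf.mpr ⟨hp₀, e' ▸ Q.inv_mem hq₀⟩
        rw [hinfPQ] at h2
        exact hp₀1 (Subgroup.mem_bot.mp h2)
      have hpqL : p₀ * q₀ ∈ P ⊔ Q :=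
        Subgroup.mul_mem _ (Subgroup.mem_sup_left hp₀) (Subgroup.mem_sup_right hq₀)
      obtain ⟨E, hE, hEL, hpqE⟩ := hcover _ hpqL hpq1
      have hFQ : ¬ IsRankOnePair F Q := fun hro => RO.commutator_ne_bot hro h
      have hEF : IsRankOnePair E F :=
        rankOne_of_line hS hQS hF hE hPF hpq hFQ hp₀ hp₀1 hq₀ hpqE
      have hEP : E ≠ P := by
        intro e
        rw [e] at hpqE
        have h3 : q₀ ∈ P := by
          have e2 : q₀ = p₀⁻¹ * (p₀ * q₀) := by group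
          rw [e2]; exact P.mul_mem (P.inv_mem hp₀) hpqE
        have h2 : q₀ ∈ P ⊓ Q := Subgroup.mem_inf.mpr ⟨h3, hq₀⟩
        rw [hinfPQ] at h2
        exact hq₀1 (Subgroup.mem_bot.mp h2)
      have hinfPE : P ⊓ E = ⊥ := hdisj P hPm E ⟨hE, hEL⟩ hEP.symm
      exact exists_cc_point hS hP hF le_sup_left hEL
        (fun x hx y hy => hLcomm x (Subgroup.mem_sup_left hx) y (hEL hy)) hinfPE hcover hPF hEF
    · exact exists_cc_point hS hP hF le_sup_left le_sup_right hpq hinfPQ hcover hPF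
        (RankOnePair_symm h)
    · exact ⟨Q, hQS, le_sup_right, hQP, h.1⟩
  obtain ⟨C, hC, hCL, hCP, hFC⟩ := hex
  have hPC : ⁅P, C⁆ = ⊥ := commutator_eq_bot_of_commute
    (fun x hx y hy => hLcomm x (Subgroup.mem_sup_left hx) y (hCL hy))
  have cfg := cfg_of_commutator_partner hS hpart hP hF hPF hC hPC hFC
  have hcov2 : ∀ p ∈ P, ∀ c ∈ C, p * c ≠ 1 → ∃ E ∈ S, p * c ∈ E := by
    intro p hp c hc h1
    obtain ⟨E, hE, -, hpcE⟩ :=
      hcover _ (Subgroup.mul_mem _ (Subgroup.mem_sup_left hp) (hCL hc)) h1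
    exact ⟨E, hE, hpcE⟩
  have hKP : ⁅⁅C, F⁆, P⁆ = C := comm_comm_eq hS hpart hP hF hPF hC hPC hFC hcov2
  have hPK : ⁅P, ⁅C, F⁆⁆ = C := by rw [Subgroup.commutator_comm P ⁅C, F⁆]; exact hKP
  have hcc : CC S P ⁅C, F⁆ := cfg.ccBA
  refine ⟨C, hC, ⁅C, F⁆, cfg.hA, F, hF, hCP, ?_, hPF, hcc, hPK⟩
  apply le_antisymm (sup_le le_sup_left hCL)
  apply sup_le le_sup_left
  obtain ⟨c, hc, hc1⟩ := exists_ne_one_of_mem hS hC
  obtain ⟨p₁, hp₁, q₁, hq₁, e⟩ := exists_mul_of_mem_sup hpq c (hCL hc)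
  have hinfPC : P ⊓ C = ⊥ := hdisj P hPm C ⟨hC, hCL⟩ hCP.symm
  have hq₁1 : q₁ ≠ 1 := by
    intro e1
    rw [e1, mul_one] at e
    have h2 : c ∈ P ⊓ C := Subgroup.mem_inf.mpr ⟨e ▸ hp₁, hc⟩
    rw [hinfPC] at h2
    exact hc1 (Subgroup.mem_bot.mp h2)
  have hq₁L : q₁ ∈ P ⊔ ⁅P, ⁅C, F⁆⁆ := by
    rw [hPK]
    have e2 : q₁ = p₁⁻¹ * c := by rw [e]; group
    rw [e2]
    exact Subgroup.mul_mem _ (Subgroup.mem_sup_left (P.inv_mem hp₁)) (Subgroup.mem_sup_right hc)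
  obtain ⟨R, ⟨hR, hRL⟩, hq₁R⟩ := (hcc.partition hS hP hF hPF).2.1 q₁ hq₁L hq₁1
  obtain ⟨DQ, hDQ, hQDQ⟩ := hpart Q hQS
  rcases inf_eq_bot_or_eq hS hDQ hQDQ hR with h | h
  · exfalso
    have h2 : q₁ ∈ Q ⊓ R := Subgroup.mem_inf.mpr ⟨hq₁, hq₁R⟩
    rw [h] at h2
    exact hq₁1 (Subgroup.mem_bot.mp h2)
  · rw [h, ← hPK]; exact hRL

/-- A line `L` through `P` with a point `C = ⁅P, K⁆`, `K` in the commutator case with `P`. -/
structure LinePt (S : Set (Subgroup G)) (L P C K F : Subgroup G) : Prop where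
  hS : IsRootSubgroupSet S
  hP : P ∈ S
  hK : K ∈ S
  hF : F ∈ S
  hPF : IsRankOnePair P F
  hcc : CC S P K
  hC : ⁅P, K⁆ = C
  hL : P ⊔ C = L

namespace LinePt

variable {S : Set (Subgroup G)} {L P C K F : Subgroup G}

theorem fix (h : LinePt S L P C K F) {k : G} (hk : k ∈ K) : conjBy C k = C := by
  have hC := h.hC
  subst hC
  apply conjBy_eq_of_commute
  intro c hc
  exact (h.hcc.commute_right hk hc).symm

theorem normalizes (h : LinePt S L P C K F) {k : G} (hk : k ∈ K) : conjBy L k = L := by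
  have hle : ∀ x ∈ K, conjBy L x ≤ L := by
    intro x hx
    rw [← h.hL, conjBy_sup, h.fix hx]
    apply sup_le _ le_sup_right
    have h1 := h.hcc.conj_le_left hx
    rw [h.hC] at h1
    exact h1
  exact Cfg.conjBy_eq_of_le hle k hk

theorem mem_normalizing (h : LinePt S L P C K F) : K ∈ normalizingMembers S L := by
  refine ⟨h.hK, ?_⟩
  intro k hk
  exact Subgroup.mem_normalizer_iff_map_conj_eq.mpr (h.normalizes hk)

theorem C_mem (h : LinePt S L P C K F) : C ∈ S := by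
  rw [← h.hC]; exact h.hcc.mem

theorem C_ne (h : LinePt S L P C K F) : P ≠ C := by
  rw [← h.hC]; exact h.hcc.ne_left h.hS

theorem eq_conj (h : LinePt S L P C K F) {R : Subgroup G} (hR : R ∈ membersIn S L)
    (hRC : R ≠ C) : ∃ k ∈ K, R = conjBy P k := by
  obtain ⟨hRS, hRL⟩ := hR
  rw [← h.hL, ← h.hC] at hRL
  rcases h.hcc.members h.hS h.hP h.hF h.hPF hRS hRL with e | e
  · exact absurd (e.trans h.hC) hRC
  · exact e

theorem trans (h : LinePt S L P C K F) {R₁ R₂ : Subgroup G} (hR₁ : R₁ ∈ membersIn S L)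
    (hR₁C : R₁ ≠ C) (hR₂ : R₂ ∈ membersIn S L) (hR₂C : R₂ ≠ C) :
    ∃ k ∈ K, conjBy R₁ k = R₂ := by
  obtain ⟨k₁, hk₁, e₁⟩ := h.eq_conj hR₁ hR₁C
  obtain ⟨k₂, hk₂, e₂⟩ := h.eq_conj hR₂ hR₂C
  refine ⟨k₂ * k₁⁻¹, K.mul_mem hk₂ (K.inv_mem hk₁), ?_⟩
  rw [e₁, e₂, conjBy_conjBy]
  congr 1
  group

theorem P_mem (h : LinePt S L P C K F) : P ∈ membersIn S L :=
  ⟨h.hP, by rw [← h.hL]; exact le_sup_left⟩

theorem C_memIn (h : LinePt S L P C K F) : C ∈ membersIn S L :=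
  ⟨h.C_mem, by rw [← h.hL]; exact le_sup_right⟩

theorem conj_memIn (h : LinePt S L P C K F) {k : G} (hk : k ∈ K) {R : Subgroup G}
    (hR : R ∈ membersIn S L) : conjBy R k ∈ membersIn S L := by
  refine ⟨h.hS.conj_mem R hR.1 k, ?_⟩
  rw [← h.normalizes hk]
  exact conjBy_mono hR.2 k

/-- A point of the line other than `P` and `C`. -/
theorem exists_third (h : LinePt S L P C K F) :
    ∃ R ∈ membersIn S L, R ≠ C ∧ R ≠ P := by
  obtain ⟨k, hk, hk1⟩ := exists_ne_one_of_mem h.hS h.hK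
  refine ⟨conjBy P k, h.conj_memIn hk h.P_mem, ?_, ?_⟩
  · intro e
    rw [← h.fix hk] at e
    exact h.C_ne (conjBy_injective k e)
  · intro e
    obtain ⟨p, hp, hp1⟩ := RO.exists_ne_one_left h.hPF
    have h1 : ⁅p, k⁆ ∈ P := by
      have e1 : ⁅p, k⁆ = p * (k * p * k⁻¹)⁻¹ := by rw [commutatorElement_def]; group
      rw [e1]
      refine P.mul_mem hp (P.inv_mem ?_)
      have := conj_mem_conjBy (g := k) hp
      rwa [e] at this
    have h2 : ⁅p, k⁆ ∈ P ⊓ ⁅P, K⁆ :=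
      Subgroup.mem_inf.mpr ⟨h1, Subgroup.commutator_mem_commutator hp hk⟩
    rw [h.hcc.inf_eq_bot_left h.hS h.hF h.hPF] at h2
    have h3 : p * k = k * p := by
      have := Subgroup.mem_bot.mp h2
      rw [commutatorElement_def] at this
      calc p * k = (p * k * p⁻¹ * k⁻¹) * k * p := by group
        _ = k * p := by rw [this, one_mul]
    exact h.hcc.not_commute_of_partner h.hS h.hP h.hF h.hPF hp hp1 hk hk1 h3

end LinePt

/-- Two-transitivity of the group generated by the members of `S` normalizing a line. -/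
theorem line_two_transitive {S : Set (Subgroup G)} (hS : IsRootSubgroupSet S)
    (hpart : ∀ E ∈ S, ∃ D ∈ S, IsRankOnePair E D) {A B : Subgroup G} (hA : A ∈ S)
    (hB : B ∈ linePartners S A) :
    ∀ C₁ ∈ membersIn S (A ⊔ B), ∀ C₂ ∈ membersIn S (A ⊔ B), ∀ D₁ ∈ membersIn S (A ⊔ B),
      ∀ D₂ ∈ membersIn S (A ⊔ B), C₁ ≠ C₂ → D₁ ≠ D₂ →
        ∃ x ∈ ⨆ E ∈ normalizingMembers S (A ⊔ B), E, conjBy C₁ x = D₁ ∧ conjBy C₂ x = D₂ := by
  obtain ⟨c₀, hc₀, K₀, hK₀, F₀, hF₀, hc₀A, hL₀, hAF₀, hcc₀, hcomm₀⟩ :=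
    line_point_structure hS hpart hA hB
  have lp₀ : LinePt S (A ⊔ B) A c₀ K₀ F₀ := ⟨hS, hA, hK₀, hF₀, hAF₀, hcc₀, hcomm₀, hL₀⟩
  have hA' : A ∈ linePartners S c₀ := by
    refine ⟨⟨hA, hc₀A.symm, ?_⟩, ?_⟩
    · rw [← hcomm₀]
      exact commutator_eq_bot_of_commute (fun c hc a ha => hcc₀.commute_left ha hc)
    · rw [sup_comm, hL₀]; exact hB.2
  obtain ⟨c₁, hc₁, K₁, hK₁, F₁, hF₁, hc₁c₀, hL₁, hcF₁, hcc₁, hcomm₁⟩ :=
    line_point_structure hS hpart hc₀ hA'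
  have hL₁' : c₀ ⊔ c₁ = A ⊔ B := by rw [hL₁, sup_comm, hL₀]
  have lp₁ : LinePt S (A ⊔ B) c₀ c₁ K₁ F₁ := ⟨hS, hc₀, hK₁, hF₁, hcF₁, hcc₁, hcomm₁, hL₁'⟩
  have hK₀X : K₀ ≤ ⨆ E ∈ normalizingMembers S (A ⊔ B), E :=
    le_biSup (fun E => E) lp₀.mem_normalizing
  have hK₁X : K₁ ≤ ⨆ E ∈ normalizingMembers S (A ⊔ B), E :=
    le_biSup (fun E => E) lp₁.mem_normalizing
  have hXn : ∀ x ∈ ⨆ E ∈ normalizingMembers S (A ⊔ B), E, conjBy (A ⊔ B) x = A ⊔ B := by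
    apply biSup_induction
    · intro E hE x hx
      exact Subgroup.mem_normalizer_iff_map_conj_eq.mp (hE.2 hx)
    · exact conjBy_one _
    · intro x y hx hy
      rw [← conjBy_conjBy, hy, hx]
  have hmem : ∀ x ∈ ⨆ E ∈ normalizingMembers S (A ⊔ B), E, ∀ R ∈ membersIn S (A ⊔ B),
      conjBy R x ∈ membersIn S (A ⊔ B) := by
    intro x hx R hR
    refine ⟨hS.conj_mem R hR.1 x, ?_⟩
    rw [← hXn x hx]
    exact conjBy_mono hR.2 x
  -- a third point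
  obtain ⟨R₃, hR₃, hR₃c₁, hR₃c₀⟩ := lp₁.exists_third
  -- every point can be moved to c₀
  have toC₀ : ∀ R ∈ membersIn S (A ⊔ B),
      ∃ x ∈ ⨆ E ∈ normalizingMembers S (A ⊔ B), E, conjBy R x = c₀ := by
    intro R hR
    by_cases h1 : R = c₁
    · obtain ⟨k, hk, e⟩ := lp₀.trans hR (h1 ▸ hc₁c₀) hR₃ hR₃c₀
      obtain ⟨k', hk', e'⟩ := lp₁.trans hR₃ hR₃c₁ lp₁.P_mem hc₁c₀.symm
      refine ⟨k' * k, Subgroup.mul_mem _ (hK₁X hk') (hK₀X hk), ?_⟩
      rw [← conjBy_conjBy, e, e']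
    · obtain ⟨k', hk', e'⟩ := lp₁.trans hR h1 lp₁.P_mem hc₁c₀.symm
      exact ⟨k', hK₁X hk', e'⟩
  have toPair : ∀ C₁ ∈ membersIn S (A ⊔ B), ∀ C₂ ∈ membersIn S (A ⊔ B), C₁ ≠ C₂ →
      ∃ x ∈ ⨆ E ∈ normalizingMembers S (A ⊔ B), E, conjBy C₁ x = c₀ ∧ conjBy C₂ x = c₁ := by
    intro C₁ hC₁ C₂ hC₂ hne
    obtain ⟨x, hx, e⟩ := toC₀ C₁ hC₁
    have hC₂' : conjBy C₂ x ∈ membersIn S (A ⊔ B) := hmem x hx C₂ hC₂
    have hne' : conjBy C₂ x ≠ c₀ := by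
      intro e2
      rw [← e] at e2
      exact hne (conjBy_injective x e2).symm
    obtain ⟨k, hk, e3⟩ := lp₀.trans hC₂' hne' lp₁.C_memIn hc₁c₀
    refine ⟨k * x, Subgroup.mul_mem _ (hK₀X hk) hx, ?_, ?_⟩
    · rw [← conjBy_conjBy, e, lp₀.fix hk]
    · rw [← conjBy_conjBy, e3]
  intro C₁ hC₁ C₂ hC₂ D₁ hD₁ D₂ hD₂ hC hD
  obtain ⟨x, hx, ex₁, ex₂⟩ := toPair C₁ hC₁ C₂ hC₂ hC
  obtain ⟨y, hy, ey₁, ey₂⟩ := toPair D₁ hD₁ D₂ hD₂ hD
  refine ⟨y⁻¹ * x, Subgroup.mul_mem _ (Subgroup.inv_mem _ hy) hx, ?_, ?_⟩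
  · rw [← conjBy_conjBy, ex₁, ← ey₁, conjBy_inv_cancel]
  · rw [← conjBy_conjBy, ex₂, ← ey₂, conjBy_inv_cancel]

end Cfsg.Agent.Helper83
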