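import Mathlib
import Cfsg.Prelude.Def_RootSubgroups
import Cfsg.Agent.Helper83.RootSet3

set_option autoImplicit false
set_option maxHeartbeats 400000

namespace Cfsg.Agent.Helper83

open Cfsg
open scoped commutatorElement

variable {G : Type*} [Group G] {H : Type*} [Group H]

theorem map_conjBy (f : G →* H) (A : Subgroup G) (g : G) :
    (conjBy A g).map f = conjBy (A.map f) (f g) := by
  ext y
  rw [mem_conjBy]
  constructor
  · rintro ⟨x, hx, rfl⟩
    have hx' : g⁻¹ * x * g ∈ A := mem_conjBy.mp hx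
    exact ⟨g⁻¹ * x * g, hx', by simp⟩
  · rintro ⟨x, hx, hxy⟩
    refine ⟨g * x * g⁻¹, conj_mem_conjBy hx, ?_⟩
    rw [map_mul, map_mul, hxy, map_inv]
    group

theorem isMulCommutative_map (f : G →* H) {A : Subgroup G} (hA : IsMulCommutative A) :
    IsMulCommutative (A.map f) := by
  rw [isMulCommutative_iff]
  rintro ⟨x, a, ha, rfl⟩ ⟨y, a', ha', rfl⟩
  apply Subtype.ext
  simp only [Subgroup.coe_mul]
  rw [← map_mul, ← map_mul, comm_of_isMulCommutative hA ha ha']

/-- If a non-identity element of `B` lies in the kernel of `f`, then `A` and `B` have the same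
image. -/
theorem RO.map_eq_of_ker {A B : Subgroup G} (h : IsRankOnePair A B) (f : G →* H) {b : G}
    (hb : b ∈ B) (hb1 : b ≠ 1) (hfb : f b = 1) : A.map f = B.map f := by
  have hN : ∀ x ∈ A ⊔ B, conjBy (f.ker ⊓ (A ⊔ B)) x = f.ker ⊓ (A ⊔ B) := by
    intro x hx
    ext y
    rw [mem_conjBy, Subgroup.mem_inf, Subgroup.mem_inf, MonoidHom.mem_ker, MonoidHom.mem_ker]
    constructor
    · rintro ⟨h1, h2⟩
      refine ⟨?_, ?_⟩
      · rw [map_mul, map_mul, map_inv] at h1
        calc f y = f x * ((f x)⁻¹ * f y * f x) * (f x)⁻¹ := by group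
          _ = 1 := by rw [h1]; group
      · have := mul_mem (mul_mem hx h2) (inv_mem hx)
        simpa [mul_assoc] using this
    · rintro ⟨h1, h2⟩
      refine ⟨?_, mul_mem (mul_mem (inv_mem hx) h2) hx⟩
      rw [map_mul, map_mul, map_inv, h1]
      group
  have hbN : b ∈ f.ker ⊓ (A ⊔ B) := ⟨MonoidHom.mem_ker.mpr hfb, Subgroup.mem_sup_right hb⟩
  have hnc : ¬ (f.ker ⊓ (A ⊔ B) ≤ Subgroup.centralizer ((A ⊔ B : Subgroup G) : Set G)) := by
    intro hle
    apply RO.not_commute_all (RankOnePair_symm h) hb hb1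
    intro a ha
    exact (Subgroup.mem_centralizer_iff.mp (hle hbN) a (Subgroup.mem_sup_left ha)).symm
  have hmapN : (f.ker ⊓ (A ⊔ B)).map f = ⊥ := (Subgroup.map_eq_bot_iff _).mpr inf_le_left
  apply le_antisymm
  · have h' := RankOnePair_symm h
    rcases RO.normal_dichotomy h' (f.ker ⊓ (B ⊔ A)) inf_le_right
      (by rw [sup_comm]; exact hN) with h1 | h1
    · have := Subgroup.map_mono (f := f) (le_trans le_sup_right h1)
      rw [Subgroup.map_sup, sup_comm B A, hmapN, bot_sup_eq] at this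
      exact this
    · rw [sup_comm B A] at h1
      exact absurd h1 hnc
  · rcases RO.normal_dichotomy h (f.ker ⊓ (A ⊔ B)) inf_le_right hN with h1 | h1
    · have := Subgroup.map_mono (f := f) (le_trans le_sup_right h1)
      rw [Subgroup.map_sup, hmapN, bot_sup_eq] at this
      exact this
    · exact absurd h1 hnc

/-- The image of a rank one pair under a homomorphism is a rank one pair, unless the two images
coincide. -/
theorem RO.map {A B : Subgroup G} (h : IsRankOnePair A B) (f : G →* H)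
    (hne : A.map f ≠ B.map f) : IsRankOnePair (A.map f) (B.map f) := by
  refine ⟨hne, ?_, ?_, ?_, ?_⟩
  · have := h.nilpotent_left
    exact Group.nilpotent_of_surjective _ (f.subgroupMap_surjective A)
  · have := h.nilpotent_right
    exact Group.nilpotent_of_surjective _ (f.subgroupMap_surjective B)
  · rintro _ ⟨a, ha, rfl⟩ ha1
    have ha1' : a ≠ 1 := by
      rintro rfl
      exact ha1 (map_one f)
    obtain ⟨b, hb, hb1, e⟩ := h.cond_left a ha ha1'
    refine ⟨f b, Subgroup.mem_map_of_mem f hb, ?_, ?_⟩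
    · intro hfb
      exact hne (RO.map_eq_of_ker h f hb hb1 hfb)
    · rw [← map_inv, ← map_inv, ← map_conjBy, ← map_conjBy, e]
  · rintro _ ⟨b, hb, rfl⟩ hb1
    have hb1' : b ≠ 1 := by
      rintro rfl
      exact hb1 (map_one f)
    obtain ⟨a, ha, ha1, e⟩ := h.cond_right b hb hb1'
    refine ⟨f a, Subgroup.mem_map_of_mem f ha, ?_, ?_⟩
    · intro hfa
      exact hne (RO.map_eq_of_ker (RankOnePair_symm h) f ha ha1 hfa).symm
    · rw [← map_inv, ← map_inv, ← map_conjBy, ← map_conjBy, e]

/-- The image of a pair in the commutator case is in the commutator case. -/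
theorem rootCommutatorCase_map {S : Set (Subgroup G)} {A B : Subgroup G}
    (h : RootCommutatorCase S A B) (f : G →* H) :
    RootCommutatorCase ((fun A : Subgroup G => A.map f) '' S) (A.map f) (B.map f) := by
  obtain ⟨hmem, hcen, hl, hr⟩ := h
  have hcomm : ⁅A.map f, B.map f⁆ = (⁅A, B⁆).map f := (Subgroup.map_commutator A B f).symm
  refine ⟨?_, ?_, ?_, ?_⟩
  · rw [hcomm]
    exact ⟨⁅A, B⁆, hmem, rfl⟩
  · rw [hcomm, ← Subgroup.map_sup]
    rintro _ ⟨c, hc, rfl⟩ _ ⟨x, hx, rfl⟩
    rw [← map_mul, ← map_mul, hcen c hc x hx]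
  · rintro _ ⟨a, ha, rfl⟩ ha1
    have ha1' : a ≠ 1 := by
      rintro rfl
      exact ha1 (map_one f)
    rw [hcomm, ← hl a ha ha1', MonoidHom.map_closure]
    congr 1
    ext y
    constructor
    · rintro ⟨_, ⟨b, hb, rfl⟩, rfl⟩
      exact ⟨a * b * a⁻¹ * b⁻¹, ⟨b, hb, rfl⟩, by simp⟩
    · rintro ⟨_, ⟨b, hb, rfl⟩, rfl⟩
      exact ⟨f b, ⟨b, hb, rfl⟩, by simp⟩
  · rintro _ ⟨b, hb, rfl⟩ hb1
    have hb1' : b ≠ 1 := by
      rintro rfl
      exact hb1 (map_one f)
    rw [hcomm, ← hr b hb hb1', MonoidHom.map_closure]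
    congr 1
    ext y
    constructor
    · rintro ⟨_, ⟨a, ha, rfl⟩, rfl⟩
      exact ⟨a * b * a⁻¹ * b⁻¹, ⟨a, ha, rfl⟩, by simp⟩
    · rintro ⟨_, ⟨a, ha, rfl⟩, rfl⟩
      exact ⟨f a, ⟨a, ha, rfl⟩, by simp⟩

/-- Homomorphic images of sets of abstract root subgroups with connected rank one graph. -/
theorem image_rootSet {S : Set (Subgroup G)} (hS : IsRootSubgroupSet S)
    (hc : IsConnectedFamily (FAdj S) S) (f : G →* H) (hf : Function.Surjective f) :
    (IsRootSubgroupSet ((fun A : Subgroup G => A.map f) '' S) ∧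
      IsConnectedFamily (FAdj ((fun A : Subgroup G => A.map f) '' S))
        ((fun A : Subgroup G => A.map f) '' S)) ∨
    ∃ A ∈ S, A.map f = ⊤ := by
  by_cases hker : ∃ A ∈ S, A ≤ f.ker
  · right
    obtain ⟨A, hA, hAk⟩ := hker
    refine ⟨A, hA, ?_⟩
    have hall : ∀ B ∈ S, B ≤ f.ker := by
      intro B hB
      obtain ⟨g, rfl⟩ := conj_of_path (hc A hA B hB)
      have := conjBy_mono hAk g
      rwa [conjBy_of_normal (MonoidHom.normal_ker f)] at this
    have htop : (⊤ : Subgroup G) ≤ f.ker := by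
      rw [← hS.generates]
      exact iSup₂_le hall
    rw [eq_top_iff]
    intro y _
    obtain ⟨x, rfl⟩ := hf y
    have : f x = 1 := MonoidHom.mem_ker.mp (htop (Subgroup.mem_top x))
    rw [this]
    exact Subgroup.one_mem _
  · left
    push Not at hker
    have hpairmap : ∀ A ∈ S, ∀ B ∈ S, IsRankOnePair A B → A.map f ≠ B.map f →
        FAdj ((fun A : Subgroup G => A.map f) '' S) (A.map f) (B.map f) :=
      fun A hA B hB h hne => ⟨⟨A, hA, rfl⟩, ⟨B, hB, rfl⟩, RO.map h f hne⟩
    refine ⟨⟨?_, ?_, ?_, ?_, ?_⟩, ?_⟩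
    · rintro _ ⟨A, hA, rfl⟩
      exact isMulCommutative_map f (hS.commutative A hA)
    · rintro _ ⟨A, hA, rfl⟩ hbot
      exact hker A hA ((Subgroup.map_eq_bot_iff _).mp hbot)
    · rw [iSup_image]
      have h1 : (⨆ A ∈ S, A).map f = ⨆ A ∈ S, A.map f := by
        rw [Subgroup.map_iSup]
        congr 1
        ext A : 1
        rw [Subgroup.map_iSup]
      rw [← h1, hS.generates]
      exact Subgroup.map_top_of_surjective f hf
    · rintro _ ⟨A, hA, rfl⟩ h
      obtain ⟨g, rfl⟩ := hf h
      exact ⟨conjBy A g, hS.conj_mem A hA g, map_conjBy f A g⟩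
    · rintro _ ⟨A, hA, rfl⟩ _ ⟨B, hB, rfl⟩
      beta_reduce
      rcases hS.pair A hA B hB with p | p | p
      · left
        rw [← Subgroup.map_commutator, p, Subgroup.map_bot]
      · by_cases hne : A.map f = B.map f
        · left
          rw [← hne]
          apply commutator_eq_bot_of_commute
          intro x hx y hy
          exact comm_of_isMulCommutative (isMulCommutative_map f (hS.commutative A hA)) hx hy
        · right; left
          exact RO.map p f hne
      · right; right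
        exact rootCommutatorCase_map p f
    · rintro _ ⟨A, hA, rfl⟩ _ ⟨B, hB, rfl⟩
      have hpath := hc A hA B hB
      clear hB
      beta_reduce
      induction hpath with
      | refl => exact Relation.ReflTransGen.refl
      | @tail Z Y _ hZY ih =>
        by_cases hne : Z.map f = Y.map f
        · rw [← hne]; exact ih
        · exact ih.tail (hpairmap Z hZY.1 Y hZY.2.1 hZY.2.2 hne)

end Cfsg.Agent.Helper83
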