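import Mathlib

set_option autoImplicit false

namespace Cfsg.Agent.Helper83

variable {G : Type*} [Group G]

/-- The abstract properties of the `μ`-maps of a special rank one group with abelian unipotent
subgroups, on the unipotent subgroup `A`: `μ a` is an odd bijection of `A ∖ {1}` with
`μ a a = a⁻¹`, satisfying the basic functional equation, and any product `μ a ∘ μ c` is induced
by a conjugation. -/
structure MuSys (A : Subgroup G) (μ : G → G → G) : Prop where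
  comm : ∀ x ∈ A, ∀ y ∈ A, x * y = y * x
  mem : ∀ a ∈ A, a ≠ 1 → ∀ x ∈ A, x ≠ 1 → μ a x ∈ A
  ne_one : ∀ a ∈ A, a ≠ 1 → ∀ x ∈ A, x ≠ 1 → μ a x ≠ 1
  inv_left : ∀ a ∈ A, a ≠ 1 → ∀ x ∈ A, x ≠ 1 → μ a (μ a⁻¹ x) = x
  odd : ∀ a ∈ A, a ≠ 1 → ∀ x ∈ A, x ≠ 1 → μ a x⁻¹ = (μ a x)⁻¹
  self : ∀ a ∈ A, a ≠ 1 → μ a a = a⁻¹
  eqn : ∀ a ∈ A, a ≠ 1 → ∀ y ∈ A, y ≠ 1 → y ≠ a⁻¹ → μ a (μ a y * a⁻¹) = a * μ a (a * y)
  hua : ∀ a ∈ A, a ≠ 1 → ∀ c ∈ A, c ≠ 1 → ∃ g : G, ∀ x ∈ A, x ≠ 1 → μ a (μ c x) = g * x * g⁻¹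

namespace MuSys

variable {A : Subgroup G} {μ : G → G → G}

theorem inv_left' (h : MuSys A μ) {a x : G} (ha : a ∈ A) (ha1 : a ≠ 1) (hx : x ∈ A) (hx1 : x ≠ 1) :
    μ a⁻¹ (μ a x) = x := by
  have e := h.inv_left a⁻¹ (A.inv_mem ha) (inv_ne_one.mpr ha1) x hx hx1
  rwa [inv_inv] at e

theorem injective (h : MuSys A μ) {a x y : G} (ha : a ∈ A) (ha1 : a ≠ 1) (hx : x ∈ A) (hx1 : x ≠ 1)
    (hy : y ∈ A) (hy1 : y ≠ 1) (e : μ a x = μ a y) : x = y := by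
  rw [← h.inv_left' ha ha1 hx hx1, e, h.inv_left' ha ha1 hy hy1]

/-- `Q(n)` from `P(n)`. -/
theorem Q_of_P (h : MuSys A μ) {n : ℕ}
    (hP : ∀ c ∈ A, c ≠ 1 → c ^ n ≠ 1 → (μ c (c ^ n)) ^ n = c⁻¹) :
    ∀ a ∈ A, a ≠ 1 → ∀ v ∈ A, v ≠ 1 → v ^ n ≠ 1 → (μ a (v ^ n)) ^ n = μ a v := by
  intro a ha ha1 v hv hv1 hvn
  obtain ⟨g, hg⟩ := h.hua a ha ha1 v hv hv1
  have hvi : v⁻¹ ∈ A := A.inv_mem hv
  have hvi1 : v⁻¹ ≠ 1 := inv_ne_one.mpr hv1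
  have hvin : v⁻¹ ^ n ≠ 1 := by rw [inv_pow]; exact inv_ne_one.mpr hvn
  have hvnA : v ^ n ∈ A := A.pow_mem hv n
  have hvinA : v⁻¹ ^ n ∈ A := A.pow_mem hvi n
  have p1 := hP v⁻¹ hvi hvi1 hvin
  rw [inv_inv] at p1
  have e1 : μ v⁻¹ (v ^ n) = (μ v⁻¹ (v⁻¹ ^ n))⁻¹ := by
    have e0 : (v⁻¹ ^ n)⁻¹ = v ^ n := by rw [inv_pow, inv_inv]
    have e := h.odd v⁻¹ hvi hvi1 (v⁻¹ ^ n) hvinA hvin
    rwa [e0] at e
  have ht : μ v⁻¹ (v ^ n) ∈ A := h.mem v⁻¹ hvi hvi1 _ hvnA hvn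
  have ht1 : μ v⁻¹ (v ^ n) ≠ 1 := h.ne_one v⁻¹ hvi hvi1 _ hvnA hvn
  have htn : (μ v⁻¹ (v ^ n)) ^ n = v⁻¹ := by rw [e1, inv_pow, p1]
  have e2 : μ v (μ v⁻¹ (v ^ n)) = v ^ n := h.inv_left v hv hv1 _ hvnA hvn
  have e3 : μ a (v ^ n) = g * μ v⁻¹ (v ^ n) * g⁻¹ := by
    rw [← hg _ ht ht1, e2]
  have e4 : μ a v = g * v⁻¹ * g⁻¹ := by
    rw [← hg _ hvi hvi1, h.odd v hv hv1 v hv hv1, h.self v hv hv1, inv_inv]
  rw [e3, conj_pow, htn, e4]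

/-- `P(n)`: `μ c (c ^ n)` is an `n`-th root of `c⁻¹`. -/
theorem P_all (h : MuSys A μ) : ∀ n : ℕ, 1 ≤ n →
    ∀ c ∈ A, c ≠ 1 → c ^ n ≠ 1 → (μ c (c ^ n)) ^ n = c⁻¹ := by
  intro n hn
  induction n, hn using Nat.le_induction with
  | base =>
    intro c hc hc1 _
    rw [pow_one, pow_one, h.self c hc hc1]
  | succ n hn ih =>
    intro c hc hc1 hcn1
    by_cases hcn : c ^ n = 1
    · have e1 : c ^ (n + 1) = c := by rw [pow_succ, hcn, one_mul]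
      rw [e1, h.self c hc hc1, inv_pow, e1]
    · have hcnA : c ^ n ∈ A := A.pow_mem hc n
      have hr : μ c (c ^ n) ∈ A := h.mem c hc hc1 _ hcnA hcn
      have hr1 : μ c (c ^ n) ≠ 1 := h.ne_one c hc hc1 _ hcnA hcn
      have hrn : (μ c (c ^ n)) ^ n = c⁻¹ := ih c hc hc1 hcn
      have hne : c ^ n ≠ c⁻¹ := by
        intro e
        apply hcn1
        rw [pow_succ, e, inv_mul_cancel]
      have e1 := h.eqn c hc hc1 (c ^ n) hcnA hcn hne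
      have e2 : c * c ^ n = c ^ (n + 1) := (pow_succ' c n).symm
      have e3 : μ c (c ^ n) * c⁻¹ = (μ c (c ^ n)) ^ (n + 1) := by
        rw [pow_succ', hrn]
      rw [e2, e3] at e1
      -- v := r ^ (n+1)
      have hvA : (μ c (c ^ n)) ^ (n + 1) ∈ A := A.pow_mem hr _
      have hvn : ((μ c (c ^ n)) ^ (n + 1)) ^ n = (c ^ (n + 1))⁻¹ := by
        rw [← pow_mul, mul_comm, pow_mul, hrn, inv_pow]
      have hvn1 : ((μ c (c ^ n)) ^ (n + 1)) ^ n ≠ 1 := by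
        rw [hvn]; exact inv_ne_one.mpr hcn1
      have hv1 : (μ c (c ^ n)) ^ (n + 1) ≠ 1 := by
        intro e
        apply hvn1
        rw [e, one_pow]
      have q := h.Q_of_P ih c hc hc1 _ hvA hv1 hvn1
      rw [hvn] at q
      have hcn1A : c ^ (n + 1) ∈ A := A.pow_mem hc _
      have hs : μ c (c ^ (n + 1)) ∈ A := h.mem c hc hc1 _ hcn1A hcn1
      rw [h.odd c hc hc1 _ hcn1A hcn1, e1] at q
      -- q : (s⁻¹)^n = c * s
      have hcs := h.comm _ hs c hc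
      calc (μ c (c ^ (n + 1))) ^ (n + 1)
          = ((μ c (c ^ (n + 1)))⁻¹ ^ n)⁻¹ * μ c (c ^ (n + 1)) := by
            rw [inv_pow, inv_inv, pow_succ]
        _ = (c * μ c (c ^ (n + 1)))⁻¹ * μ c (c ^ (n + 1)) := by rw [q]
        _ = (μ c (c ^ (n + 1)) * c)⁻¹ * μ c (c ^ (n + 1)) := by rw [hcs]
        _ = c⁻¹ := by group

/-- `Q(n)`: `μ a (v ^ n)` is an `n`-th root of `μ a v`. -/
theorem Q_all (h : MuSys A μ) {n : ℕ} (hn : 1 ≤ n) {a v : G} (ha : a ∈ A) (ha1 : a ≠ 1)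
    (hv : v ∈ A) (hv1 : v ≠ 1) (hvn : v ^ n ≠ 1) : (μ a (v ^ n)) ^ n = μ a v :=
  h.Q_of_P (h.P_all n hn) a ha ha1 v hv hv1 hvn

/-- The unipotent subgroup is either of prime exponent or torsion-free and divisible. -/
theorem torsion_dichotomy (h : MuSys A μ) (hA : ∃ a ∈ A, a ≠ 1) :
    (∃ p : ℕ, p.Prime ∧ ∀ x ∈ A, x ^ p = 1) ∨
    ((∀ x ∈ A, x ≠ 1 → ¬ IsOfFinOrder x) ∧ ∀ x ∈ A, ∀ n : ℕ, 0 < n → ∃ c ∈ A, c ^ n = x) := by
  by_cases ht : ∃ x ∈ A, x ≠ 1 ∧ IsOfFinOrder x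
  · left
    obtain ⟨x, hx, hx1, hfin⟩ := ht
    have hm0 : orderOf x ≠ 0 := (orderOf_pos_iff.mpr hfin).ne'
    have hm1 : orderOf x ≠ 1 := fun e => hx1 (orderOf_eq_one_iff.mp e)
    obtain ⟨p, hp, hpd⟩ := Nat.exists_prime_and_dvd hm1
    have ho : orderOf (x ^ (orderOf x / p)) = p := orderOf_pow_orderOf_div hm0 hpd
    obtain ⟨a, hadef⟩ : ∃ a : G, a = x ^ (orderOf x / p) := ⟨_, rfl⟩
    rw [← hadef] at ho
    have ha : a ∈ A := by rw [hadef]; exact A.pow_mem hx _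
    have ha1 : a ≠ 1 := by
      intro e
      rw [e, orderOf_one] at ho
      exact hp.one_lt.ne ho
    have hap : a ^ p = 1 := by rw [← ho]; exact pow_orderOf_eq_one a
    refine ⟨p, hp, ?_⟩
    intro c hc
    by_contra hcp
    have hc1 : c ≠ 1 := by
      intro e
      apply hcp
      rw [e, one_pow]
    have hcomm : Commute c a := h.comm c hc a ha
    have e1 : (c * a) ^ p = c ^ p := by rw [hcomm.mul_pow, hap, mul_one]
    have hca : c * a ∈ A := A.mul_mem hc ha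
    have hca1 : c * a ≠ 1 := by
      intro e
      apply hcp
      rw [← e1, e, one_pow]
    have q1 := h.Q_all hp.one_le ha ha1 hc hc1 hcp
    have q2 := h.Q_all hp.one_le ha ha1 hca hca1 (by rw [e1]; exact hcp)
    rw [e1, q1] at q2
    have e2 := h.injective ha ha1 hc hc1 hca hca1 q2
    apply ha1
    calc a = c⁻¹ * (c * a) := by group
      _ = c⁻¹ * c := by rw [← e2]
      _ = 1 := by group
  · right
    have ht' : ∀ x ∈ A, x ≠ 1 → ¬ IsOfFinOrder x := fun x hx hx1 hf => ht ⟨x, hx, hx1, hf⟩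
    refine ⟨ht', ?_⟩
    intro x hx n hn
    by_cases hx1 : x = 1
    · exact ⟨1, A.one_mem, by rw [hx1, one_pow]⟩
    obtain ⟨a, ha, ha1⟩ := hA
    have hai : a⁻¹ ∈ A := A.inv_mem ha
    have hai1 : a⁻¹ ≠ 1 := inv_ne_one.mpr ha1
    have hv : μ a⁻¹ x ∈ A := h.mem a⁻¹ hai hai1 x hx hx1
    have hv1 : μ a⁻¹ x ≠ 1 := h.ne_one a⁻¹ hai hai1 x hx hx1
    have hvn : (μ a⁻¹ x) ^ n ≠ 1 := by
      intro e
      exact ht' _ hv hv1 (isOfFinOrder_iff_pow_eq_one.mpr ⟨n, hn, e⟩)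
    have q := h.Q_all hn ha ha1 hv hv1 hvn
    rw [h.inv_left a ha ha1 x hx hx1] at q
    exact ⟨_, h.mem a ha ha1 _ (A.pow_mem hv n) hvn, q⟩

/-- If all the maps `μ a ∘ μ c` are trivial modulo a subgroup `M`, and `A` has more than three
elements, then `A ≤ M`. -/
theorem le_of_hua_mem (h : MuSys A μ) (M : Subgroup G)
    (hM : ∀ a ∈ A, a ≠ 1 → ∀ c ∈ A, c ≠ 1 → ∀ x ∈ A, x ≠ 1 → μ a (μ c x) * x⁻¹ ∈ M)
    (h3 : ∃ a₁ ∈ A, ∃ a₂ ∈ A, ∃ a₃ ∈ A, a₁ ≠ 1 ∧ a₂ ≠ 1 ∧ a₃ ≠ 1 ∧ a₁ ≠ a₂ ∧ a₁ ≠ a₃ ∧ a₂ ≠ a₃) :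
    A ≤ M := by
  -- Step 1
  have s1 : ∀ a ∈ A, a ≠ 1 → ∀ w ∈ A, w ≠ 1 → μ a w * w ∈ M := by
    intro a ha ha1 w hw hw1
    have hwi : w⁻¹ ∈ A := A.inv_mem hw
    have hwi1 : w⁻¹ ≠ 1 := inv_ne_one.mpr hw1
    have e := hM a ha ha1 w⁻¹ hwi hwi1 w⁻¹ hwi hwi1
    rwa [h.self w⁻¹ hwi hwi1, inv_inv] at e
  -- Step 2
  have s2 : ∀ a ∈ A, a ≠ 1 → ∀ y ∈ A, y ≠ 1 → y ≠ a⁻¹ → y * y * a ∈ M := by
    intro a ha ha1 y hy hy1 hya
    have hu : μ a y ∈ A := h.mem a ha ha1 y hy hy1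
    have hu1 : μ a y ≠ 1 := h.ne_one a ha ha1 y hy hy1
    have hua : μ a y ≠ a := by
      intro e
      have e' : μ a a⁻¹ = a := by rw [h.odd a ha ha1 a ha ha1, h.self a ha ha1, inv_inv]
      exact hya (h.injective ha ha1 hy hy1 (A.inv_mem ha) (inv_ne_one.mpr ha1) (e.trans e'.symm))
    have hw : μ a y * a⁻¹ ∈ A := A.mul_mem hu (A.inv_mem ha)
    have hw1 : μ a y * a⁻¹ ≠ 1 := by
      intro e
      apply hua
      calc μ a y = μ a y * a⁻¹ * a := by group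
        _ = a := by rw [e, one_mul]
    have hay : a * y ∈ A := A.mul_mem ha hy
    have hay1 : a * y ≠ 1 := by
      intro e
      apply hya
      calc y = a⁻¹ * (a * y) := by group
        _ = a⁻¹ := by rw [e, mul_one]
    have hp : μ a (a * y) ∈ A := h.mem a ha ha1 _ hay hay1
    have m1 : μ a y * y ∈ M := s1 a ha ha1 y hy hy1
    have m2 : μ a (a * y) * (a * y) ∈ M := s1 a ha ha1 _ hay hay1
    have m3 : μ a (μ a y * a⁻¹) * (μ a y * a⁻¹) ∈ M := s1 a ha ha1 _ hw hw1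
    rw [h.eqn a ha ha1 y hy hy1 hya] at m3
    have c1 : a * μ a (a * y) = μ a (a * y) * a := h.comm a ha _ hp
    have c2 : a * μ a y = μ a y * a := h.comm a ha _ hu
    have m3' : μ a (a * y) * μ a y ∈ M := by
      have e : a * μ a (a * y) * (μ a y * a⁻¹) = μ a (a * y) * μ a y := by
        calc a * μ a (a * y) * (μ a y * a⁻¹) = μ a (a * y) * a * (μ a y * a⁻¹) := by rw [c1]
          _ = μ a (a * y) * (a * μ a y) * a⁻¹ := by group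
          _ = μ a (a * y) * (μ a y * a) * a⁻¹ := by rw [c2]
          _ = μ a (a * y) * μ a y := by group
      rwa [e] at m3
    have c3 : a * y * μ a y = μ a y * (a * y) := h.comm _ hay _ hu
    have c4 : a * y = y * a := h.comm a ha y hy
    have e : y * y * a = (μ a (a * y) * μ a y)⁻¹ * (μ a (a * y) * (a * y)) * (μ a y * y) := by
      symm
      calc (μ a (a * y) * μ a y)⁻¹ * (μ a (a * y) * (a * y)) * (μ a y * y)
          = (μ a y)⁻¹ * (a * y * μ a y) * y := by group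
        _ = (μ a y)⁻¹ * (μ a y * (a * y)) * y := by rw [c3]
        _ = a * y * y := by group
        _ = y * a * y := by rw [c4]
        _ = y * (a * y) := by group
        _ = y * (y * a) := by rw [c4]
        _ = y * y * a := by group
    rw [e]
    exact M.mul_mem (M.mul_mem (M.inv_mem m3') m2) m1
  -- Step 3
  have s3 : ∀ y ∈ A, y ≠ 1 → ∀ a ∈ A, a ≠ 1 → y ≠ a⁻¹ → y * a⁻¹ ∈ M := by
    intro y hy hy1 a ha ha1 hya
    have hay : a ≠ y⁻¹ := by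
      intro e
      apply hya
      rw [e, inv_inv]
    have m1 := s2 a ha ha1 y hy hy1 hya
    have m2 := s2 y hy hy1 a ha ha1 hay
    have c : a * y = y * a := h.comm a ha y hy
    have e : y * a⁻¹ = (y * y * a) * (a * a * y)⁻¹ := by
      symm
      calc (y * y * a) * (a * a * y)⁻¹ = y * (y * a) * y⁻¹ * a⁻¹ * a⁻¹ := by group
        _ = y * (a * y) * y⁻¹ * a⁻¹ * a⁻¹ := by rw [c]
        _ = y * a⁻¹ := by group
    rw [e]
    exact M.mul_mem m1 (M.inv_mem m2)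
  intro y hy
  by_cases hy1 : y = 1
  · rw [hy1]; exact M.one_mem
  obtain ⟨a₁, h₁, a₂, h₂, a₃, h₃, n₁, n₂, n₃, d₁₂, d₁₃, d₂₃⟩ := h3
  have hd : ∃ d ∈ A, d ≠ 1 ∧ d ≠ y ∧ d ≠ y⁻¹ := by
    by_cases c1 : a₁ ≠ y ∧ a₁ ≠ y⁻¹
    · exact ⟨a₁, h₁, n₁, c1.1, c1.2⟩
    by_cases c2 : a₂ ≠ y ∧ a₂ ≠ y⁻¹
    · exact ⟨a₂, h₂, n₂, c2.1, c2.2⟩
    refine ⟨a₃, h₃, n₃, ?_, ?_⟩
    · intro e3
      rcases not_and_or.mp c1 with e1 | e1
      · rw [not_not] at e1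
        exact d₁₃ (e1.trans e3.symm)
      rcases not_and_or.mp c2 with e2 | e2
      · rw [not_not] at e2
        exact d₂₃ (e2.trans e3.symm)
      rw [not_not] at e1 e2
      exact d₁₂ (e1.trans e2.symm)
    · intro e3
      rcases not_and_or.mp c1 with e1 | e1
      · rcases not_and_or.mp c2 with e2 | e2
        · rw [not_not] at e1 e2
          exact d₁₂ (e1.trans e2.symm)
        · rw [not_not] at e2
          exact d₂₃ (e2.trans e3.symm)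
      · rw [not_not] at e1
        exact d₁₃ (e1.trans e3.symm)
  obtain ⟨d, hd, hd1, hdy, hdy'⟩ := hd
  have hyd : y ≠ d⁻¹ := by
    intro e
    apply hdy'
    rw [e, inv_inv]
  have m1 : y * d⁻¹ ∈ M := s3 y hy hy1 d hd hd1 hyd
  have m2 : d * y ∈ M := by
    have e := s3 d hd hd1 y⁻¹ (A.inv_mem hy) (inv_ne_one.mpr hy1) (by rw [inv_inv]; exact hdy)
    rwa [inv_inv] at e
  have m3 : y * y * d ∈ M := s2 d hd hd1 y hy hy1 hyd
  have m4 : y * y ∈ M := by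
    have e : y * y = (y * d⁻¹) * (d * y) := by group
    rw [e]; exact M.mul_mem m1 m2
  have m5 : d ∈ M := by
    have e : d = (y * y)⁻¹ * (y * y * d) := by group
    rw [e]; exact M.mul_mem (M.inv_mem m4) m3
  have e : y = (y * d⁻¹) * d := by group
  rw [e]; exact M.mul_mem m1 m5

end MuSys

end Cfsg.Agent.Helper83
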