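import Mathlib
import Cfsg.Prelude.Def_RootSubgroups
import Cfsg.Agent.Helper83.RootSet
import Cfsg.Agent.Helper83.MuSys

set_option autoImplicit false

namespace Cfsg.Agent.Helper83

open Cfsg
open scoped commutatorElement

variable {G : Type*} [Group G]

/-- A special rank one pair whose first unipotent subgroup is abelian. -/
structure SpecPair (A B : Subgroup G) : Prop where
  ro : IsRankOnePair A B
  spec : ∀ a ∈ A, a ≠ 1 → ∀ b ∈ B, b ≠ 1 → conjBy A b⁻¹ = conjBy B a⁻¹ →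
    b⁻¹ * a * b = a⁻¹ * b⁻¹ * a
  commA : ∀ x ∈ A, ∀ y ∈ A, x * y = y * x

open Classical in
/-- The element `β` of `B` with `β A β⁻¹ = a⁻¹ B a` (for a non-identity `a ∈ A`). -/
noncomputable def betaOf (A B : Subgroup G) (a : G) : G :=
  if h : ∃ b ∈ B, b ≠ 1 ∧ conjBy A b⁻¹ = conjBy B a⁻¹ then (Classical.choose h)⁻¹ else 1

/-- The element `n(a) = a β a` interchanging `A` and `B`. -/
noncomputable def nOf (A B : Subgroup G) (a : G) : G := a * betaOf A B a * a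

open Classical in
/-- The `μ`-map: `muOf A B a x` is the element `y` of `A` with `n(a) x B x⁻¹ n(a)⁻¹ = y B y⁻¹`. -/
noncomputable def muOf (A B : Subgroup G) (a x : G) : G :=
  if h : ∃ y ∈ A, conjBy B (nOf A B a * x) = conjBy B y then Classical.choose h else 1

namespace SpecPair

variable {A B : Subgroup G}

theorem beta_spec (h : SpecPair A B) {a : G} (ha : a ∈ A) (ha1 : a ≠ 1) :
    betaOf A B a ∈ B ∧ betaOf A B a ≠ 1 ∧ conjBy A (betaOf A B a) = conjBy B a⁻¹ := by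
  have hex := h.ro.cond_left a ha ha1
  unfold betaOf
  rw [dif_pos hex]
  obtain ⟨s1, s2, s3⟩ := Classical.choose_spec hex
  exact ⟨B.inv_mem s1, inv_ne_one.mpr s2, s3⟩

theorem beta_mem (h : SpecPair A B) {a : G} (ha : a ∈ A) (ha1 : a ≠ 1) : betaOf A B a ∈ B :=
  (h.beta_spec ha ha1).1

theorem beta_ne_one (h : SpecPair A B) {a : G} (ha : a ∈ A) (ha1 : a ≠ 1) : betaOf A B a ≠ 1 :=
  (h.beta_spec ha ha1).2.1

theorem conj_A_beta (h : SpecPair A B) {a : G} (ha : a ∈ A) (ha1 : a ≠ 1) :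
    conjBy A (betaOf A B a) = conjBy B a⁻¹ :=
  (h.beta_spec ha ha1).2.2

theorem beta_unique (h : SpecPair A B) {a β' : G} (ha : a ∈ A) (ha1 : a ≠ 1) (hβ' : β' ∈ B)
    (e : conjBy A β' = conjBy B a⁻¹) : β' = betaOf A B a :=
  RO.conj_inj (RankOnePair_symm h.ro) hβ' (h.beta_mem ha ha1) (e.trans (h.conj_A_beta ha ha1).symm)

theorem braid (h : SpecPair A B) {a : G} (ha : a ∈ A) (ha1 : a ≠ 1) :
    a * betaOf A B a * a = betaOf A B a * a * betaOf A B a := by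
  obtain ⟨hβ, hβ1, hc⟩ := h.beta_spec ha ha1
  have e := h.spec a ha ha1 (betaOf A B a)⁻¹ (B.inv_mem hβ) (inv_ne_one.mpr hβ1)
    (by rw [inv_inv]; exact hc)
  rw [inv_inv] at e
  calc a * betaOf A B a * a = a * (betaOf A B a * a * (betaOf A B a)⁻¹) * betaOf A B a := by group
    _ = a * (a⁻¹ * betaOf A B a * a) * betaOf A B a := by rw [e]
    _ = betaOf A B a * a * betaOf A B a := by group

theorem beta_mem_sup (h : SpecPair A B) {a : G} (ha : a ∈ A) (ha1 : a ≠ 1) :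
    betaOf A B a ∈ A ⊔ B := Subgroup.mem_sup_right (h.beta_mem ha ha1)

theorem n_mem_sup (h : SpecPair A B) {a : G} (ha : a ∈ A) (ha1 : a ≠ 1) : nOf A B a ∈ A ⊔ B :=
  Subgroup.mul_mem _ (Subgroup.mul_mem _ (Subgroup.mem_sup_left ha) (h.beta_mem_sup ha ha1))
    (Subgroup.mem_sup_left ha)

/-- `a B a⁻¹ = β⁻¹ A β`. -/
theorem conj_B_a (h : SpecPair A B) {a : G} (ha : a ∈ A) (ha1 : a ≠ 1) :
    conjBy B a = conjBy A (betaOf A B a)⁻¹ := by
  obtain ⟨hβ, hβ1, hc⟩ := h.beta_spec ha ha1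
  have hfix : conjBy (conjBy (conjBy B a) (betaOf A B a)) a = conjBy (conjBy B a) (betaOf A B a) := by
    rw [conjBy_conjBy, conjBy_conjBy, h.braid ha ha1,
      ← conjBy_conjBy B (betaOf A B a) (betaOf A B a * a), conjBy_of_mem hβ,
      ← conjBy_conjBy B a (betaOf A B a)]
  have hU : conjBy (conjBy B a) (betaOf A B a) ∈ unipotentSubgroups A B := by
    rw [conjBy_conjBy]
    exact conj_mem_unipotent (RO.B_mem_unipotent h.ro)
      (Subgroup.mul_mem _ (Subgroup.mem_sup_right hβ) (Subgroup.mem_sup_left ha))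
  have hUA : A = conjBy (conjBy B a) (betaOf A B a) := by
    by_contra hne
    exact ha1 (RO.eq_one_of_fixes h.ro (RO.A_mem_unipotent h.ro) hU hne ha hfix)
  exact conjBy_eq_iff.mp hUA.symm

theorem beta_inv (h : SpecPair A B) {a : G} (ha : a ∈ A) (ha1 : a ≠ 1) :
    betaOf A B a⁻¹ = (betaOf A B a)⁻¹ := by
  symm
  apply h.beta_unique (A.inv_mem ha) (inv_ne_one.mpr ha1) (B.inv_mem (h.beta_mem ha ha1))
  rw [inv_inv]
  exact (h.conj_B_a ha ha1).symm

theorem n_inv (h : SpecPair A B) {a : G} (ha : a ∈ A) (ha1 : a ≠ 1) :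
    nOf A B a⁻¹ = (nOf A B a)⁻¹ := by
  unfold nOf
  rw [h.beta_inv ha ha1]
  group

theorem conj_A_n (h : SpecPair A B) {a : G} (ha : a ∈ A) (ha1 : a ≠ 1) :
    conjBy A (nOf A B a) = B := by
  unfold nOf
  rw [← conjBy_conjBy A a (a * betaOf A B a), conjBy_of_mem ha,
    ← conjBy_conjBy A (betaOf A B a) a, h.conj_A_beta ha ha1, conjBy_cancel_inv]

theorem conj_B_n (h : SpecPair A B) {a : G} (ha : a ∈ A) (ha1 : a ≠ 1) :
    conjBy B (nOf A B a) = A := by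
  unfold nOf
  rw [h.braid ha ha1, ← conjBy_conjBy B (betaOf A B a) (betaOf A B a * a),
    conjBy_of_mem (h.beta_mem ha ha1), ← conjBy_conjBy B a (betaOf A B a), h.conj_B_a ha ha1,
    conjBy_cancel_inv]

theorem conj_A_n_inv (h : SpecPair A B) {a : G} (ha : a ∈ A) (ha1 : a ≠ 1) :
    conjBy A (nOf A B a)⁻¹ = B :=
  (conjBy_eq_iff.mp (h.conj_B_n ha ha1)).symm

theorem conj_B_n_inv (h : SpecPair A B) {a : G} (ha : a ∈ A) (ha1 : a ≠ 1) :
    conjBy B (nOf A B a)⁻¹ = A :=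
  (conjBy_eq_iff.mp (h.conj_A_n ha ha1)).symm

/-- `n a n⁻¹ = β`. -/
theorem n_conj_a (h : SpecPair A B) {a : G} (ha : a ∈ A) (ha1 : a ≠ 1) :
    nOf A B a * a * (nOf A B a)⁻¹ = betaOf A B a := by
  have e : nOf A B a * a = betaOf A B a * nOf A B a := by
    unfold nOf
    calc a * betaOf A B a * a * a = (a * betaOf A B a * a) * a := by group
      _ = (betaOf A B a * a * betaOf A B a) * a := by rw [h.braid ha ha1]
      _ = betaOf A B a * (a * betaOf A B a * a) := by group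
  rw [e]; group

/-- The key identity `n a⁻¹ n = a n a`. -/
theorem key (h : SpecPair A B) {a : G} (ha : a ∈ A) (ha1 : a ≠ 1) :
    nOf A B a * a⁻¹ * nOf A B a = a * nOf A B a * a := by
  have e6 := h.n_conj_a ha ha1
  have e : nOf A B a = a * (nOf A B a * a * (nOf A B a)⁻¹) * a := by rw [e6]; rfl
  calc nOf A B a * a⁻¹ * nOf A B a
      = (a * (nOf A B a * a * (nOf A B a)⁻¹) * a) * a⁻¹ * nOf A B a := by rw [← e]
    _ = a * nOf A B a * a := by group

/-- `n x n⁻¹` maps `A` to the image under `n` of the point `x`. -/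
theorem conjA_conj (h : SpecPair A B) {a : G} (ha : a ∈ A) (ha1 : a ≠ 1) (x : G) :
    conjBy A (nOf A B a * x * (nOf A B a)⁻¹) = conjBy B (nOf A B a * x) := by
  rw [← conjBy_conjBy A (nOf A B a)⁻¹ (nOf A B a * x), h.conj_A_n_inv ha ha1]

theorem mu_exists (h : SpecPair A B) {a x : G} (ha : a ∈ A) (ha1 : a ≠ 1) (hx : x ∈ A)
    (hx1 : x ≠ 1) : ∃ y ∈ A, conjBy B (nOf A B a * x) = conjBy B y := by
  have hC : conjBy B (nOf A B a * x) ∈ unipotentSubgroups A B :=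
    conj_mem_unipotent (RO.B_mem_unipotent h.ro)
      (Subgroup.mul_mem _ (h.n_mem_sup ha ha1) (Subgroup.mem_sup_left hx))
  rcases RO.unipotent_cases h.ro hC with e | ⟨y, hy, e⟩
  · exfalso
    rw [← conjBy_conjBy] at e
    have e2 : conjBy (conjBy B x) (nOf A B a) = conjBy B (nOf A B a) :=
      e.trans (h.conj_B_n ha ha1).symm
    exact hx1 (RO.eq_one_of_normalizes h.ro hx (conjBy_injective _ e2))
  · exact ⟨y, hy, e⟩

theorem mu_spec (h : SpecPair A B) {a x : G} (ha : a ∈ A) (ha1 : a ≠ 1) (hx : x ∈ A)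
    (hx1 : x ≠ 1) : muOf A B a x ∈ A ∧ conjBy B (nOf A B a * x) = conjBy B (muOf A B a x) := by
  have hex := h.mu_exists ha ha1 hx hx1
  unfold muOf
  rw [dif_pos hex]
  exact Classical.choose_spec hex

theorem mu_mem (h : SpecPair A B) {a x : G} (ha : a ∈ A) (ha1 : a ≠ 1) (hx : x ∈ A)
    (hx1 : x ≠ 1) : muOf A B a x ∈ A := (h.mu_spec ha ha1 hx hx1).1

theorem mu_conj (h : SpecPair A B) {a x : G} (ha : a ∈ A) (ha1 : a ≠ 1) (hx : x ∈ A)
    (hx1 : x ≠ 1) : conjBy B (nOf A B a * x) = conjBy B (muOf A B a x) :=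
  (h.mu_spec ha ha1 hx hx1).2

theorem mu_eq (h : SpecPair A B) {a x y : G} (ha : a ∈ A) (ha1 : a ≠ 1) (hx : x ∈ A)
    (hx1 : x ≠ 1) (hy : y ∈ A) (e : conjBy B (nOf A B a * x) = conjBy B y) : muOf A B a x = y :=
  RO.conj_inj h.ro (h.mu_mem ha ha1 hx hx1) hy ((h.mu_conj ha ha1 hx hx1).symm.trans e)

theorem mu_ne_one (h : SpecPair A B) {a x : G} (ha : a ∈ A) (ha1 : a ≠ 1) (hx : x ∈ A)
    (hx1 : x ≠ 1) : muOf A B a x ≠ 1 := by
  intro e
  have e1 := h.mu_conj ha ha1 hx hx1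
  rw [e, conjBy_one, ← conjBy_conjBy] at e1
  have e2 : conjBy (conjBy B x) (nOf A B a) = conjBy A (nOf A B a) :=
    e1.trans (h.conj_A_n ha ha1).symm
  have e3 : conjBy B x = A := conjBy_injective _ e2
  have e4 : B = conjBy A x⁻¹ := conjBy_eq_iff.mp e3
  rw [conjBy_of_mem (A.inv_mem hx)] at e4
  exact h.ro.ne e4.symm

theorem mu_inv_left (h : SpecPair A B) {a x : G} (ha : a ∈ A) (ha1 : a ≠ 1) (hx : x ∈ A)
    (hx1 : x ≠ 1) : muOf A B a (muOf A B a⁻¹ x) = x := by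
  have hai : a⁻¹ ∈ A := A.inv_mem ha
  have hai1 : a⁻¹ ≠ 1 := inv_ne_one.mpr ha1
  have e := h.mu_conj hai hai1 hx hx1
  rw [h.n_inv ha ha1] at e
  apply h.mu_eq ha ha1 (h.mu_mem hai hai1 hx hx1) (h.mu_ne_one hai hai1 hx hx1) hx
  rw [← conjBy_conjBy, ← e, conjBy_conjBy]
  congr 1
  group

theorem mu_odd (h : SpecPair A B) {a x : G} (ha : a ∈ A) (ha1 : a ≠ 1) (hx : x ∈ A)
    (hx1 : x ≠ 1) : muOf A B a x⁻¹ = (muOf A B a x)⁻¹ := by
  have hy := h.mu_mem ha ha1 hx hx1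
  have hy1 := h.mu_ne_one ha ha1 hx hx1
  have hyi : (muOf A B a x)⁻¹ ∈ A := A.inv_mem hy
  have hyi1 : (muOf A B a x)⁻¹ ≠ 1 := inv_ne_one.mpr hy1
  have hγ : nOf A B a * x * (nOf A B a)⁻¹ ∈ B := by
    have e := conj_mem_conjBy (g := nOf A B a) hx
    rwa [h.conj_A_n ha ha1] at e
  have e1 : conjBy A (nOf A B a * x * (nOf A B a)⁻¹) = conjBy B ((muOf A B a x)⁻¹)⁻¹ := by
    rw [h.conjA_conj ha ha1, inv_inv]; exact h.mu_conj ha ha1 hx hx1
  have e2 := h.beta_unique hyi hyi1 hγ e1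
  have e3 := h.conj_B_a hyi hyi1
  rw [← e2] at e3
  have e4 : (nOf A B a * x * (nOf A B a)⁻¹)⁻¹ = nOf A B a * x⁻¹ * (nOf A B a)⁻¹ := by group
  rw [e4, h.conjA_conj ha ha1] at e3
  exact h.mu_eq ha ha1 (A.inv_mem hx) (inv_ne_one.mpr hx1) hyi e3.symm

theorem mu_self (h : SpecPair A B) {a : G} (ha : a ∈ A) (ha1 : a ≠ 1) : muOf A B a a = a⁻¹ := by
  apply h.mu_eq ha ha1 ha ha1 (A.inv_mem ha)
  have e : nOf A B a * a = betaOf A B a * nOf A B a := by
    rw [← h.n_conj_a ha ha1]; group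
  rw [e, ← conjBy_conjBy, h.conj_B_n ha ha1, h.conj_A_beta ha ha1]

theorem mu_injective (h : SpecPair A B) {a x y : G} (ha : a ∈ A) (ha1 : a ≠ 1) (hx : x ∈ A)
    (hx1 : x ≠ 1) (hy : y ∈ A) (hy1 : y ≠ 1) (e : muOf A B a x = muOf A B a y) : x = y := by
  have e1 := h.mu_conj ha ha1 hx hx1
  have e2 := h.mu_conj ha ha1 hy hy1
  rw [e, ← e2, ← conjBy_conjBy, ← conjBy_conjBy B y] at e1
  exact RO.conj_inj h.ro hx hy (conjBy_injective _ e1)

theorem mu_eqn (h : SpecPair A B) {a y : G} (ha : a ∈ A) (ha1 : a ≠ 1) (hy : y ∈ A)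
    (hy1 : y ≠ 1) (hya : y ≠ a⁻¹) :
    muOf A B a (muOf A B a y * a⁻¹) = a * muOf A B a (a * y) := by
  have hai : a⁻¹ ∈ A := A.inv_mem ha
  have hai1 : a⁻¹ ≠ 1 := inv_ne_one.mpr ha1
  have hu := h.mu_mem ha ha1 hy hy1
  have hua : muOf A B a y ≠ a := by
    intro e
    have e' : muOf A B a a⁻¹ = a := by rw [h.mu_odd ha ha1 ha ha1, h.mu_self ha ha1, inv_inv]
    exact hya (h.mu_injective ha ha1 hy hy1 hai hai1 (e.trans e'.symm))
  have hw : muOf A B a y * a⁻¹ ∈ A := A.mul_mem hu hai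
  have hw1 : muOf A B a y * a⁻¹ ≠ 1 := by
    intro e
    apply hua
    calc muOf A B a y = muOf A B a y * a⁻¹ * a := by group
      _ = a := by rw [e, one_mul]
  have hay : a * y ∈ A := A.mul_mem ha hy
  have hay1 : a * y ≠ 1 := by
    intro e
    apply hya
    calc y = a⁻¹ * (a * y) := by group
      _ = a⁻¹ := by rw [e, mul_one]
  have hv := h.mu_mem ha ha1 hay hay1
  apply h.mu_eq ha ha1 hw hw1 (A.mul_mem ha hv)
  have c : muOf A B a y * a⁻¹ = a⁻¹ * muOf A B a y := h.commA _ hu _ hai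
  have e1 : nOf A B a * (muOf A B a y * a⁻¹) = (nOf A B a * a⁻¹) * muOf A B a y := by
    rw [c]; group
  rw [e1, ← conjBy_conjBy, ← h.mu_conj ha ha1 hy hy1, conjBy_conjBy]
  have e2 : nOf A B a * a⁻¹ * (nOf A B a * y) = a * (nOf A B a * (a * y)) := by
    calc nOf A B a * a⁻¹ * (nOf A B a * y) = (nOf A B a * a⁻¹ * nOf A B a) * y := by group
      _ = (a * nOf A B a * a) * y := by rw [h.key ha ha1]
      _ = a * (nOf A B a * (a * y)) := by group
  rw [e2, ← conjBy_conjBy, h.mu_conj ha ha1 hay hay1, conjBy_conjBy]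

theorem mu_hua (h : SpecPair A B) {a c x : G} (ha : a ∈ A) (ha1 : a ≠ 1) (hc : c ∈ A)
    (hc1 : c ≠ 1) (hx : x ∈ A) (hx1 : x ≠ 1) :
    muOf A B a (muOf A B c x) =
      (nOf A B a * nOf A B c) * x * (nOf A B a * nOf A B c)⁻¹ := by
  have hy := h.mu_mem hc hc1 hx hx1
  have hy1 := h.mu_ne_one hc hc1 hx hx1
  have hgA : conjBy A (nOf A B a * nOf A B c) = A := by
    rw [← conjBy_conjBy, h.conj_A_n hc hc1, h.conj_B_n ha ha1]
  have hgB : conjBy B (nOf A B a * nOf A B c) = B := by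
    rw [← conjBy_conjBy, h.conj_B_n hc hc1, h.conj_A_n ha ha1]
  have hmem : (nOf A B a * nOf A B c) * x * (nOf A B a * nOf A B c)⁻¹ ∈ A := by
    have e := conj_mem_conjBy (g := nOf A B a * nOf A B c) hx
    rwa [hgA] at e
  apply h.mu_eq ha ha1 hy hy1 hmem
  rw [← conjBy_conjBy, ← h.mu_conj hc hc1 hx hx1, conjBy_conjBy]
  have e1 : nOf A B a * (nOf A B c * x) =
      ((nOf A B a * nOf A B c) * x * (nOf A B a * nOf A B c)⁻¹) * (nOf A B a * nOf A B c) := by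
    group
  rw [e1, ← conjBy_conjBy, hgB]

/-- The `μ`-maps of a special rank one pair with `A` abelian form a `MuSys`. -/
theorem muSys (h : SpecPair A B) : MuSys A (muOf A B) where
  comm := h.commA
  mem := fun _ ha ha1 _ hx hx1 => h.mu_mem ha ha1 hx hx1
  ne_one := fun _ ha ha1 _ hx hx1 => h.mu_ne_one ha ha1 hx hx1
  inv_left := fun _ ha ha1 _ hx hx1 => h.mu_inv_left ha ha1 hx hx1
  odd := fun _ ha ha1 _ hx hx1 => h.mu_odd ha ha1 hx hx1
  self := fun _ ha ha1 => h.mu_self ha ha1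
  eqn := fun _ ha ha1 _ hy hy1 hya => h.mu_eqn ha ha1 hy hy1 hya
  hua := fun a ha ha1 c hc hc1 =>
    ⟨nOf A B a * nOf A B c, fun _ hx hx1 => h.mu_hua ha ha1 hc hc1 hx hx1⟩

theorem of_special {A B : Subgroup G} (hs : IsSpecialRankOnePair A B) (hA : IsMulCommutative A) :
    SpecPair A B :=
  ⟨hs.1, hs.2, fun _ hx _ hy => comm_of_isMulCommutative hA hx hy⟩

/-- In a special rank one pair with `A` abelian, `A` has prime exponent or is torsion-free and
divisible. -/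
theorem torsion_dichotomy (h : SpecPair A B) :
    (∃ p : ℕ, p.Prime ∧ ∀ x ∈ A, x ^ p = 1) ∨
    ((∀ x ∈ A, x ≠ 1 → ¬ IsOfFinOrder x) ∧ ∀ x ∈ A, ∀ n : ℕ, 0 < n → ∃ c ∈ A, c ^ n = x) :=
  h.muSys.torsion_dichotomy (RO.exists_ne_one_left h.ro)

end SpecPair

theorem exists_three_of_card {A : Subgroup G} (h3 : 3 < ENat.card A) :
    ∃ a₁ ∈ A, ∃ a₂ ∈ A, ∃ a₃ ∈ A, a₁ ≠ 1 ∧ a₂ ≠ 1 ∧ a₃ ≠ 1 ∧ a₁ ≠ a₂ ∧ a₁ ≠ a₃ ∧ a₂ ≠ a₃ := by
  have h3' : 3 < (A : Set G).encard := h3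
  have e1 : ((A : Set G) \ {1}).encard + 1 = (A : Set G).encard :=
    Set.encard_sdiff_singleton_add_one A.one_mem
  have h4 : (3 : ℕ∞) ≤ ((A : Set G) \ {1}).encard := by
    by_cases ht : ((A : Set G) \ {1}).encard = ⊤
    · rw [ht]; exact le_top
    · rw [← e1] at h3'
      exact (ENat.lt_add_one_iff ht).mp h3'
  obtain ⟨t, ht, htc⟩ := Set.exists_subset_encard_eq h4
  obtain ⟨x, y, z, hxy, hxz, hyz, rfl⟩ := Set.encard_eq_three.mp htc
  have hx := ht (show x ∈ ({x, y, z} : Set G) by simp)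
  have hy := ht (show y ∈ ({x, y, z} : Set G) by simp)
  have hz := ht (show z ∈ ({x, y, z} : Set G) by simp)
  exact ⟨x, hx.1, y, hy.1, z, hz.1, hx.2, hy.2, hz.2, hxy, hxz, hyz⟩

namespace SpecPair

variable {A B : Subgroup G}

/-- In a special rank one pair with `A` abelian and of more than three elements, `A` lies in
every subgroup containing the commutators of `A ⊔ B` with `A`. -/
theorem le_of_comm_mem (h : SpecPair A B) (h3 : 3 < ENat.card A) (M : Subgroup G)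
    (hM : ∀ g ∈ A ⊔ B, ∀ x ∈ A, g * x * g⁻¹ * x⁻¹ ∈ M) : A ≤ M := by
  apply h.muSys.le_of_hua_mem M _ (exists_three_of_card h3)
  intro a ha ha1 c hc hc1 x hx hx1
  rw [h.mu_hua ha ha1 hc hc1 hx hx1]
  exact hM _ (Subgroup.mul_mem _ (h.n_mem_sup ha ha1) (h.n_mem_sup hc hc1)) x hx

/-- In a special rank one pair with `A` abelian and of more than three elements, `A` lies in the
commutator subgroup of `A ⊔ B`. -/
theorem le_commutator (h : SpecPair A B) (h3 : 3 < ENat.card A) : A ≤ ⁅A ⊔ B, A ⊔ B⁆ := by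
  apply h.le_of_comm_mem h3
  intro g hg x hx
  have e : g * x * g⁻¹ * x⁻¹ = ⁅g, x⁆ := (commutatorElement_def g x).symm
  rw [e]
  exact Subgroup.commutator_mem_commutator hg (Subgroup.mem_sup_left hx)

end SpecPair

end Cfsg.Agent.Helper83
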