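import Mathlib
import Cfsg.Prelude.Def_RootSubgroups
import Cfsg.Agent.Helper83.SpecialRO
import Cfsg.Agent.Helper83.Special2
import Cfsg.Agent.Helper83.RootSetMap

set_option autoImplicit false

namespace Cfsg.Agent.Helper83

open Cfsg
open scoped commutatorElement

variable {G : Type*} [Group G]

theorem conjBy_normal {N : Subgroup G} (hN : N.Normal) (x : G) : conjBy N x = N := by
  ext y
  rw [mem_conjBy]
  constructor
  · intro hy
    have h1 := hN.conj_mem _ hy x
    convert h1 using 1; group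
  · intro hy
    have h1 := hN.conj_mem _ hy x⁻¹
    convert h1 using 1; group

theorem conjBy_inf (H K : Subgroup G) (x : G) : conjBy (H ⊓ K) x = conjBy H x ⊓ conjBy K x := by
  ext y
  simp only [mem_conjBy, Subgroup.mem_inf]

/-- Modulo a normal subgroup `N`, the elements of `N ⊔ A` commute when `A` is abelian. -/
theorem comm_mem_of_sup {N A : Subgroup G} (hN : N.Normal)
    (hA : ∀ x ∈ A, ∀ y ∈ A, x * y = y * x) :
    ∀ x ∈ N ⊔ A, ∀ y ∈ N ⊔ A, ⁅x, y⁆ ∈ N := by
  have := hN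
  have key : ∀ x ∈ N ⊔ A, ∃ a ∈ A, (QuotientGroup.mk' N) x = (QuotientGroup.mk' N) a := by
    apply sup_induction
    · intro n hn
      refine ⟨1, A.one_mem, ?_⟩
      rw [map_one]
      exact (QuotientGroup.eq_one_iff n).mpr hn
    · intro a ha
      exact ⟨a, ha, rfl⟩
    · exact ⟨1, A.one_mem, rfl⟩
    · rintro x y ⟨a, ha, hxa⟩ ⟨b, hb, hyb⟩
      exact ⟨a * b, A.mul_mem ha hb, by rw [map_mul, map_mul, hxa, hyb]⟩
  intro x hx y hy
  obtain ⟨a, ha, hxa⟩ := key x hx
  obtain ⟨b, hb, hyb⟩ := key y hy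
  have e3 : (QuotientGroup.mk' N) ⁅x, y⁆ = 1 := by
    rw [map_commutatorElement, hxa, hyb, ← map_commutatorElement,
      commutatorElement_eq_one_iff_mul_comm.mpr (hA a ha b hb), map_one]
  exact (QuotientGroup.eq_one_iff _).mp e3

/-- A normal subgroup containing a non-identity element of a member of a connected class of
abstract root subgroups contains the commutator subgroup. -/
theorem comm_le_of_root_elem {S : Set (Subgroup G)} (hS : IsRootSubgroupSet S)
    (hclass : IsConjClassOfSubgroups S) (h1 : IsConnectedFamily (FAdj S) S)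
    {N : Subgroup G} (hN : N.Normal) {E : Subgroup G} (hE : E ∈ S) {x : G} (hx : x ∈ E)
    (hx1 : x ≠ 1) (hxN : x ∈ N) : commutator G ≤ N := by
  have := hN
  have hall : ∀ F ∈ S, ∃ y ∈ F, y ≠ 1 ∧ y ∈ N := by
    intro F hF
    obtain ⟨g, rfl⟩ := hclass.2 E hE F hF
    refine ⟨g * x * g⁻¹, conj_mem_conjBy hx, ?_, hN.conj_mem x hxN g⟩
    intro e
    apply hx1
    calc x = g⁻¹ * (g * x * g⁻¹) * g := by group
      _ = 1 := by rw [e]; group
  have key : ∀ X Y, FAdj S X Y →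
      X.map (QuotientGroup.mk' N) = Y.map (QuotientGroup.mk' N) := by
    intro X Y hXY
    obtain ⟨y, hy, hy1, hyN⟩ := hall Y hXY.2.1
    exact RO.map_eq_of_ker hXY.2.2 (QuotientGroup.mk' N) hy hy1
      ((QuotientGroup.eq_one_iff y).mpr hyN)
  have hmap : ∀ F, Relation.ReflTransGen (FAdj S) E F →
      F.map (QuotientGroup.mk' N) = E.map (QuotientGroup.mk' N) := by
    intro F hp
    induction hp with
    | refl => rfl
    | tail _ hXY ih => exact (key _ _ hXY).symm.trans ih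
  have hle : ∀ F ∈ S, F ≤ N ⊔ E := by
    intro F hF
    have e1 := hmap F (h1 E hE F hF)
    calc F ≤ (F.map (QuotientGroup.mk' N)).comap (QuotientGroup.mk' N) := Subgroup.le_comap_map _ _
      _ = (E.map (QuotientGroup.mk' N)).comap (QuotientGroup.mk' N) := by rw [e1]
      _ = E ⊔ N := by rw [Subgroup.comap_map_eq, QuotientGroup.ker_mk']
      _ = N ⊔ E := sup_comm _ _
  have htop : (⊤ : Subgroup G) ≤ N ⊔ E := by
    rw [← hS.generates]
    exact iSup₂_le hle
  rw [commutator_def, Subgroup.commutator_le]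
  intro x _ y _
  exact comm_mem_of_sup hN (fun x hx y hy => comm_of_isMulCommutative (hS.commutative E hE) hx hy)
    x (htop (Subgroup.mem_top x)) y (htop (Subgroup.mem_top y))

/-- An element normalizing every member of a set of abstract root subgroups in which every
member has a rank one partner is central. -/
theorem mem_center_of_normalizes {S : Set (Subgroup G)} (hS : IsRootSubgroupSet S)
    (hpart : ∀ E ∈ S, ∃ D ∈ S, IsRankOnePair E D) {n : G} (hn : ∀ A ∈ S, conjBy A n = A) :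
    n ∈ Subgroup.center G := by
  rw [Subgroup.mem_center_iff]
  intro g
  have hg : g ∈ ⨆ A ∈ S, A := by rw [hS.generates]; trivial
  refine biSup_induction (Q := fun g => g * n = n * g) ?_ ?_ ?_ g hg
  · intro A hA a ha
    obtain ⟨D, hD, hAD⟩ := hpart A hA
    exact (RO.commute_of_normalizes hAD (hn A hA)
      (fun a' _ => hn _ (hS.conj_mem D hD a')) a ha).symm
  · simp
  · intro x y hx hy
    calc x * y * n = x * (y * n) := by group
      _ = x * (n * y) := by rw [hy]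
      _ = (x * n) * y := by group
      _ = (n * x) * y := by rw [hx]
      _ = n * (x * y) := by group

theorem nondeg_of_not_degenerate {S : Set (Subgroup G)} (hS : IsRootSubgroupSet S)
    (hex : ∃ A ∈ S, ∃ B ∈ S, IsRankOnePair A B) (hd : ¬ IsDegenerateRootSet S) :
    IsNondegenerateRootSet S := by
  unfold IsDegenerateRootSet at hd
  push Not at hd
  obtain ⟨E, hE, F, hF, hcc0⟩ := hd
  have hcc := CC.of hcc0
  exact ⟨⟨E, hE, ⁅E, F⁆, hcc.mem, CC.ne_left hS hcc,
    commutator_eq_bot_of_commute (fun e he c hc =>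
      (hcc.central c hc e (Subgroup.mem_sup_left he)).symm)⟩, hex, ⟨E, hE, F, hF, hcc0⟩⟩

/-- The hypotheses of the quasisimplicity criterion. -/
structure QHyp (S : Set (Subgroup G)) : Prop where
  hS : IsRootSubgroupSet S
  hclass : IsConjClassOfSubgroups S
  hpart : ∀ E ∈ S, ∃ D ∈ S, IsRankOnePair E D
  h3 : IsDegenerateRootSet S → ∀ A ∈ S, 3 < ENat.card A
  h4 : ∀ A ∈ S, ∀ B ∈ rankOnePartners S A, IsSpecialRankOnePair A B

namespace QHyp

variable {S : Set (Subgroup G)}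

/-- If a rank one group `A ⊔ B` lies in `N ⊔ A` for a normal subgroup `N`, then `N` contains a
non-identity element of a member of `S`. -/
theorem root_elem_of_rankOne (q : QHyp S) {N : Subgroup G} (hN : N.Normal) {A B : Subgroup G}
    (hA : A ∈ S) (hB : B ∈ S) (hAB : IsRankOnePair A B) (hle : A ⊔ B ≤ N ⊔ A) :
    ∃ E ∈ S, ∃ x ∈ E, x ≠ 1 ∧ x ∈ N := by
  have hAc : ∀ x ∈ A, ∀ y ∈ A, x * y = y * x :=
    fun x hx y hy => comm_of_isMulCommutative (q.hS.commutative A hA) hx hy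
  have hcomm : ∀ x ∈ A ⊔ B, ∀ y ∈ A ⊔ B, ⁅x, y⁆ ∈ N :=
    fun x hx y hy => comm_mem_of_sup hN hAc x (hle hx) y (hle hy)
  by_cases hd : IsDegenerateRootSet S
  · have hsp := SpecPair.of_special (q.h4 A hA B ⟨hB, hAB⟩) (q.hS.commutative A hA)
    have hAN : A ≤ N := hsp.le_of_comm_mem (q.h3 hd A hA) N (fun g hg x hx => by
      have h1 := hcomm g hg x (Subgroup.mem_sup_left hx)
      rwa [commutatorElement_def] at h1)
    obtain ⟨a, ha, ha1⟩ := RO.exists_ne_one_left hAB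
    exact ⟨A, hA, a, ha, ha1, hAN ha⟩
  · have hnd := nondeg_of_not_degenerate q.hS ⟨A, hA, B, hB, hAB⟩ hd
    obtain ⟨⟨C, hC1, hC2⟩, -⟩ := nondeg_rankOne_special ⟨q.hS, q.hclass⟩ hnd hA hB hAB
    have cfg := cfg_of_commutator_partner q.hS q.hpart hA hB hAB hC1.1.1 hC1.1.2.2 hC2.2
    obtain ⟨a, ha, ha1⟩ := RO.exists_ne_one_left hAB
    obtain ⟨b, hb, hb1, hcond⟩ := hAB.cond_left a ha ha1
    obtain ⟨k, hk, hk1⟩ := exists_ne_one_of_mem q.hS cfg.hA
    have hk' : ⁅a, k⁆ ∈ ⁅⁅C, B⁆, A⁆ := cfg.bA_mem ha hk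
    have hxN : ⁅a, b⁆ ∈ N := hcomm a (Subgroup.mem_sup_left ha) b (Subgroup.mem_sup_right hb)
    have f1 : b⁻¹ * k * b = k := cfg.conj_dinv_a hb hk
    have f2 : a⁻¹ * k * a = ⁅a, k⁆⁻¹ * k := cfg.conj_binv_a ha hk
    have f3 : b * ⁅a, k⁆⁻¹ * b⁻¹ = k⁻¹ * ⁅a, k⁆⁻¹ := by
      rw [Cfg.conj_d_c b ⁅a, k⁆⁻¹, cfg.dC_inv hb hk', cfg.star ha ha1 hb hcond hk]
    have f6 : b * k * b⁻¹ = k := cfg.conj_d_a hb hk
    have f7 : ⁅a, k⁆ * k = k * ⁅a, k⁆ := cfg.comm_ca hk hk'
    have f8 : a * ⁅a, k⁆⁻¹ * a⁻¹ = ⁅a, k⁆⁻¹ := cfg.conj_b_c ha (Subgroup.inv_mem _ hk')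
    have e : ⁅a, b⁆ * k * ⁅a, b⁆⁻¹ = ⁅a, k⁆⁻¹ := by
      calc ⁅a, b⁆ * k * ⁅a, b⁆⁻¹ = a * (b * (a⁻¹ * (b⁻¹ * k * b) * a) * b⁻¹) * a⁻¹ := by
            rw [commutatorElement_def]; group
        _ = a * (b * (⁅a, k⁆⁻¹ * k) * b⁻¹) * a⁻¹ := by rw [f1, f2]
        _ = a * ((b * ⁅a, k⁆⁻¹ * b⁻¹) * (b * k * b⁻¹)) * a⁻¹ := by group
        _ = a * ((k⁻¹ * ⁅a, k⁆⁻¹) * k) * a⁻¹ := by rw [f3, f6]
        _ = a * ((⁅a, k⁆ * k)⁻¹ * k) * a⁻¹ := by group
        _ = a * ((k * ⁅a, k⁆)⁻¹ * k) * a⁻¹ := by rw [f7]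
        _ = a * ⁅a, k⁆⁻¹ * a⁻¹ := by group
        _ = ⁅a, k⁆⁻¹ := f8
    have hwN : ⁅a, k⁆⁻¹ * k⁻¹ ∈ N := by
      have h1 := N.mul_mem hxN (hN.conj_mem _ (N.inv_mem hxN) k)
      have e2 : ⁅a, b⁆ * (k * ⁅a, b⁆⁻¹ * k⁻¹) = (⁅a, b⁆ * k * ⁅a, b⁆⁻¹) * k⁻¹ := by group
      rwa [e2, e] at h1
    have hw1 : ⁅a, k⁆⁻¹ * k⁻¹ ≠ 1 := by
      intro e'
      have e3 : ⁅a, k⁆⁻¹ = k := mul_inv_eq_one.mp e'
      have h2 : k ∈ ⁅C, B⁆ ⊓ ⁅⁅C, B⁆, A⁆ :=
        Subgroup.mem_inf.mpr ⟨hk, e3 ▸ Subgroup.inv_mem _ hk'⟩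
      rw [cfg.inf_AC] at h2
      exact hk1 (Subgroup.mem_bot.mp h2)
    have hwmem : ⁅a, k⁆⁻¹ * k⁻¹ ∈ ⁅C, B⁆ ⊔ ⁅⁅C, B⁆, A⁆ :=
      Subgroup.mul_mem _ (Subgroup.mem_sup_right (Subgroup.inv_mem _ hk'))
        (Subgroup.mem_sup_left (Subgroup.inv_mem _ hk))
    rcases cfg.ccAB.cover _ hwmem with h | ⟨a₂, _, h⟩
    · exact ⟨_, cfg.hC, _, h, hw1, hwN⟩
    · exact ⟨_, q.hS.conj_mem _ cfg.hA a₂, _, h, hw1, hwN⟩

/-- If `u v ∈ N` with `u` a non-identity element of a member `A'` and `v` centralizing a member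
`E` not commuting with `A'`, then `N` contains a non-identity element of a member of `S`. -/
theorem root_elem_of_not_commute (q : QHyp S) {N : Subgroup G} (hN : N.Normal)
    {E A' : Subgroup G} (hE : E ∈ S) (hA' : A' ∈ S) (hnc : ⁅E, A'⁆ ≠ ⊥) {u v : G} (hu : u ∈ A')
    (hu1 : u ≠ 1) (hv : ∀ e ∈ E, e * v = v * e) (huv : u * v ∈ N) :
    ∃ E' ∈ S, ∃ x ∈ E', x ≠ 1 ∧ x ∈ N := by
  obtain ⟨e, he, he1⟩ := exists_ne_one_of_mem q.hS hE
  have hwN : ⁅e, u⁆ ∈ N := by
    have h1 : ⁅e, u * v⁆ ∈ N := by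
      rw [commutatorElement_def]
      exact N.mul_mem (hN.conj_mem _ huv e) (N.inv_mem huv)
    have h2 : ⁅e, u * v⁆ = ⁅e, u⁆ := by
      have hv' := hv e he
      have hv'' : v * e⁻¹ = e⁻¹ * v := by
        calc v * e⁻¹ = e⁻¹ * (e * v) * e⁻¹ := by group
          _ = e⁻¹ * (v * e) * e⁻¹ := by rw [hv']
          _ = e⁻¹ * v := by group
      rw [commutatorElement_def, commutatorElement_def]
      calc e * (u * v) * e⁻¹ * (u * v)⁻¹ = e * u * (v * e⁻¹) * v⁻¹ * u⁻¹ := by group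
        _ = e * u * (e⁻¹ * v) * v⁻¹ * u⁻¹ := by rw [hv'']
        _ = e * u * e⁻¹ * u⁻¹ := by group
    rwa [h2] at h1
  rcases q.hS.pair E hE A' hA' with h | h | h
  · exact absurd h hnc
  · have hN' : ∀ x ∈ E ⊔ A', conjBy (N ⊓ (E ⊔ A')) x = N ⊓ (E ⊔ A') := by
      intro x hx
      rw [conjBy_inf, conjBy_normal hN, conjBy_of_mem hx]
    rcases RO.normal_dichotomy h (N ⊓ (E ⊔ A')) inf_le_right hN' with h1 | h1
    · exact q.root_elem_of_rankOne hN hE hA' h (h1.trans (sup_le_sup_right inf_le_left E))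
    · exfalso
      have hw : ⁅e, u⁆ ∈ N ⊓ (E ⊔ A') := Subgroup.mem_inf.mpr ⟨hwN, commElem_mem_sup he hu⟩
      have hwc := Subgroup.mem_centralizer_iff.mp (h1 hw) u (Subgroup.mem_sup_right hu)
      have hne : A' ≠ conjBy A' e := fun e' => he1 (RO.eq_one_of_normalizes h he e'.symm)
      have hpair := (RO.pair_of_mem h (RO.B_mem_unipotent h)
        (conj_mem_unipotent (RO.B_mem_unipotent h) (Subgroup.mem_sup_left he)) hne).1
      have hc : e * u * e⁻¹ ∈ conjBy A' e := conj_mem_conjBy hu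
      have hc1 : e * u * e⁻¹ ≠ 1 := by
        intro e'
        apply hu1
        calc u = e⁻¹ * (e * u * e⁻¹) * e := by group
          _ = 1 := by rw [e']; group
      apply RO.not_commute hpair hu hu1 hc hc1
      have e1 : e * u * e⁻¹ = ⁅e, u⁆ * u := by rw [commutatorElement_def]; group
      rw [e1, ← mul_assoc, hwc]
  · obtain ⟨D, hD, hED⟩ := q.hpart E hE
    refine ⟨_, h.1, _, Subgroup.commutator_mem_commutator he hu, ?_, hwN⟩
    intro e'
    exact CC.not_commute_of_partner q.hS hE (CC.of h) hD hED he he1 hu hu1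
      (commutatorElement_eq_one_iff_mul_comm.mp e')

/-- A normal subgroup is central or contains the commutator subgroup. -/
theorem normal_dichotomy (q : QHyp S) (h1 : IsConnectedFamily (FAdj S) S)
    (h2' : ∀ A ∈ S, ∀ C ∈ S, A ≠ C → centralizingMembers S A ≠ centralizingMembers S C)
    {N : Subgroup G} (hN : N.Normal) : N ≤ Subgroup.center G ∨ commutator G ≤ N := by
  by_cases hc : N ≤ Subgroup.center G
  · exact Or.inl hc
  right
  have hmoved : ∃ A ∈ S, ∃ n ∈ N, conjBy A n ≠ A := by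
    by_contra hno
    push Not at hno
    exact hc (fun n hn => mem_center_of_normalizes q.hS q.hpart (fun A hA => hno A hA n hn))
  obtain ⟨A, hA, n, hn, hne⟩ := hmoved
  obtain ⟨a, ha, ha1⟩ := exists_ne_one_of_mem q.hS hA
  have hC : conjBy A n ∈ S := q.hS.conj_mem A hA n
  have hc' : n * a * n⁻¹ ∈ conjBy A n := conj_mem_conjBy ha
  have hc1 : n * a * n⁻¹ ≠ 1 := by
    intro e'
    apply ha1
    calc a = n⁻¹ * (n * a * n⁻¹) * n := by group
      _ = 1 := by rw [e']; group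
  have hm : n * a * n⁻¹ * a⁻¹ ∈ N := by
    have h3 := N.mul_mem hn (hN.conj_mem _ (N.inv_mem hn) a)
    have e2 : n * (a * n⁻¹ * a⁻¹) = n * a * n⁻¹ * a⁻¹ := by group
    rwa [e2] at h3
  have hroot : ∃ E' ∈ S, ∃ x ∈ E', x ≠ 1 ∧ x ∈ N := by
    by_cases hAC : ⁅A, conjBy A n⁆ = ⊥
    · have hex : ∃ E, (E ∈ centralizingMembers S A ∧ E ∉ centralizingMembers S (conjBy A n)) ∨
          (E ∈ centralizingMembers S (conjBy A n) ∧ E ∉ centralizingMembers S A) := by
        by_contra hno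
        push Not at hno
        exact h2' A hA _ hC (Ne.symm hne) (Set.ext fun E => ⟨(hno E).1, (hno E).2⟩)
      obtain ⟨E, hE | hE⟩ := hex
      · obtain ⟨⟨hES, hEA⟩, hEC⟩ := hE
        have hnc : ⁅E, conjBy A n⁆ ≠ ⊥ := by
          intro h0
          apply hEC
          refine ⟨hES, ?_⟩
          intro e he
          rw [Subgroup.mem_centralizer_iff]
          intro c hc
          exact (commute_of_commutator_eq_bot h0 he hc).symm
        refine q.root_elem_of_not_commute hN hES hC hnc hc' hc1 (v := a⁻¹) ?_ hm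
        intro e he
        exact (Subgroup.mem_centralizer_iff.mp (hEA he) a⁻¹ (A.inv_mem ha)).symm
      · obtain ⟨⟨hES, hEC⟩, hEA⟩ := hE
        have hnc : ⁅E, A⁆ ≠ ⊥ := by
          intro h0
          apply hEA
          refine ⟨hES, ?_⟩
          intro e he
          rw [Subgroup.mem_centralizer_iff]
          intro c hc
          exact (commute_of_commutator_eq_bot h0 he hc).symm
        refine q.root_elem_of_not_commute hN hES hA hnc ha ha1 (v := (n * a * n⁻¹)⁻¹) ?_ ?_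
        · intro e he
          exact (Subgroup.mem_centralizer_iff.mp (hEC he) _ (Subgroup.inv_mem _ hc')).symm
        · have h3 := N.inv_mem hm
          have e2 : (n * a * n⁻¹ * a⁻¹)⁻¹ = a * (n * a * n⁻¹)⁻¹ := by group
          rwa [e2] at h3
    · refine q.root_elem_of_not_commute hN hA hC hAC hc' hc1 (v := a⁻¹) ?_ hm
      intro e he
      exact comm_of_isMulCommutative (q.hS.commutative A hA) he (A.inv_mem ha)
  obtain ⟨E', hE', x, hx, hx1, hxN⟩ := hroot
  exact comm_le_of_root_elem q.hS q.hclass h1 hN hE' hx hx1 hxN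

/-- The group is perfect. -/
theorem perfect (q : QHyp S) : commutator G = ⊤ := by
  have hall : ∀ A ∈ S, A ≤ commutator G := by
    by_cases hd : IsDegenerateRootSet S
    · intro A hA
      obtain ⟨D, hD, hAD⟩ := q.hpart A hA
      have hsp := SpecPair.of_special (q.h4 A hA D ⟨hD, hAD⟩) (q.hS.commutative A hA)
      refine (hsp.le_commutator (q.h3 hd A hA)).trans ?_
      rw [commutator_def]
      exact Subgroup.commutator_mono le_top le_top
    · unfold IsDegenerateRootSet at hd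
      push Not at hd
      obtain ⟨E, hE, F, hF, hcc0⟩ := hd
      have hL : ⁅E, F⁆ ≤ commutator G := by
        rw [commutator_def]; exact Subgroup.commutator_mono le_top le_top
      intro A hA
      obtain ⟨g, rfl⟩ := q.hclass.2 _ hcc0.1 A hA
      intro x hx
      have hx' := hL (mem_conjBy.mp hx)
      have hn : (commutator G).Normal := inferInstance
      have h3 := hn.conj_mem _ hx' g
      have e2 : g * (g⁻¹ * x * g) * g⁻¹ = x := by group
      rwa [e2] at h3
  rw [eq_top_iff, ← q.hS.generates]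
  exact iSup₂_le hall

/-- The group is quasisimple. -/
theorem quasisimple (q : QHyp S) (h1 : IsConnectedFamily (FAdj S) S)
    (h2' : ∀ A ∈ S, ∀ C ∈ S, A ≠ C → centralizingMembers S A ≠ centralizingMembers S C) :
    IsQuasisimple G := by
  have hp := q.perfect
  refine ⟨⟨hp⟩, ?_⟩
  obtain ⟨A, hA⟩ := q.hclass.1
  obtain ⟨D, hD, hAD⟩ := q.hpart A hA
  obtain ⟨a, ha, ha1⟩ := RO.exists_ne_one_left hAD
  obtain ⟨d, hd, hd1⟩ := RO.exists_ne_one_right hAD
  have hnt : Nontrivial (G ⧸ Subgroup.center G) := by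
    refine ⟨⟨(a : G ⧸ Subgroup.center G), 1, ?_⟩⟩
    intro e
    rw [QuotientGroup.eq_one_iff] at e
    exact RO.not_commute hAD ha ha1 hd hd1 (Subgroup.mem_center_iff.mp e d).symm
  refine { exists_pair_ne := hnt.exists_pair_ne, eq_bot_or_eq_top_of_normal := ?_ }
  intro H hH
  have hM : (H.comap (QuotientGroup.mk' (Subgroup.center G))).Normal := hH.comap _
  rcases q.normal_dichotomy h1 h2' hM with hc | hc
  · left
    rw [eq_bot_iff]
    intro y hy
    obtain ⟨x, rfl⟩ := QuotientGroup.mk'_surjective _ y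
    have hx : x ∈ Subgroup.center G := hc hy
    rw [Subgroup.mem_bot]
    exact (QuotientGroup.eq_one_iff x).mpr hx
  · right
    rw [hp] at hc
    rw [eq_top_iff]
    intro y _
    obtain ⟨x, rfl⟩ := QuotientGroup.mk'_surjective _ y
    exact hc (Subgroup.mem_top x)

end QHyp

theorem isQuasisimple_of_mulEquiv {H K : Type*} [Group H] [Group K] (e : H ≃* K)
    (h : IsQuasisimple K) : IsQuasisimple H := by
  obtain ⟨hp, hs⟩ := h
  refine ⟨?_, ?_⟩
  · have := hp
    exact Group.IsPerfect.ofSurjective (f := e.symm.toMonoidHom) e.symm.surjective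
  · have hc : (Subgroup.center H).map (e : H →* K) = Subgroup.center K := by
      ext y
      simp only [Subgroup.mem_map, Subgroup.mem_center_iff]
      constructor
      · rintro ⟨x, hx, rfl⟩ g
        obtain ⟨g', rfl⟩ := e.surjective g
        have h3 := congrArg e (hx g')
        simpa using h3
      · intro hy
        refine ⟨e.symm y, ?_, by simp⟩
        intro g
        apply e.injective
        simpa using hy (e g)
    have := hs
    exact (QuotientGroup.congr (Subgroup.center H) (Subgroup.center K) e hc).isSimpleGroup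

/-- The quasisimplicity criterion for groups generated by abstract root subgroups. -/
theorem quasisimple_criterion {S : Set (Subgroup G)} (hS : IsRootSubgroupSet S)
    (h2 : ∃ A ∈ S, ∃ B ∈ S, A ≠ B) (h1 : IsConnectedFamily (FAdj S) S)
    (h2' : ∀ A ∈ S, ∀ C ∈ S, A ≠ C → centralizingMembers S A ≠ centralizingMembers S C)
    (h3 : IsDegenerateRootSet S → ∀ A ∈ S, 3 < ENat.card A)
    (h4 : ∀ A ∈ S, ∀ B ∈ rankOnePartners S A, IsSpecialRankOnePair A B) :
    commutator G = ⊤ ∧ IsQuasisimple ↥(commutator G) := by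
  obtain ⟨hclass, A₀, hA₀, hni⟩ := (connected_iff hS h2).mp h1
  obtain ⟨D₀, hD₀, hAD₀⟩ := exists_partner hA₀ hni
  have hpart := class_partner ⟨hS, hclass⟩ hA₀ hD₀ hAD₀
  have q : QHyp S := ⟨hS, hclass, hpart, h3, h4⟩
  have hp := q.perfect
  exact ⟨hp, isQuasisimple_of_mulEquiv ((MulEquiv.subgroupCongr hp).trans Subgroup.topEquiv)
    (q.quasisimple h1 h2')⟩

end Cfsg.Agent.Helper83
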