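import Mathlib
import Cfsg.Prelude.Def_RootSubgroups
import Cfsg.Agent.Helper83.LineTrans
import Cfsg.Agent.Helper83.Connected
import Cfsg.Agent.Helper83.Quasi

set_option autoImplicit false

namespace Cfsg.Agent.Helper83

open Cfsg
open scoped commutatorElement

variable {G : Type*} [Group G]

/-- The structure of a line through `P` relative to a given rank one partner `F` of `P`. -/
theorem line_point_structure_with {S : Set (Subgroup G)} (hS : IsRootSubgroupSet S)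
    (hpart : ∀ E ∈ S, ∃ D ∈ S, IsRankOnePair E D) {P Q F : Subgroup G} (hP : P ∈ S)
    (hQ : Q ∈ linePartners S P) (hF : F ∈ S) (hPF : IsRankOnePair P F) :
    ∃ C ∈ S, C ≠ P ∧ P ⊔ C = P ⊔ Q ∧ ⁅F, C⁆ ∈ S ∧ LinePt S (P ⊔ Q) P C ⁅C, F⁆ F := by
  obtain ⟨⟨hQS, hQP, hPQ⟩, hle, hcov, hdisj⟩ := hQ
  have hpq : ∀ x ∈ P, ∀ y ∈ Q, x * y = y * x :=
    fun x hx y hy => commute_of_commutator_eq_bot hPQ hx hy
  have hLcomm : ∀ x ∈ P ⊔ Q, ∀ y ∈ P ⊔ Q, x * y = y * x :=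
    sup_commutative (fun x hx y hy => comm_of_isMulCommutative (hS.commutative P hP) hx hy)
      (fun x hx y hy => comm_of_isMulCommutative (hS.commutative Q hQS) hx hy) hpq
  have hPm : P ∈ membersIn S (P ⊔ Q) := ⟨hP, le_sup_left⟩
  have hQm : Q ∈ membersIn S (P ⊔ Q) := ⟨hQS, le_sup_right⟩
  have hinfPQ : P ⊓ Q = ⊥ := hdisj P hPm Q hQm hQP.symm
  have hcover : ∀ x ∈ P ⊔ Q, x ≠ 1 → ∃ C ∈ S, C ≤ P ⊔ Q ∧ x ∈ C := by
    intro x hx hx1
    obtain ⟨C, ⟨hC, hCL⟩, hxC⟩ := hcov x hx hx1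
    exact ⟨C, hC, hCL, hxC⟩
  have hex : ∃ C ∈ S, C ≤ P ⊔ Q ∧ C ≠ P ∧ ⁅F, C⁆ ∈ S := by
    rcases hS.pair F hF Q hQS with h | h | h
    · obtain ⟨p₀, hp₀, hp₀1⟩ := RO.exists_ne_one_left hPF
      obtain ⟨q₀, hq₀, hq₀1⟩ := exists_ne_one_of_mem hS hQS
      have hpq1 : p₀ * q₀ ≠ 1 := by
        intro e
        have e' : p₀ = q₀⁻¹ := mul_eq_one_iff_eq_inv.mp e
        have h2 : p₀ ∈ P ⊓ Q := Subgroup.mem_inf.mpr ⟨hp₀, e' ▸ Q.inv_mem hq₀⟩
        rw [hinfPQ] at h2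
        exact hp₀1 (Subgroup.mem_bot.mp h2)
      have hpqL : p₀ * q₀ ∈ P ⊔ Q :=
        Subgroup.mul_mem _ (Subgroup.mem_sup_left hp₀) (Subgroup.mem_sup_right hq₀)
      obtain ⟨E, hE, hEL, hpqE⟩ := hcover _ hpqL hpq1
      have hFQ : ¬ IsRankOnePair F Q := fun hro => RO.commutator_ne_bot hro h
      have hEF : IsRankOnePair E F :=
        rankOne_of_line hS hQS hF hE hPF hpq hFQ hp₀ hp₀1 hq₀ hpqE
      have hEP : E ≠ P := by
        intro e
        rw [e] at hpqE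
        have h3 : q₀ ∈ P := by
          have e2 : q₀ = p₀⁻¹ * (p₀ * q₀) := by group
          rw [e2]; exact P.mul_mem (P.inv_mem hp₀) hpqE
        have h2 : q₀ ∈ P ⊓ Q := Subgroup.mem_inf.mpr ⟨h3, hq₀⟩
        rw [hinfPQ] at h2
        exact hq₀1 (Subgroup.mem_bot.mp h2)
      have hinfPE : P ⊓ E = ⊥ := hdisj P hPm E ⟨hE, hEL⟩ hEP.symm
      exact exists_cc_point hS hP hF le_sup_left hEL
        (fun x hx y hy => hLcomm x (Subgroup.mem_sup_left hx) y (hEL hy)) hinfPE hcover hPF hEF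
    · exact exists_cc_point hS hP hF le_sup_left le_sup_right hpq hinfPQ hcover hPF
        (RankOnePair_symm h)
    · exact ⟨Q, hQS, le_sup_right, hQP, h.1⟩
  obtain ⟨C, hC, hCL, hCP, hFC⟩ := hex
  have hPC : ⁅P, C⁆ = ⊥ := commutator_eq_bot_of_commute
    (fun x hx y hy => hLcomm x (Subgroup.mem_sup_left hx) y (hCL hy))
  have cfg := cfg_of_commutator_partner hS hpart hP hF hPF hC hPC hFC
  have hcov2 : ∀ p ∈ P, ∀ c ∈ C, p * c ≠ 1 → ∃ E ∈ S, p * c ∈ E := by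
    intro p hp c hc h1
    obtain ⟨E, hE, -, hpcE⟩ :=
      hcover _ (Subgroup.mul_mem _ (Subgroup.mem_sup_left hp) (hCL hc)) h1
    exact ⟨E, hE, hpcE⟩
  have hKP : ⁅⁅C, F⁆, P⁆ = C := comm_comm_eq hS hpart hP hF hPF hC hPC hFC hcov2
  have hPK : ⁅P, ⁅C, F⁆⁆ = C := by rw [Subgroup.commutator_comm P ⁅C, F⁆]; exact hKP
  have hcc : CC S P ⁅C, F⁆ := cfg.ccBA
  have hsup : P ⊔ C = P ⊔ Q := by
    apply le_antisymm (sup_le le_sup_left hCL)
    apply sup_le le_sup_left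
    obtain ⟨c, hc, hc1⟩ := exists_ne_one_of_mem hS hC
    obtain ⟨p₁, hp₁, q₁, hq₁, e⟩ := exists_mul_of_mem_sup hpq c (hCL hc)
    have hinfPC : P ⊓ C = ⊥ := hdisj P hPm C ⟨hC, hCL⟩ hCP.symm
    have hq₁1 : q₁ ≠ 1 := by
      intro e1
      rw [e1, mul_one] at e
      have h2 : c ∈ P ⊓ C := Subgroup.mem_inf.mpr ⟨e ▸ hp₁, hc⟩
      rw [hinfPC] at h2
      exact hc1 (Subgroup.mem_bot.mp h2)
    have hq₁L : q₁ ∈ P ⊔ ⁅P, ⁅C, F⁆⁆ := by
      rw [hPK]
      have e2 : q₁ = p₁⁻¹ * c := by rw [e]; group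
      rw [e2]
      exact Subgroup.mul_mem _ (Subgroup.mem_sup_left (P.inv_mem hp₁)) (Subgroup.mem_sup_right hc)
    obtain ⟨R, ⟨hR, hRL⟩, hq₁R⟩ := (hcc.partition hS hP hF hPF).2.1 q₁ hq₁L hq₁1
    obtain ⟨DQ, hDQ, hQDQ⟩ := hpart Q hQS
    rcases inf_eq_bot_or_eq hS hDQ hQDQ hR with h | h
    · exfalso
      have h2 : q₁ ∈ Q ⊓ R := Subgroup.mem_inf.mpr ⟨hq₁, hq₁R⟩
      rw [h] at h2
      exact hq₁1 (Subgroup.mem_bot.mp h2)
    · rw [h, ← hPK]; exact hRL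
  exact ⟨C, hC, hCP, hsup, hFC, ⟨hS, hP, cfg.hA, hF, hPF, hcc, hPK, hsup⟩⟩

theorem LinePt.conj_ne {S : Set (Subgroup G)} {L P C K F : Subgroup G} (h : LinePt S L P C K F)
    {k : G} (hk : k ∈ K) (hk1 : k ≠ 1) : conjBy P k ≠ P := by
  intro e
  obtain ⟨p, hp, hp1⟩ := RO.exists_ne_one_left h.hPF
  have h1 : ⁅p, k⁆ ∈ P := by
    have e1 : ⁅p, k⁆ = p * (k * p * k⁻¹)⁻¹ := by rw [commutatorElement_def]; group
    rw [e1]
    refine P.mul_mem hp (P.inv_mem ?_)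
    have := conj_mem_conjBy (g := k) hp
    rwa [e] at this
  have h2 : ⁅p, k⁆ ∈ P ⊓ ⁅P, K⁆ :=
    Subgroup.mem_inf.mpr ⟨h1, Subgroup.commutator_mem_commutator hp hk⟩
  rw [h.hcc.inf_eq_bot_left h.hS h.hF h.hPF] at h2
  have h3 : p * k = k * p := by
    have := Subgroup.mem_bot.mp h2
    rw [commutatorElement_def] at this
    calc p * k = (p * k * p⁻¹ * k⁻¹) * k * p := by group
      _ = k * p := by rw [this, one_mul]
  exact h.hcc.not_commute_of_partner h.hS h.hP h.hF h.hPF hp hp1 hk hk1 h3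

/-- Line partners are preserved by conjugation. -/
theorem linePartners_conj {S : Set (Subgroup G)} (hS : IsRootSubgroupSet S) {A B : Subgroup G}
    (h : B ∈ linePartners S A) (g : G) : conjBy B g ∈ linePartners S (conjBy A g) := by
  obtain ⟨⟨hBS, hBA, hAB⟩, hle, hcov, hdisj⟩ := h
  refine ⟨⟨hS.conj_mem B hBS g, fun e => hBA (conjBy_injective g e), ?_⟩, ?_⟩
  · have h1 : ⁅conjBy A g, conjBy B g⁆ = conjBy ⁅A, B⁆ g := conjBy_commutator A B g
    rw [h1, hAB, conjBy_bot]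
  · rw [← conjBy_sup]
    refine ⟨fun E hE => hE.2, ?_, ?_⟩
    · intro x hx hx1
      have hx' := mem_conjBy.mp hx
      have hx'1 : g⁻¹ * x * g ≠ 1 := by
        intro e
        apply hx1
        calc x = g * (g⁻¹ * x * g) * g⁻¹ := by group
          _ = 1 := by rw [e]; group
      obtain ⟨E, ⟨hE, hEL⟩, hxE⟩ := hcov _ hx' hx'1
      refine ⟨conjBy E g, ⟨hS.conj_mem E hE g, conjBy_mono hEL g⟩, ?_⟩
      rw [mem_conjBy]; exact hxE
    · rintro E₁ ⟨hE₁, hle₁⟩ E₂ ⟨hE₂, hle₂⟩ hne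
      have m₁ : conjBy E₁ g⁻¹ ∈ membersIn S (A ⊔ B) := by
        refine ⟨hS.conj_mem E₁ hE₁ g⁻¹, ?_⟩
        have := conjBy_mono hle₁ g⁻¹
        rwa [conjBy_inv_cancel] at this
      have m₂ : conjBy E₂ g⁻¹ ∈ membersIn S (A ⊔ B) := by
        refine ⟨hS.conj_mem E₂ hE₂ g⁻¹, ?_⟩
        have := conjBy_mono hle₂ g⁻¹
        rwa [conjBy_inv_cancel] at this
      have h1 := hdisj _ m₁ _ m₂ (fun e => hne (conjBy_injective g⁻¹ e))
      rw [← conjBy_inf] at h1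
      exact conjBy_eq_bot_iff.mp h1

/-- Every line partner `C` of `A` has a line partner `K` of `A` in the commutator case with `C`,
with commutator `A`. -/
theorem exists_commutator_line_partner {S : Set (Subgroup G)} (hS : IsRootSubgroupSet S)
    (hpart : ∀ E ∈ S, ∃ D ∈ S, IsRankOnePair E D) {A C : Subgroup G} (hA : A ∈ S)
    (hC : C ∈ linePartners S A) :
    ∃ K ∈ linePartners S A, CC S C K ∧ ⁅C, K⁆ = A := by
  obtain ⟨c₀, hc₀, K₀, hK₀, F₀, hF₀, hc₀A, hL₀, hAF₀, hcc₀, hcomm₀⟩ :=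
    line_point_structure hS hpart hA hC
  have mA : A ∈ membersIn S (A ⊔ C) := ⟨hA, le_sup_left⟩
  have mC : C ∈ membersIn S (A ⊔ C) := ⟨hC.1.1, le_sup_right⟩
  have mc₀ : c₀ ∈ membersIn S (A ⊔ C) := ⟨hc₀, by rw [← hL₀]; exact le_sup_right⟩
  obtain ⟨x, -, hx1, hx2⟩ :=
    line_two_transitive hS hpart hA hC A mA c₀ mc₀ C mC A mA hc₀A.symm hC.1.2.1
  have hcc : CC S C (conjBy K₀ x) := by
    have h1 := CC.conj hS hcc₀ x
    rwa [hx1] at h1
  have hcomm : ⁅C, conjBy K₀ x⁆ = A := by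
    have h1 : ⁅conjBy A x, conjBy K₀ x⁆ = conjBy ⁅A, K₀⁆ x := conjBy_commutator A K₀ x
    rw [hx1, hcomm₀, hx2] at h1
    exact h1
  have hKS : conjBy K₀ x ∈ S := hS.conj_mem K₀ hK₀ x
  obtain ⟨D, hD, hKD⟩ := hpart _ hKS
  refine ⟨conjBy K₀ x, ?_, hcc, hcomm⟩
  have h1 := hcc.symm.linePartner hS hKS hD hKD
  rwa [Subgroup.commutator_comm (conjBy K₀ x) C, hcomm] at h1

/-- In a non-degenerate class, `G` is generated by the line partners of `A` together with a rank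
one partner of `A`. -/
theorem generated_by_line_partners {S : Set (Subgroup G)} (hS : IsRootSubgroupClass S)
    (hnd : IsNondegenerateRootSet S) {A B : Subgroup G} (hA : A ∈ S)
    (hB : B ∈ rankOnePartners S A) : (⨆ C ∈ linePartners S A, C) ⊔ B = ⊤ := by
  obtain ⟨R, hR⟩ : ∃ R : Subgroup G, R = (⨆ C ∈ linePartners S A, C) ⊔ B := ⟨_, rfl⟩
  rw [← hR]
  have hS' := hS.1
  have hpart := class_partner hS hA hB.1 hB.2
  have hΛ : ∀ C ∈ linePartners S A, C ≤ R := by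
    intro C hC
    rw [hR]
    exact le_sup_of_le_left (le_biSup (fun C => C) hC)
  have hBR : B ≤ R := by rw [hR]; exact le_sup_right
  have hAR : A ≤ R := by
    obtain ⟨E, hE, F, hF, hcc, hEF⟩ := exists_cc_of_nondeg hS hnd hA
    obtain ⟨D, hD, hED⟩ := hpart E hE
    obtain ⟨D', hD', hFD'⟩ := hpart F hF
    have h1 : E ∈ linePartners S A := by
      have := hcc.linePartner hS' hE hD hED
      rwa [hEF] at this
    have h2 : F ∈ linePartners S A := by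
      have := hcc.symm.linePartner hS' hF hD' hFD'
      rwa [Subgroup.commutator_comm F E, hEF] at this
    rw [← hEF]
    exact (commutator_le_sup E F).trans (sup_le (hΛ E h1) (hΛ F h2))
  have key : ∀ C ∈ linePartners S A, ∃ r ∈ R, C = conjBy A r := by
    intro C hC
    obtain ⟨c₀, hc₀, hc₀A, hsup, hBc₀, lp⟩ :=
      line_point_structure_with hS' hpart hA hC hB.1 hB.2
    have hc₀Λ : c₀ ∈ linePartners S A := by
      refine ⟨⟨hc₀, hc₀A, ?_⟩, ?_⟩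
      · apply commutator_eq_bot_of_commute
        intro a ha c hc
        rw [← lp.hC] at hc
        exact (lp.hcc.commute_left ha hc).symm
      · rw [hsup]; exact hC.2
    have hKR : ⁅c₀, B⁆ ≤ R := (commutator_le_sup c₀ B).trans (sup_le (hΛ c₀ hc₀Λ) hBR)
    have mC : C ∈ membersIn S (A ⊔ C) := ⟨hC.1.1, le_sup_right⟩
    by_cases hCc : C = c₀
    · obtain ⟨K', hK'Λ, hcc', hCK'⟩ := exists_commutator_line_partner hS' hpart hA hC
      have hK'S : K' ∈ S := hK'Λ.1.1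
      obtain ⟨k', hk', hk'1⟩ := exists_ne_one_of_mem hS' hK'S
      obtain ⟨D, hD, hCD⟩ := hpart C hC.1.1
      have lp' : LinePt S (C ⊔ A) C A K' D := ⟨hS', hC.1.1, hK'S, hD, hCD, hcc', hCK', rfl⟩
      have hne : conjBy C k' ≠ c₀ := by
        rw [← hCc]; exact lp'.conj_ne hk' hk'1
      have hm : conjBy C k' ∈ membersIn S (A ⊔ C) := by
        have := lp'.conj_memIn hk' lp'.P_mem
        rwa [sup_comm] at this
      obtain ⟨k, hk, e⟩ := lp.eq_conj hm hne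
      refine ⟨k'⁻¹ * k, R.mul_mem (R.inv_mem (hΛ K' hK'Λ hk')) (hKR hk), ?_⟩
      rw [← conjBy_conjBy, ← e, conjBy_inv_cancel]
    · obtain ⟨k, hk, e⟩ := lp.eq_conj mC hCc
      exact ⟨k, hKR hk, e⟩
  have hpath : ∀ P, Relation.ReflTransGen (EAdj S S) A P → ∃ r ∈ R, P = conjBy A r := by
    intro P hP
    induction hP with
    | refl => exact ⟨1, R.one_mem, (conjBy_one A).symm⟩
    | tail _ hbc ih =>
      obtain ⟨r, hr, e⟩ := ih
      have h1 := linePartners_conj hS' hbc.2.2 r⁻¹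
      rw [e, conjBy_inv_cancel] at h1
      obtain ⟨r', hr', e'⟩ := key _ h1
      refine ⟨r * r', R.mul_mem hr hr', ?_⟩
      rw [← conjBy_conjBy, ← e', conjBy_cancel_inv]
  have hall : ∀ P ∈ S, P ≤ R := by
    intro P hP
    obtain ⟨r, hr, e⟩ := hpath P ((nondeg_connected hS hnd).1 A hA P hP)
    rw [e]
    exact conjBy_le_of_mem hAR hr
  rw [eq_top_iff, ← hS'.generates]
  exact iSup₂_le hall

end Cfsg.Agent.Helper83
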