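-- helper83: piece BADX (double) of CALL NP (helper13, row S5989).
import Mathlib
import Cfsg.Prelude.Def_GeometricClasses
import Cfsg.Prelude.Def_Classical
import Cfsg.Agent.Helper13.NPDefs
import Cfsg.Agent.Helper96.OHDefs
import Cfsg.Agent.Helper43.PrimeOrdO2
import Cfsg.Agent.Helper43.OTFIXLE

set_option autoImplicit false

namespace Cfsg.Agent.Helper83.NP5989

open Module Cfsg Cfsg.Geo Cfsg.Agent.Helper13.NP Cfsg.Agent.Helper96.OH
open scoped MatrixGroups

universe u

variable {F : Type*} [Field F] [Fintype F]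

/-- an element of order `r` of `O⁺_{2d}(q)` with prescribed characteristic polynomial: the fixed
space -/
theorem np_bad_key (p : ℕ) [Fact p.Prime] [CharP F p] (d : ℕ) (hd : 1 ≤ d) (r : ℕ)
    [Fact r.Prime] (hr2 : 2 < r) (hrp : r ≠ p) (c₀ : ℕ) (cfun : Polynomial F → ℕ)
    (hsym : ∀ P ∈ Cfsg.Agent.Helper43.CycFactors.cycJ F r,
      cfun (Cfsg.Agent.Helper43.SpReal.star P) = cfun P)
    (hnz : ∃ P ∈ Cfsg.Agent.Helper43.CycFactors.cycJ F r, cfun P ≠ 0)
    (hdeg : c₀ + orderOf ((Fintype.card F : ℕ) : ZMod r) *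
      ∑ P ∈ Cfsg.Agent.Helper43.CycFactors.cycJ F r, cfun P = 2 * d)
    (hcond : Odd (orderOf ((Fintype.card F : ℕ) : ZMod r)) ∨ 0 < c₀ ∨
      Even (∑ P ∈ Cfsg.Agent.Helper43.CycFactors.cycJ F r, cfun P)) :
    ∃ g : GL (Fin d ⊕ Fin d) F, g ∈ Cfsg.isometryGroup F (Cfsg.quadFormPlus d F) ∧
      orderOf g = r ∧
      finrank F (LinearMap.ker (Matrix.toLin'
        (g : Matrix (Fin d ⊕ Fin d) (Fin d ⊕ Fin d) F) - 1)) ≤ c₀ := by
  have hr : r.Prime := Fact.out
  obtain ⟨g, hg, hch⟩ := Cfsg.Agent.Helper43.PrimeOrdO.oexists_plus (p := p)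
    (rfl : Fintype.card F = Fintype.card F) hd hr (by omega) hrp c₀ cfun hsym hnz hdeg hcond
  refine ⟨(g : GL (Fin d ⊕ Fin d) F), g.2, ?_, ?_⟩
  · rw [Subgroup.orderOf_coe]
    exact hg
  · exact Cfsg.Agent.Helper43.OT5972.ot_fix_le p hr hrp _ c₀ cfun hch

/-- BADX. -/
theorem np_bad_x (p : ℕ) [Fact p.Prime] [CharP F p] (d : ℕ) (hd : 1 ≤ d) (r : ℕ) [Fact r.Prime]
    (hr2 : 2 < r) (hrp : r ≠ p) (i c : ℕ) (hi : i = orderOf ((Fintype.card F : ℕ) : ZMod r))
    (hc : c = if Even i then i else 2 * i) (hcn : c ≤ 2 * d)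
    (hcond : Odd i ∨ 0 < (2 * d) % c ∨ Even ((2 * d) / c)) :
    ∃ g : GL (Fin d ⊕ Fin d) F, g ∈ Cfsg.isometryGroup F (Cfsg.quadFormPlus d F) ∧
      orderOf g = r ∧
      finrank F (LinearMap.ker (Matrix.toLin'
        (g : Matrix (Fin d ⊕ Fin d) (Fin d ⊕ Fin d) F) - 1)) ≤ (2 * d) % c := by
  classical
  have hr : r.Prime := Fact.out
  have hrF : (r : F) ≠ 0 := Cfsg.Agent.Helper43.CycFactors.natCast_ne_zero_of_ne (p := p) hr hrp
  have hcard := Cfsg.Agent.Helper43.CycFactors.cycJ_card_mul (p := p)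
    (rfl : Fintype.card F = Fintype.card F) hr hrp
  have hne : (Cfsg.Agent.Helper43.CycFactors.cycJ F r).Nonempty := by
    rw [Finset.nonempty_iff_ne_empty]
    intro h
    rw [h, Finset.card_empty, zero_mul] at hcard
    omega
  obtain ⟨P₀, hP₀⟩ := hne
  have hi0 : 0 < i := by
    rw [hi, orderOf_pos_iff, isOfFinOrder_iff_isUnit, ZMod.isUnit_iff_coprime]
    obtain ⟨n, hpn, hcardF⟩ := FiniteField.card F p
    rw [hcardF]
    apply Nat.Coprime.pow_left
    exact (Nat.coprime_primes hpn hr).mpr (fun h => hrp h.symm)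
  have hc0 : 0 < c := by
    rw [hc]
    split_ifs <;> omega
  have hu : 1 ≤ (2 * d) / c := Nat.div_pos hcn hc0
  have hdm := Nat.div_add_mod (2 * d) c
  by_cases hev : Even i
  · rw [if_pos hev] at hc
    subst hc
    refine np_bad_key p d hd r hr2 hrp ((2 * d) % c) (fun P => if P = P₀ then (2 * d) / c else 0)
      ?_ ⟨P₀, hP₀, ?_⟩ ?_ ?_
    · intro P hP
      show (if Cfsg.Agent.Helper43.SpReal.star P = P₀ then (2 * d) / c else 0) =
        if P = P₀ then (2 * d) / c else 0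
      rw [Cfsg.Agent.Helper43.StarPoly.star_eq_self_of_even (p := p)
        (rfl : Fintype.card F = Fintype.card F) hr hrp (hi ▸ hev) hP]
    · show (if P₀ = P₀ then (2 * d) / c else 0) ≠ 0
      rw [if_pos rfl]
      omega
    · rw [Finset.sum_ite_eq', if_pos hP₀, ← hi]
      omega
    · rw [Finset.sum_ite_eq', if_pos hP₀, ← hi]
      rcases hcond with h | h | h
      · exact Or.inl h
      · exact Or.inr (Or.inl h)
      · exact Or.inr (Or.inr h)
  · rw [if_neg hev] at hc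
    subst hc
    have hodd : Odd i := Nat.not_even_iff_odd.mp hev
    have hP₀' := Cfsg.Agent.Helper43.CycFactors.mem_cycJ.mp hP₀
    have hsP₀ : Cfsg.Agent.Helper43.SpReal.star P₀ ∈ Cfsg.Agent.Helper43.CycFactors.cycJ F r :=
      Cfsg.Agent.Helper43.StarPoly.star_mem_cycJ hr hrF hP₀
    have hss₀ : Cfsg.Agent.Helper43.SpReal.star (Cfsg.Agent.Helper43.SpReal.star P₀) = P₀ :=
      Cfsg.Agent.Helper43.StarPoly.star_star hP₀'.1
        (Cfsg.Agent.Helper43.StarPoly.coeff_zero_ne_of_mem hr hP₀)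
    refine np_bad_key p d hd r hr2 hrp ((2 * d) % (2 * i))
      (fun P => (if P = P₀ then (2 * d) / (2 * i) else 0) +
        (if P = Cfsg.Agent.Helper43.SpReal.star P₀ then (2 * d) / (2 * i) else 0)) ?_
      ⟨P₀, hP₀, ?_⟩ ?_ ?_
    · intro P hP
      have hP' := Cfsg.Agent.Helper43.CycFactors.mem_cycJ.mp hP
      have hss : Cfsg.Agent.Helper43.SpReal.star (Cfsg.Agent.Helper43.SpReal.star P) = P :=
        Cfsg.Agent.Helper43.StarPoly.star_star hP'.1
          (Cfsg.Agent.Helper43.StarPoly.coeff_zero_ne_of_mem hr hP)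
      have e1 : Cfsg.Agent.Helper43.SpReal.star P = P₀ ↔
          P = Cfsg.Agent.Helper43.SpReal.star P₀ := by
        constructor
        · intro h
          rw [← h, hss]
        · intro h
          rw [h, hss₀]
      have e2 : Cfsg.Agent.Helper43.SpReal.star P = Cfsg.Agent.Helper43.SpReal.star P₀ ↔
          P = P₀ := by
        constructor
        · intro h
          rw [← hss, h, hss₀]
        · intro h
          rw [h]
      show (if Cfsg.Agent.Helper43.SpReal.star P = P₀ then (2 * d) / (2 * i) else 0) +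
        (if Cfsg.Agent.Helper43.SpReal.star P = Cfsg.Agent.Helper43.SpReal.star P₀
          then (2 * d) / (2 * i) else 0) = (if P = P₀ then (2 * d) / (2 * i) else 0) +
        (if P = Cfsg.Agent.Helper43.SpReal.star P₀ then (2 * d) / (2 * i) else 0)
      rw [if_congr e1 rfl rfl, if_congr e2 rfl rfl, add_comm]
    · show (if P₀ = P₀ then (2 * d) / (2 * i) else 0) +
        (if P₀ = Cfsg.Agent.Helper43.SpReal.star P₀ then (2 * d) / (2 * i) else 0) ≠ 0
      rw [if_pos rfl]
      omega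
    · rw [Finset.sum_add_distrib, Finset.sum_ite_eq', Finset.sum_ite_eq', if_pos hP₀,
        if_pos hsP₀, ← hi]
      have h3 : i * ((2 * d) / (2 * i) + (2 * d) / (2 * i)) = 2 * i * ((2 * d) / (2 * i)) := by
        ring
      omega
    · left
      rw [← hi]
      exact hodd

end Cfsg.Agent.Helper83.NP5989
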