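import Cfsg.Agent.Helper85.PiGen

/-!
helper83: PIECE DL2 of CALL S5113 (helper85): a map of the candidate subsystem defined on a subgroup `N` of
`N_T(A)` strictly containing `A` has trivial degree on `A`.
-/

set_option autoImplicit false
set_option linter.style.haveILetI false
set_option linter.unusedVariables false
set_option linter.unusedSectionVars false

namespace Cfsg.Agent.Helper83.PiDL2

open Cfsg Cfsg.FusionSystem Cfsg.Agent.Helper85 Cfsg.Agent.Helper88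

variable {Ω : Type*} [Group Ω] {S : Subgroup Ω}

theorem pi_dl2 [Finite S] {p : ℕ} [Fact p.Prime] (hS : IsPGroup p S) {F : FusionSystem S}
    {T R : Subgroup Ω} (c : PiCtx F p T R) (hbrc : PiBrc F p T) (hhfa : PiHfa F p) (hc : PiConjS F p T)
    {A N : Subgroup Ω} {α : Ω → Ω} (hAR : F.IsConj A R) (hAN : A ≤ N) (hN : N ≤ normalizerIn T A)
    (hlt : Nat.card A < Nat.card N) (hα : PiGen F p T N α) : PiQ F p T R A α := by
  intro χ₁ χ₂ a b u β₀ hG1 hG2 hu hβ₀ hrel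
  have hh := c.hyp
  have hRS : R ≤ S := c.fn.1
  have hRT : R ≤ T := c.hR.1
  obtain ⟨hχ₁, himg₁, haS, hgen₁⟩ := hG1
  obtain ⟨hχ₂, himg₂, hbS, hgen₂⟩ := hG2
  have hNT : N ≤ T := fun x hx => (mem_normalizerIn_iff.mp (hN hx)).1
  have hαF : IsMap F N α := piGen_isMap hh.le hα
  have hαA : IsMap F A α := hαF.restrict hAN
  -- Step 1: `α(N) ≤ N_T(A')`
  have hαN : ∀ n ∈ N, α n ∈ normalizerIn T (img A α) := by
    intro n hn
    exact mem_normalizerIn_iff.mpr ⟨piGen_mapsTo hS hh hα n hn,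
      hαF.map_mem_normalizer hAN hn (mem_normalizerIn_iff.mp (hN hn)).2⟩
  have hχ₁N : IsMap F N χ₁ := hχ₁.restrict hN
  have hχ₁A : IsMap F A χ₁ := hχ₁N.restrict hAN
  -- Step 2: `N₁ = χ₁(N)`
  obtain ⟨N₁, hN₁⟩ : ∃ N₁, N₁ = img N χ₁ := ⟨_, rfl⟩
  have hRN₁ : R ≤ N₁ := by rw [hN₁, ← himg₁]; exact hχ₁N.img_restrict_le hAN
  have hN₁T : N₁ ≤ T := by
    rw [hN₁]; intro y hy
    obtain ⟨n, hn, rfl⟩ := hχ₁N.mem_img.mp hy
    exact pi_mapsTo hS hh hχ₁N n hn (hNT hn)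
  have hN₁NR : N₁ ≤ normalizerIn S R := by
    rw [hN₁]; intro y hy
    obtain ⟨n, hn, rfl⟩ := hχ₁N.mem_img.mp hy
    refine mem_normalizerIn_iff.mpr ⟨hχ₁N.mem hn, ?_⟩
    have h3 := hχ₁N.map_mem_normalizer hAN hn (mem_normalizerIn_iff.mp (hN hn)).2
    rw [himg₁] at h3
    exact h3
  obtain ⟨k, hk, hk1, hk2, hk3⟩ := hχ₁N.exists_inv
  rw [← hN₁] at hk hk2 hk3
  -- Step 3: `γ = χ₂ ∘ α ∘ χ₁⁻¹` on `N₁`
  have hγ : IsMap F N₁ (χ₂ ∘ α ∘ k) := by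
    have h12 : IsMap F N₁ (α ∘ k) := hk.comp hαF (fun y hy => (hk2 y hy).1)
    exact h12.comp hχ₂ (fun y hy => hαN _ (hk2 y hy).1)
  have hχR : ∀ x ∈ A, χ₁ x ∈ R := by
    intro x hx
    rw [← himg₁]; exact hχ₁A.apply_mem_img hx
  have hRex : ∀ y ∈ R, ∃ x ∈ A, χ₁ x = y := by
    intro y hy
    rw [← himg₁] at hy
    exact hχ₁A.mem_img.mp hy
  have hγR : ∀ x ∈ A, (χ₂ ∘ α ∘ k) (χ₁ x) = χ₂ (α x) := by
    intro x hx
    simp only [Function.comp_apply]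
    rw [hk1 x (hAN hx)]
  have hχ₂A' : IsMap F (img A α) χ₂ := hχ₂.restrict (by
    intro y hy
    obtain ⟨x, hx, rfl⟩ := hαA.mem_img.mp hy
    exact hαN x (hAN hx))
  have hγimg : img R (χ₂ ∘ α ∘ k) = R := by
    apply (hγ.restrict hRN₁).img_eq_of_mapsTo
    intro y hy
    obtain ⟨x, hx, rfl⟩ := hRex y hy
    rw [hγR x hx, ← himg₂]
    exact hχ₂A'.apply_mem_img (hαA.apply_mem_img hx)
  -- Step 4
  obtain ⟨u', hu', β₀', hβ₀', hγu, hgenγ⟩ :=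
    hbrc R N₁ (χ₂ ∘ α ∘ k) c.fn hRN₁ hN₁NR hN₁T hγ hγimg
  -- Step 5
  have hainv : a⁻¹ ∈ S := S.inv_mem haS
  have hea : PiGen F p T (img N₁ (fun x => a⁻¹ * x * a⁻¹⁻¹))
      (fun y => a⁻¹ * (u'⁻¹ * χ₂ (α (k (a * y * a⁻¹))) * u') * a) := by
    refine PiGen.congr (hc N₁ _ a⁻¹ hgenγ hainv) (fun y hy => ?_)
    simp only [Function.comp_apply, inv_inv]
  have he₁ : PiGen F p T N (fun x => a⁻¹ * χ₁ x * a) := piGen_restrict hgen₁ hN
  have hcaN₁ : IsMap F N₁ (fun x => a⁻¹ * x * a⁻¹⁻¹) := isMap_conj F (hN₁T.trans hh.le) hainv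
  have hmaps : ∀ n ∈ N, a⁻¹ * χ₁ n * a ∈ img N₁ (fun x => a⁻¹ * x * a⁻¹⁻¹) := by
    intro n hn
    have h1 : χ₁ n ∈ N₁ := by rw [hN₁]; exact hχ₁N.apply_mem_img hn
    have h2 := hcaN₁.apply_mem_img h1
    simpa using h2
  have hψ0 : PiGen F p T N (fun n => a⁻¹ * (u'⁻¹ * χ₂ (α n) * u') * a) := by
    refine PiGen.congr (PiGen.comp he₁ hea hmaps) (fun n hn => ?_)
    simp only [Function.comp_apply]
    have h3 : a * (a⁻¹ * χ₁ n * a) * a⁻¹ = χ₁ n := by group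
    rw [h3, hk1 n hn]
  -- Step 6
  obtain ⟨ψ, hψdef⟩ : ∃ ψ : Ω → Ω, ψ = (fun n => a⁻¹ * (u'⁻¹ * χ₂ (α n) * u') * a) := ⟨_, rfl⟩
  have hψ : PiGen F p T N ψ := by rw [hψdef]; exact hψ0
  have hψn : ∀ n, ψ n = a⁻¹ * (u'⁻¹ * χ₂ (α n) * u') * a := by intro n; rw [hψdef]
  have hψF : IsMap F N ψ := piGen_isMap hh.le hψ
  obtain ⟨ψ', hψ', hψ'inv⟩ := piGen_exists_inv hS hh hψ
  have hM1 : PiGen F p T (img N ψ) (α ∘ ψ') := PiGen.comp hψ' hα (fun y hy => by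
    obtain ⟨n, hn, rfl⟩ := hψF.mem_img.mp hy
    rw [hψ'inv n hn]; exact hn)
  have hM2 : PiGen F p T (img N ψ) ((fun x => b⁻¹ * χ₂ x * b) ∘ (α ∘ ψ')) :=
    PiGen.comp hM1 hgen₂ (fun y hy => by
      obtain ⟨n, hn, rfl⟩ := hψF.mem_img.mp hy
      simp only [Function.comp_apply]
      rw [hψ'inv n hn]; exact hαN n hn)
  have hs₀ : PiGen F p T (img N ψ) (fun x => (b⁻¹ * u' * a) * x * (b⁻¹ * u' * a)⁻¹) := by
    refine PiGen.congr hM2 (fun y hy => ?_)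
    obtain ⟨n, hn, rfl⟩ := hψF.mem_img.mp hy
    simp only [Function.comp_apply]
    rw [hψ'inv n hn, hψn n]
    group
  -- Step 7
  have hs₀S : b⁻¹ * u' * a ∈ S :=
    S.mul_mem (S.mul_mem (S.inv_mem hbS) (mem_normalizerIn_iff.mp hu').1) haS
  have hMT : img N ψ ≤ T := piGen_img_le hS hh hψ
  have hPiH : PiH F T (img N ψ) := by
    refine ⟨hMT, fun M' hM' => ?_⟩
    rw [Helper88.isConj_iff] at hM'
    obtain ⟨h, hhmap, rfl⟩ := hM'
    have hAψ : img A ψ ≤ img N ψ := hψF.img_restrict_le hAN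
    have hconj : F.IsConj R (img (img A ψ) h) := by
      have c1 : F.IsConj R A := Helper88.isConj_symm F hAR
      have c2 : F.IsConj A (img A ψ) := (hψF.restrict hAN).isConj
      have c3 : F.IsConj (img A ψ) (img (img A ψ) h) := (hhmap.restrict hAψ).isConj
      exact Helper88.isConj_trans F c1 (Helper88.isConj_trans F c2 c3)
    have hle := c.hR.2 _ hconj
    refine le_trans ?_ hle
    intro z hz
    rw [mem_centralizerIn_iff] at hz ⊢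
    exact ⟨hz.1, fun y hy => hz.2 y (hhmap.img_restrict_le hAψ hy)⟩
  have hcard : Nat.card R < Nat.card (img N ψ) := by
    rw [hψF.card_img, Helper88.isConj_card_eq hAR]; exact hlt
  have hs₀T : b⁻¹ * u' * a ∈ T := c.ih _ hPiH hcard _ hs₀S hs₀
  -- Step 8
  have hwN : u'⁻¹ * u ∈ normalizerIn S R := Subgroup.mul_mem _ (Subgroup.inv_mem _ hu') hu
  have hβ : β₀' * β₀⁻¹ ∈ PiO F p R := Subgroup.mul_mem _ hβ₀' (Subgroup.inv_mem _ hβ₀)
  have hwrel : ∀ z ∈ R, autFun (β₀' * β₀⁻¹) z = (u'⁻¹ * u) * z * (u'⁻¹ * u)⁻¹ := by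
    intro z hz
    have hyR : autFun β₀⁻¹ z ∈ R := autFun_mem _ hz
    obtain ⟨x, hx, hxy⟩ := hRex _ hyR
    have e1 := hγu (χ₁ x) (hχR x hx)
    rw [hγR x hx, hrel x hx] at e1
    rw [hxy, autFun_apply_inv β₀ hz] at e1
    rw [autFun_mul _ _ hz]
    have e2 : autFun β₀' (autFun β₀⁻¹ z) =
        u'⁻¹ * (u' * autFun β₀' (autFun β₀⁻¹ z) * u'⁻¹) * u' := by group
    rw [e2, ← e1]; group
  have hw := hhfa R (u'⁻¹ * u) (β₀' * β₀⁻¹) c.fn hwN hβ hwrel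
  have hwT : u'⁻¹ * u ∈ T := by
    have hle : F.hyperfocalSubgroup p ⊔ centralizerIn S R ≤ T :=
      sup_le hh.hyp (c.hR.2 R (Helper88.isConj_refl F hRS))
    exact hle hw
  -- Step 9
  have hfin : b⁻¹ * u * a = (b⁻¹ * u' * a) * (a⁻¹ * (u'⁻¹ * u) * a⁻¹⁻¹) := by group
  rw [hfin]
  exact T.mul_mem hs₀T (hh.norm a⁻¹ hainv _ hwT)

end Cfsg.Agent.Helper83.PiDL2
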