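import Cfsg.Agent.Helper85.PiGen

/-!
helper83: PIECE DL4 of CALL S5113 (helper85): the degree is multiplicative (composites of maps of trivial
degree have trivial degree).
-/

set_option autoImplicit false
set_option linter.style.haveILetI false
set_option linter.unusedVariables false
set_option linter.unusedSectionVars false

namespace Cfsg.Agent.Helper83.PiDL4

open Cfsg Cfsg.FusionSystem Cfsg.Agent.Helper85 Cfsg.Agent.Helper88

variable {Ω : Type*} [Group Ω] {S : Subgroup Ω}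

theorem mem_normalizer_of_aut {P : Subgroup Ω} (σ : MulAut P) (g : Ω)
    (h : ∀ x : P, ((σ x : P) : Ω) = g * x * g⁻¹) : g ∈ Subgroup.normalizer (P : Set Ω) := by
  rw [Subgroup.mem_set_normalizer_iff]
  intro y
  constructor
  · intro hy
    have h1 := h ⟨y, hy⟩
    show g * y * g⁻¹ ∈ P
    rw [← h1]; exact (σ ⟨y, hy⟩).2
  · intro hy
    obtain ⟨x', hx'⟩ := σ.surjective ⟨g * y * g⁻¹, hy⟩
    have h1 := congrArg Subtype.val hx'
    rw [h x'] at h1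
    have h3 : (x' : Ω) = y := mul_left_cancel (mul_right_cancel h1)
    show y ∈ P
    rw [← h3]; exact x'.2

theorem autFun_conj_eq {P : Subgroup Ω} (σ : MulAut P) (v : Ω)
    (h : ∀ x : P, ((σ x : P) : Ω) = v * x * v⁻¹) {z : Ω} (hz : z ∈ P) :
    autFun σ z = v * z * v⁻¹ := by
  rw [autFun_apply' σ hz, h]

theorem pi_dl4 [Finite S] {p : ℕ} [Fact p.Prime] (hS : IsPGroup p S) {F : FusionSystem S}
    {T R : Subgroup Ω} (c : PiCtx F p T R) (hgi : PiGi F p T) {A : Subgroup Ω} {f g : Ω → Ω}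
    (hAR : F.IsConj A R) (hAT : A ≤ T) (hf : IsMap F A f) (hg : IsMap F (img A f) g)
    (h1 : PiQ F p T R A f) (h2 : PiQ F p T R (img A f) g) : PiQ F p T R A (g ∘ f) := by
  intro χ₁ χ₃ a b u β₀ hG1 hG3 hu hβ₀ hrel
  have hh := c.hyp
  have hRS : R ≤ S := c.fn.1
  have hBT : img A f ≤ T := by
    intro y hy
    obtain ⟨x, hx, rfl⟩ := hf.mem_img.mp hy
    exact pi_mapsTo hS hh hf x hx (hAT hx)
  have hBR : F.IsConj (img A f) R := Helper88.isConj_trans F (Helper88.isConj_symm F hf.isConj) hAR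
  obtain ⟨χ₂, m, hG2⟩ := hgi R (img A f) c.fn hBR hBT
  rw [img_comp hf hg] at hG3
  obtain ⟨hχ₁, himg₁, haS, hgen₁⟩ := id hG1
  obtain ⟨hχ₂, himg₂, hmS, hgen₂⟩ := id hG2
  have hAN : A ≤ normalizerIn T A := fun x hx =>
    mem_normalizerIn_iff.mpr ⟨hAT hx, Subgroup.le_normalizer hx⟩
  have hBN : img A f ≤ normalizerIn T (img A f) := fun x hx =>
    mem_normalizerIn_iff.mpr ⟨hBT hx, Subgroup.le_normalizer hx⟩
  have hχ₁A : IsMap F A χ₁ := hχ₁.restrict hAN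
  have hχ₂B : IsMap F (img A f) χ₂ := hχ₂.restrict hBN
  obtain ⟨k, hk, hk1, hk2, hk3⟩ := hχ₁A.exists_inv
  rw [himg₁] at hk hk2 hk3
  have hδ : IsMap F R (χ₂ ∘ f ∘ k) := by
    have h12 : IsMap F R (f ∘ k) := hk.comp hf (fun y hy => (hk2 y hy).1)
    exact h12.comp hχ₂B (fun y hy => hf.apply_mem_img (hk2 y hy).1)
  have hδimg : img R (χ₂ ∘ f ∘ k) = R := by
    apply hδ.img_eq_of_mapsTo
    intro y hy
    have h3 : χ₂ (f (k y)) ∈ img (img A f) χ₂ :=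
      hχ₂B.apply_mem_img (hf.apply_mem_img (hk2 y hy).1)
    rw [himg₂] at h3
    exact h3
  obtain ⟨δ, hδA, hδf⟩ := hδ.exists_aut hδimg
  obtain ⟨hFa, -⟩ := Cfsg.Agent.Helper84.saturated_fullyNormalized hS F hh.sat c.fn
  obtain ⟨-, P₀, hP₀⟩ := hFa
  haveI : Finite R := Helper88.finite_of_le hRS
  haveI hfinM : Finite (MulAut R) := inferInstance
  obtain ⟨σ, hσ, β₁, hβ₁, hδeq⟩ := exists_sylow_mul_pResidual P₀ (⟨δ, hδA⟩ : F.autGroup R)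
  rw [hP₀, Subgroup.mem_subgroupOf, Helper88.mem_autInducedBy_iff] at hσ
  obtain ⟨u₁, hu₁S, hu₁σ⟩ := hσ
  have hδ' : δ = (σ : MulAut R) * (β₁ : MulAut R) := by
    have := congrArg Subtype.val hδeq
    simpa using this
  have hu₁N : u₁ ∈ normalizerIn S R :=
    mem_normalizerIn_iff.mpr ⟨hu₁S, mem_normalizer_of_aut (σ : MulAut R) u₁ hu₁σ⟩
  have hχR : ∀ x ∈ A, χ₁ x ∈ R := by
    intro x hx
    rw [← himg₁]; exact hχ₁A.apply_mem_img hx
  have hrel1 : ∀ x ∈ A, χ₂ (f x) = u₁ * autFun (β₁ : MulAut R) (χ₁ x) * u₁⁻¹ := by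
    intro x hx
    have hxR := hχR x hx
    have e1 := hδf (χ₁ x) hxR
    simp only [Function.comp_apply] at e1
    rw [hk1 x hx] at e1
    rw [← e1, hδ', autFun_mul _ _ hxR,
      autFun_conj_eq (σ : MulAut R) u₁ hu₁σ (autFun_mem _ hxR)]
  have hβ₁O : (β₁ : MulAut R) ∈ PiO F p R := ⟨β₁, hβ₁, rfl⟩
  have hT1 : m⁻¹ * u₁ * a ∈ T := h1 χ₁ χ₂ a m u₁ (β₁ : MulAut R) hG1 hG2 hu₁N hβ₁O hrel1
  obtain ⟨b₀, hb₀, rfl⟩ := hβ₀
  have hβ₂ : (σ * (b₀ * β₁⁻¹) * σ⁻¹ : F.autGroup R) ∈ pResidual p (F.autGroup R) :=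
    pResidual_conj_mem p (Subgroup.mul_mem _ hb₀ (Subgroup.inv_mem _ hβ₁)) σ
  have hβ₂O : (σ : MulAut R) * ((b₀ : MulAut R) * (β₁ : MulAut R)⁻¹) * (σ : MulAut R)⁻¹ ∈
      PiO F p R := ⟨_, hβ₂, rfl⟩
  have huu : u * u₁⁻¹ ∈ normalizerIn S R := Subgroup.mul_mem _ hu (Subgroup.inv_mem _ hu₁N)
  have hrel2 : ∀ y ∈ img A f, χ₃ (g y) = (u * u₁⁻¹) *
      autFun ((σ : MulAut R) * ((b₀ : MulAut R) * (β₁ : MulAut R)⁻¹) * (σ : MulAut R)⁻¹) (χ₂ y) *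
        (u * u₁⁻¹)⁻¹ := by
    intro y hy
    obtain ⟨x, hx, rfl⟩ := hf.mem_img.mp hy
    have hxR := hχR x hx
    have e3 := hrel x hx
    simp only [Function.comp_apply] at e3
    have e3' : χ₃ (g (f x)) = u * autFun (b₀ : MulAut R) (χ₁ x) * u⁻¹ := e3
    have hz : autFun (β₁ : MulAut R) (χ₁ x) ∈ R := autFun_mem _ hxR
    have hw : u₁ * autFun (β₁ : MulAut R) (χ₁ x) * u₁⁻¹ =
        autFun (σ : MulAut R) (autFun (β₁ : MulAut R) (χ₁ x)) :=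
      (autFun_conj_eq (σ : MulAut R) u₁ hu₁σ hz).symm
    have hwR : autFun (σ : MulAut R) (autFun (β₁ : MulAut R) (χ₁ x)) ∈ R := autFun_mem _ hz
    rw [e3', hrel1 x hx, hw, autFun_mul _ _ hwR, autFun_inv_apply (σ : MulAut R) hz,
      autFun_mul _ _ hz, autFun_mul _ _ hz, autFun_inv_apply (β₁ : MulAut R) hxR,
      autFun_conj_eq (σ : MulAut R) u₁ hu₁σ (autFun_mem _ hxR)]
    group
  have hT2 : b⁻¹ * (u * u₁⁻¹) * m ∈ T :=
    h2 χ₂ χ₃ m b (u * u₁⁻¹) _ hG2 hG3 huu hβ₂O hrel2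
  have hfin : b⁻¹ * u * a = (b⁻¹ * (u * u₁⁻¹) * m) * (m⁻¹ * u₁ * a) := by group
  rw [hfin]; exact Subgroup.mul_mem _ hT2 hT1

end Cfsg.Agent.Helper83.PiDL4
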