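import Cfsg.Agent.Helper85.PiGen

/-!
helper83: PIECE SHA of CALL S5113 (helper85): a fully normalized `P ≤ T` at which the degree lemma holds is
fully automized in the candidate subsystem.
-/

set_option autoImplicit false
set_option linter.style.haveILetI false
set_option linter.unusedVariables false
set_option linter.unusedSectionVars false

namespace Cfsg.Agent.Helper83.PiSHA

open Cfsg Cfsg.FusionSystem Cfsg.Agent.Helper85 Cfsg.Agent.Helper88

variable {Ω : Type*} [Group Ω] {S : Subgroup Ω}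

theorem sylow_of_subgroupOf {G : Type*} [Group G] {p : ℕ} [Fact p.Prime] (A B K : Subgroup G)
    (hBA : B ≤ A) (R : Sylow p (B.subgroupOf A))
    (hR : ∀ x : B.subgroupOf A, x ∈ (R : Subgroup (B.subgroupOf A)) ↔ ((x : A) : G) ∈ K) :
    ∃ R' : Sylow p B, (R' : Subgroup B) = K.subgroupOf B := by
  obtain ⟨e, he⟩ : ∃ e : B.subgroupOf A ≃* B, e = Subgroup.subgroupOfEquivOfLe hBA := ⟨_, rfl⟩
  obtain ⟨φ, hφe⟩ : ∃ φ : B →* B.subgroupOf A, φ = e.symm.toMonoidHom := ⟨_, rfl⟩
  have hφ : Function.Injective φ := by rw [hφe]; exact e.symm.injective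
  have hrange : (R : Subgroup (B.subgroupOf A)) ≤ φ.range := by
    intro x _
    exact ⟨e x, by rw [hφe]; exact e.symm_apply_apply x⟩
  refine ⟨R.comapOfInjective φ hφ hrange, ?_⟩
  rw [Sylow.coe_comapOfInjective]
  ext b
  rw [Subgroup.mem_comap, hR, Subgroup.mem_subgroupOf]
  have h1 : (((φ b : B.subgroupOf A) : A) : G) = (b : G) := by rw [hφe, he]; rfl
  rw [h1]

theorem pi_automized_of_deg [Finite S] {p : ℕ} [Fact p.Prime] (hS : IsPGroup p S) {F : FusionSystem S}
    {T : Subgroup Ω} (hh : PiHyp F p T) {E : FusionSystem T} (hE : PiSys F p E) {P : Subgroup Ω}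
    (hP : F.IsFullyNormalized P) (hPT : P ≤ T)
    (hsyl : ∀ (P₀ : Sylow p (F.autGroup P)) (X : Subgroup (F.autGroup P)), pResidual p (F.autGroup P) ≤ X →
      ∃ R : Sylow p X, (R : Subgroup X) = (P₀ : Subgroup (F.autGroup P)).subgroupOf X)
    (hdeg : PiDeg F p T P) : E.IsFullyAutomized p P := by
  have hPS : P ≤ S := hPT.trans hh.le
  obtain ⟨hFa, -⟩ := Cfsg.Agent.Helper84.saturated_fullyNormalized hS F hh.sat hP
  obtain ⟨-, P₀, hP₀⟩ := hFa
  have hEF : E.autGroup P ≤ F.autGroup P := by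
    intro α hα
    rw [Helper88.mem_autGroup_iff E hPT, hE] at hα
    rw [Helper88.mem_autGroup_iff F hPS]
    exact piGen_isMap hh.le hα
  have hres : pResidual p (F.autGroup P) ≤ (E.autGroup P).subgroupOf (F.autGroup P) := by
    intro β hβ
    rw [Subgroup.mem_subgroupOf, Helper88.mem_autGroup_iff E hPT, hE]
    exact PiGen.base hPT ⟨β, hβ, rfl⟩ le_rfl
  obtain ⟨R, hR⟩ := hsyl P₀ _ hres
  refine ⟨hPT, ?_⟩
  apply sylow_of_subgroupOf (F.autGroup P) (E.autGroup P) (autInducedBy T P) hEF R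
  intro x
  have h1 : x ∈ (R : Subgroup ((E.autGroup P).subgroupOf (F.autGroup P))) ↔
      (((x : F.autGroup P) : MulAut P)) ∈ autInducedBy S P := by
    rw [hR, Subgroup.mem_subgroupOf, hP₀, Subgroup.mem_subgroupOf]
  rw [h1]
  have hxE : ((x : F.autGroup P) : MulAut P) ∈ E.autGroup P := Subgroup.mem_subgroupOf.mp x.2
  rw [Helper88.mem_autInducedBy_iff, Helper88.mem_autInducedBy_iff]
  constructor
  · rintro ⟨g, hg, h⟩
    refine ⟨g, ?_, h⟩
    apply hdeg g hg
    rw [Helper88.mem_autGroup_iff E hPT, hE] at hxE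
    refine PiGen.congr hxE (fun y hy => ?_)
    rw [autFun_apply' _ hy, h ⟨y, hy⟩]
  · rintro ⟨g, hg, h⟩; exact ⟨g, hh.le hg, h⟩

end Cfsg.Agent.Helper83.PiSHA
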