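import Cfsg.Agent.Helper85.PiGen

/-!
helper83: PIECE SXA of CALL S5113 (helper85): a fully normalized `P ≤ T` whose centralizer in `S` is not
inside `T` is fully automized in the candidate subsystem.
-/

set_option autoImplicit false
set_option linter.style.haveILetI false
set_option linter.unusedVariables false
set_option linter.unusedSectionVars false

namespace Cfsg.Agent.Helper83.PiSXA

open Cfsg Cfsg.FusionSystem Cfsg.Agent.Helper85 Cfsg.Agent.Helper88

variable {Ω : Type*} [Group Ω] {S : Subgroup Ω}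

theorem sylow_transport {G : Type*} [Group G] {p : ℕ} (A B K K' : Subgroup G) (hAB : A = B)
    (hK : K = K') (h : ∃ R : Sylow p A, (R : Subgroup A) = K.subgroupOf A) :
    ∃ R : Sylow p B, (R : Subgroup B) = K'.subgroupOf B := by
  subst hAB; subst hK; exact h

theorem pi_automized_of_cent [Finite S] {p : ℕ} [Fact p.Prime] (hS : IsPGroup p S) {F : FusionSystem S}
    {T : Subgroup Ω} (hh : PiHyp F p T) (hsp : PiSplit S T) {E : FusionSystem T} (hE : PiSys F p E)
    {P : Subgroup Ω} (hP : F.IsFullyNormalized P) (hPT : P ≤ T) (hX : ¬ centralizerIn S P ≤ T) :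
    E.IsFullyAutomized p P := by
  have hPS : P ≤ S := hPT.trans hh.le
  obtain ⟨c, hcC, hcT⟩ := SetLike.not_le_iff_exists.mp hX
  obtain ⟨hcS, hcP⟩ := mem_centralizerIn_iff.mp hcC
  have hci : ∀ (i : ℤ), ∀ y ∈ P, c ^ i * y * (c ^ i)⁻¹ = y := by
    intro i y hy
    have h1 : Commute c y := (hcP y hy).symm
    have h2 : Commute (c ^ i) y := h1.zpow_left i
    rw [h2.eq, mul_inv_cancel_right]
  have hkey : ∀ s ∈ S, ∃ t ∈ T, ∀ x ∈ P, s * x * s⁻¹ ∈ P → s * x * s⁻¹ = t * x * t⁻¹ := by
    intro s hs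
    obtain ⟨i, t, ht, rfl⟩ := hsp c hcS hcT s hs
    refine ⟨t, ht, fun x hx hmem => ?_⟩
    have h1 := hci (-i) _ hmem
    have h2 : t * x * t⁻¹ = c ^ (-i) * (c ^ i * t * x * (c ^ i * t)⁻¹) * (c ^ (-i))⁻¹ := by group
    rw [h2, h1]
  have hind : autInducedBy T P = autInducedBy S P := by
    ext α
    rw [Helper88.mem_autInducedBy_iff, Helper88.mem_autInducedBy_iff]
    constructor
    · rintro ⟨g, hg, h⟩; exact ⟨g, hh.le hg, h⟩
    · rintro ⟨g, hg, h⟩
      obtain ⟨t, ht, hkt⟩ := hkey g hg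
      refine ⟨t, ht, fun x => ?_⟩
      rw [h x]
      exact hkt x x.2 (by rw [← h x]; exact (α x).2)
  obtain ⟨hFa, -⟩ := Cfsg.Agent.Helper84.saturated_fullyNormalized hS F hh.sat hP
  obtain ⟨-, R, hR⟩ := hFa
  haveI : Finite P := Helper88.finite_of_le hPS
  haveI hfinM : Finite (MulAut P) := inferInstance
  have haut : F.autGroup P = E.autGroup P := by
    ext α
    rw [Helper88.mem_autGroup_iff F hPS, Helper88.mem_autGroup_iff E hPT, hE]
    constructor
    · intro hα
      have hαF : α ∈ F.autGroup P := (Helper88.mem_autGroup_iff F hPS α).mpr hα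
      obtain ⟨σ, hσ, β, hβ, hαeq⟩ := exists_sylow_mul_pResidual R (⟨α, hαF⟩ : F.autGroup P)
      rw [hR, Subgroup.mem_subgroupOf, Helper88.mem_autInducedBy_iff] at hσ
      obtain ⟨g, hg, hgσ⟩ := hσ
      obtain ⟨t, ht, hkt⟩ := hkey g hg
      have h1 : PiGen F p T P (autFun (σ : MulAut P)) := by
        refine PiGen.congr (PiGen.conj hPT ht) (fun x hx => ?_)
        rw [autFun_apply' _ hx, hgσ ⟨x, hx⟩]
        exact hkt x hx (by rw [← hgσ ⟨x, hx⟩]; exact ((σ : MulAut P) ⟨x, hx⟩).2)
      have h2 : PiGen F p T P (autFun (β : MulAut P)) :=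
        PiGen.base hPT ⟨β, hβ, rfl⟩ le_rfl
      have h3 := PiGen.comp h2 h1 (fun x hx => autFun_mem _ hx)
      refine PiGen.congr h3 (fun x hx => ?_)
      have h4 : α = (σ : MulAut P) * (β : MulAut P) := by
        have := congrArg Subtype.val hαeq
        simpa using this
      rw [h4, autFun_mul _ _ hx]; rfl
    · intro hα
      exact piGen_isMap hh.le hα
  refine ⟨hPT, ?_⟩
  exact sylow_transport (F.autGroup P) (E.autGroup P) (autInducedBy S P) (autInducedBy T P) haut
    hind.symm ⟨R, hR⟩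

end Cfsg.Agent.Helper83.PiSXA
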