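import Mathlib
import Cfsg.Agent.Helper83.SpecialRO
import Cfsg.Agent.Helper83.Steinberg

set_option autoImplicit false

namespace Cfsg.Agent.Helper83

open Cfsg

section PartP1

section SpecFacts

variable {G : Type*} [Group G] {A B : Subgroup G}

namespace SpecPair

/-- `n β n⁻¹ = a`. -/
theorem n_conj_beta (h : SpecPair A B) {a : G} (ha : a ∈ A) (ha1 : a ≠ 1) :
    nOf A B a * betaOf A B a * (nOf A B a)⁻¹ = a := by
  have e : nOf A B a * betaOf A B a = a * nOf A B a := by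
    unfold nOf
    calc a * betaOf A B a * a * betaOf A B a = a * (betaOf A B a * a * betaOf A B a) := by group
      _ = a * (a * betaOf A B a * a) := by rw [← h.braid ha ha1]
  rw [e]; group

/-- `n⁻¹ a n = β`. -/
theorem n_inv_conj_a (h : SpecPair A B) {a : G} (ha : a ∈ A) (ha1 : a ≠ 1) :
    (nOf A B a)⁻¹ * a * nOf A B a = betaOf A B a := by
  have e := h.n_conj_beta ha ha1
  calc (nOf A B a)⁻¹ * a * nOf A B a
      = (nOf A B a)⁻¹ * (nOf A B a * betaOf A B a * (nOf A B a)⁻¹) * nOf A B a := by rw [e]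
    _ = betaOf A B a := by group

/-- The `μ`-map in terms of `β`. -/
theorem mu_eq_conj (h : SpecPair A B) {a x : G} (ha : a ∈ A) (ha1 : a ≠ 1) (hx : x ∈ A)
    (hx1 : x ≠ 1) :
    muOf A B a x = nOf A B a * (betaOf A B x)⁻¹ * (nOf A B a)⁻¹ := by
  have hy : nOf A B a * (betaOf A B x)⁻¹ * (nOf A B a)⁻¹ ∈ A := by
    have e := conj_mem_conjBy (g := nOf A B a) (B.inv_mem (h.beta_mem hx hx1))
    rwa [h.conj_B_n ha ha1] at e
  apply h.mu_eq ha ha1 hx hx1 hy
  calc conjBy B (nOf A B a * x) = conjBy A (nOf A B a * (betaOf A B x)⁻¹) := by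
        rw [← conjBy_conjBy B x (nOf A B a), h.conj_B_a hx hx1, conjBy_conjBy]
    _ = conjBy (conjBy A (nOf A B a)) (nOf A B a * (betaOf A B x)⁻¹ * (nOf A B a)⁻¹) := by
        rw [conjBy_conjBy]; congr 1; group
    _ = conjBy B (nOf A B a * (betaOf A B x)⁻¹ * (nOf A B a)⁻¹) := by rw [h.conj_A_n ha ha1]

/-- `β(a^k)^k = β(a)`. -/
theorem beta_pow (h : SpecPair A B) {a : G} (ha : a ∈ A) (ha1 : a ≠ 1) {k : ℕ} (hk : 1 ≤ k)
    (hak : a ^ k ≠ 1) : (betaOf A B (a ^ k)) ^ k = betaOf A B a := by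
  have P := h.muSys.P_all k hk a ha ha1 hak
  rw [h.mu_eq_conj ha ha1 (A.pow_mem ha k) hak, conj_pow, inv_pow] at P
  have e := h.n_inv_conj_a ha ha1
  have e2 : ((betaOf A B (a ^ k)) ^ k)⁻¹ = (betaOf A B a)⁻¹ := by
    rw [← e]
    calc ((betaOf A B (a ^ k)) ^ k)⁻¹
        = (nOf A B a)⁻¹ * (nOf A B a * ((betaOf A B (a ^ k)) ^ k)⁻¹ * (nOf A B a)⁻¹) *
          nOf A B a := by group
      _ = (nOf A B a)⁻¹ * a⁻¹ * nOf A B a := by rw [P]
      _ = _ := by group
  exact inv_injective e2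

/-- `B` has the same exponent as `A`. -/
theorem pow_eq_one_right (h : SpecPair A B) {p : ℕ} (hp : ∀ x ∈ A, x ^ p = 1) {y : G}
    (hy : y ∈ B) : y ^ p = 1 := by
  obtain ⟨a, ha, ha1⟩ := RO.exists_ne_one_left h.ro
  have e := h.conj_A_n ha ha1
  rw [← e] at hy
  obtain ⟨x, hx, rfl⟩ := hy
  change (nOf A B a * x * (nOf A B a)⁻¹) ^ p = 1
  rw [conj_pow, hp x hx]; group

theorem inter_eq_one (h : SpecPair A B) {x : G} (hA : x ∈ A) (hB : x ∈ B) : x = 1 :=
  RO.eq_one_of_normalizes h.ro hA (conjBy_of_mem hB)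

end SpecPair

end SpecFacts

section ZP

variable {G : Type*} [Group G] {p : ℕ}

/-- Powers with exponents in `ZMod p`. -/
def zp (g : G) (t : ZMod p) : G := g ^ t.val

theorem zp_zero (g : G) : zp g (0 : ZMod p) = 1 := by
  unfold zp
  rw [ZMod.val_zero, pow_zero]

theorem zp_add [NeZero p] {g : G} (hg : g ^ p = 1) (t u : ZMod p) :
    zp g (t + u) = zp g t * zp g u := by
  unfold zp
  rw [ZMod.val_add, ← pow_add, ← pow_eq_pow_mod _ hg]

theorem zp_mul [NeZero p] {g : G} (hg : g ^ p = 1) (t u : ZMod p) :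
    zp (zp g t) u = zp g (t * u) := by
  unfold zp
  rw [ZMod.val_mul, ← pow_mul, ← pow_eq_pow_mod _ hg]

theorem zp_one [Fact (1 < p)] (g : G) : zp g (1 : ZMod p) = g := by
  unfold zp
  rw [ZMod.val_one, pow_one]

theorem zp_one' (t : ZMod p) : zp (1 : G) t = 1 := one_pow _

theorem zp_neg_one [Fact (1 < p)] {g : G} (hg : g ^ p = 1) : zp g (-1 : ZMod p) = g⁻¹ := by
  have : NeZero p := ⟨by have := Fact.out (p := 1 < p); omega⟩
  apply eq_inv_of_mul_eq_one_left
  have e := zp_add hg (-1 : ZMod p) 1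
  rw [neg_add_cancel, zp_zero, zp_one] at e
  exact e.symm

theorem zp_ne_one [Fact p.Prime] {g : G} (hg : g ^ p = 1) (hg1 : g ≠ 1) {t : ZMod p}
    (ht : t ≠ 0) : zp g t ≠ 1 := by
  have : Fact (1 < p) := ⟨(Fact.out : p.Prime).one_lt⟩
  intro e
  apply hg1
  have e2 := zp_mul hg t t⁻¹
  rw [mul_inv_cancel₀ ht, zp_one, e, zp_one'] at e2
  exact e2.symm

theorem zp_mem {H : Subgroup G} {g : G} (hg : g ∈ H) (t : ZMod p) : zp g t ∈ H :=
  H.pow_mem hg _

end ZP

end PartP1

section PartP2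

section Rel

variable {G : Type*} [Group G] {A B : Subgroup G} {p : ℕ} [Fact p.Prime]

/-- In a special rank one pair with `A` of prime exponent `p`, the powers of `a` and of `β(a)`
satisfy the Steinberg relations over `ZMod p`. -/
theorem SpecPair.stRel (h : SpecPair A B) (hp : ∀ x ∈ A, x ^ p = 1) {a : G} (ha : a ∈ A)
    (ha1 : a ≠ 1) :
    StRel (fun t : ZMod p => zp a t) (fun t : ZMod p => zp (betaOf A B a) (-t)) := by
  have hpa : a ^ p = 1 := hp a ha
  have hβ : betaOf A B a ∈ B := h.beta_mem ha ha1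
  have hpβ : (betaOf A B a) ^ p = 1 := h.pow_eq_one_right hp hβ
  have : Fact (1 < p) := ⟨(Fact.out : p.Prime).one_lt⟩
  refine ⟨fun t u => (zp_add hpa t u).symm, fun t u => ?_, fun t u ht => ?_⟩
  · rw [neg_add, zp_add hpβ]
  · have hat : zp a t ∈ A := zp_mem ha t
    have hat1 : zp a t ≠ 1 := zp_ne_one hpa ha1 ht
    have hβt : betaOf A B (zp a t) ∈ B := h.beta_mem hat hat1
    have hpβt : (betaOf A B (zp a t)) ^ p = 1 := h.pow_eq_one_right hp hβt
    have hk : 1 ≤ t.val := Nat.one_le_iff_ne_zero.mpr ((ZMod.val_ne_zero t).mpr ht)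
    have e0 : zp (betaOf A B (zp a t)) t = betaOf A B a := h.beta_pow ha ha1 hk hat1
    have e1 : zp (betaOf A B a) t⁻¹ = betaOf A B (zp a t) := by
      rw [← e0, zp_mul hpβt, mul_inv_cancel₀ ht, zp_one]
    have e2 : zp a t * zp (betaOf A B a) (- -t⁻¹) * zp a t = nOf A B (zp a t) := by
      rw [neg_neg, e1]; rfl
    have e3 : zp a u = zp (zp a t) (t⁻¹ * u) := by
      rw [zp_mul hpa, mul_inv_cancel_left₀ ht]
    have e4 : zp (betaOf A B a) (- -(t⁻¹ ^ 2 * u)) = zp (betaOf A B (zp a t)) (t⁻¹ * u) := by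
      rw [neg_neg, ← e1, zp_mul hpβ]
      congr 1
      ring
    change zp a t * zp (betaOf A B a) (- -t⁻¹) * zp a t * zp a u *
      (zp a t * zp (betaOf A B a) (- -t⁻¹) * zp a t)⁻¹ = zp (betaOf A B a) (- -(t⁻¹ ^ 2 * u))
    rw [e2, e3, e4]
    change nOf A B (zp a t) * (zp a t) ^ (t⁻¹ * u).val * (nOf A B (zp a t))⁻¹ =
      (betaOf A B (zp a t)) ^ (t⁻¹ * u).val
    rw [← conj_pow, h.n_conj_a hat hat1]

end Rel

section Ker

variable {K : Type*} [Field K] {G : Type*} [Group G]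

/-- A homomorphism from `SL₂` separating the two unitriangular subgroups has central kernel. -/
theorem sl2_ker_le_center (φ : Matrix.SpecialLinearGroup (Fin 2) K →* G)
    (hsep : ∀ t s : K, φ (sl2U t) = φ (sl2L s) → t = 0 ∧ s = 0) :
    φ.ker ≤ Subgroup.center (Matrix.SpecialLinearGroup (Fin 2) K) := by
  have c1 : ∀ g ∈ φ.ker, g.1 1 0 = 0 := by
    intro g hg
    by_contra hc
    have hn : sl2U (-(g.1 0 0 / g.1 1 0)) * g * sl2U (g.1 0 0 / g.1 1 0) ∈ φ.ker := by
      rw [MonoidHom.mem_ker] at hg ⊢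
      rw [map_mul, map_mul, hg, mul_one, ← map_mul, sl2U_mul, neg_add_cancel, sl2U_zero, map_one]
    obtain ⟨n, hndef⟩ : ∃ n, n = sl2U (-(g.1 0 0 / g.1 1 0)) * g * sl2U (g.1 0 0 / g.1 1 0) :=
      ⟨_, rfl⟩
    rw [← hndef] at hn
    have h00 : n.1 0 0 = 0 := by
      rw [hndef]
      simp only [sl2_mul_apply, sl2U_00, sl2U_01, sl2U_10, sl2U_11]
      field_simp
      ring
    have h10 : n.1 1 0 = g.1 1 0 := by
      rw [hndef]
      simp only [sl2_mul_apply, sl2U_00, sl2U_01, sl2U_10, sl2U_11]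
      ring
    have hdet := sl2_det n
    rw [h00, h10, zero_mul, zero_sub] at hdet
    have key : n * sl2U 1 = sl2L (-(g.1 1 0) ^ 2) * n := by
      apply sl2_ext
      · simp only [sl2_mul_apply, sl2U_00, sl2U_01, sl2U_10, sl2U_11, sl2L_00, sl2L_01, sl2L_10,
          sl2L_11, h00, h10]
        ring
      · simp only [sl2_mul_apply, sl2U_00, sl2U_01, sl2U_10, sl2U_11, sl2L_00, sl2L_01, sl2L_10,
          sl2L_11, h00, h10]
        ring
      · simp only [sl2_mul_apply, sl2U_00, sl2U_01, sl2U_10, sl2U_11, sl2L_00, sl2L_01, sl2L_10,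
          sl2L_11, h00, h10]
        ring
      · simp only [sl2_mul_apply, sl2U_00, sl2U_01, sl2U_10, sl2U_11, sl2L_00, sl2L_01, sl2L_10,
          sl2L_11, h00, h10]
        linear_combination (-(g.1 1 0)) * hdet
    have e := congrArg φ key
    rw [map_mul, map_mul, MonoidHom.mem_ker.mp hn, one_mul, mul_one] at e
    exact one_ne_zero (hsep _ _ e).1
  have c2 : ∀ g ∈ φ.ker, g.1 0 1 = 0 := by
    intro g hg
    by_contra hc
    have hn : sl2L (-(g.1 1 1 / g.1 0 1)) * g * sl2L (g.1 1 1 / g.1 0 1) ∈ φ.ker := by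
      rw [MonoidHom.mem_ker] at hg ⊢
      rw [map_mul, map_mul, hg, mul_one, ← map_mul, sl2L_mul, neg_add_cancel, sl2L_zero, map_one]
    obtain ⟨n, hndef⟩ : ∃ n, n = sl2L (-(g.1 1 1 / g.1 0 1)) * g * sl2L (g.1 1 1 / g.1 0 1) :=
      ⟨_, rfl⟩
    rw [← hndef] at hn
    have h11 : n.1 1 1 = 0 := by
      rw [hndef]
      simp only [sl2_mul_apply, sl2L_00, sl2L_01, sl2L_10, sl2L_11]
      field_simp
      ring
    have h01 : n.1 0 1 = g.1 0 1 := by
      rw [hndef]
      simp only [sl2_mul_apply, sl2L_00, sl2L_01, sl2L_10, sl2L_11]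
      ring
    have hdet := sl2_det n
    rw [h11, h01, mul_zero, zero_sub] at hdet
    have key : n * sl2L 1 = sl2U (-(g.1 0 1) ^ 2) * n := by
      apply sl2_ext
      · simp only [sl2_mul_apply, sl2U_00, sl2U_01, sl2U_10, sl2U_11, sl2L_00, sl2L_01, sl2L_10,
          sl2L_11, h11, h01]
        linear_combination (-(g.1 0 1)) * hdet
      · simp only [sl2_mul_apply, sl2U_00, sl2U_01, sl2U_10, sl2U_11, sl2L_00, sl2L_01, sl2L_10,
          sl2L_11, h11, h01]
        ring
      · simp only [sl2_mul_apply, sl2U_00, sl2U_01, sl2U_10, sl2U_11, sl2L_00, sl2L_01, sl2L_10,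
          sl2L_11, h11, h01]
        ring
      · simp only [sl2_mul_apply, sl2U_00, sl2U_01, sl2U_10, sl2U_11, sl2L_00, sl2L_01, sl2L_10,
          sl2L_11, h11, h01]
        ring
    have e := congrArg φ key
    rw [map_mul, map_mul, MonoidHom.mem_ker.mp hn, one_mul, mul_one] at e
    exact one_ne_zero (hsep _ _ e.symm).2
  intro g hg
  have d1 := c1 g hg
  have d2 := c2 g hg
  have hn : sl2U 1 * g * sl2U (-1) ∈ φ.ker := by
    rw [MonoidHom.mem_ker] at hg ⊢
    rw [map_mul, map_mul, hg, mul_one, ← map_mul, sl2U_mul, add_neg_cancel, sl2U_zero, map_one]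
  have d3 := c2 _ hn
  simp only [sl2_mul_apply, sl2U_00, sl2U_01, sl2U_10, sl2U_11, d1, d2] at d3
  have d4 : g.1 0 0 = g.1 1 1 := by linear_combination (-1 : K) * d3
  rw [Subgroup.mem_center_iff]
  intro m
  apply sl2_ext <;> simp only [sl2_mul_apply, d1, d2, d4] <;> ring

/-- The kernel of such a homomorphism is trivial or the whole center. -/
theorem sl2_ker_eq (φ : Matrix.SpecialLinearGroup (Fin 2) K →* G)
    (hsep : ∀ t s : K, φ (sl2U t) = φ (sl2L s) → t = 0 ∧ s = 0) :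
    φ.ker = ⊥ ∨ φ.ker = Subgroup.center (Matrix.SpecialLinearGroup (Fin 2) K) := by
  by_cases hb : φ.ker = ⊥
  · exact Or.inl hb
  right
  have hle := sl2_ker_le_center φ hsep
  apply le_antisymm hle
  obtain ⟨⟨g, hg⟩, hg1'⟩ := (Subgroup.ne_bot_iff_exists_ne_one).mp hb
  have hg1 : g ≠ 1 := fun e => hg1' (Subtype.ext e)
  have hgc := hle hg
  rw [Subgroup.mem_center_iff] at hgc
  -- shape of central elements
  have shape : ∀ z : Matrix.SpecialLinearGroup (Fin 2) K, (∀ m, m * z = z * m) →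
      z.1 1 0 = 0 ∧ z.1 0 1 = 0 ∧ z.1 0 0 = z.1 1 1 ∧ (z.1 0 0 = 1 ∨ z.1 0 0 = -1) := by
    intro z hz
    have e1 := hz (sl2U 1)
    have e2 := hz (sl2L 1)
    have a1 := congrArg (fun g : Matrix.SpecialLinearGroup (Fin 2) K => g.1 1 1) e1
    have a2 := congrArg (fun g : Matrix.SpecialLinearGroup (Fin 2) K => g.1 0 1) e1
    have a3 := congrArg (fun g : Matrix.SpecialLinearGroup (Fin 2) K => g.1 0 0) e2
    simp only [sl2_mul_apply, sl2U_00, sl2U_01, sl2U_10, sl2U_11, sl2L_00, sl2L_01, sl2L_10,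
      sl2L_11] at a1 a2 a3
    have z10 : z.1 1 0 = 0 := by linear_combination (-1 : K) * a1
    have z01 : z.1 0 1 = 0 := by linear_combination (-1 : K) * a3
    have z00 : z.1 0 0 = z.1 1 1 := by linear_combination (-1 : K) * a2
    have hdet := sl2_det z
    rw [z10, mul_zero, sub_zero, ← z00] at hdet
    refine ⟨z10, z01, z00, ?_⟩
    have : (z.1 0 0 - 1) * (z.1 0 0 + 1) = 0 := by linear_combination hdet
    rcases mul_eq_zero.mp this with h0 | h0
    · exact Or.inl (by linear_combination h0)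
    · exact Or.inr (by linear_combination h0)
  obtain ⟨g10, g01, g00, gd⟩ := shape g hgc
  have gd' : g.1 0 0 = -1 := by
    rcases gd with h0 | h0
    · exfalso
      apply hg1
      apply sl2_ext <;> simp [sl2_one_apply, g10, g01, ← g00, h0]
    · exact h0
  intro z hz
  rw [Subgroup.mem_center_iff] at hz
  obtain ⟨z10, z01, z00, zd⟩ := shape z hz
  rcases zd with h0 | h0
  · have : z = 1 := by
      apply sl2_ext <;> simp [sl2_one_apply, z10, z01, ← z00, h0]
    rw [this]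
    exact Subgroup.one_mem _
  · have : z = g := by
      apply sl2_ext
      · rw [h0, gd']
      · rw [z01, g01]
      · rw [z10, g10]
      · rw [← z00, ← g00, h0, gd']
    rw [this]
    exact hg

end Ker

end PartP2

section PartP3

variable {G : Type*} [Group G] {A B : Subgroup G} {p : ℕ} [Fact p.Prime]

/-- In a special rank one pair with `A` of prime exponent `p`, the subgroup generated by `a` and
`β(a)⁻¹` is isomorphic to `SL₂(p)` or `PSL₂(p)`. -/
theorem SpecPair.closure_iso (h : SpecPair A B) (hp : ∀ x ∈ A, x ^ p = 1) {a : G} (ha : a ∈ A)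
    (ha1 : a ≠ 1) :
    Nonempty (↥(Subgroup.closure ({a, (betaOf A B a)⁻¹} : Set G)) ≃*
        Matrix.SpecialLinearGroup (Fin 2) (ZMod p)) ∨
    Nonempty (↥(Subgroup.closure ({a, (betaOf A B a)⁻¹} : Set G)) ≃*
        Matrix.ProjectiveSpecialLinearGroup (Fin 2) (ZMod p)) := by
  have hpa : a ^ p = 1 := hp a ha
  have hβ : betaOf A B a ∈ B := h.beta_mem ha ha1
  have hβ1 : betaOf A B a ≠ 1 := h.beta_ne_one ha ha1
  have hpβ : (betaOf A B a) ^ p = 1 := h.pow_eq_one_right hp hβ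
  have : Fact (1 < p) := ⟨(Fact.out : p.Prime).one_lt⟩
  obtain ⟨φ, φX, φY⟩ := st_exists_hom (h.stRel hp ha ha1)
  have hsep : ∀ t s : ZMod p, φ (sl2U t) = φ (sl2L s) → t = 0 ∧ s = 0 := by
    intro t s e
    rw [φX, φY] at e
    have h1 : zp a t = 1 := h.inter_eq_one (zp_mem ha t) (by rw [e]; exact zp_mem hβ _)
    have h2 : zp (betaOf A B a) (-s) = 1 := by rw [← e]; exact h1
    constructor
    · by_contra ht
      exact zp_ne_one hpa ha1 ht h1
    · by_contra hs
      exact zp_ne_one hpβ hβ1 (neg_ne_zero.mpr hs) h2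
  have hrange : φ.range = Subgroup.closure ({a, (betaOf A B a)⁻¹} : Set G) := by
    apply le_antisymm
    · rw [MonoidHom.range_eq_map, ← sl2_generation, Subgroup.map_sup]
      apply sup_le
      · rintro _ ⟨g, hg, rfl⟩
        obtain ⟨t, rfl⟩ := (mem_lowerUnipotentSL2 g).mp hg
        change φ (sl2L t) ∈ _
        rw [φY]
        have hm : betaOf A B a ∈ Subgroup.closure ({a, (betaOf A B a)⁻¹} : Set G) := by
          have := Subgroup.inv_mem _ (Subgroup.subset_closure
            (show (betaOf A B a)⁻¹ ∈ ({a, (betaOf A B a)⁻¹} : Set G) by simp))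
          rwa [inv_inv] at this
        exact zp_mem hm _
      · rintro _ ⟨g, hg, rfl⟩
        obtain ⟨t, rfl⟩ := (mem_upperUnipotentSL2 g).mp hg
        change φ (sl2U t) ∈ _
        rw [φX]
        exact zp_mem (Subgroup.subset_closure (by simp)) _
    · rw [Subgroup.closure_le]
      rintro x (rfl | rfl)
      · exact ⟨sl2U 1, by rw [φX, zp_one]⟩
      · exact ⟨sl2L 1, by rw [φY, zp_neg_one hpβ]⟩
  let φ' : Matrix.SpecialLinearGroup (Fin 2) (ZMod p) →*
      ↥(Subgroup.closure ({a, (betaOf A B a)⁻¹} : Set G)) :=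
    φ.codRestrict _ (fun g => by rw [← hrange]; exact ⟨g, rfl⟩)
  have hsurj : Function.Surjective φ' := by
    rintro ⟨y, hy⟩
    rw [← hrange] at hy
    obtain ⟨g, rfl⟩ := hy
    exact ⟨g, Subtype.ext rfl⟩
  have hker : φ'.ker = φ.ker := MonoidHom.ker_codRestrict _ _ _
  rcases sl2_ker_eq φ hsep with hk | hk
  · left
    have hinj : Function.Injective φ' := by
      rw [← MonoidHom.ker_eq_bot_iff, hker, hk]
    exact ⟨(MulEquiv.ofBijective φ' ⟨hinj, hsurj⟩).symm⟩
  · right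
    have hk' : φ'.ker = Subgroup.center (Matrix.SpecialLinearGroup (Fin 2) (ZMod p)) := by
      rw [hker, hk]
    exact ⟨((QuotientGroup.quotientMulEquivOfEq hk').symm.trans
      (QuotientGroup.quotientKerEquivOfSurjective φ' hsurj)).symm⟩

end PartP3

end Cfsg.Agent.Helper83
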