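import Mathlib
import Cfsg.Agent.Helper83.SL2p
import Cfsg.Agent.Helper83.RankOneGroup
import Cfsg.Agent.Helper83.Quasi

set_option autoImplicit false

namespace Cfsg.Agent.Helper83

open Cfsg
open scoped commutatorElement

/-- The center of `SL₂` over a field of characteristic two is trivial. -/
theorem sl2_center_eq_bot_of_char_two {K : Type*} [Field K] (h2 : (-1 : K) = 1) :
    Subgroup.center (Matrix.SpecialLinearGroup (Fin 2) K) = ⊥ := by
  rw [Subgroup.eq_bot_iff_forall]
  intro z hz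
  rw [Subgroup.mem_center_iff] at hz
  have e1 := hz (sl2U 1)
  have e2 := hz (sl2L 1)
  have a1 := congrArg (fun g : Matrix.SpecialLinearGroup (Fin 2) K => g.1 1 1) e1
  have a2 := congrArg (fun g : Matrix.SpecialLinearGroup (Fin 2) K => g.1 0 1) e1
  have a3 := congrArg (fun g : Matrix.SpecialLinearGroup (Fin 2) K => g.1 0 0) e2
  simp only [sl2_mul_apply, sl2U_00, sl2U_01, sl2U_10, sl2U_11, sl2L_00, sl2L_01,
    sl2L_10] at a1 a2 a3
  have z10 : z.1 1 0 = 0 := by linear_combination (-1 : K) * a1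
  have z01 : z.1 0 1 = 0 := by linear_combination (-1 : K) * a3
  have z00 : z.1 0 0 = z.1 1 1 := by linear_combination (-1 : K) * a2
  have hdet := sl2_det z
  rw [z10, mul_zero, sub_zero, ← z00] at hdet
  have h0 : z.1 0 0 = 1 := by
    have : (z.1 0 0 - 1) * (z.1 0 0 + 1) = 0 := by linear_combination hdet
    rcases mul_eq_zero.mp this with h0 | h0
    · linear_combination h0
    · have h1 : z.1 0 0 = -1 := by linear_combination h0
      rw [h1, h2]
  apply sl2_ext <;> simp [sl2_one_apply, z10, z01, ← z00, h0]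

/-- `PSL₂(2) ≅ SL₂(2)`. -/
theorem psl2_two_equiv :
    Nonempty (Matrix.ProjectiveSpecialLinearGroup (Fin 2) (ZMod 2) ≃*
      Matrix.SpecialLinearGroup (Fin 2) (ZMod 2)) :=
  ⟨(QuotientGroup.quotientMulEquivOfEq
    (sl2_center_eq_bot_of_char_two (K := ZMod 2) (by decide))).trans QuotientGroup.quotientBot⟩

variable {G : Type*} [Group G] {A B : Subgroup G}

namespace SpecPair

theorem iso_of_card_prime (h : SpecPair A B) (htop : A ⊔ B = ⊤) {p : ℕ} [Fact p.Prime]
    (hc : Nat.card A = p) :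
    Nonempty (G ≃* Matrix.SpecialLinearGroup (Fin 2) (ZMod p)) ∨
    Nonempty (G ≃* Matrix.ProjectiveSpecialLinearGroup (Fin 2) (ZMod p)) := by
  obtain ⟨a, ha, ha1⟩ := RO.exists_ne_one_left h.ro
  have hp : ∀ x ∈ A, x ^ p = 1 := by
    intro x hx
    have e : (⟨x, hx⟩ : A) ^ Nat.card A = 1 := pow_card_eq_one'
    rw [hc] at e
    exact congrArg Subtype.val e
  have hz : Subgroup.zpowers (⟨a, ha⟩ : A) = ⊤ :=
    zpowers_eq_top_of_prime_card hc (fun e => ha1 (congrArg Subtype.val e))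
  have hβm : betaOf A B a ∈ Subgroup.closure ({a, (betaOf A B a)⁻¹} : Set G) := by
    have := Subgroup.inv_mem _ (Subgroup.subset_closure
      (show (betaOf A B a)⁻¹ ∈ ({a, (betaOf A B a)⁻¹} : Set G) by simp))
    rwa [inv_inv] at this
  have ham : a ∈ Subgroup.closure ({a, (betaOf A B a)⁻¹} : Set G) :=
    Subgroup.subset_closure (by simp)
  have hA : A ≤ Subgroup.closure ({a, (betaOf A B a)⁻¹} : Set G) := by
    intro x hx
    have hm : (⟨x, hx⟩ : A) ∈ Subgroup.zpowers (⟨a, ha⟩ : A) := by rw [hz]; trivial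
    obtain ⟨k, hk⟩ := Subgroup.mem_zpowers_iff.mp hm
    have e : a ^ k = x := by
      have := congrArg Subtype.val hk
      simpa using this
    rw [← e]
    exact Subgroup.zpow_mem _ ham k
  have hB : B ≤ Subgroup.closure ({a, (betaOf A B a)⁻¹} : Set G) := by
    intro y hy
    rw [← h.conj_A_n ha ha1] at hy
    obtain ⟨x, hx, rfl⟩ := hy
    have hn : nOf A B a ∈ Subgroup.closure ({a, (betaOf A B a)⁻¹} : Set G) :=
      Subgroup.mul_mem _ (Subgroup.mul_mem _ ham hβm) ham
    exact Subgroup.mul_mem _ (Subgroup.mul_mem _ hn (hA hx)) (Subgroup.inv_mem _ hn)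
  have hcl : Subgroup.closure ({a, (betaOf A B a)⁻¹} : Set G) = ⊤ := by
    rw [eq_top_iff, ← htop]
    exact sup_le hA hB
  have e₀ : G ≃* ↥(Subgroup.closure ({a, (betaOf A B a)⁻¹} : Set G)) :=
    Subgroup.topEquiv.symm.trans (MulEquiv.subgroupCongr hcl.symm)
  rcases h.closure_iso hp ha ha1 with ⟨⟨e⟩⟩ | ⟨⟨e⟩⟩
  · exact Or.inl ⟨e₀.trans e⟩
  · exact Or.inr ⟨e₀.trans e⟩

theorem small_iso (h : SpecPair A B) (htop : A ⊔ B = ⊤) (h3 : ENat.card A ≤ 3) :
    Nonempty (G ≃* Matrix.SpecialLinearGroup (Fin 2) (ZMod 2)) ∨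
    Nonempty (G ≃* Matrix.SpecialLinearGroup (Fin 2) (ZMod 3)) ∨
    Nonempty (G ≃* Matrix.ProjectiveSpecialLinearGroup (Fin 2) (ZMod 3)) := by
  have hfin : Finite A := by
    rw [← ENat.card_lt_top]
    exact lt_of_le_of_lt h3 (ENat.natCast_lt_top 3)
  have hle : Nat.card A ≤ 3 := by
    have := Fintype.ofFinite A
    have e : ENat.card A = (Nat.card A : ℕ∞) := by
      rw [ENat.card_eq_coe_fintype_card, Nat.card_eq_fintype_card]
    rw [e] at h3
    exact_mod_cast h3
  have hgt : 1 < Nat.card A := by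
    rw [Subgroup.one_lt_card_iff_ne_bot]
    exact RO.ne_bot_left h.ro
  have hcases : Nat.card A = 2 ∨ Nat.card A = 3 := by omega
  rcases hcases with hc | hc
  · rcases h.iso_of_card_prime htop hc with ⟨⟨e⟩⟩ | ⟨⟨e⟩⟩
    · exact Or.inl ⟨e⟩
    · obtain ⟨e'⟩ := psl2_two_equiv
      exact Or.inl ⟨e.trans e'⟩
  · rcases h.iso_of_card_prime htop hc with ⟨⟨e⟩⟩ | ⟨⟨e⟩⟩
    · exact Or.inr (Or.inl ⟨e⟩)
    · exact Or.inr (Or.inr ⟨e⟩)

theorem large (h : SpecPair A B) (hro : IsRankOneGroup G A B) (h3 : 3 < ENat.card A) :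
    commutator G ⊔ A = ⊤ ∧ IsQuasisimple (commutator G) ∧
      3 < ENat.card ↥(⁅A, rankOneDiagonal A B⁆ : Subgroup G) := by
  have htop : A ⊔ B = ⊤ := hro.1
  obtain ⟨a, ha, ha1⟩ := RO.exists_ne_one_left h.ro
  have hA : A ≤ commutator G := by
    have := h.le_commutator h3
    rwa [htop] at this
  have hB : B ≤ commutator G := by
    intro y hy
    rw [← h.conj_A_n ha ha1] at hy
    obtain ⟨x, hx, rfl⟩ := hy
    exact (inferInstance : (commutator G).Normal).conj_mem x (hA hx) _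
  have hperf : commutator G = ⊤ := by
    rw [eq_top_iff, ← htop]
    exact sup_le hA hB
  refine ⟨by rw [hperf, top_sup_eq], ?_, ?_⟩
  · exact isQuasisimple_of_mulEquiv ((MulEquiv.subgroupCongr hperf).trans Subgroup.topEquiv)
      (ROG.quasisimple hro ⟨hperf⟩)
  · have hle : A ≤ ⁅A, rankOneDiagonal A B⁆ := by
      apply h.muSys.le_of_hua_mem _ _ (exists_three_of_card h3)
      intro a ha ha1 c hc hc1 x hx hx1
      rw [h.mu_hua ha ha1 hc hc1 hx hx1]
      have hgA : conjBy A (nOf A B a * nOf A B c) = A := by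
        rw [← conjBy_conjBy, h.conj_A_n hc hc1, h.conj_B_n ha ha1]
      have hgB : conjBy B (nOf A B a * nOf A B c) = B := by
        rw [← conjBy_conjBy, h.conj_B_n hc hc1, h.conj_A_n ha ha1]
      have hg : nOf A B a * nOf A B c ∈ rankOneDiagonal A B := by
        refine ⟨⟨Subgroup.mul_mem _ (h.n_mem_sup ha ha1) (h.n_mem_sup hc hc1), ?_⟩, ?_⟩
        · exact Subgroup.mem_normalizer_iff_map_conj_eq.mpr hgA
        · exact Subgroup.mem_normalizer_iff_map_conj_eq.mpr hgB
      have e : nOf A B a * nOf A B c * x * (nOf A B a * nOf A B c)⁻¹ * x⁻¹ =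
          ⁅nOf A B a * nOf A B c, x⁆ := (commutatorElement_def _ _).symm
      rw [e, Subgroup.commutator_comm]
      exact Subgroup.commutator_mem_commutator hg hx
    exact lt_of_lt_of_le h3 (ENat.card_le_card_of_injective (Subgroup.inclusion_injective hle))

end SpecPair

end Cfsg.Agent.Helper83
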