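import Mathlib
import Cfsg.Prelude.Def_Characters
import Cfsg.Prelude.Def_Blocks
import Cfsg.Prelude.Def_Local
import Cfsg.Agent.S4468
import Cfsg.Agent.Helper63.PSolv
import Cfsg.Agent.Helper79.Basic
import Cfsg.Agent.Helper83.S4504REDa

/-!
# S4504, piece RED (helper83, double), part b: normal subgroups of `H` not containing `x` are
central (via Ito's theorem S4468 on the `p`-solvable group `⟨x⟩ L`).
-/

set_option autoImplicit false
set_option linter.style.haveILetI false

universe u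

namespace Cfsg.Agent.Helper83

open Cfsg

/-- `U = ⟨x⟩ L` with `L` a normal `p'`-subgroup and a faithful character of degree `(p - 1) / 2`:
`x` centralizes `L` (Ito). -/
theorem red83_ito {U : Type u} [Group U] [Finite U] (p : ℕ) [Fact p.Prime] (x : U)
    (hxp : x ^ p = 1) (L : Subgroup U) (hL : L.Normal) (hcop : (Nat.card L).Coprime p)
    (hgen : ∀ u : U, ∃ i : ℤ, ∃ l ∈ L, u = x ^ i * l) (χ : U → ℂ)
    (hχ : Cfsg.IsCharacter U χ) (hfaith : ∀ g : U, χ g = χ 1 → g = 1)
    (hdeg : 2 * Cfsg.charDegree χ + 1 = p) : ∀ l ∈ L, l * x = x * l := by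
  have hp : p.Prime := Fact.out
  haveI := hL
  have hcyc : IsCyclic (U ⧸ L) := by
    refine ⟨⟨(x : U ⧸ L), ?_⟩⟩
    intro q
    obtain ⟨u, rfl⟩ := QuotientGroup.mk_surjective q
    obtain ⟨i, l, hl, rfl⟩ := hgen u
    refine ⟨i, ?_⟩
    show (x : U ⧸ L) ^ i = ((x ^ i * l : U) : U ⧸ L)
    rw [QuotientGroup.mk_mul, (QuotientGroup.eq_one_iff l).mpr hl, mul_one, QuotientGroup.mk_zpow]
  have hsolQ : Group.IsSolvable (U ⧸ L) := by
    haveI := hcyc
    letI : CommGroup (U ⧸ L) := IsCyclic.commGroup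
    exact Group.isSolvable_of_comm (fun a b => mul_comm a b)
  have hps : Cfsg.IsPSolvable p U :=
    Helper63.PSolv.isPSolvable_extension L (Or.inr hcop)
      (Helper63.PSolv.isPSolvable_of_isSolvable p (U ⧸ L) hsolQ)
  have hxpg : IsPGroup p (Subgroup.zpowers x) := by
    intro y
    refine ⟨1, ?_⟩
    obtain ⟨k, hk⟩ := Subgroup.mem_zpowers_iff.mp y.2
    apply Subtype.ext
    rw [pow_one, Subgroup.coe_pow, Subgroup.coe_one, ← hk, ← zpow_natCast, ← zpow_mul, mul_comm,
      zpow_mul, zpow_natCast, hxp, one_zpow]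
  obtain ⟨P, hP⟩ := hxpg.exists_le_sylow
  have hPn : (P : Subgroup U).Normal := by
    by_contra hPn
    obtain ⟨h1, -, -⟩ := Cfsg.Agent.S4468.result χ hχ hfaith (Cfsg.charDegree χ) rfl p hp hps
      (by omega) P hPn
    have h2 := hp.one_lt
    omega
  intro l hl
  obtain ⟨c, hc⟩ : ∃ c : U, c = x * l * x⁻¹ * l⁻¹ := ⟨_, rfl⟩
  have hxP : x ∈ (P : Subgroup U) := hP (Subgroup.mem_zpowers x)
  have hcP : c ∈ (P : Subgroup U) := by
    have h1 := hPn.conj_mem x⁻¹ (inv_mem hxP) l
    have h2 := mul_mem hxP h1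
    have h3 : x * (l * x⁻¹ * l⁻¹) = c := by
      rw [hc]
      group
    rw [h3] at h2
    exact h2
  have hcL : c ∈ L := by
    have h1 := hL.conj_mem l hl x
    rw [hc]
    exact mul_mem h1 (inv_mem hl)
  have hc1 : c = 1 := by
    obtain ⟨k, hk⟩ := P.2 ⟨c, hcP⟩
    have hk' : c ^ p ^ k = 1 := by
      have h1 := congrArg Subtype.val hk
      simpa using h1
    have hord1 : orderOf c ∣ p ^ k := orderOf_dvd_of_pow_eq_one hk'
    have hord2 : orderOf c ∣ Nat.card L := by
      have h1 : orderOf (⟨c, hcL⟩ : L) ∣ Nat.card L := orderOf_dvd_natCard _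
      rwa [Subgroup.orderOf_mk] at h1
    have hcop2 : (p ^ k).Coprime (Nat.card L) := Nat.Coprime.pow_left k hcop.symm
    have h3 : orderOf c = 1 := Nat.eq_one_of_dvd_coprimes hcop2 hord1 hord2
    exact orderOf_eq_one_iff.mp h3
  rw [hc] at hc1
  have h4 : x * l = l * x := by
    have h5 := congrArg (fun t => t * l * x) hc1
    simpa [mul_assoc] using h5
  exact h4.symm

section nc
variable {G : Type u} [Group G] [Finite G] (p : ℕ) [Fact p.Prime]

/-- a normal subgroup of the normal closure `H` of `x₀` not containing `x₀` is central in `H` -/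
theorem red83_hcen (hsq : ¬ p ^ 2 ∣ Nat.card G) (x₀ : G) (hx : orderOf x₀ = p)
    (H : Subgroup G) (hH : H = Subgroup.normalClosure ({x₀} : Set G)) (x : H)
    (hxx : (x : G) = x₀) (χ : G → ℂ) (hχ : Cfsg.IsCharacter G χ)
    (hfaith : ∀ g : G, χ g = χ 1 → g = 1) (hdeg : 2 * Cfsg.charDegree χ + 1 = p)
    (L : Subgroup H) (hL : L.Normal) (hxL : x ∉ L) : L ≤ Subgroup.center H := by
  have hp : p.Prime := Fact.out
  haveI := hL
  have hox : orderOf x = p := by
    rw [← Subgroup.orderOf_coe, hxx]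
    exact hx
  obtain ⟨U, hU⟩ : ∃ U : Subgroup H, U = Subgroup.zpowers x ⊔ L := ⟨_, rfl⟩
  have hxU : x ∈ U := by
    rw [hU]
    exact (le_sup_left : Subgroup.zpowers x ≤ _) (Subgroup.mem_zpowers x)
  have hLU : L ≤ U := by
    rw [hU]
    exact le_sup_right
  have hsqU : ¬ p ^ 2 ∣ Nat.card U := fun hd =>
    hsq ((hd.trans (Subgroup.card_subgroup_dvd_card U)).trans (Subgroup.card_subgroup_dvd_card H))
  have hoxU : orderOf (⟨x, hxU⟩ : U) = p := by
    rw [Subgroup.orderOf_mk]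
    exact hox
  have hLn : (L.subgroupOf U).Normal := hL.subgroupOf U
  have hxLU : (⟨x, hxU⟩ : U) ∉ L.subgroupOf U := by
    rw [Subgroup.mem_subgroupOf]
    exact hxL
  have hcop := red83_coprime p hsqU (⟨x, hxU⟩ : U) hoxU (L.subgroupOf U) hLn hxLU
  have hgen : ∀ u : U, ∃ i : ℤ, ∃ l ∈ L.subgroupOf U, u = (⟨x, hxU⟩ : U) ^ i * l := by
    intro u
    have hu : (u : H) ∈ Subgroup.zpowers x ⊔ L := by
      rw [← hU]
      exact u.2
    rw [Subgroup.mem_sup_of_normal_right] at hu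
    obtain ⟨y, hy, z, hz, hyz⟩ := hu
    obtain ⟨i, hi⟩ := Subgroup.mem_zpowers_iff.mp hy
    refine ⟨i, ⟨z, hLU hz⟩, Subgroup.mem_subgroupOf.mpr hz, ?_⟩
    apply Subtype.ext
    rw [Subgroup.coe_mul, Subgroup.coe_zpow]
    show (u : H) = x ^ i * z
    rw [hi, hyz]
  have hxpU : (⟨x, hxU⟩ : U) ^ p = 1 := by
    rw [← hoxU]
    exact pow_orderOf_eq_one _
  have hχH : Cfsg.IsCharacter H (fun h : H => χ h) := Helper79.isCharacter_restrict hχ H
  have hχU : Cfsg.IsCharacter U (fun u : U => χ ((u : H) : G)) :=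
    Helper79.isCharacter_restrict hχH U
  have hfaithU : ∀ g : U, (fun u : U => χ ((u : H) : G)) g = (fun u : U => χ ((u : H) : G)) 1 →
      g = 1 := by
    intro g hg
    apply Subtype.ext
    apply Subtype.ext
    exact hfaith _ hg
  have hdegU : 2 * Cfsg.charDegree (fun u : U => χ ((u : H) : G)) + 1 = p := hdeg
  have hcomm : ∀ l ∈ L, l * x = x * l := by
    intro l hl
    have key := red83_ito p (⟨x, hxU⟩ : U) hxpU (L.subgroupOf U) hLn hcop hgen
      (fun u : U => χ ((u : H) : G)) hχU hfaithU hdegU ⟨l, hLU hl⟩ (Subgroup.mem_subgroupOf.mpr hl)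
    exact congrArg Subtype.val key
  have hC : (Subgroup.centralizer (L : Set H)).Normal := inferInstance
  have hxC : x ∈ Subgroup.centralizer (L : Set H) := by
    rw [Subgroup.mem_centralizer_iff]
    intro l hl
    exact hcomm l hl
  have hCtop := red83_htop p hsq x₀ hx H hH x hxx _ hC hxC
  intro l hl
  rw [Subgroup.mem_center_iff]
  intro g
  have hg : g ∈ Subgroup.centralizer (L : Set H) := by
    rw [hCtop]
    trivial
  exact (Subgroup.mem_centralizer_iff.mp hg l hl).symm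

end nc

end Cfsg.Agent.Helper83
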