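import Mathlib
import Cfsg.Prelude.Def_Characters
import Cfsg.Prelude.Def_Blocks
import Cfsg.Agent.S4503
import Cfsg.Agent.Helper8.S4504Defs
import Cfsg.Agent.Helper79.Quotient
import Cfsg.Agent.Helper80.CharIrr
import Cfsg.Agent.Helper15.BergerTools
import Cfsg.Agent.Helper15.BergerB1
import Cfsg.Agent.Helper83.S4504REDa

/-!
# S4504, piece RED (helper83, double), part c: a faithful character of degree `(p - 1) / 2` of a
group satisfying `S4504Grp` is irreducible (S4503 on the quotient by the kernel of a constituent).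
-/

set_option autoImplicit false
set_option linter.style.haveILetI false

universe u

namespace Cfsg.Agent.Helper83

open Cfsg

theorem red83_irr {H : Type u} [Group H] [Finite H] (p : ℕ) [Fact p.Prime] (x : H)
    (hg : Cfsg.Agent.Helper8.S4504Grp p x) (χ : H → ℂ) (hχ : Cfsg.IsCharacter H χ)
    (hfaith : ∀ g : H, χ g = χ 1 → g = 1) (hdeg : 2 * Cfsg.charDegree χ + 1 = p) :
    Cfsg.IsIrrCharacter H χ := by
  classical
  have hp : p.Prime := Fact.out
  haveI : Fintype H := Fintype.ofFinite H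
  haveI : Fintype (Cfsg.IrrCharacter H) := Fintype.ofFinite _
  have hx1 : x ≠ 1 := by
    rintro rfl
    have h1 := hg.hx
    rw [orderOf_one] at h1
    exact hp.one_lt.ne h1
  obtain ⟨m, hm, hdec⟩ := Helper15.char_decomp χ hχ
  have hval : ∀ g, χ g = ∑ φ : Cfsg.IrrCharacter H, (m φ : ℂ) * (φ : H → ℂ) g := by
    intro g
    conv_lhs => rw [hdec]
    simp [Finset.sum_apply]
  -- a constituent nontrivial on `x`
  obtain ⟨ξ, hmξ, hξx⟩ : ∃ ξ : Cfsg.IrrCharacter H, m ξ ≠ 0 ∧
      (ξ : H → ℂ) x ≠ (ξ : H → ℂ) 1 := by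
    by_contra hcon
    apply hx1
    apply hfaith
    rw [hval x, hval 1]
    apply Finset.sum_congr rfl
    intro φ _
    by_cases hm0 : m φ = 0
    · rw [hm0, Nat.cast_zero, zero_mul, zero_mul]
    · congr 1
      by_contra hne
      exact hcon ⟨φ, hm0, hne⟩
  have hξle : Cfsg.charDegree (ξ : H → ℂ) ≤ Cfsg.charDegree χ :=
    Helper15.charDegree_le_of_constituent χ hχ (ξ : H → ℂ) ξ.2
      (by rw [hm]; exact_mod_cast hmξ)
  -- the kernel of `ξ`
  obtain ⟨N, hNn, hN⟩ := Helper80.isCharacter_ker (Helper15.isChar_of_irr ξ.2)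
  haveI := hNn
  have hxN : x ∉ N := fun h => hξx ((hN x).mp h)
  have hNc : N ≤ Subgroup.center H := hg.hcen N hNn hxN
  obtain ⟨ψ, hψ, hψv⟩ := Helper79.exists_irr_deflation N ξ.2 (fun y hy => (hN y).mp hy)
  have hψf : ∀ q : H ⧸ N, ψ q = ψ 1 → q = 1 := by
    intro q hq
    obtain ⟨g, rfl⟩ := QuotientGroup.mk_surjective q
    rw [QuotientGroup.eq_one_iff]
    apply (hN g).mpr
    rw [← hψv g, ← hψv 1]
    exact hq
  have hcard : Nat.card H = Nat.card (H ⧸ N) * Nat.card N :=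
    Subgroup.card_eq_card_quotient_mul_card_subgroup N
  have hcopN : (Nat.card N).Coprime p := red83_coprime p hg.hsq x hg.hx N hNn hxN
  have hpH : p ∣ Nat.card H := by
    rw [← hg.hx]
    exact orderOf_dvd_natCard x
  have hdivQ : p ∣ Nat.card (H ⧸ N) := by
    rw [hcard] at hpH
    exact (Nat.Coprime.dvd_mul_right hcopN.symm).mp hpH
  have hsqQ : ¬ p ^ 2 ∣ Nat.card (H ⧸ N) := by
    intro hd
    apply hg.hsq
    rw [hcard]
    exact Dvd.dvd.mul_right hd _
  have hxq1 : ((x : H) : H ⧸ N) ≠ 1 := by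
    rw [Ne, QuotientGroup.eq_one_iff]
    exact hxN
  have hxqo : orderOf ((x : H) : H ⧸ N) = p := by
    have h1 : orderOf ((x : H) : H ⧸ N) ∣ p := by
      apply orderOf_dvd_of_pow_eq_one
      rw [← QuotientGroup.mk_pow, ← hg.hx, pow_orderOf_eq_one]
      rfl
    rcases (Nat.dvd_prime hp).mp h1 with h2 | h2
    · exact absurd (orderOf_eq_one_iff.mp h2) hxq1
    · exact h2
  have hnnQ : ∀ M : Subgroup (H ⧸ N), M.Normal → Nat.card M ≠ p := by
    intro M hMn hMp
    have hpM : p ∣ Nat.card M := by rw [hMp]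
    obtain ⟨y, hy⟩ := exists_prime_orderOf_dvd_card' p hpM
    have hy' : orderOf (y : H ⧸ N) = p := by
      rw [Subgroup.orderOf_coe]
      exact hy
    obtain ⟨g, hgc⟩ := red83_conj p hsqQ (y : H ⧸ N) ((x : H) : H ⧸ N) hy' hxqo
    have h1 : g * ((x : H) : H ⧸ N) * g⁻¹ ∈ M := (Subgroup.zpowers_le.mpr y.2) hgc
    have h2 := hMn.conj_mem _ h1 g⁻¹
    have h3 : g⁻¹ * (g * ((x : H) : H ⧸ N) * g⁻¹) * g⁻¹⁻¹ = ((x : H) : H ⧸ N) := by group
    rw [h3] at h2
    obtain ⟨M', hM'⟩ : ∃ M' : Subgroup H, M' = M.comap (QuotientGroup.mk' N) := ⟨_, rfl⟩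
    have hM'n : M'.Normal := by
      rw [hM']
      exact hMn.comap _
    have hxM' : x ∈ M' := by
      rw [hM', Subgroup.mem_comap]
      exact h2
    have hM'top := hg.htop M' hM'n hxM'
    have hMtop : M = ⊤ := by
      rw [eq_top_iff]
      intro q _
      obtain ⟨g', rfl⟩ := QuotientGroup.mk_surjective q
      have h4 : g' ∈ M' := by
        rw [hM'top]
        trivial
      rw [hM', Subgroup.mem_comap] at h4
      exact h4
    have hcardQ : Nat.card (H ⧸ N) = p := by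
      rw [← hMp, hMtop, Subgroup.card_top]
    haveI : IsCyclic (H ⧸ N) := isCyclic_of_prime_card hcardQ
    have hcomm : ∀ a b : H, a * b = b * a := by
      have h6 := MonoidHom.isMulCommutative_of_isCyclic_of_ker_le_center (QuotientGroup.mk' N)
        (by rw [QuotientGroup.ker_mk']; exact hNc)
      exact fun a b => h6.is_comm.comm a b
    apply hg.hnn
    constructor
    intro z hz g'
    have h5 : g' * z * g'⁻¹ = z := by rw [hcomm g' z, mul_inv_cancel_right]
    rw [h5]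
    exact hz
  have hS := Cfsg.Agent.S4503.result p hp hdivQ hsqQ hnnQ ψ (Helper15.isChar_of_irr hψ) hψf
  have hψdeg : Cfsg.charDegree ψ = Cfsg.charDegree (ξ : H → ℂ) := by
    unfold Cfsg.charDegree
    rw [← hψv 1]
    rfl
  rw [hψdeg] at hS
  have hdξ : Cfsg.charDegree (ξ : H → ℂ) = Cfsg.charDegree χ := by omega
  have hd0 : 0 < Cfsg.charDegree χ := by
    have h1 := hp.one_lt
    omega
  have hmpos : 0 < m ξ := Nat.pos_of_ne_zero hmξ
  have heq := Helper15.char_eq_smul_of_degree_le χ hχ (ξ : H → ℂ) ξ.2 (m ξ) (hm ξ)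
    (by rw [hdξ]; exact Nat.le_mul_of_pos_left _ hmpos)
  have h1 : χ 1 = (m ξ : ℂ) * (ξ : H → ℂ) 1 := by
    conv_lhs => rw [heq]
    rfl
  rw [Helper80.isCharacter_one_eq hχ, Helper80.irr_one_eq ξ, hdξ] at h1
  have h2 : Cfsg.charDegree χ = m ξ * Cfsg.charDegree χ := by exact_mod_cast h1
  have hm1 : m ξ = 1 := by
    have h3 : 1 * Cfsg.charDegree χ = m ξ * Cfsg.charDegree χ := by rw [one_mul]; exact h2
    exact (Nat.eq_of_mul_eq_mul_right hd0 h3).symm
  rw [hm1, Nat.cast_one, one_smul] at heq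
  rw [heq]
  exact ξ.2

end Cfsg.Agent.Helper83
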