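import Mathlib
import Cfsg.Agent.Helper8.S4504Defs
import Cfsg.Agent.Helper79.Basic
import Cfsg.Agent.Helper83.S4504REDa
import Cfsg.Agent.Helper83.S4504REDb
import Cfsg.Agent.Helper83.S4504REDc

/-!
# S4504, piece RED (helper83, double): reduction to the normal closure of a Sylow `p`-subgroup
-/

set_option autoImplicit false
set_option linter.style.haveILetI false
open Cfsg Cfsg.Agent.Helper8
open scoped ComplexConjugate

universe u

namespace Cfsg.Agent.Helper83

/-- RED -/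
theorem s4504_red {G : Type u} [Group G] [Finite G] (p : ℕ) (hp : p.Prime)
    (hdiv : p ∣ Nat.card G) (hsq : ¬ p ^ 2 ∣ Nat.card G)
    (hnn : ∀ H : Subgroup G, H.Normal → Nat.card H ≠ p) (χ : G → ℂ)
    (hχ : Cfsg.IsCharacter G χ) (hfaith : ∀ g : G, χ g = χ 1 → g = 1)
    (hdeg : 2 * Cfsg.charDegree χ + 1 = p) :
    ∃ (H : Subgroup G) (x : H), H.Normal ∧ S4504Hyp p x (fun h : H => χ (h : G)) ∧
      (∀ g : G, ∃ h ∈ H, ∃ n : G,
        n * (x : G) * n⁻¹ ∈ Subgroup.zpowers (x : G) ∧ g = h * n) := by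
  haveI : Fact p.Prime := ⟨hp⟩
  obtain ⟨x₀, hx⟩ := exists_prime_orderOf_dvd_card' p hdiv
  obtain ⟨H, hH⟩ : ∃ H : Subgroup G, H = Subgroup.normalClosure ({x₀} : Set G) := ⟨_, rfl⟩
  have hHn : H.Normal := by
    rw [hH]
    exact Subgroup.normalClosure_normal
  have hxH : x₀ ∈ H := by
    rw [hH]
    exact Subgroup.subset_normalClosure (Set.mem_singleton x₀)
  obtain ⟨x, hxx⟩ : ∃ x : H, (x : G) = x₀ := ⟨⟨x₀, hxH⟩, rfl⟩
  have hox : orderOf x = p := by
    rw [← Subgroup.orderOf_coe, hxx]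
    exact hx
  have hsqH : ¬ p ^ 2 ∣ Nat.card H :=
    fun hd => hsq (hd.trans (Subgroup.card_subgroup_dvd_card H))
  have hgrp : S4504Grp p x :=
    { hx := hox
      hsq := hsqH
      htop := fun L hL hxL => red83_htop p hsq x₀ hx H hH x hxx L hL hxL
      hcen := fun L hL hxL => red83_hcen p hsq x₀ hx H hH x hxx χ hχ hfaith hdeg L hL hxL
      hnn := red83_hnn p hsq hnn x₀ hx H hH x hxx }
  have hχH : Cfsg.IsCharacter H (fun h : H => χ (h : G)) := Helper79.isCharacter_restrict hχ H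
  have hfaithH : ∀ g : H, (fun h : H => χ (h : G)) g = (fun h : H => χ (h : G)) 1 → g = 1 :=
    fun g hg => Subtype.ext (hfaith g hg)
  have hdegH : 2 * Cfsg.charDegree (fun h : H => χ (h : G)) + 1 = p := hdeg
  refine ⟨H, x, hHn, ⟨hgrp, red83_irr p x hgrp _ hχH hfaithH hdegH, hfaithH, hdegH⟩, ?_⟩
  intro g
  rw [hxx]
  exact red83_frat p hsq x₀ hx H hH g

end Cfsg.Agent.Helper83
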