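import Mathlib
import Cfsg.Prelude.Def_RootSubgroups
import Cfsg.Agent.Helper83.LineTrans

set_option autoImplicit false

namespace Cfsg.Agent.Helper83

open Cfsg
open scoped commutatorElement

variable {G : Type*} [Group G]

/-- In a triangle (`A`, `C` commuting, `B` a rank one partner of both), the element of `C`
attached to `b₀ ∈ B` is characterised by a commutation property. -/
theorem triangle_unique {A B C : Subgroup G} (hAB : IsRankOnePair A B) (hCB : IsRankOnePair C B)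
    (hAC : ∀ a ∈ A, ∀ c ∈ C, a * c = c * a) {a₀ b₀ c₀ : G} (hb₀ : b₀ ∈ B)
    (hab : conjBy A b₀⁻¹ = conjBy B a₀⁻¹) (hc₀ : c₀ ∈ C)
    (hcomm : ∀ x ∈ conjBy B a₀⁻¹, ∀ y ∈ conjBy B c₀⁻¹, x * y = y * x) :
    conjBy B c₀⁻¹ = conjBy C b₀⁻¹ := by
  by_cases hc1 : c₀ = 1
  · exfalso
    rw [hc1, inv_one, conjBy_one, ← hab] at hcomm
    have h1 := commute_conjBy hcomm b₀
    rw [conjBy_cancel_inv, conjBy_of_mem hb₀] at h1
    exact RO.commutator_ne_bot hAB (commutator_eq_bot_of_commute h1)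
  · obtain ⟨b₁, hb₁, hb₁1, e₁⟩ := hCB.cond_left c₀ hc₀ hc1
    by_cases hbb : b₁ = b₀
    · rw [← hbb]; exact e₁.symm
    · exfalso
      rw [← hab, ← e₁] at hcomm
      have h1 := commute_conjBy hcomm b₁
      rw [conjBy_cancel_inv, conjBy_conjBy] at h1
      have hb₃ : b₀ * b₁⁻¹ ∈ B := B.mul_mem hb₀ (B.inv_mem hb₁)
      have hb₃1 : b₀ * b₁⁻¹ ≠ 1 := by
        intro e
        exact hbb (mul_inv_eq_one.mp e).symm
      obtain ⟨a₃, ha₃, ha₃1, e₃⟩ := hAB.cond_right _ hb₃ hb₃1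
      have e4 : (b₀ * b₁⁻¹)⁻¹ = b₁ * b₀⁻¹ := by group
      rw [e4] at e₃
      rw [← e₃] at h1
      have h2 := commute_conjBy h1 a₃
      rw [conjBy_cancel_inv] at h2
      have h3 : conjBy C a₃ = C := conjBy_eq_of_commute (fun c hc => hAC a₃ ha₃ c hc)
      rw [h3] at h2
      exact RO.commutator_ne_bot hCB
        (commutator_eq_bot_of_commute (fun c hc b hb => (h2 b hb c hc).symm))

/-- Two commuting subgroups with a common rank one partner are interchanged by some element. -/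
theorem exists_swap {A B C : Subgroup G} (hAB : IsRankOnePair A B) (hCB : IsRankOnePair C B)
    (hAC : ∀ a ∈ A, ∀ c ∈ C, a * c = c * a) : ∃ x : G, conjBy A x = C ∧ conjBy C x = A := by
  obtain ⟨a, ha, ha1⟩ := RO.exists_ne_one_left hAB
  obtain ⟨b, hb, hb1, e₁⟩ := hAB.cond_left a ha ha1
  obtain ⟨c, hc, hc1, e₂⟩ := hCB.cond_right b hb hb1
  have hai : a⁻¹ ∈ A := A.inv_mem ha
  have hai1 : a⁻¹ ≠ 1 := fun e => ha1 (inv_eq_one.mp e)
  obtain ⟨b', hb', hb'1, e₃⟩ := hAB.cond_left a⁻¹ hai hai1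
  have hac : a * c = c * a := hAC a ha c hc
  have hcomm1 : ∀ x ∈ conjBy B a⁻¹, ∀ y ∈ conjBy B c⁻¹, x * y = y * x := by
    rw [← e₁, e₂]
    exact commute_conjBy hAC b⁻¹
  have hcomm2 : ∀ x ∈ conjBy B (a⁻¹)⁻¹, ∀ y ∈ conjBy B (c⁻¹)⁻¹, x * y = y * x := by
    have h1 := commute_conjBy hcomm1 (a * c)
    rw [conjBy_conjBy, conjBy_conjBy] at h1
    have e4 : a * c * a⁻¹ = (c⁻¹)⁻¹ := by rw [hac]; group
    have e5 : a * c * c⁻¹ = (a⁻¹)⁻¹ := by group
    rw [e4, e5] at h1
    exact fun x hx y hy => (h1 y hy x hx).symm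
  have e₄ : conjBy B (c⁻¹)⁻¹ = conjBy C b'⁻¹ :=
    triangle_unique hAB hCB hAC hb' e₃ (C.inv_mem hc) hcomm2
  refine ⟨b * (c⁻¹ * a⁻¹) * b'⁻¹, ?_, ?_⟩
  · have e5 : conjBy A (b * (c⁻¹ * a⁻¹) * b'⁻¹)
        = conjBy (conjBy (conjBy A b'⁻¹) (c⁻¹ * a⁻¹)) b := by
      rw [conjBy_conjBy, conjBy_conjBy]
    have e6 : c⁻¹ * a⁻¹ * (a⁻¹)⁻¹ = c⁻¹ := by group
    have s1 : conjBy (conjBy B (a⁻¹)⁻¹) (c⁻¹ * a⁻¹) = conjBy B c⁻¹ := by
      rw [conjBy_conjBy, e6]
    rw [e5, e₃, s1, e₂, conjBy_cancel_inv]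
  · have e5 : conjBy C (b * (c⁻¹ * a⁻¹) * b'⁻¹)
        = conjBy (conjBy (conjBy C b'⁻¹) (c⁻¹ * a⁻¹)) b := by
      rw [conjBy_conjBy, conjBy_conjBy]
    have e6 : c⁻¹ * a⁻¹ * (c⁻¹)⁻¹ = a⁻¹ := by
      calc c⁻¹ * a⁻¹ * (c⁻¹)⁻¹ = c⁻¹ * a⁻¹ * (c * a) * a⁻¹ := by group
        _ = c⁻¹ * a⁻¹ * (a * c) * a⁻¹ := by rw [hac]
        _ = a⁻¹ := by group
    have s1 : conjBy (conjBy B (c⁻¹)⁻¹) (c⁻¹ * a⁻¹) = conjBy B a⁻¹ := by
      rw [conjBy_conjBy, e6]
    rw [e5, ← e₄, s1, ← e₁, conjBy_cancel_inv]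

/-- For a pair `(A, C)` in the commutator case, some rank one partner of `A` commutes with `C`. -/
theorem exists_rankOne_commuting_of_cc {S : Set (Subgroup G)} (hS : IsRootSubgroupSet S)
    (hpart : ∀ E ∈ S, ∃ D ∈ S, IsRankOnePair E D) {A C : Subgroup G} (hA : A ∈ S) (hC : C ∈ S)
    (hcc : CC S A C) : ∃ K ∈ S, IsRankOnePair A K ∧ ⁅C, K⁆ = ⊥ := by
  obtain ⟨DC, hDC, hCDC⟩ := hpart C hC
  have hccs : CC S C A := hcc.symm
  have hL : ⁅A, C⁆ ∈ S := hcc.mem
  have hCL : C ∈ linePartners S ⁅A, C⁆ := by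
    have h1 := hccs.linePartner hS hC hDC hCDC
    rwa [Subgroup.commutator_comm C A] at h1
  obtain ⟨c₀, hc₀, K₀, hK₀, F, hF, hc₀L, hsup, hLF, hccL, hLK⟩ :=
    line_point_structure hS hpart hL hCL
  have hc₀le : c₀ ≤ C ⊔ ⁅C, A⁆ := by
    rw [Subgroup.commutator_comm C A, sup_comm, ← hsup]
    exact le_sup_right
  rcases hccs.members hS hC hDC hCDC hc₀ hc₀le with e | ⟨a, ha, e⟩
  · exact absurd (e.trans (Subgroup.commutator_comm C A)) hc₀L
  · have hLa : conjBy ⁅A, C⁆ a⁻¹ = ⁅A, C⁆ := by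
      apply conjBy_eq_of_commute
      intro x hx
      have := hcc.commute_left (A.inv_mem ha) hx
      exact this.symm
    have hccK : CC S ⁅A, C⁆ (conjBy K₀ a⁻¹) := by
      have h1 := CC.conj hS hccL a⁻¹
      rwa [hLa] at h1
    have hLK' : ⁅⁅A, C⁆, conjBy K₀ a⁻¹⁆ = C := by
      have h1 : ⁅conjBy ⁅A, C⁆ a⁻¹, conjBy K₀ a⁻¹⁆ = conjBy ⁅⁅A, C⁆, K₀⁆ a⁻¹ :=
        conjBy_commutator _ _ _
      rw [hLa, hLK, e, conjBy_inv_cancel] at h1
      exact h1
    have hKS : conjBy K₀ a⁻¹ ∈ S := hS.conj_mem K₀ hK₀ a⁻¹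
    have cfg : Cfg S ⁅A, C⁆ (conjBy K₀ a⁻¹) A :=
      ⟨hS, hL, hKS, by rw [hLK']; exact hC, hA, by rw [hLK']⟩
    refine ⟨conjBy K₀ a⁻¹, hKS, RankOnePair_symm cfg.rankOne, ?_⟩
    apply commutator_eq_bot_of_commute
    intro c hc k hk
    rw [← hLK'] at hc
    exact hccK.commute_right hk hc


theorem mem_centralizingMembers_iff {S : Set (Subgroup G)} {E U : Subgroup G} :
    E ∈ centralizingMembers S U ↔ E ∈ S ∧ ∀ e ∈ E, ∀ u ∈ U, e * u = u * e := by
  constructor
  · rintro ⟨hE, hle⟩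
    refine ⟨hE, fun e he u hu => ?_⟩
    exact (Subgroup.mem_centralizer_iff.mp (hle he) u hu).symm
  · rintro ⟨hE, h⟩
    refine ⟨hE, fun e he => ?_⟩
    rw [Subgroup.mem_centralizer_iff]
    intro u hu
    exact (h e he u hu).symm

theorem centralizingMembers_conj {S : Set (Subgroup G)} (hS : IsRootSubgroupSet S)
    {E U : Subgroup G} (h : E ∈ centralizingMembers S U) (g : G) :
    conjBy E g ∈ centralizingMembers S (conjBy U g) := by
  rw [mem_centralizingMembers_iff] at h ⊢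
  exact ⟨hS.conj_mem E h.1 g, commute_conjBy h.2 g⟩

/-- A class of abstract root subgroups with more than one member that is degenerate or
non-degenerate: every member has a rank one partner. -/
theorem exists_rankOne_pair_of_class {S : Set (Subgroup G)} (hS : IsRootSubgroupClass S)
    (hdn : IsDegenerateRootSet S ∨ IsNondegenerateRootSet S) {A C : Subgroup G} (hA : A ∈ S)
    (hC : C ∈ S) (hAC : A ≠ C) : ∀ E ∈ S, ∃ D ∈ S, IsRankOnePair E D := by
  rcases hdn with hd | hnd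
  · by_contra hcon
    have hno : ∀ P ∈ S, ∀ Q ∈ S, ¬ IsRankOnePair P Q := by
      intro P hP Q hQ hPQ
      exact hcon (class_partner hS hP hQ hPQ)
    have hall : ∀ P ∈ S, ∀ Q ∈ S, ⁅P, Q⁆ = ⊥ := by
      intro P hP Q hQ
      rcases hS.1.pair P hP Q hQ with h | h | h
      · exact h
      · exact absurd h (hno P hP Q hQ)
      · exact absurd h (hd P hP Q hQ)
    obtain ⟨g, hg⟩ := hS.2.2 A hA C hC
    have hfix : ∀ x ∈ ⨆ E ∈ S, E, conjBy A x = A := by
      apply biSup_induction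
      · intro D hD x hx
        apply conjBy_eq_of_commute
        intro a ha
        exact (commute_of_commutator_eq_bot (hall A hA D hD) ha hx).symm
      · exact conjBy_one A
      · intro x y hx hy
        rw [← conjBy_conjBy, hy, hx]
    have hgm : g ∈ ⨆ E ∈ S, E := by rw [hS.1.generates]; trivial
    exact hAC ((hfix g hgm).symm.trans hg.symm)
  · obtain ⟨P, hP, Q, hQ, hPQ⟩ := hnd.2.1
    exact class_partner hS hP hQ hPQ

/-- Inclusions between the sets of commuting members, resp. of rank one partners, of two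
members of a class are equalities. -/
theorem class_inclusions {S : Set (Subgroup G)} (hS : IsRootSubgroupClass S)
    (hdn : IsDegenerateRootSet S ∨ IsNondegenerateRootSet S)
    {A C : Subgroup G} (hA : A ∈ S) (hC : C ∈ S) (hAC : A ≠ C) :
    (centralizingMembers S A ⊆ centralizingMembers S C →
      centralizingMembers S A = centralizingMembers S C) ∧
    (rankOnePartners S A ⊆ rankOnePartners S C →
      ⁅A, C⁆ = ⊥ ∧ rankOnePartners S A = rankOnePartners S C) := by
  have hpart := exists_rankOne_pair_of_class hS hdn hA hC hAC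
  have hS' := hS.1
  constructor
  · intro hsub
    have hAA : A ∈ centralizingMembers S A := by
      rw [mem_centralizingMembers_iff]
      exact ⟨hA, fun a ha a' ha' => comm_of_isMulCommutative (hS'.commutative A hA) ha ha'⟩
    have hac : ∀ a ∈ A, ∀ c ∈ C, a * c = c * a :=
      (mem_centralizingMembers_iff.mp (hsub hAA)).2
    obtain ⟨B, hB, hCB⟩ := hpart C hC
    have hAB : IsRankOnePair A B := by
      rcases hS'.pair A hA B hB with h | h | h
      · exfalso
        have hBA : B ∈ centralizingMembers S A := by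
          rw [mem_centralizingMembers_iff]
          exact ⟨hB, fun b hb a ha => (commute_of_commutator_eq_bot h ha hb).symm⟩
        have hBC := (mem_centralizingMembers_iff.mp (hsub hBA)).2
        apply RO.commutator_ne_bot hCB
        apply commutator_eq_bot_of_commute
        intro c hc b hb
        exact (hBC b hb c hc).symm
      · exact h
      · exfalso
        have hBA : ⁅B, A⁆ ∈ S := by rw [Subgroup.commutator_comm B A]; exact h.1
        have hCA : ⁅C, A⁆ = ⊥ :=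
          commutator_eq_bot_of_commute (fun c hc a ha => (hac a ha c hc).symm)
        have cfg := cfg_of_commutator_partner hS' hpart hC hB hCB hA hCA hBA
        have hcc := CC.of h
        have hKA : ⁅A, B⁆ ∈ centralizingMembers S A := by
          rw [mem_centralizingMembers_iff]
          exact ⟨hcc.mem, fun k hk a ha => hcc.commute_left ha hk⟩
        have hKC := (mem_centralizingMembers_iff.mp (hsub hKA)).2
        apply hS'.ne_bot _ cfg.hC
        apply commutator_eq_bot_of_commute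
        intro k hk c hc
        exact hKC k hk c hc
    obtain ⟨x, hx1, hx2⟩ := exists_swap hAB hCB hac
    apply Set.Subset.antisymm hsub
    intro E hE
    have h1 := centralizingMembers_conj hS' hE x⁻¹
    rw [← conjBy_eq_iff.mp hx1] at h1
    have h2 := centralizingMembers_conj hS' (hsub h1) x
    rwa [hx2, conjBy_cancel_inv] at h2
  · intro hsub
    have hcomm : ⁅A, C⁆ = ⊥ := by
      rcases hS'.pair A hA C hC with h | h | h
      · exact h
      · exact absurd rfl (hsub ⟨hC, h⟩).2.ne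
      · exfalso
        obtain ⟨K, hK, hAK, hCK⟩ := exists_rankOne_commuting_of_cc hS' hpart hA hC (CC.of h)
        exact RO.commutator_ne_bot (hsub ⟨hK, hAK⟩).2 hCK
    refine ⟨hcomm, ?_⟩
    have hac : ∀ a ∈ A, ∀ c ∈ C, a * c = c * a :=
      fun a ha c hc => commute_of_commutator_eq_bot hcomm ha hc
    obtain ⟨B, hB, hAB⟩ := hpart A hA
    have hCB : IsRankOnePair C B := (hsub ⟨hB, hAB⟩).2
    obtain ⟨x, hx1, hx2⟩ := exists_swap hAB hCB hac
    apply Set.Subset.antisymm hsub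
    rintro E ⟨hE, hCE⟩
    have h1 : IsRankOnePair A (conjBy E x⁻¹) := by
      have h0 := RO.conj hCE x⁻¹
      rwa [← conjBy_eq_iff.mp hx1] at h0
    have h2 : IsRankOnePair C (conjBy E x⁻¹) := (hsub ⟨hS'.conj_mem E hE x⁻¹, h1⟩).2
    have h3 := RO.conj h2 x
    rw [hx2, conjBy_cancel_inv] at h3
    exact ⟨hE, h3⟩

end Cfsg.Agent.Helper83
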