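import Mathlib
import Cfsg.Agent.Helper26.TERANK

/-!
helper83: PIECE RANK2 of CALL S5980 (helper98): a Kronecker product `A ⊗ B` with
`rank (A ⊗ B - 1) < min a b` is the identity.
-/

set_option autoImplicit false

namespace Cfsg.Agent.Helper83.TFRANK2

open Matrix Polynomial
open scoped Kronecker

theorem kron_rank_min {F : Type*} [Field F] {a b : ℕ} (A : Matrix (Fin a) (Fin a) F)
    (B : Matrix (Fin b) (Fin b) F) (ha : (A ⊗ₖ B - 1).rank < a) (hb : (A ⊗ₖ B - 1).rank < b) :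
    A ⊗ₖ B = 1 := by
  rcases le_total a b with hab | hba
  · exact Cfsg.Agent.Helper26.TERANK.kron_rank hab A B ha
  · have hsub : B ⊗ₖ A - 1 =
        (A ⊗ₖ B - 1).submatrix (Equiv.prodComm (Fin b) (Fin a)) (Equiv.prodComm (Fin b) (Fin a)) := by
      ext ⟨i, k⟩ ⟨j, l⟩
      simp [Matrix.sub_apply, Matrix.one_apply, Matrix.kroneckerMap_apply, mul_comm, Prod.ext_iff,
        and_comm]
    have hr : (B ⊗ₖ A - 1).rank = (A ⊗ₖ B - 1).rank := by rw [hsub, Matrix.rank_submatrix]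
    have h1 : B ⊗ₖ A = 1 := Cfsg.Agent.Helper26.TERANK.kron_rank hba B A (by rw [hr]; exact hb)
    ext ⟨i, k⟩ ⟨j, l⟩
    have h2 := congrFun (congrFun h1 (k, i)) (l, j)
    simp only [Matrix.kroneckerMap_apply, Matrix.one_apply, Prod.mk.injEq] at h2 ⊢
    rw [mul_comm, h2]
    simp only [and_comm]

end Cfsg.Agent.Helper83.TFRANK2
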