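import Mathlib
import Cfsg.Agent.Helper83.TG0

/-!
# Piece E2 of helper11's CALL S2951: a 2-group of order at least 16 with a self-centralizing
four-group has no normal four-subgroup (`no_normal_four`).
-/

set_option autoImplicit false

namespace Cfsg.Agent.Helper83

variable {G : Type*} [Group G]

theorem no_normal_four [Finite G] (S V U : Subgroup G) (hS : IsPGroup 2 S) (hVS : V ≤ S)
    (hV : Nat.card V = 4) (hVe : ∀ v ∈ V, v * v = 1)
    (hCV : S ⊓ Subgroup.centralizer (V : Set G) ≤ V) (h16 : 16 ≤ Nat.card S) (hUS : U ≤ S)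
    (hUn : S ≤ Subgroup.normalizer (U : Set G)) (hU : Nat.card U = 4)
    (hUe : ∀ u ∈ U, u * u = 1) : False := by
  classical
  have hUbot : U ≠ ⊥ := by
    intro h
    rw [h, Subgroup.card_bot] at hU
    omega
  obtain ⟨z, hzU, hz1, hzc⟩ := tg_exists_central S U hS hUS hUn hUbot
  have hzS : z ∈ S := hUS hzU
  have hzz : z * z = 1 := hUe z hzU
  have hzV : z ∈ V := hCV (Subgroup.mem_inf.2 ⟨hzS, Subgroup.mem_centralizer_iff.2
    (fun w hw => hzc w (hVS hw))⟩)
  obtain ⟨a, haU, ha1, haz⟩ := tg_four_exists U hU z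
  obtain ⟨v, hvV, hv1, hvz⟩ := tg_four_exists V hV z
  have hUen := tg_four_enum U hU hzU haU hz1 ha1 haz hzz
  have hVen := tg_four_enum V hV hzV hvV hz1 hv1 hvz hzz
  have haS : a ∈ S := hUS haU
  have hvS : v ∈ S := hVS hvV
  have hvv : v * v = 1 := hVe v hvV
  have hvinv : v⁻¹ = v := inv_eq_of_mul_eq_one_left hvv
  have haa : a * a = 1 := hUe a haU
  -- the centralizer of `v` in `S` lies in `V`
  have hCv : ∀ s ∈ S, s * v = v * s → s ∈ V := by
    intro s hs hsv
    apply hCV
    refine Subgroup.mem_inf.2 ⟨hs, Subgroup.mem_centralizer_iff.2 ?_⟩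
    intro w hw
    rcases hVen w hw with rfl | rfl | rfl | rfl
    · simp
    · exact (hzc s hs).symm
    · exact hsv.symm
    · rw [mul_assoc, ← hsv, ← mul_assoc, ← hzc s hs, mul_assoc]
  have hconj := tg_conj_cases S U hUn hUen hzc haU ha1 haz
  -- an element of `S` that commutes with `a` centralizes `U`
  have hCU : ∀ s ∈ S, s * a = a * s → ∀ u ∈ U, s * u = u * s := by
    intro s hs hsa u hu
    rcases hUen u hu with rfl | rfl | rfl | rfl
    · simp
    · exact hzc s hs
    · exact hsa
    · rw [← mul_assoc, hzc s hs, mul_assoc, hsa, ← mul_assoc]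
  -- two elements of `S` not commuting with `a` differ by an element commuting with `a`
  have hkey : ∀ s ∈ S, ∀ t ∈ S, s * a * s⁻¹ = z * a → t * a * t⁻¹ = z * a →
      (s⁻¹ * t) * a = a * (s⁻¹ * t) := by
    intro s hs t ht h1 h2
    have e1 : s⁻¹ * (z * a) * s = a := by rw [← h1]; group
    have e2 : (s⁻¹ * t) * a * (s⁻¹ * t)⁻¹ = a := by
      calc (s⁻¹ * t) * a * (s⁻¹ * t)⁻¹ = s⁻¹ * (t * a * t⁻¹) * s := by group
        _ = s⁻¹ * (z * a) * s := by rw [h2]
        _ = a := e1
    calc (s⁻¹ * t) * a = ((s⁻¹ * t) * a * (s⁻¹ * t)⁻¹) * (s⁻¹ * t) := by group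
      _ = a * (s⁻¹ * t) := by rw [e2]
  have hnc : ∀ s ∈ S, ¬ (s * a = a * s) → s * a * s⁻¹ = z * a := by
    intro s hs hne
    rcases hconj s hs with h | h
    · exfalso
      apply hne
      calc s * a = (s * a * s⁻¹) * s := by group
        _ = a * s := by rw [h]
    · exact h
  by_cases hva : v * a = a * v
  · -- then `a ∈ V`, `U = V` and `|S| ≤ 8`
    have haV : a ∈ V := hCv a haS hva.symm
    have hCa : ∀ s ∈ S, s * a = a * s → s ∈ V := by
      intro s hs hsa
      rcases hVen a haV with h | h | h | h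
      · exact absurd h ha1
      · exact absurd h haz
      · rw [h] at hsa
        exact hCv s hs hsa
      · apply hCv s hs
        -- `v = z * a`
        have hv : v = z * a := by
          rw [h, ← mul_assoc, hzz, one_mul]
        rw [hv, ← mul_assoc, hzc s hs, mul_assoc, hsa, ← mul_assoc]
    have hcard : Nat.card S ≤ 2 * Nat.card V := by
      apply tg_card_le_two_mul S V hVS
      intro s hs t ht hsV htV
      apply hCa _ (S.mul_mem (S.inv_mem hs) ht)
      exact hkey s hs t ht (hnc s hs (fun h => hsV (hCa s hs h))) (hnc t ht (fun h => htV (hCa t ht h)))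
    omega
  · -- `v` does not commute with `a`
    have hvconj : v * a * v⁻¹ = z * a := hnc v hvS hva
    have hvconj' : v * a * v = z * a := by rw [← hvconj, hvinv]
    have hvz' : v * z = z * v := hzc v hvS
    -- the centralizer `C` of `a` in `S`
    have hCS : S ⊓ Subgroup.centralizer ({a} : Set G) ≤ S := inf_le_left
    have hmemC : ∀ s, s ∈ S ⊓ Subgroup.centralizer ({a} : Set G) ↔ s ∈ S ∧ s * a = a * s := by
      intro s
      rw [Subgroup.mem_inf, Subgroup.mem_centralizer_singleton_iff]
    have hcard : Nat.card S ≤ 2 * Nat.card (S ⊓ Subgroup.centralizer ({a} : Set G) : Subgroup G) := by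
      apply tg_card_le_two_mul S _ hCS
      intro s hs t ht hsC htC
      rw [hmemC]
      refine ⟨S.mul_mem (S.inv_mem hs) ht, ?_⟩
      exact hkey s hs t ht (hnc s hs (fun h => hsC ((hmemC s).2 ⟨hs, h⟩)))
        (hnc t ht (fun h => htC ((hmemC t).2 ⟨ht, h⟩)))
    have hC8 : 8 ≤ Nat.card (S ⊓ Subgroup.centralizer ({a} : Set G) : Subgroup G) := by omega
    -- an element `c ∈ C ∖ U` with `c⁻¹ v⁻¹ c v ∈ U`
    have hex : ∃ c ∈ S, c * a = a * c ∧ c ∉ U ∧ c⁻¹ * v⁻¹ * c * v ∈ U := by
      have hne : ¬ S ≤ U := by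
        intro hle
        have : Nat.card S ≤ Nat.card U := Subgroup.card_le_of_le hle
        omega
      obtain ⟨x, hxS, hxU, hx⟩ := tg_exists_central_mod S U hS hUS hUn hne
      by_cases hxa : x * a = a * x
      · refine ⟨x, hxS, hxa, hxU, ?_⟩
        exact hx v hvS
      · have hxconj : x * a * x⁻¹ = z * a := hnc x hxS hxa
        have hxva : (x * v) * a = a * (x * v) := by
          have e : (x * v) * a * (x * v)⁻¹ = a := by
            calc (x * v) * a * (x * v)⁻¹ = x * (v * a * v⁻¹) * x⁻¹ := by group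
              _ = x * (z * a) * x⁻¹ := by rw [hvconj]
              _ = (x * z * x⁻¹) * (x * a * x⁻¹) := by group
              _ = z * (z * a) := by
                have e3 : x * z * x⁻¹ = z := by
                  rw [hzc x hxS, mul_assoc, mul_inv_cancel, mul_one]
                rw [e3, hxconj]
              _ = a := by rw [← mul_assoc, hzz, one_mul]
          calc (x * v) * a = ((x * v) * a * (x * v)⁻¹) * (x * v) := by group
            _ = a * (x * v) := by rw [e]
        by_cases hxvU : x * v ∈ U
        · -- then `v` is central modulo `U`; take any `c ∈ C ∖ U`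
          have hlt : (U : Set G).ncard <
              ((S ⊓ Subgroup.centralizer ({a} : Set G) : Subgroup G) : Set G).ncard := by
            have h1 : (U : Set G).ncard = Nat.card U := rfl
            have h2 : ((S ⊓ Subgroup.centralizer ({a} : Set G) : Subgroup G) : Set G).ncard =
                Nat.card (S ⊓ Subgroup.centralizer ({a} : Set G) : Subgroup G) := rfl
            omega
          obtain ⟨c, hcC, hcU⟩ := Set.exists_mem_notMem_of_ncard_lt_ncard hlt (Set.toFinite _)
          have hcC' := (hmemC c).1 hcC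
          refine ⟨c, hcC'.1, hcC'.2, hcU, ?_⟩
          have h1 := hx c hcC'.1
          -- `x = (x * v) * v⁻¹` and `c` commutes with `x * v ∈ U`
          have hcomm : c * (x * v) = (x * v) * c := hCU c hcC'.1 hcC'.2 _ hxvU
          have h2 : x⁻¹ * c⁻¹ * x * c = v⁻¹ * c⁻¹ * v * c := by
            have e1 : x = (x * v) * v⁻¹ := by group
            have e2 : c⁻¹ * (x * v) = (x * v) * c⁻¹ := by
              calc c⁻¹ * (x * v) = c⁻¹ * ((x * v) * c) * c⁻¹ := by group
                _ = c⁻¹ * (c * (x * v)) * c⁻¹ := by rw [hcomm]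
                _ = (x * v) * c⁻¹ := by group
            calc x⁻¹ * c⁻¹ * x * c = v * (x * v)⁻¹ * (c⁻¹ * (x * v)) * v⁻¹ * c := by group
              _ = v * (x * v)⁻¹ * ((x * v) * c⁻¹) * v⁻¹ * c := by rw [e2]
              _ = v * c⁻¹ * v⁻¹ * c := by group
              _ = v⁻¹ * c⁻¹ * v * c := by rw [hvinv]
          rw [h2] at h1
          have h3 : c⁻¹ * v⁻¹ * c * v = (v⁻¹ * c⁻¹ * v * c)⁻¹ := by group
          rw [h3]
          exact U.inv_mem h1
        · refine ⟨x * v, S.mul_mem hxS hvS, hxva, hxvU, ?_⟩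
          have h1 := hx v hvS
          have h2 : (x * v)⁻¹ * v⁻¹ * (x * v) * v = v⁻¹ * (x⁻¹ * v⁻¹ * x * v) * v := by group
          rw [h2]
          exact ((Subgroup.mem_normalizer_iff'').1 (hUn hvS) _).1 h1
    obtain ⟨c, hcS, hca, hcU, hu₀⟩ := hex
    -- `u₀ := c⁻¹ v⁻¹ c v` commutes with `v`
    have hu₀v : v * (c⁻¹ * v⁻¹ * c * v) * v⁻¹ = c⁻¹ * v⁻¹ * c * v := by
      have e1 : v * (c⁻¹ * v⁻¹ * c * v) * v⁻¹ = (c⁻¹ * v * c * v⁻¹)⁻¹ := by group
      have e2 : c⁻¹ * v * c * v⁻¹ = c⁻¹ * v⁻¹ * c * v := by rw [hvinv]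
      rw [e1, e2]
      exact inv_eq_of_mul_eq_one_left (hUe _ hu₀)
    have hcomm_of : ∀ u : G, v * u * v⁻¹ = u → v * u = u * v := by
      intro u h
      calc v * u = (v * u * v⁻¹) * v := by group
        _ = u * v := by rw [h]
    have hu₀v' := hcomm_of _ hu₀v
    -- an element of `V` commuting with `a` lies in `U`
    have hVa : ∀ w ∈ V, w * a = a * w → w ∈ U := by
      intro w hw hwa
      rcases hVen w hw with rfl | rfl | rfl | rfl
      · exact U.one_mem
      · exact hzU
      · exact absurd hwa hva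
      · exfalso
        apply hva
        have hv : v = z * (z * v) := by rw [← mul_assoc, hzz, one_mul]
        have hza : z * a = a * z := (hzc a haS).symm
        calc v * a = z * ((z * v) * a) := by rw [← mul_assoc, ← mul_assoc, hzz, one_mul]
          _ = z * (a * (z * v)) := by rw [hwa]
          _ = a * (z * (z * v)) := by rw [← mul_assoc, hza, mul_assoc]
          _ = a * v := by rw [← hv]
    rcases hUen _ hu₀ with h | h | h | h
    · -- `u₀ = 1`: `c` commutes with `v`
      have hcv : c * v = v * c := by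
        calc c * v = v * c * (c⁻¹ * v⁻¹ * c * v) := by group
          _ = v * c := by rw [h, mul_one]
      exact hcU (hVa c (hCv c hcS hcv) hca)
    · -- `u₀ = z`: `c * a` commutes with `v`
      have hcv : v⁻¹ * c * v = c * z := by
        calc v⁻¹ * c * v = c * (c⁻¹ * v⁻¹ * c * v) := by group
          _ = c * z := by rw [h]
      have hav : v⁻¹ * a * v = z * a := by rw [hvinv]; exact hvconj'
      have hcav : (c * a) * v = v * (c * a) := by
        have e : v⁻¹ * (c * a) * v = c * a := by
          calc v⁻¹ * (c * a) * v = (v⁻¹ * c * v) * (v⁻¹ * a * v) := by group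
            _ = c * z * (z * a) := by rw [hcv, hav]
            _ = c * ((z * z) * a) := by group
            _ = c * a := by rw [hzz, one_mul]
        calc (c * a) * v = v * (v⁻¹ * (c * a) * v) := by group
          _ = v * (c * a) := by rw [e]
      have hcaS : c * a ∈ S := S.mul_mem hcS haS
      have hcaa : (c * a) * a = a * (c * a) := by
        rw [mul_assoc, haa, mul_one, ← mul_assoc, ← hca, mul_assoc, haa, mul_one]
      have hcaU : c * a ∈ U := hVa _ (hCv _ hcaS hcav) hcaa
      apply hcU
      have : c = (c * a) * a⁻¹ := by group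
      rw [this]
      exact U.mul_mem hcaU (U.inv_mem haU)
    · -- `u₀ = a` commutes with `v`
      rw [h] at hu₀v'
      exact hva hu₀v'
    · -- `u₀ = z * a` commutes with `v`
      rw [h] at hu₀v'
      apply hva
      have hza : z * a = a * z := (hzc a haS).symm
      calc v * a = z * (v * (z * a)) := by
            rw [← mul_assoc v z a, hvz', mul_assoc z v a, ← mul_assoc, hzz, one_mul]
        _ = z * ((z * a) * v) := by rw [hu₀v']
        _ = a * v := by rw [← mul_assoc, ← mul_assoc, hzz, one_mul]

end Cfsg.Agent.Helper83
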