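import Mathlib
import Cfsg.Agent.Helper83.TG0

/-!
# Piece E3 of helper11's CALL S2951: the `E_8` endgame (`e8_endgame`).
-/

set_option autoImplicit false

namespace Cfsg.Agent.Helper83

variable {G : Type*} [Group G]

/-- Symmetric step: an element `h` normalizing `O` and centralizing `U = A ⊓ B` moves an element
of `(O ⊓ A) ∖ B` by at most an element of `U` after two applications. -/
theorem tg_e8_step (A B U T' O : Subgroup G) (h : G)
    (hA2 : ∀ a ∈ A, a * a = 1) (hB2 : ∀ b ∈ B, b * b = 1)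
    (PA : ∀ s ∈ T', ∀ t ∈ T', (s * t ∈ A ↔ (s ∈ A ↔ t ∈ A)))
    (PB : ∀ s ∈ T', ∀ t ∈ T', (s * t ∈ B ↔ (s ∈ B ↔ t ∈ B)))
    (hD : ∀ d, d ∈ A → d ∈ B → d ∈ U) (hUB : U ≤ B)
    (INV : ∀ t ∈ T', t * t = 1 → t ∈ A ∨ t ∈ B)
    (hOT : O ≤ T') (hhO : ∀ o ∈ O, h * o * h⁻¹ ∈ O) (hhU : ∀ d ∈ U, h * d * h⁻¹ = d) :
    ∀ o ∈ O, o ∈ A → o ∉ B → ∃ d ∈ U, (h * h) * o * (h * h)⁻¹ = d * o := by
  intro o hoO hoA hoB
  have hoT : o ∈ T' := hOT hoO
  have hoo : o * o = 1 := hA2 o hoA
  obtain ⟨p, hp_def⟩ : ∃ p, p = h * o * h⁻¹ := ⟨_, rfl⟩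
  have hpO : p ∈ O := by rw [hp_def]; exact hhO o hoO
  have hpT : p ∈ T' := hOT hpO
  have hpp : p * p = 1 := by
    rw [hp_def]
    calc h * o * h⁻¹ * (h * o * h⁻¹) = h * (o * o) * h⁻¹ := by group
      _ = 1 := by rw [hoo]; group
  have hpU : p ∉ U := by
    intro hp
    have h1 : h * p * h⁻¹ = h * o * h⁻¹ := by rw [hhU p hp]; exact hp_def
    have h2 : p = o := mul_left_cancel (mul_right_cancel h1)
    apply hoB
    apply hUB
    rw [← h2]
    exact hp
  have hoinvT : o⁻¹ ∈ T' := T'.inv_mem hoT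
  have hoinvB : o⁻¹ ∉ B := fun hb => hoB (inv_mem_iff.1 hb)
  rcases INV p hpT hpp with hpA | hpB
  · have hpB : p ∉ B := fun hb => hpU (hD p hpA hb)
    have hd : p * o⁻¹ ∈ U := by
      apply hD _ (A.mul_mem hpA (A.inv_mem hoA))
      rw [PB p hpT o⁻¹ hoinvT]
      exact ⟨fun hb => absurd hb hpB, fun hb => absurd hb hoinvB⟩
    have hdd : (p * o⁻¹) * (p * o⁻¹) = 1 := hB2 _ (hUB hd)
    refine ⟨1, U.one_mem, ?_⟩
    calc h * h * o * (h * h)⁻¹ = h * (h * o * h⁻¹) * h⁻¹ := by group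
      _ = h * p * h⁻¹ := by rw [← hp_def]
      _ = (h * (p * o⁻¹) * h⁻¹) * (h * o * h⁻¹) := by group
      _ = (p * o⁻¹) * p := by rw [hhU _ hd, ← hp_def]
      _ = ((p * o⁻¹) * (p * o⁻¹)) * o := by group
      _ = 1 * o := by rw [hdd]
  · have hpA : p ∉ A := fun ha => hpU (hD p ha hpB)
    obtain ⟨q, hq_def⟩ : ∃ q, q = h * p * h⁻¹ := ⟨_, rfl⟩
    have hqO : q ∈ O := by rw [hq_def]; exact hhO p hpO
    have hqT : q ∈ T' := hOT hqO
    have hqq : q * q = 1 := by
      rw [hq_def]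
      calc h * p * h⁻¹ * (h * p * h⁻¹) = h * (p * p) * h⁻¹ := by group
        _ = 1 := by rw [hpp]; group
    have hqU : q ∉ U := by
      intro hq
      have h1 : h * q * h⁻¹ = h * p * h⁻¹ := by rw [hhU q hq]; exact hq_def
      have h2 : q = p := mul_left_cancel (mul_right_cancel h1)
      apply hpU
      rw [← h2]
      exact hq
    have hpq : p * q = h * (o * p) * h⁻¹ := by
      calc p * q = (h * o * h⁻¹) * (h * p * h⁻¹) := by rw [← hp_def, ← hq_def]
        _ = h * (o * p) * h⁻¹ := by group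
    have hqA : q ∈ A := by
      rcases INV q hqT hqq with hqA | hqB
      · exact hqA
      · exfalso
        have h1 : o * p ∉ A := by
          rw [PA o hoT p hpT]
          exact fun hiff => hpA (hiff.1 hoA)
        have h2 : o * p ∉ B := by
          rw [PB o hoT p hpT]
          exact fun hiff => hoB (hiff.2 hpB)
        have h3 : (o * p) * (o * p) ≠ 1 :=
          fun h' => (INV _ (T'.mul_mem hoT hpT) h').elim h1 h2
        apply h3
        have h4 : (p * q) * (p * q) = 1 := hB2 _ (B.mul_mem hpB hqB)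
        calc (o * p) * (o * p)
            = h⁻¹ * ((h * (o * p) * h⁻¹) * (h * (o * p) * h⁻¹)) * h := by group
          _ = h⁻¹ * ((p * q) * (p * q)) * h := by rw [← hpq]
          _ = 1 := by rw [h4]; group
    have hqB : q ∉ B := fun hb => hqU (hD q hqA hb)
    have hd : q * o⁻¹ ∈ U := by
      apply hD _ (A.mul_mem hqA (A.inv_mem hoA))
      rw [PB q hqT o⁻¹ hoinvT]
      exact ⟨fun hb => absurd hb hqB, fun hb => absurd hb hoinvB⟩
    refine ⟨q * o⁻¹, hd, ?_⟩
    calc h * h * o * (h * h)⁻¹ = h * (h * o * h⁻¹) * h⁻¹ := by group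
      _ = q := by rw [← hp_def, ← hq_def]
      _ = q * o⁻¹ * o := by group

theorem e8_endgame [Finite G] (S O E T' U : Subgroup G) (x c : G) (hS : IsPGroup 2 S)
    (hOS : O ≤ S) (hOn : S ≤ Subgroup.normalizer (O : Set G))
    (hCO : S ⊓ Subgroup.centralizer (O : Set G) ≤ O) (hE8 : Nat.card E = 8)
    (hEe : ∀ e ∈ E, e * e = 1) (hCE : S ⊓ Subgroup.centralizer (E : Set G) ≤ E) (hET : E ≤ T')
    (hTS : T' ≤ S) (hxS : x ∈ S)
    (hxT : Subgroup.map (MulEquiv.toMonoidHom (MulAut.conj x)) T' = T') (hT16 : Nat.card T' = 16)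
    (hTE : T' = E ⊔ Subgroup.map (MulEquiv.toMonoidHom (MulAut.conj x)) E)
    (hNE : S ⊓ Subgroup.normalizer (E : Set G) ≤ T') (hcE : c ∈ E) (hc1 : c ≠ 1)
    (hcT : ∀ t ∈ T', t * c = c * t) (hCc : S ⊓ Subgroup.centralizer ({c} : Set G) ≤ T')
    (hUS : U ≤ S) (hUn : S ≤ Subgroup.normalizer (U : Set G)) (hU4 : Nat.card U = 4)
    (hUe : ∀ u ∈ U, u * u = 1) (hUO : O ≤ Subgroup.centralizer (U : Set G)) :
    (∀ g ∈ Subgroup.normalizer (O : Set G), Odd (orderOf g) →
        g ∈ Subgroup.centralizer (O : Set G)) ∧ O ≠ S := by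
  classical
  obtain ⟨E', hE'def⟩ :
      ∃ E' : Subgroup G, E' = Subgroup.map (MulEquiv.toMonoidHom (MulAut.conj x)) E := ⟨_, rfl⟩
  rw [← hE'def] at hTE
  have hE'1 : ∀ e ∈ E, x * e * x⁻¹ ∈ E' := by
    intro e he
    rw [hE'def]
    exact Subgroup.mem_map.2 ⟨e, he, by simp only [MulEquiv.coe_toMonoidHom, MulAut.conj_apply]⟩
  have hE'2 : ∀ f ∈ E', x⁻¹ * f * x ∈ E := by
    intro f hf
    rw [hE'def] at hf
    obtain ⟨e, he, rfl⟩ := Subgroup.mem_map.1 hf
    have h1 : x⁻¹ * ((MulEquiv.toMonoidHom (MulAut.conj x)) e) * x = e := by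
      simp only [MulEquiv.coe_toMonoidHom, MulAut.conj_apply]
      group
    rw [h1]
    exact he
  have hE'8 : Nat.card E' = 8 := by
    rw [hE'def, Subgroup.card_map_of_injective (MulEquiv.injective _)]
    exact hE8
  have hE'e : ∀ f ∈ E', f * f = 1 := by
    intro f hf
    have h1 := hEe _ (hE'2 f hf)
    calc f * f = x * ((x⁻¹ * f * x) * (x⁻¹ * f * x)) * x⁻¹ := by group
      _ = 1 := by rw [h1]; group
  have hE'T : E' ≤ T' := by rw [hTE]; exact le_sup_right
  have hE'S : E' ≤ S := hE'T.trans hTS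
  have hES : E ≤ S := hET.trans hTS
  have hxinvS : x⁻¹ ∈ S := S.inv_mem hxS
  have hCE0 : ∀ s ∈ S, (∀ e ∈ E, e * s = s * e) → s ∈ E := fun s hs hcomm =>
    hCE (Subgroup.mem_inf.2 ⟨hs, Subgroup.mem_centralizer_iff.2 hcomm⟩)
  have hCE' : ∀ s ∈ S, (∀ f ∈ E', f * s = s * f) → s ∈ E' := by
    intro s hs hcomm
    have h1 : x⁻¹ * s * x ∈ E := by
      apply hCE0 _ (S.mul_mem (S.mul_mem hxinvS hs) hxS)
      intro e he
      have h2 := hcomm _ (hE'1 e he)
      calc e * (x⁻¹ * s * x) = x⁻¹ * ((x * e * x⁻¹) * s) * x := by group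
        _ = x⁻¹ * (s * (x * e * x⁻¹)) * x := by rw [h2]
        _ = x⁻¹ * s * x * e := by group
    have h3 := hE'1 _ h1
    have h4 : x * (x⁻¹ * s * x) * x⁻¹ = s := by group
    rw [h4] at h3
    exact h3
  have hTfin : Finite T' := Nat.finite_of_card_ne_zero (by omega)
  have hEfin : Finite E := Nat.finite_of_card_ne_zero (by omega)
  have hE'fin : Finite E' := Nat.finite_of_card_ne_zero (by omega)
  have PE := tg_idx2 E T' hET (by omega) (by omega)
  have PE' := tg_idx2 E' T' hE'T (by omega) (by omega)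
  have hEab : ∀ a ∈ E, ∀ b ∈ E, a * b = b * a := fun a ha b hb => tg_comm_of_sq E hEe ha hb
  have hE'ab : ∀ a ∈ E', ∀ b ∈ E', a * b = b * a :=
    fun a ha b hb => tg_comm_of_sq E' hE'e ha hb
  obtain ⟨e₀, he₀E, he₀E'⟩ : ∃ e ∈ E, e ∉ E' := by
    by_contra hcon
    push Not at hcon
    have hle : E ≤ E' := hcon
    have heq : E = E' := Subgroup.eq_of_le_of_card_ge hle (by omega)
    have h1 : T' = E := by rw [hTE, ← heq, sup_idem]
    rw [h1] at hT16
    omega
  obtain ⟨f₀, hf₀E', hf₀E⟩ : ∃ f ∈ E', f ∉ E := by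
    by_contra hcon
    push Not at hcon
    have hle : E' ≤ E := hcon
    have heq : E' = E := Subgroup.eq_of_le_of_card_ge hle (by omega)
    have h1 : T' = E := by rw [hTE, heq, sup_idem]
    rw [h1] at hT16
    omega
  have hK : ∀ f ∈ E', ∀ e ∈ E, e ∉ E' → f * e = e * f → f ∈ E := by
    intro f hf e he heE' hfe
    apply hCE0 f (hE'S hf)
    intro e' he'
    by_cases he'E' : e' ∈ E'
    · exact hE'ab e' he'E' f hf
    · have h1 : e' * e ∈ E' := (PE' e' (hET he') e (hET he)).2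
        ⟨fun hh => absurd hh he'E', fun hh => absurd hh heE'⟩
      have h2 : (e' * e) * f = f * (e' * e) := hE'ab _ h1 f hf
      have hee : e * e = 1 := hEe e he
      calc e' * f = e' * (e * e) * f := by rw [hee, mul_one]
        _ = (e' * e) * (e * f) := by group
        _ = (e' * e) * (f * e) := by rw [hfe]
        _ = ((e' * e) * f) * e := by group
        _ = (f * (e' * e)) * e := by rw [h2]
        _ = f * e' * (e * e) := by group
        _ = f * e' := by rw [hee, mul_one]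
  have hK' : ∀ e ∈ E, ∀ f ∈ E', f ∉ E → e * f = f * e → e ∈ E' := by
    intro e he f hf hfE hef
    apply hCE' e (hES he)
    intro f' hf'
    by_cases hf'E : f' ∈ E
    · exact hEab f' hf'E e he
    · have h1 : f' * f ∈ E := (PE f' (hE'T hf') f (hE'T hf)).2
        ⟨fun hh => absurd hh hf'E, fun hh => absurd hh hfE⟩
      have h2 : (f' * f) * e = e * (f' * f) := hEab _ h1 e he
      have hff : f * f = 1 := hE'e f hf
      calc f' * e = f' * (f * f) * e := by rw [hff, mul_one]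
        _ = (f' * f) * (f * e) := by group
        _ = (f' * f) * (e * f) := by rw [hef]
        _ = ((f' * f) * e) * f := by group
        _ = (e * (f' * f)) * f := by rw [h2]
        _ = e * f' * (f * f) := by group
        _ = e * f' := by rw [hff, mul_one]
  have hINV : ∀ t ∈ T', t * t = 1 → t ∈ E ∨ t ∈ E' := by
    intro t ht htt
    by_contra hcon
    push Not at hcon
    obtain ⟨htE, htE'⟩ := hcon
    have hfE' : t * e₀ ∈ E' := (PE' t ht e₀ (hET he₀E)).2
      ⟨fun hh => absurd hh htE', fun hh => absurd hh he₀E'⟩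
    have hfE : t * e₀ ∉ E := by
      rw [PE t ht e₀ (hET he₀E)]
      exact fun hiff => htE (hiff.2 he₀E)
    have h1 : (t * e₀) * (t * e₀) = 1 := hE'e _ hfE'
    have hee : e₀ * e₀ = 1 := hEe e₀ he₀E
    have hcomm : (t * e₀) * e₀ = e₀ * (t * e₀) := by
      have h2 : e₀ * t * e₀ = t := by
        calc e₀ * t * e₀ = t⁻¹ * ((t * e₀) * (t * e₀)) := by group
          _ = t⁻¹ := by rw [h1, mul_one]
          _ = t := inv_eq_of_mul_eq_one_left htt
      calc (t * e₀) * e₀ = t * (e₀ * e₀) := by group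
        _ = t := by rw [hee, mul_one]
        _ = e₀ * t * e₀ := h2.symm
        _ = e₀ * (t * e₀) := by group
    exact hfE (hK _ hfE' e₀ he₀E he₀E' hcomm)
  have hUbot : U ≠ ⊥ := by
    intro h
    rw [h, Subgroup.card_bot] at hU4
    omega
  obtain ⟨z, hzU, hz1, hzc⟩ := tg_exists_central S U hS hUS hUn hUbot
  have hzS : z ∈ S := hUS hzU
  have hzz : z * z = 1 := hUe z hzU
  have hzE : z ∈ E := hCE0 z hzS (fun e he => hzc e (hES he))
  have hzE' : z ∈ E' := by
    have h1 := hE'1 z hzE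
    have h2 : x * z * x⁻¹ = z := by rw [hzc x hxS, mul_assoc, mul_inv_cancel, mul_one]
    rw [h2] at h1
    exact h1
  by_cases hUE : U ≤ E
  swap
  · exfalso
    obtain ⟨u, huU, huE⟩ := SetLike.not_le_iff_exists.1 hUE
    have hu1 : u ≠ 1 := fun h => huE (h ▸ E.one_mem)
    have huz : u ≠ z := fun h => huE (h ▸ hzE)
    have hUen := tg_four_enum U hU4 hzU huU hz1 hu1 huz hzz
    have hconj := tg_conj_cases S U hUn hUen hzc huU hu1 huz
    have huu : u * u = 1 := hUe u huU
    have huinv : u⁻¹ = u := inv_eq_of_mul_eq_one_left huu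
    have huS : u ∈ S := hUS huU
    have hstep : ∀ e ∈ E, u * e * u⁻¹ ∈ E := by
      intro e he
      rcases hconj e (hES he) with h | h
      · have h1 : u * e * u⁻¹ = e := by
          calc u * e * u⁻¹ = (e * u * e⁻¹) * e * u⁻¹ := by rw [h]
            _ = e := by group
        rw [h1]
        exact he
      · have h1 : u * e * u⁻¹ = z * e := by
          calc u * e * u⁻¹ = (z * z) * u * e * u⁻¹ := by rw [hzz, one_mul]
            _ = z * (z * u) * e * u⁻¹ := by group
            _ = z * (e * u * e⁻¹) * e * u⁻¹ := by rw [h]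
            _ = z * e := by group
        rw [h1]
        exact E.mul_mem hzE he
    have huN : u ∈ Subgroup.normalizer (E : Set G) := by
      rw [Subgroup.mem_normalizer_iff]
      intro e
      constructor
      · exact hstep e
      · intro he
        have h1 := hstep _ he
        have h2 : u * (u * e * u⁻¹) * u⁻¹ = e := by
          rw [huinv]
          calc u * (u * e * u) * u = (u * u) * e * (u * u) := by group
            _ = e := by rw [huu, one_mul, mul_one]
        rw [h2] at h1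
        exact h1
    have huT : u ∈ T' := hNE (Subgroup.mem_inf.2 ⟨huS, huN⟩)
    have huE' : u ∈ E' := (hINV u huT huu).resolve_left huE
    have hUE' : U ≤ E' := by
      intro w hw
      rcases hUen w hw with rfl | rfl | rfl | rfl
      · exact E'.one_mem
      · exact hzE'
      · exact huE'
      · exact E'.mul_mem hzE' huE'
    apply huE
    have h1 : x * u * x⁻¹ ∈ U := ((Subgroup.mem_normalizer_iff).1 (hUn hxS) u).1 huU
    have h2 := hE'2 _ (hUE' h1)
    have h3 : x⁻¹ * (x * u * x⁻¹) * x = u := by group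
    rw [h3] at h2
    exact h2
  -- from now on `U ≤ E`
  have hUE' : U ≤ E' := by
    intro w hw
    have h1 : x⁻¹ * w * x ∈ U := ((Subgroup.mem_normalizer_iff'').1 (hUn hxS) w).1 hw
    have h2 := hE'1 _ (hUE h1)
    have h3 : x * (x⁻¹ * w * x) * x⁻¹ = w := by group
    rw [h3] at h2
    exact h2
  have PU := tg_idx2 U E hUE (by omega) (by omega)
  have hD : ∀ d, d ∈ E → d ∈ E' → d ∈ U := by
    intro d hdE hdE'
    by_contra hdU
    have he₀U : e₀ ∉ U := fun h => he₀E' (hUE' h)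
    have h1 : d * e₀ ∈ U := (PU d hdE e₀ he₀E).2
      ⟨fun hh => absurd hh hdU, fun hh => absurd hh he₀U⟩
    apply he₀E'
    have h2 : e₀ = d⁻¹ * (d * e₀) := by group
    rw [h2]
    exact E'.mul_mem (E'.inv_mem hdE') (hUE' h1)
  have hZT : ∀ d ∈ U, ∀ t ∈ T', t * d = d * t := by
    intro d hd t ht
    have hle : T' ≤ Subgroup.centralizer ({d} : Set G) := by
      rw [hTE]
      apply sup_le
      · intro e he
        rw [Subgroup.mem_centralizer_singleton_iff]
        exact hEab e he d (hUE hd)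
      · intro f hf
        rw [Subgroup.mem_centralizer_singleton_iff]
        exact hE'ab f hf d (hUE' hd)
    exact Subgroup.mem_centralizer_singleton_iff.1 (hle ht)
  have hcE' : c ∈ E' := hCE' c (hES hcE) (fun f hf => hcT f (hE'T hf))
  have hcU : c ∈ U := hD c hcE hcE'
  have hOT : O ≤ T' := by
    intro o ho
    apply hCc
    refine Subgroup.mem_inf.2 ⟨hOS ho, Subgroup.mem_centralizer_singleton_iff.2 ?_⟩
    exact (Subgroup.mem_centralizer_iff.1 (hUO ho) c hcU).symm
  have hUO' : U ≤ O := by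
    intro d hd
    apply hCO
    refine Subgroup.mem_inf.2 ⟨hUS hd, Subgroup.mem_centralizer_iff.2 ?_⟩
    intro o ho
    exact hZT d hd o (hOT ho)
  have hxT' : x ∉ T' := by
    intro hx
    apply hf₀E
    have h1 := hE'2 f₀ hf₀E'
    have h2 : x * (x⁻¹ * f₀ * x) * x⁻¹ ∈ E := by
      rw [PE _ (T'.mul_mem hx (hET h1)) _ (T'.inv_mem hx), PE x hx _ (hET h1), inv_mem_iff]
      constructor
      · intro h
        exact h.2 h1
      · intro h
        exact ⟨fun _ => h1, fun _ => h⟩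
    have h3 : x * (x⁻¹ * f₀ * x) * x⁻¹ = f₀ := by group
    rw [h3] at h2
    exact h2
  have hOS' : O ≠ S := by
    intro h
    apply hxT'
    apply hOT
    rw [h]
    exact hxS
  have hOU : ¬ O ≤ U := by
    intro hle
    apply he₀E'
    apply hUE'
    apply hle
    apply hCO
    refine Subgroup.mem_inf.2 ⟨hES he₀E, Subgroup.mem_centralizer_iff.2 ?_⟩
    intro o ho
    exact (hZT o (hle ho) e₀ (hET he₀E)).symm
  obtain ⟨y, hyO, hyE, hyE'⟩ : ∃ y ∈ O, y ∉ E ∧ y ∉ E' := by
    obtain ⟨o₁, ho₁O, ho₁U⟩ := SetLike.not_le_iff_exists.1 hOU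
    by_cases h1 : o₁ ∈ E
    · have h1' : o₁ ∉ E' := fun h => ho₁U (hD o₁ h1 h)
      have hf : x * o₁ * x⁻¹ ∈ E' := hE'1 o₁ h1
      have hfO : x * o₁ * x⁻¹ ∈ O := ((Subgroup.mem_normalizer_iff).1 (hOn hxS) o₁).1 ho₁O
      have hfE : x * o₁ * x⁻¹ ∉ E := by
        intro h
        apply ho₁U
        have h2 : x * o₁ * x⁻¹ ∈ U := hD _ h hf
        exact ((Subgroup.mem_normalizer_iff).1 (hUn hxS) o₁).2 h2
      refine ⟨o₁ * (x * o₁ * x⁻¹), O.mul_mem ho₁O hfO, ?_, ?_⟩
      · rw [PE o₁ (hET h1) _ (hE'T hf)]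
        exact fun hiff => hfE (hiff.1 h1)
      · rw [PE' o₁ (hET h1) _ (hE'T hf)]
        exact fun hiff => h1' (hiff.2 hf)
    · by_cases h2 : o₁ ∈ E'
      · have he : x⁻¹ * o₁ * x ∈ E := hE'2 o₁ h2
        have heO : x⁻¹ * o₁ * x ∈ O := ((Subgroup.mem_normalizer_iff'').1 (hOn hxS) o₁).1 ho₁O
        have heE' : x⁻¹ * o₁ * x ∉ E' := by
          intro h
          apply ho₁U
          have h3 : x⁻¹ * o₁ * x ∈ U := hD _ he h
          exact ((Subgroup.mem_normalizer_iff'').1 (hUn hxS) o₁).2 h3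
        refine ⟨(x⁻¹ * o₁ * x) * o₁, O.mul_mem heO ho₁O, ?_, ?_⟩
        · rw [PE _ (hET he) o₁ (hE'T h2)]
          exact fun hiff => h1 (hiff.1 he)
        · rw [PE' _ (hET he) o₁ (hE'T h2)]
          exact fun hiff => heE' (hiff.2 h2)
      · exact ⟨o₁, ho₁O, h1, h2⟩
  have hyT : y ∈ T' := hOT hyO
  obtain ⟨w, hw_def⟩ : ∃ w, w = y * y := ⟨_, rfl⟩
  have hwU : w ∈ U := by
    rw [hw_def]
    apply hD
    · exact (PE y hyT y hyT).2 Iff.rfl
    · exact (PE' y hyT y hyT).2 Iff.rfl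
  have hw1 : w ≠ 1 := by
    intro h
    rw [hw_def] at h
    rcases hINV y hyT h with h1 | h1
    · exact hyE h1
    · exact hyE' h1
  have hww : w * w = 1 := hUe w hwU
  have hwinv : w⁻¹ = w := inv_eq_of_mul_eq_one_left hww
  have hsq : ∀ t ∈ T', t * t = 1 ∨ t * t = w := by
    intro t ht
    by_cases htE : t ∈ E
    · exact Or.inl (hEe t htE)
    · by_cases htE' : t ∈ E'
      · exact Or.inl (hE'e t htE')
      · right
        have hd : t * y ∈ U := by
          apply hD
          · exact (PE t ht y hyT).2 ⟨fun hh => absurd hh htE, fun hh => absurd hh hyE⟩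
          · exact (PE' t ht y hyT).2 ⟨fun hh => absurd hh htE', fun hh => absurd hh hyE'⟩
        have hdd : (t * y) * (t * y) = 1 := hUe _ hd
        have hcomm : y⁻¹ * (t * y) = (t * y) * y⁻¹ := hZT _ hd y⁻¹ (T'.inv_mem hyT)
        calc t * t = (t * y) * (y⁻¹ * (t * y)) * y⁻¹ := by group
          _ = (t * y) * ((t * y) * y⁻¹) * y⁻¹ := by rw [hcomm]
          _ = ((t * y) * (t * y)) * (y * y)⁻¹ := by group
          _ = w := by rw [hdd, one_mul, ← hw_def, hwinv]
  obtain ⟨a, haU, ha1, haw⟩ := tg_four_exists U hU4 w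
  have hUen := tg_four_enum U hU4 hwU haU hw1 ha1 haw hww
  refine ⟨?_, hOS'⟩
  intro g hg hodd
  have hgO : ∀ o ∈ O, g * o * g⁻¹ ∈ O :=
    fun o ho => ((Subgroup.mem_normalizer_iff).1 hg o).1 ho
  have hgO' : ∀ o ∈ O, g⁻¹ * o * g ∈ O :=
    fun o ho => ((Subgroup.mem_normalizer_iff'').1 hg o).1 ho
  have hUC : ∀ o ∈ O, o * o = 1 → (∀ o' ∈ O, o * o' = o' * o) → o ∈ U := by
    intro o ho hoo hcen
    have hoT := hOT ho
    have hoy : o * y = y * o := hcen y hyO
    rcases hINV o hoT hoo with hoE | hoE'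
    · by_contra hoU
      have hoE' : o ∉ E' := fun h => hoU (hD o hoE h)
      have hfE' : y * o ∈ E' := (PE' y hyT o hoT).2
        ⟨fun hh => absurd hh hyE', fun hh => absurd hh hoE'⟩
      have hfE : y * o ∉ E := by
        rw [PE y hyT o hoT]
        exact fun hiff => hyE (hiff.2 hoE)
      apply hfE
      apply hK _ hfE' o hoE hoE'
      calc (y * o) * o = (o * y) * o := by rw [hoy]
        _ = o * (y * o) := by group
    · by_contra hoU
      have hoE : o ∉ E := fun h => hoU (hD o h hoE')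
      have heE : y * o ∈ E := (PE y hyT o hoT).2
        ⟨fun hh => absurd hh hyE, fun hh => absurd hh hoE⟩
      have heE' : y * o ∉ E' := by
        rw [PE' y hyT o hoT]
        exact fun hiff => hyE' (hiff.2 hoE')
      apply heE'
      apply hK' _ heE o hoE' hoE
      calc (y * o) * o = (o * y) * o := by rw [hoy]
        _ = o * (y * o) := by group
  have hgU : ∀ d ∈ U, g * d * g⁻¹ ∈ U := by
    intro d hd
    apply hUC _ (hgO d (hUO' hd))
    · calc g * d * g⁻¹ * (g * d * g⁻¹) = g * (d * d) * g⁻¹ := by group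
        _ = 1 := by rw [hUe d hd]; group
    · intro o' ho'
      have h1 : (g⁻¹ * o' * g) * d = d * (g⁻¹ * o' * g) := hZT d hd _ (hOT (hgO' o' ho'))
      calc g * d * g⁻¹ * o' = g * (d * (g⁻¹ * o' * g)) * g⁻¹ := by group
        _ = g * ((g⁻¹ * o' * g) * d) * g⁻¹ := by rw [h1]
        _ = o' * (g * d * g⁻¹) := by group
  have hgw : g * w * g⁻¹ = w := by
    have h1 : g * w * g⁻¹ = (g * y * g⁻¹) * (g * y * g⁻¹) := by rw [hw_def]; group
    rcases hsq _ (hOT (hgO y hyO)) with h2 | h2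
    · exfalso
      apply hw1
      rw [← h1] at h2
      calc w = g⁻¹ * (g * w * g⁻¹) * g := by group
        _ = 1 := by rw [h2]; group
    · rw [h1, h2]
  have hga : g * a * g⁻¹ = a ∨ g * a * g⁻¹ = w * a := by
    rcases hUen _ (hgU a haU) with h | h | h | h
    · exfalso
      apply ha1
      calc a = g⁻¹ * (g * a * g⁻¹) * g := by group
        _ = 1 := by rw [h]; group
    · exfalso
      apply haw
      calc a = g⁻¹ * (g * a * g⁻¹) * g := by group
        _ = g⁻¹ * w * g := by rw [h]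
        _ = g⁻¹ * (g * w * g⁻¹) * g := by rw [hgw]
        _ = w := by group
    · exact Or.inl h
    · exact Or.inr h
  obtain ⟨h, hh_def⟩ : ∃ h, h = g * g := ⟨_, rfl⟩
  have hha : h * a * h⁻¹ = a := by
    rw [hh_def]
    rcases hga with h' | h'
    · calc (g * g) * a * (g * g)⁻¹ = g * (g * a * g⁻¹) * g⁻¹ := by group
        _ = a := by rw [h', h']
    · calc (g * g) * a * (g * g)⁻¹ = g * (g * a * g⁻¹) * g⁻¹ := by group
        _ = g * (w * a) * g⁻¹ := by rw [h']
        _ = (g * w * g⁻¹) * (g * a * g⁻¹) := by group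
        _ = w * (w * a) := by rw [hgw, h']
        _ = a := by rw [← mul_assoc, hww, one_mul]
  have hhw : h * w * h⁻¹ = w := by
    rw [hh_def]
    calc (g * g) * w * (g * g)⁻¹ = g * (g * w * g⁻¹) * g⁻¹ := by group
      _ = w := by rw [hgw, hgw]
  have hhU : ∀ d ∈ U, h * d * h⁻¹ = d := by
    intro d hd
    rcases hUen d hd with h1 | h1 | h1 | h1
    · rw [h1]; group
    · rw [h1]; exact hhw
    · rw [h1]; exact hha
    · rw [h1]
      calc h * (w * a) * h⁻¹ = (h * w * h⁻¹) * (h * a * h⁻¹) := by group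
        _ = w * a := by rw [hhw, hha]
  have hhO : ∀ o ∈ O, h * o * h⁻¹ ∈ O := by
    intro o ho
    have h1 := hgO _ (hgO o ho)
    have h2 : g * (g * o * g⁻¹) * g⁻¹ = h * o * h⁻¹ := by rw [hh_def]; group
    rw [h2] at h1
    exact h1
  have hstar : ∀ o ∈ O, ∃ d ∈ U, (h * h) * o * (h * h)⁻¹ = d * o := by
    intro o ho
    by_cases hoE : o ∈ E
    · by_cases hoE' : o ∈ E'
      · have hoU := hD o hoE hoE'
        refine ⟨1, U.one_mem, ?_⟩
        calc (h * h) * o * (h * h)⁻¹ = h * (h * o * h⁻¹) * h⁻¹ := by group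
          _ = 1 * o := by rw [hhU o hoU, hhU o hoU, one_mul]
      · exact tg_e8_step E E' U T' O h hEe hE'e PE PE' hD hUE' hINV hOT hhO hhU o ho hoE hoE'
    · by_cases hoE' : o ∈ E'
      · exact tg_e8_step E' E U T' O h hE'e hEe PE' PE (fun d h1 h2 => hD d h2 h1) hUE
          (fun t ht htt => (hINV t ht htt).symm) hOT hhO hhU o ho hoE' hoE
      · obtain ⟨p, hp_def⟩ : ∃ p, p = h * o * h⁻¹ := ⟨_, rfl⟩
        have hoT := hOT ho
        have hpO : p ∈ O := by rw [hp_def]; exact hhO o ho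
        have hpT := hOT hpO
        have hoo : o * o ≠ 1 := fun h' => (hINV o hoT h').elim hoE hoE'
        have hpp : p * p ≠ 1 := by
          intro h'
          apply hoo
          calc o * o = h⁻¹ * ((h * o * h⁻¹) * (h * o * h⁻¹)) * h := by group
            _ = h⁻¹ * (p * p) * h := by rw [← hp_def]
            _ = 1 := by rw [h']; group
        have hpE : p ∉ E := fun h' => hpp (hEe p h')
        have hpE' : p ∉ E' := fun h' => hpp (hE'e p h')
        have hoinvE : o⁻¹ ∉ E := fun h' => hoE (inv_mem_iff.1 h')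
        have hoinvE' : o⁻¹ ∉ E' := fun h' => hoE' (inv_mem_iff.1 h')
        have hd : p * o⁻¹ ∈ U := by
          apply hD
          · exact (PE p hpT o⁻¹ (T'.inv_mem hoT)).2
              ⟨fun hh => absurd hh hpE, fun hh => absurd hh hoinvE⟩
          · exact (PE' p hpT o⁻¹ (T'.inv_mem hoT)).2
              ⟨fun hh => absurd hh hpE', fun hh => absurd hh hoinvE'⟩
        have hdd : (p * o⁻¹) * (p * o⁻¹) = 1 := hUe _ hd
        refine ⟨1, U.one_mem, ?_⟩
        calc (h * h) * o * (h * h)⁻¹ = h * (h * o * h⁻¹) * h⁻¹ := by group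
          _ = h * p * h⁻¹ := by rw [← hp_def]
          _ = (h * (p * o⁻¹) * h⁻¹) * (h * o * h⁻¹) := by group
          _ = (p * o⁻¹) * p := by rw [hhU _ hd, ← hp_def]
          _ = ((p * o⁻¹) * (p * o⁻¹)) * o := by group
          _ = 1 * o := by rw [hdd]
  have h2U : ∀ d ∈ U, (h * h) * d * (h * h)⁻¹ = d := by
    intro d hd
    calc (h * h) * d * (h * h)⁻¹ = h * (h * d * h⁻¹) * h⁻¹ := by group
      _ = d := by rw [hhU d hd, hhU d hd]
  have hk : ∀ o ∈ O, ((h * h) * (h * h)) * o = o * ((h * h) * (h * h)) := by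
    intro o ho
    obtain ⟨d, hd, hdo⟩ := hstar o ho
    have hconj : ((h * h) * (h * h)) * o * ((h * h) * (h * h))⁻¹ = o := by
      calc ((h * h) * (h * h)) * o * ((h * h) * (h * h))⁻¹
          = (h * h) * ((h * h) * o * (h * h)⁻¹) * (h * h)⁻¹ := by group
        _ = (h * h) * (d * o) * (h * h)⁻¹ := by rw [hdo]
        _ = ((h * h) * d * (h * h)⁻¹) * ((h * h) * o * (h * h)⁻¹) := by group
        _ = d * (d * o) := by rw [h2U d hd, hdo]
        _ = o := by rw [← mul_assoc, hUe d hd, one_mul]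
    calc ((h * h) * (h * h)) * o
        = (((h * h) * (h * h)) * o * ((h * h) * (h * h))⁻¹) * ((h * h) * (h * h)) := by group
      _ = o * ((h * h) * (h * h)) := by rw [hconj]
  rw [Subgroup.mem_centralizer_iff]
  intro o ho
  have hcop : Nat.Coprime 8 (orderOf g) := Nat.Coprime.pow_left 3 (Nat.coprime_two_left.2 hodd)
  obtain ⟨m, hm⟩ := exists_pow_eq_self_of_coprime hcop
  have hk8 : (h * h) * (h * h) = g ^ 8 := by
    rw [hh_def]
    simp only [pow_succ, pow_zero, one_mul, mul_assoc]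
  have hcomm : Commute (g ^ 8) o := by
    rw [← hk8]
    exact hk o ho
  have hcomm2 : Commute ((g ^ 8) ^ m) o := hcomm.pow_left m
  rw [hm] at hcomm2
  exact hcomm2.eq.symm

end Cfsg.Agent.Helper83
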