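import Mathlib
import Cfsg.Agent.Helper97.TNDefs

set_option autoImplicit false

/-!
CALL S2413 (helper97), piece ROOT (helper83): a torus element scaling `u` by a generator squared
and fixing `y` spreads one Eichler element `E(u, y)` to all `E(u, c y)`.
-/

universe u

namespace Cfsg.Agent.Helper83

open Cfsg Matrix Cfsg.Agent.Helper45 Cfsg.Agent.Helper98 Cfsg.Agent.Helper97.TM
  Cfsg.Agent.Helper97.TN

section generic

variable {ι : Type} [Fintype ι] [DecidableEq ι] {F : Type u} [Field F]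
  (Q : QuadraticForm F (ι → F))

/-- ROOT -/
theorem tn_root_full [Fintype F] (hsq : ∀ c : F, ∃ x y : F, c = x ^ 2 + y ^ 2)
    (M : Subgroup ↥(isometryGroup F ⇑Q)) (u y : ι → F) (hu : Q u = 0)
    (huy : QuadraticMap.polar ⇑Q u y = 0) (δ : ↥(isometryGroup F ⇑Q)) (hδ : δ ∈ M)
    (k : Fˣ) (hk : ∀ x : Fˣ, x ∈ Subgroup.zpowers k)
    (hδu : mv ⇑Q δ u = ((k : F) ^ 2) • u) (hδy : mv ⇑Q δ y = y)
    (h1 : eichO Q u y hu huy ∈ M) : y ∈ tD Q M u hu := by
  classical
  have hc : ∀ c : F, QuadraticMap.polar ⇑Q u (c • y) = 0 := by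
    intro c; rw [QuadraticMap.polar_smul_right, huy, smul_zero]
  -- the property
  have P1 : ∀ h : QuadraticMap.polar ⇑Q u ((1 : F) • y) = 0,
      eichO Q u ((1 : F) • y) hu h ∈ M := by
    intro h
    rw [← eichO_congr Q hu huy h (one_smul F y).symm]; exact h1
  have Padd : ∀ a b : F, (∀ h, eichO Q u (a • y) hu h ∈ M) → (∀ h, eichO Q u (b • y) hu h ∈ M) →
      ∀ h, eichO Q u ((a + b) • y) hu h ∈ M := by
    intro a b ha hb h
    have hab : QuadraticMap.polar ⇑Q u (a • y + b • y) = 0 := by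
      rw [← add_smul]; exact h
    have e := eichO_mul Q u (a • y) (b • y) hu (hc a) (hc b) hab
    have hm := M.mul_mem (ha (hc a)) (hb (hc b))
    rw [e, eichO_congr Q hu hab h (add_smul a b y).symm] at hm
    exact hm
  have Pk : ∀ c : F, (∀ h, eichO Q u (c • y) hu h ∈ M) →
      ∀ h, eichO Q u (((k : F) ^ 2 * c) • y) hu h ∈ M := by
    intro c hP h
    have hu' : Q (mv ⇑Q δ u) = 0 := (mv_quad ⇑Q δ u).trans hu
    have hub' : QuadraticMap.polar ⇑Q (mv ⇑Q δ u) (mv ⇑Q δ (c • y)) = 0 := by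
      rw [mv_polar]; exact hc c
    have e := conj_eichO Q δ u (c • y) hu (hc c) hu' hub'
    have hm := M.mul_mem (M.mul_mem hδ (hP (hc c))) (M.inv_mem hδ)
    rw [e] at hm
    have key : ∀ (u1 b1 : ι → F) (h1 : Q u1 = 0) (h2 : QuadraticMap.polar ⇑Q u1 b1 = 0),
        u1 = ((k : F) ^ 2) • u → b1 = c • y →
        eichO Q u1 b1 h1 h2 = eichO Q u (((k : F) ^ 2 * c) • y) hu h := by
      intro u1 b1 h1 h2 e1 e2
      subst e1 e2
      have hub'' : QuadraticMap.polar ⇑Q u (((k : F) ^ 2) • c • y) = 0 := by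
        rw [smul_smul]; exact h
      rw [eichO_smul_left Q ((k : F) ^ 2) u (c • y) hu h1 h2 hub'']
      exact eichO_congr Q hu hub'' h (smul_smul _ _ _)
    rw [key _ _ hu' hub' hδu (by rw [mv_smul, hδy])] at hm
    exact hm
  have Ppow : ∀ j : ℕ, ∀ h, eichO Q u ((((k : F) ^ 2) ^ j) • y) hu h ∈ M := by
    intro j
    induction j with
    | zero =>
      intro h
      have h' : QuadraticMap.polar ⇑Q u ((1 : F) • y) = 0 := hc 1
      rw [eichO_congr Q hu h h' (by rw [pow_zero])]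
      exact P1 h'
    | succ j ih =>
      intro h
      have h' : QuadraticMap.polar ⇑Q u (((k : F) ^ 2 * ((k : F) ^ 2) ^ j) • y) = 0 := hc _
      rw [eichO_congr Q hu h h' (by rw [pow_succ'])]
      exact Pk _ ih h'
  have P0 : ∀ h, eichO Q u ((0 : F) • y) hu h ∈ M := by
    intro h
    have h0 : QuadraticMap.polar ⇑Q u 0 = 0 := by
      have := hc 0
      rwa [zero_smul] at this
    rw [eichO_congr Q hu h h0 (zero_smul F y), eichO_zero]
    exact M.one_mem
  have Psq : ∀ r : F, ∀ h, eichO Q u ((r ^ 2) • y) hu h ∈ M := by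
    intro r h
    by_cases hr : r = 0
    · have h' : QuadraticMap.polar ⇑Q u ((0 : F) • y) = 0 := hc 0
      rw [eichO_congr Q hu h h' (by rw [hr]; simp)]
      exact P0 h'
    · have hmem := hk (Units.mk0 r hr)
      rw [← mem_powers_iff_mem_zpowers] at hmem
      obtain ⟨i, hi⟩ := Submonoid.mem_powers_iff _ _ |>.mp hmem
      have hri : r = (k : F) ^ i := by
        have := congrArg Units.val hi
        rw [Units.val_pow_eq_pow_val, Units.val_mk0] at this
        exact this.symm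
      have h' : QuadraticMap.polar ⇑Q u ((((k : F) ^ 2) ^ i) • y) = 0 := hc _
      rw [eichO_congr Q hu h h' (by rw [hri, ← pow_mul, ← pow_mul, mul_comm])]
      exact Ppow i h'
  refine ⟨huy, fun c => ?_⟩
  obtain ⟨a, b, rfl⟩ := hsq c
  exact Padd _ _ (Psq a) (Psq b) _

end generic

end Cfsg.Agent.Helper83
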