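import Mathlib

set_option autoImplicit false

/-!
CALL S2413 (helper97), piece SQ2 (helper83): every element of a finite field is a sum of two
squares.
-/

namespace Cfsg.Agent.Helper83

/-- SQ2 -/
theorem tn_sq_add_sq {K : Type*} [Field K] [Fintype K] (c : K) : ∃ x y : K, c = x ^ 2 + y ^ 2 := by
  classical
  by_cases hK : Fintype.card K % 2 = 1
  · have hf : (Polynomial.X ^ 2 : Polynomial K).degree = 2 := by
      rw [Polynomial.degree_X_pow]; rfl
    have hg : (Polynomial.X ^ 2 - Polynomial.C c : Polynomial K).degree = 2 := by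
      rw [Polynomial.degree_X_pow_sub_C (by norm_num)]; rfl
    obtain ⟨a, b, hab⟩ := FiniteField.exists_root_sum_quadratic hf hg hK
    refine ⟨a, b, ?_⟩
    simp only [Polynomial.eval_pow, Polynomial.eval_X, Polynomial.eval_sub, Polynomial.eval_C]
      at hab
    linear_combination -hab
  · have h2 : ringChar K = 2 := FiniteField.even_card_iff_char_two.mpr (by omega)
    obtain ⟨x, hx⟩ := FiniteField.isSquare_of_char_two h2 c
    exact ⟨x, 0, by rw [hx]; ring⟩

end Cfsg.Agent.Helper83
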