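import Mathlib
import Cfsg.Prelude.Def_RootSubgroups
import Cfsg.Agent.Helper83.LineTrans

set_option autoImplicit false

namespace Cfsg.Agent.Helper83

open Cfsg
open scoped commutatorElement

variable {G : Type*} [Group G]

/-! ### Commutator inductions -/

theorem commElem_mul_right' (x y z : G) : ⁅x, y * z⁆ = ⁅x, y⁆ * (y * ⁅x, z⁆ * y⁻¹) := by
  simp only [commutatorElement_def]; group

theorem normalizes_sup {N U V : Subgroup G} (hU : ∀ g ∈ U, conjBy N g = N)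
    (hV : ∀ g ∈ V, conjBy N g = N) : ∀ g ∈ U ⊔ V, conjBy N g = N := by
  apply sup_induction hU hV (conjBy_one N)
  intro g h hg hh
  rw [← conjBy_conjBy, hh, hg]

theorem comm_mem_sup_right {N U V : Subgroup G} {x : G}
    (hU : ∀ g ∈ U, conjBy N g = N) (hV : ∀ g ∈ V, conjBy N g = N)
    (hxU : ∀ g ∈ U, ⁅x, g⁆ ∈ N) (hxV : ∀ g ∈ V, ⁅x, g⁆ ∈ N) : ∀ g ∈ U ⊔ V, ⁅x, g⁆ ∈ N := by
  have key : ∀ g ∈ U ⊔ V, conjBy N g = N ∧ ⁅x, g⁆ ∈ N := by
    apply sup_induction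
    · intro g hg; exact ⟨hU g hg, hxU g hg⟩
    · intro g hg; exact ⟨hV g hg, hxV g hg⟩
    · refine ⟨conjBy_one N, ?_⟩
      rw [commElem_one_right]; exact N.one_mem
    · rintro g h ⟨hg1, hg2⟩ ⟨hh1, hh2⟩
      refine ⟨by rw [← conjBy_conjBy, hh1, hg1], ?_⟩
      rw [commElem_mul_right']
      refine N.mul_mem hg2 ?_
      have := conj_mem_conjBy (g := g) hh2
      rwa [hg1] at this
  exact fun g hg => (key g hg).2

theorem comm_mem_sup_left {N U V : Subgroup G} {g : G}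
    (hU : ∀ x ∈ U, conjBy N x = N) (hV : ∀ x ∈ V, conjBy N x = N)
    (hUg : ∀ x ∈ U, ⁅x, g⁆ ∈ N) (hVg : ∀ x ∈ V, ⁅x, g⁆ ∈ N) : ∀ x ∈ U ⊔ V, ⁅x, g⁆ ∈ N := by
  have key : ∀ x ∈ U ⊔ V, conjBy N x = N ∧ ⁅x, g⁆ ∈ N := by
    apply sup_induction
    · intro x hx; exact ⟨hU x hx, hUg x hx⟩
    · intro x hx; exact ⟨hV x hx, hVg x hx⟩
    · refine ⟨conjBy_one N, ?_⟩
      rw [commElem_one_left]; exact N.one_mem
    · rintro x y ⟨hx1, hx2⟩ ⟨hy1, hy2⟩
      refine ⟨by rw [← conjBy_conjBy, hy1, hx1], ?_⟩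
      rw [commElem_mul_left']
      refine N.mul_mem ?_ hx2
      have := conj_mem_conjBy (g := x) hy2
      rwa [hx1] at this
  exact fun x hx => (key x hx).2

theorem commute_sup_left_gen {P Q : Subgroup G} {y : G} (hP : ∀ x ∈ P, x * y = y * x)
    (hQ : ∀ x ∈ Q, x * y = y * x) : ∀ x ∈ P ⊔ Q, x * y = y * x := by
  apply sup_induction hP hQ (by simp)
  intro x z hx hz
  rw [mul_assoc, hz, ← mul_assoc, hx, mul_assoc]

/-- An element commuting with `H₁` and `H₂` commutes with `⁅H₁, H₂⁆`. -/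
theorem commute_commutator {H₁ H₂ : Subgroup G} {y : G} (h₁ : ∀ x ∈ H₁, x * y = y * x)
    (h₂ : ∀ x ∈ H₂, x * y = y * x) : ∀ x ∈ ⁅H₁, H₂⁆, x * y = y * x :=
  fun x hx => commute_sup_left_gen h₁ h₂ x (commutator_le_sup H₁ H₂ hx)

/-- A subgroup with an ascending central series inside the ambient group is nilpotent. -/
theorem nilpotent_of_series {R : Subgroup G} (H : ℕ → Subgroup G) (n : ℕ) (h0 : H 0 = ⊥)
    (hn : R ≤ H n) (hc : ∀ i, ∀ x ∈ H (i + 1), ∀ g ∈ R, ⁅x, g⁆ ∈ H i) :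
    Group.IsNilpotent ↥R := by
  rw [Subgroup.nilpotent_iff_finite_ascending_central_series]
  refine ⟨n, fun i => (H i).subgroupOf R, ⟨?_, ?_⟩, ?_⟩
  · simp [h0]
  · intro x i hx g
    rw [Subgroup.mem_subgroupOf] at hx ⊢
    have := hc i x.1 hx g.1 g.2
    simpa [commutatorElement_def] using this
  · rw [Subgroup.subgroupOf_eq_top]
    exact hn

/-! ### Hall–Witt type identities -/

theorem hw_identity {a b c : G} (hac : a * c = c * a) :
    ⁅⁅b, c⁆, a⁆ = b * ⁅c, ⁅b⁻¹, a⁆⁆ * b⁻¹ := by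
  have h1 : c⁻¹ * a * c = a := by rw [mul_assoc, hac]; group
  have h3 : c⁻¹ * a = a * c⁻¹ := by
    calc c⁻¹ * a = c⁻¹ * (a * c) * c⁻¹ := by group
      _ = c⁻¹ * (c * a) * c⁻¹ := by rw [hac]
      _ = a * c⁻¹ := by group
  have h2 : a⁻¹ * c⁻¹ * a = c⁻¹ := by rw [mul_assoc, h3]; group
  calc ⁅⁅b, c⁆, a⁆ = b * c * b⁻¹ * (c⁻¹ * a * c) * b * c⁻¹ * b⁻¹ * a⁻¹ := by
        simp only [commutatorElement_def]; group
    _ = b * c * b⁻¹ * a * b * c⁻¹ * b⁻¹ * a⁻¹ := by rw [h1]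
    _ = b * c * b⁻¹ * a * b * (a⁻¹ * c⁻¹ * a) * b⁻¹ * a⁻¹ := by rw [h2]
    _ = b * ⁅c, ⁅b⁻¹, a⁆⁆ * b⁻¹ := by simp only [commutatorElement_def]; group

theorem hw_identity2 {l b c : G} (hlb : l * b = b * l)
    (hmn : ⁅b, c⁆ * ⁅l, c⁆ = ⁅l, c⁆ * ⁅b, c⁆) : ⁅l, ⁅b, c⁆⁆ = ⁅b, ⁅l, c⁆⁆ := by
  obtain ⟨m, hm⟩ : ∃ m : G, m = ⁅b, c⁆ := ⟨_, rfl⟩
  obtain ⟨n, hn⟩ : ∃ n : G, n = ⁅l, c⁆ := ⟨_, rfl⟩
  rw [← hm, ← hn] at hmn ⊢
  have hlb' : l⁻¹ * b⁻¹ * l = b⁻¹ := by
    calc l⁻¹ * b⁻¹ * l = l⁻¹ * b⁻¹ * (l * b) * b⁻¹ := by group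
      _ = l⁻¹ * b⁻¹ * (b * l) * b⁻¹ := by rw [hlb]
      _ = b⁻¹ := by group
  have e1 : l * m * l⁻¹ = b * n * b⁻¹ * m * n⁻¹ := by
    rw [hm, hn]
    calc l * ⁅b, c⁆ * l⁻¹ = (l * b) * c * b⁻¹ * c⁻¹ * l⁻¹ := by
          simp only [commutatorElement_def]; group
      _ = (b * l) * c * b⁻¹ * c⁻¹ * l⁻¹ := by rw [hlb]
      _ = b * l * c * (l⁻¹ * b⁻¹ * l) * c⁻¹ * l⁻¹ := by rw [hlb']
      _ = b * ⁅l, c⁆ * b⁻¹ * ⁅b, c⁆ * ⁅l, c⁆⁻¹ := by simp only [commutatorElement_def]; group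
  have e2 : m * n⁻¹ * m⁻¹ = n⁻¹ := by
    calc m * n⁻¹ * m⁻¹ = n⁻¹ * (n * m) * n⁻¹ * m⁻¹ := by group
      _ = n⁻¹ * (m * n) * n⁻¹ * m⁻¹ := by rw [hmn]
      _ = n⁻¹ := by group
  calc ⁅l, m⁆ = (l * m * l⁻¹) * m⁻¹ := by rw [commutatorElement_def]
    _ = b * n * b⁻¹ * m * n⁻¹ * m⁻¹ := by rw [e1]
    _ = b * n * b⁻¹ * (m * n⁻¹ * m⁻¹) := by group
    _ = b * n * b⁻¹ * n⁻¹ := by rw [e2]
    _ = ⁅b, n⁆ := by rw [commutatorElement_def]

/-- For `A`, `C` commuting and `(B, C)` in the commutator case: `⁅A, ⁅B, C⁆⁆` lies in a conjugate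
of `⁅C, ⁅A, B⁆⁆`. -/
theorem comm_le_conj {S : Set (Subgroup G)} {A B C : Subgroup G} (hccBC : CC S B C)
    (hac : ∀ a ∈ A, ∀ c ∈ C, a * c = c * a) {b : G} (hb : b ∈ B) (hb1 : b ≠ 1) :
    ⁅A, ⁅B, C⁆⁆ ≤ conjBy ⁅C, ⁅A, B⁆⁆ b := by
  rw [Subgroup.commutator_le]
  intro a ha m hm
  obtain ⟨c₀, hc₀, e⟩ := hccBC.surj_left b hb hb1 m hm
  have h1 : ⁅m, a⁆ = b * ⁅c₀, ⁅b⁻¹, a⁆⁆ * b⁻¹ := by
    rw [← e]; exact hw_identity (hac a ha c₀ hc₀)
  have h2 : ⁅b⁻¹, a⁆ ∈ ⁅A, B⁆ := by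
    rw [Subgroup.commutator_comm A B]
    exact Subgroup.commutator_mem_commutator (B.inv_mem hb) ha
  have h3 : ⁅m, a⁆ ∈ conjBy ⁅C, ⁅A, B⁆⁆ b := by
    rw [h1]
    exact conj_mem_conjBy (Subgroup.commutator_mem_commutator hc₀ h2)
  have h4 : ⁅a, m⁆ = (⁅m, a⁆)⁻¹ := (commutatorElement_inv m a).symm
  rw [h4]
  exact Subgroup.inv_mem _ h3


theorem commElem_eq_one_of_commute {x y : G} (h : x * y = y * x) : ⁅x, y⁆ = 1 := by
  rw [commutatorElement_def, h]; group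

theorem normalizes_three {N U V W : Subgroup G} (hU : ∀ g ∈ U, conjBy N g = N)
    (hV : ∀ g ∈ V, conjBy N g = N) (hW : ∀ g ∈ W, conjBy N g = N) :
    ∀ g ∈ U ⊔ V ⊔ W, conjBy N g = N :=
  normalizes_sup (normalizes_sup hU hV) hW

theorem comm_mem_three_right {N U V W : Subgroup G} {x : G}
    (hU : ∀ g ∈ U, conjBy N g = N) (hV : ∀ g ∈ V, conjBy N g = N)
    (hW : ∀ g ∈ W, conjBy N g = N)
    (hxU : ∀ g ∈ U, ⁅x, g⁆ ∈ N) (hxV : ∀ g ∈ V, ⁅x, g⁆ ∈ N) (hxW : ∀ g ∈ W, ⁅x, g⁆ ∈ N) :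
    ∀ g ∈ U ⊔ V ⊔ W, ⁅x, g⁆ ∈ N :=
  comm_mem_sup_right (normalizes_sup hU hV) hW (comm_mem_sup_right hU hV hxU hxV) hxW

theorem comm_mem_three_left {N U V W : Subgroup G} {g : G}
    (hU : ∀ x ∈ U, conjBy N x = N) (hV : ∀ x ∈ V, conjBy N x = N)
    (hW : ∀ x ∈ W, conjBy N x = N)
    (hUg : ∀ x ∈ U, ⁅x, g⁆ ∈ N) (hVg : ∀ x ∈ V, ⁅x, g⁆ ∈ N) (hWg : ∀ x ∈ W, ⁅x, g⁆ ∈ N) :
    ∀ x ∈ U ⊔ V ⊔ W, ⁅x, g⁆ ∈ N :=
  comm_mem_sup_left (normalizes_sup hU hV) hW (comm_mem_sup_left hU hV hUg hVg) hWg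

theorem commute_three {U V W : Subgroup G} {y : G} (hU : ∀ x ∈ U, x * y = y * x)
    (hV : ∀ x ∈ V, x * y = y * x) (hW : ∀ x ∈ W, x * y = y * x) :
    ∀ x ∈ U ⊔ V ⊔ W, x * y = y * x :=
  commute_sup_left_gen (commute_sup_left_gen hU hV) hW

theorem commElem_inv_mem {N : Subgroup G} {x y : G} (h : ⁅x, y⁆ ∈ N) : ⁅y, x⁆ ∈ N := by
  rw [← commutatorElement_inv]; exact N.inv_mem h

/-- A subgroup generated by three subgroups whose mutual commutators lie in a subgroup `N`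
commuting with all three has class at most two. -/
theorem class_two_of_gens {U V W N : Subgroup G}
    (hNU : ∀ n ∈ N, ∀ u ∈ U, n * u = u * n) (hNV : ∀ n ∈ N, ∀ v ∈ V, n * v = v * n)
    (hNW : ∀ n ∈ N, ∀ w ∈ W, n * w = w * n)
    (hUU : ∀ x ∈ U, ∀ y ∈ U, ⁅x, y⁆ ∈ N) (hVV : ∀ x ∈ V, ∀ y ∈ V, ⁅x, y⁆ ∈ N)
    (hWW : ∀ x ∈ W, ∀ y ∈ W, ⁅x, y⁆ ∈ N) (hUV : ∀ x ∈ U, ∀ y ∈ V, ⁅x, y⁆ ∈ N)
    (hUW : ∀ x ∈ U, ∀ y ∈ W, ⁅x, y⁆ ∈ N) (hVW : ∀ x ∈ V, ∀ y ∈ W, ⁅x, y⁆ ∈ N) :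
    ⁅⁅U ⊔ V ⊔ W, U ⊔ V ⊔ W⁆, U ⊔ V ⊔ W⁆ = ⊥ := by
  have nU : ∀ g ∈ U, conjBy N g = N := fun g hg =>
    conjBy_eq_of_commute (fun n hn => (hNU n hn g hg).symm)
  have nV : ∀ g ∈ V, conjBy N g = N := fun g hg =>
    conjBy_eq_of_commute (fun n hn => (hNV n hn g hg).symm)
  have nW : ∀ g ∈ W, conjBy N g = N := fun g hg =>
    conjBy_eq_of_commute (fun n hn => (hNW n hn g hg).symm)
  have hU : ∀ x ∈ U, ∀ g ∈ U ⊔ V ⊔ W, ⁅x, g⁆ ∈ N := fun x hx =>
    comm_mem_three_right nU nV nW (hUU x hx) (hUV x hx) (hUW x hx)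
  have hV : ∀ x ∈ V, ∀ g ∈ U ⊔ V ⊔ W, ⁅x, g⁆ ∈ N := fun x hx =>
    comm_mem_three_right nU nV nW (fun g hg => commElem_inv_mem (hUV g hg x hx)) (hVV x hx)
      (hVW x hx)
  have hW : ∀ x ∈ W, ∀ g ∈ U ⊔ V ⊔ W, ⁅x, g⁆ ∈ N := fun x hx =>
    comm_mem_three_right nU nV nW (fun g hg => commElem_inv_mem (hUW g hg x hx))
      (fun g hg => commElem_inv_mem (hVW g hg x hx)) (hWW x hx)
  have hall : ∀ x ∈ U ⊔ V ⊔ W, ∀ g ∈ U ⊔ V ⊔ W, ⁅x, g⁆ ∈ N := fun x hx g hg =>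
    comm_mem_three_left nU nV nW (fun x hx => hU x hx g hg) (fun x hx => hV x hx g hg)
      (fun x hx => hW x hx g hg) x hx
  have h1 : ⁅U ⊔ V ⊔ W, U ⊔ V ⊔ W⁆ ≤ N := by
    rw [Subgroup.commutator_le]; exact hall
  rw [eq_bot_iff]
  calc ⁅⁅U ⊔ V ⊔ W, U ⊔ V ⊔ W⁆, U ⊔ V ⊔ W⁆ ≤ ⁅N, U ⊔ V ⊔ W⁆ :=
        Subgroup.commutator_mono h1 le_rfl
    _ = ⊥ := by
        apply commutator_eq_bot_of_commute
        intro n hn t ht
        exact (commute_three (fun u hu => (hNU n hn u hu).symm)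
          (fun v hv => (hNV n hn v hv).symm) (fun w hw => (hNW n hn w hw).symm) t ht).symm

/-- If `A` and `C` commute and `(A, B)`, `(B, C)` are in the commutator case, then `(A, ⁅B, C⁆)`
is not a rank one pair. -/
theorem not_rankOne_three {S : Set (Subgroup G)} (hS : IsRootSubgroupSet S) {A B C : Subgroup G}
    (hA : A ∈ S) (hB : B ∈ S) (hccAB : CC S A B) (hccBC : CC S B C)
    (hac : ∀ a ∈ A, ∀ c ∈ C, a * c = c * a) : ¬ IsRankOnePair A ⁅B, C⁆ := by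
  intro hro
  obtain ⟨b, hb, hb1⟩ := exists_ne_one_of_mem hS hB
  have hle := comm_le_conj (A := A) hccBC hac hb hb1
  have h1 : ∀ x ∈ conjBy A b, ∀ w ∈ ⁅A, ⁅B, C⁆⁆, w * x = x * w := by
    intro x hx w hw
    have hx' := mem_conjBy.mp hx
    have hw' := mem_conjBy.mp (hle hw)
    have hcomm : (b⁻¹ * w * b) * (b⁻¹ * x * b) = (b⁻¹ * x * b) * (b⁻¹ * w * b) := by
      apply commute_commutator (H₁ := C) (H₂ := ⁅A, B⁆) _ _ _ hw'
      · intro c hc; exact (hac _ hx' c hc).symm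
      · intro l hl; exact hccAB.commute_left hx' hl
    calc w * x = b * ((b⁻¹ * w * b) * (b⁻¹ * x * b)) * b⁻¹ := by group
      _ = b * ((b⁻¹ * x * b) * (b⁻¹ * w * b)) * b⁻¹ := by rw [hcomm]
      _ = x * w := by group
  have h2 : ∀ x ∈ conjBy A b, ∀ a ∈ A, a * x = x * a := by
    intro x hx a ha
    exact (hccAB.commute_sup_left (hS.commutative A hA) x (hccAB.conj_le_left hb hx) a ha).symm
  have hMb : conjBy ⁅B, C⁆ b = ⁅B, C⁆ := by
    apply conjBy_eq_of_commute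
    intro m hm
    exact (hccBC.commute_left hb hm).symm
  have hro' : IsRankOnePair (conjBy A b) ⁅B, C⁆ := by
    have := RO.conj hro b
    rwa [hMb] at this
  have hCn : ∀ x ∈ A ⊔ ⁅B, C⁆, conjBy ⁅A, ⁅B, C⁆⁆ x = ⁅A, ⁅B, C⁆⁆ := by
    intro x hx
    have hN : A ⊔ ⁅B, C⁆ ≤ Subgroup.normalizer ((⁅A, ⁅B, C⁆⁆ : Subgroup G) : Set G) :=
      sup_le (Subgroup.normalizer_commutator_ge_left A _)
        (Subgroup.normalizer_commutator_ge_right A _)
    exact Subgroup.mem_normalizer_iff_map_conj_eq.mp (hN hx)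
  obtain ⟨z, hz, hz1⟩ := RO.exists_ne_one_left hro
  rcases RO.normal_dichotomy hro _ (commutator_le_sup A ⁅B, C⁆) hCn with h | h
  · apply RO.commutator_ne_bot hro'
    apply commutator_eq_bot_of_commute
    intro x hx m hm
    have hm' : m ∈ ⁅A, ⁅B, C⁆⁆ ⊔ A := h (Subgroup.mem_sup_right hm)
    exact (commute_sup_left_gen (h1 x hx) (h2 x hx) m hm').symm
  · apply RO.no_central_commutators hro hz hz1
    apply comm_central_induction _ _ le_rfl
    · intro a ha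
      rw [commElem_eq_one_of_commute (comm_of_isMulCommutative (hS.commutative A hA) ha hz)]
      exact Subgroup.one_mem _
    · intro m hm
      apply h
      rw [Subgroup.commutator_comm]
      exact Subgroup.commutator_mem_commutator hm hz


theorem commute_of_conj {N : Subgroup G} {g l : G} (hg : g * l = l * g)
    (hN : ∀ n ∈ N, n * l = l * n) : ∀ n ∈ conjBy N g, n * l = l * n := by
  intro n hn
  have hn' := mem_conjBy.mp hn
  have e1 : g⁻¹ * l * g = l := by rw [mul_assoc, ← hg]; group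
  calc n * l = g * ((g⁻¹ * n * g) * (g⁻¹ * l * g)) * g⁻¹ := by group
    _ = g * ((g⁻¹ * n * g) * l) * g⁻¹ := by rw [e1]
    _ = g * (l * (g⁻¹ * n * g)) * g⁻¹ := by rw [hN _ hn']
    _ = g * ((g⁻¹ * l * g) * (g⁻¹ * n * g)) * g⁻¹ := by rw [e1]
    _ = l * n := by group

theorem bot_commute {U : Subgroup G} : ∀ z ∈ (⊥ : Subgroup G), ∀ x ∈ U, z * x = x * z := by
  intro z hz x _
  rw [Subgroup.mem_bot.mp hz]; simp

/-- An abstract criterion for the nilpotency of `⟨A, B, C⟩`. -/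
theorem nilpotent_of_abc {A B C L M Z P : Subgroup G}
    (hAA : ∀ x ∈ A, ∀ y ∈ A, x * y = y * x) (hBB : ∀ x ∈ B, ∀ y ∈ B, x * y = y * x)
    (hCC : ∀ x ∈ C, ∀ y ∈ C, x * y = y * x) (hAC : ∀ a ∈ A, ∀ c ∈ C, a * c = c * a)
    (hABL : ∀ a ∈ A, ∀ b ∈ B, ⁅a, b⁆ ∈ L) (hBCM : ∀ b ∈ B, ∀ c ∈ C, ⁅b, c⁆ ∈ M)
    (hLA : ∀ l ∈ L, ∀ a ∈ A, l * a = a * l) (hLB : ∀ l ∈ L, ∀ b ∈ B, l * b = b * l)
    (hMB : ∀ m ∈ M, ∀ b ∈ B, m * b = b * m) (hMC : ∀ m ∈ M, ∀ c ∈ C, m * c = c * m)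
    (hAMZ : ∀ a ∈ A, ∀ m ∈ M, ⁅a, m⁆ ∈ Z) (hCLZ : ∀ c ∈ C, ∀ l ∈ L, ⁅c, l⁆ ∈ Z)
    (hZA : ∀ z ∈ Z, ∀ a ∈ A, z * a = a * z) (hZC : ∀ z ∈ Z, ∀ c ∈ C, z * c = c * z)
    (hZL : ∀ z ∈ Z, ∀ l ∈ L, z * l = l * z) (hZM : ∀ z ∈ Z, ∀ m ∈ M, z * m = m * z)
    (hZB : ∀ b ∈ B, conjBy Z b = Z)
    (hZBP : ∀ z ∈ Z, ∀ b ∈ B, ⁅z, b⁆ ∈ P)
    (hPA : ∀ p ∈ P, ∀ a ∈ A, p * a = a * p) (hPB : ∀ p ∈ P, ∀ b ∈ B, p * b = b * p)
    (hPC : ∀ p ∈ P, ∀ c ∈ C, p * c = c * p) (hPZ : P ≤ Z) :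
    Group.IsNilpotent ↥(A ⊔ B ⊔ C) := by
  have nPA : ∀ g ∈ A, conjBy P g = P := fun g hg =>
    conjBy_eq_of_commute (fun p hp => (hPA p hp g hg).symm)
  have nPB : ∀ g ∈ B, conjBy P g = P := fun g hg =>
    conjBy_eq_of_commute (fun p hp => (hPB p hp g hg).symm)
  have nPC : ∀ g ∈ C, conjBy P g = P := fun g hg =>
    conjBy_eq_of_commute (fun p hp => (hPC p hp g hg).symm)
  have nZA : ∀ g ∈ A, conjBy Z g = Z := fun g hg =>
    conjBy_eq_of_commute (fun z hz => (hZA z hz g hg).symm)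
  have nZC : ∀ g ∈ C, conjBy Z g = Z := fun g hg =>
    conjBy_eq_of_commute (fun z hz => (hZC z hz g hg).symm)
  have c0 : ∀ x ∈ P, ∀ g ∈ A ⊔ B ⊔ C, ⁅x, g⁆ ∈ (⊥ : Subgroup G) := by
    intro x hx g hg
    rw [Subgroup.mem_bot]
    apply commElem_eq_one_of_commute
    exact (commute_three (fun a ha => (hPA x hx a ha).symm) (fun b hb => (hPB x hx b hb).symm)
      (fun c hc => (hPC x hx c hc).symm) g hg).symm
  have c1 : ∀ x ∈ Z, ∀ g ∈ A ⊔ B ⊔ C, ⁅x, g⁆ ∈ P := by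
    intro x hx
    apply comm_mem_three_right nPA nPB nPC
    · intro a ha; rw [commElem_eq_one_of_commute (hZA x hx a ha)]; exact P.one_mem
    · intro b hb; exact hZBP x hx b hb
    · intro c hc; rw [commElem_eq_one_of_commute (hZC x hx c hc)]; exact P.one_mem
  have c2L : ∀ l ∈ L, ∀ g ∈ A ⊔ B ⊔ C, ⁅l, g⁆ ∈ Z := by
    intro l hl
    apply comm_mem_three_right nZA hZB nZC
    · intro a ha; rw [commElem_eq_one_of_commute (hLA l hl a ha)]; exact Z.one_mem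
    · intro b hb; rw [commElem_eq_one_of_commute (hLB l hl b hb)]; exact Z.one_mem
    · intro c hc; exact commElem_inv_mem (hCLZ c hc l hl)
  have c2M : ∀ m ∈ M, ∀ g ∈ A ⊔ B ⊔ C, ⁅m, g⁆ ∈ Z := by
    intro m hm
    apply comm_mem_three_right nZA hZB nZC
    · intro a ha; exact commElem_inv_mem (hAMZ a ha m hm)
    · intro b hb; rw [commElem_eq_one_of_commute (hMB m hm b hb)]; exact Z.one_mem
    · intro c hc; rw [commElem_eq_one_of_commute (hMC m hm c hc)]; exact Z.one_mem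
  have c2 : ∀ x ∈ Z ⊔ L ⊔ M, ∀ g ∈ A ⊔ B ⊔ C, ⁅x, g⁆ ∈ Z := by
    intro x hx g hg
    revert x
    apply comm_mem_three_left (fun z hz => conjBy_of_mem hz)
      (fun l hl => conjBy_eq_of_commute (fun z hz => (hZL z hz l hl).symm))
      (fun m hm => conjBy_eq_of_commute (fun z hz => (hZM z hz m hm).symm))
    · intro z hz; exact hPZ (c1 z hz g hg)
    · intro l hl; exact c2L l hl g hg
    · intro m hm; exact c2M m hm g hg
  obtain ⟨K, hK⟩ : ∃ K : Subgroup G, K = Z ⊔ L ⊔ M := ⟨_, rfl⟩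
  have hZK : Z ≤ K := by rw [hK]; exact le_sup_of_le_left le_sup_left
  have hLK : L ≤ K := by rw [hK]; exact le_sup_of_le_left le_sup_right
  have hMK : M ≤ K := by rw [hK]; exact le_sup_right
  have nKA : ∀ g ∈ A, conjBy K g = K := by
    apply Cfg.conjBy_eq_of_le
    intro a ha
    have e1 : conjBy L a = L := conjBy_eq_of_commute (fun l hl => (hLA l hl a ha).symm)
    rw [hK, conjBy_sup, conjBy_sup, nZA a ha, e1, ← hK]
    refine sup_le (sup_le hZK hLK) ?_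
    intro y hy
    have hy' := mem_conjBy.mp hy
    have e : y = ⁅a, a⁻¹ * y * a⁆ * (a⁻¹ * y * a) := by rw [commutatorElement_def]; group
    rw [e]
    exact K.mul_mem (hZK (hAMZ a ha _ hy')) (hMK hy')
  have nKB : ∀ g ∈ B, conjBy K g = K := by
    intro b hb
    have e1 : conjBy L b = L := conjBy_eq_of_commute (fun l hl => (hLB l hl b hb).symm)
    have e2 : conjBy M b = M := conjBy_eq_of_commute (fun m hm => (hMB m hm b hb).symm)
    rw [hK, conjBy_sup, conjBy_sup, hZB b hb, e1, e2]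
  have nKC : ∀ g ∈ C, conjBy K g = K := by
    apply Cfg.conjBy_eq_of_le
    intro c hc
    have e2 : conjBy M c = M := conjBy_eq_of_commute (fun m hm => (hMC m hm c hc).symm)
    rw [hK, conjBy_sup, conjBy_sup, nZC c hc, e2, ← hK]
    refine sup_le (sup_le hZK ?_) hMK
    intro y hy
    have hy' := mem_conjBy.mp hy
    have e : y = ⁅c, c⁻¹ * y * c⁆ * (c⁻¹ * y * c) := by rw [commutatorElement_def]; group
    rw [e]
    exact K.mul_mem (hZK (hCLZ c hc _ hy')) (hLK hy')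
  have c3 : ∀ x ∈ A ⊔ B ⊔ C, ∀ g ∈ A ⊔ B ⊔ C, ⁅x, g⁆ ∈ K := by
    intro x hx g hg
    revert x
    apply comm_mem_three_left nKA nKB nKC
    · intro a ha
      revert g
      apply comm_mem_three_right nKA nKB nKC
      · intro a' ha'; rw [commElem_eq_one_of_commute (hAA a ha a' ha')]; exact K.one_mem
      · intro b hb; exact hLK (hABL a ha b hb)
      · intro c hc; rw [commElem_eq_one_of_commute (hAC a ha c hc)]; exact K.one_mem
    · intro b hb
      revert g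
      apply comm_mem_three_right nKA nKB nKC
      · intro a ha; exact hLK (commElem_inv_mem (hABL a ha b hb))
      · intro b' hb'; rw [commElem_eq_one_of_commute (hBB b hb b' hb')]; exact K.one_mem
      · intro c hc; exact hMK (hBCM b hb c hc)
    · intro c hc
      revert g
      apply comm_mem_three_right nKA nKB nKC
      · intro a ha; rw [commElem_eq_one_of_commute (hAC a ha c hc).symm]; exact K.one_mem
      · intro b hb; exact hMK (commElem_inv_mem (hBCM b hb c hc))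
      · intro c' hc'; rw [commElem_eq_one_of_commute (hCC c hc c' hc')]; exact K.one_mem
  apply nilpotent_of_series (fun i => match i with
    | 0 => ⊥ | 1 => P | 2 => Z | 3 => K | _ => A ⊔ B ⊔ C) 4 rfl le_rfl
  intro i x hx g hg
  match i, hx with
  | 0, hx => exact c0 x hx g hg
  | 1, hx => exact c1 x hx g hg
  | 2, hx =>
    have hx' : x ∈ Z ⊔ L ⊔ M := by rw [← hK]; exact hx
    exact c2 x hx' g hg
  | 3, hx => exact c3 x hx g hg
  | (k + 4), hx =>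
    have hx' : x ∈ A ⊔ B ⊔ C := hx
    show ⁅x, g⁆ ∈ A ⊔ B ⊔ C
    rw [commutatorElement_def]
    exact mul_mem (mul_mem (mul_mem hx' hg) (inv_mem hx')) (inv_mem hg)


/-- The subgroup generated by three abstract root subgroups `A`, `B`, `C` with `⁅A, B⁆`, `⁅B, C⁆`
members of `S` and `A`, `C` commuting. -/
theorem three_root_subgroups {S : Set (Subgroup G)} (hS : IsRootSubgroupSet S)
    {A B C : Subgroup G} (hA : A ∈ S) (hB : B ∈ S) (hC : C ∈ S) (hAB : ⁅A, B⁆ ∈ S)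
    (hBC : ⁅B, C⁆ ∈ S) (hAC : C ∈ commutingPartners S A) {b : G} (hb : b ∈ B) (hb1 : b ≠ 1) :
    ((IsMulCommutative ↥(A ⊔ conjBy C b⁻¹) ∧ IsMulCommutative ↥(conjBy A b⁻¹ ⊔ C)) ∨
      ((¬ IsMulCommutative ↥(A ⊔ conjBy C b⁻¹) ∧
          ⁅⁅A ⊔ conjBy C b⁻¹, A ⊔ conjBy C b⁻¹⁆, A ⊔ conjBy C b⁻¹⁆ = ⊥) ∧
        (¬ IsMulCommutative ↥(conjBy A b⁻¹ ⊔ C) ∧
          ⁅⁅conjBy A b⁻¹ ⊔ C, conjBy A b⁻¹ ⊔ C⁆, conjBy A b⁻¹ ⊔ C⁆ = ⊥))) ∧
    ⁅A ⊔ conjBy C b⁻¹, conjBy A b⁻¹ ⊔ C⁆ = ⊥ ∧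
    (∀ r ∈ A ⊔ B ⊔ C, conjBy ((A ⊔ conjBy C b⁻¹) ⊔ (conjBy A b⁻¹ ⊔ C)) r =
      (A ⊔ conjBy C b⁻¹) ⊔ (conjBy A b⁻¹ ⊔ C)) ∧
    ((A ⊔ conjBy C b⁻¹) ⊔ (conjBy A b⁻¹ ⊔ C)) ⊔ B = A ⊔ B ⊔ C ∧
    Group.IsNilpotent ↥(A ⊔ B ⊔ C) := by
  have hccAB : CC S A B := cc_of_commutator_mem hS hA hB hAB
  have hccBC : CC S B C := cc_of_commutator_mem hS hB hC hBC
  have hccBA : CC S B A := hccAB.symm
  have hccCB : CC S C B := hccBC.symm
  have hAA : ∀ x ∈ A, ∀ y ∈ A, x * y = y * x := fun x hx y hy =>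
    comm_of_isMulCommutative (hS.commutative A hA) hx hy
  have hBB : ∀ x ∈ B, ∀ y ∈ B, x * y = y * x := fun x hx y hy =>
    comm_of_isMulCommutative (hS.commutative B hB) hx hy
  have hCC : ∀ x ∈ C, ∀ y ∈ C, x * y = y * x := fun x hx y hy =>
    comm_of_isMulCommutative (hS.commutative C hC) hx hy
  have hLL : ∀ x ∈ ⁅A, B⁆, ∀ y ∈ ⁅A, B⁆, x * y = y * x := fun x hx y hy =>
    comm_of_isMulCommutative (hS.commutative _ hAB) hx hy
  have hMM : ∀ x ∈ ⁅B, C⁆, ∀ y ∈ ⁅B, C⁆, x * y = y * x := fun x hx y hy =>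
    comm_of_isMulCommutative (hS.commutative _ hBC) hx hy
  have hac : ∀ a ∈ A, ∀ c ∈ C, a * c = c * a := fun a ha c hc =>
    commute_of_commutator_eq_bot hAC.2.2 ha hc
  have hca : ∀ c ∈ C, ∀ a ∈ A, c * a = a * c := fun c hc a ha => (hac a ha c hc).symm
  have hbi : b⁻¹ ∈ B := B.inv_mem hb
  have hbi1 : b⁻¹ ≠ 1 := fun e => hb1 (inv_eq_one.mp e)
  have eBA : ⁅B, A⁆ = ⁅A, B⁆ := Subgroup.commutator_comm B A
  have eCB : ⁅C, B⁆ = ⁅B, C⁆ := Subgroup.commutator_comm C B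
  have hLA : ∀ l ∈ ⁅A, B⁆, ∀ a ∈ A, l * a = a * l := fun l hl a ha => hccAB.commute_left ha hl
  have hLB : ∀ l ∈ ⁅A, B⁆, ∀ b ∈ B, l * b = b * l := fun l hl b hb => hccAB.commute_right hb hl
  have hMB : ∀ m ∈ ⁅B, C⁆, ∀ b ∈ B, m * b = b * m := fun m hm b hb => hccBC.commute_left hb hm
  have hMC : ∀ m ∈ ⁅B, C⁆, ∀ c ∈ C, m * c = c * m := fun m hm c hc => hccBC.commute_right hc hm
  have hABL : ∀ a ∈ A, ∀ b ∈ B, ⁅a, b⁆ ∈ ⁅A, B⁆ := fun a ha b hb =>
    Subgroup.commutator_mem_commutator ha hb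
  have hBCM : ∀ b ∈ B, ∀ c ∈ C, ⁅b, c⁆ ∈ ⁅B, C⁆ := fun b hb c hc =>
    Subgroup.commutator_mem_commutator hb hc
  have hAb : conjBy A b⁻¹ ≤ A ⊔ ⁅A, B⁆ := hccAB.conj_le_left hbi
  have hCb : conjBy C b⁻¹ ≤ C ⊔ ⁅B, C⁆ := hccBC.conj_le_right hbi
  -- X and Y commute
  have part2 : ⁅A ⊔ conjBy C b⁻¹, conjBy A b⁻¹ ⊔ C⁆ = ⊥ := by
    apply commutator_eq_bot_of_commute
    have hAY : ∀ a ∈ A, ∀ y ∈ conjBy A b⁻¹ ⊔ C, y * a = a * y := by
      intro a ha
      apply commute_sup_left_gen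
      · intro y hy; exact hccAB.commute_sup_left (hS.commutative A hA) y (hAb hy) a ha
      · intro c hc; exact hca c hc a ha
    have hCbY : ∀ x ∈ conjBy C b⁻¹, ∀ y ∈ conjBy A b⁻¹ ⊔ C, y * x = x * y := by
      intro x hx
      apply commute_sup_left_gen
      · intro y hy; exact commute_conjBy hac b⁻¹ y hy x hx
      · intro c hc
        exact (hccBC.commute_sup_right (hS.commutative C hC) x (hCb hx) c hc).symm
    intro x hx y hy
    exact commute_sup_left_gen (fun a ha => (hAY a ha y hy).symm)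
      (fun x hx => (hCbY x hx y hy).symm) x hx
  -- XY = A L C M
  have hXY : (A ⊔ conjBy C b⁻¹) ⊔ (conjBy A b⁻¹ ⊔ C) = (A ⊔ ⁅A, B⁆) ⊔ (C ⊔ ⁅B, C⁆) := by
    apply le_antisymm
    · exact sup_le (sup_le (le_sup_of_le_left le_sup_left) (hCb.trans le_sup_right))
        (sup_le (hAb.trans le_sup_left) (le_sup_of_le_right le_sup_left))
    · refine sup_le (sup_le (le_sup_of_le_left le_sup_left) ?_)
        (sup_le (le_sup_of_le_right le_sup_right) ?_)
      · intro l hl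
        obtain ⟨a, ha, e⟩ := hccBA.surj_left b⁻¹ hbi hbi1 l (by rw [eBA]; exact hl)
        rw [← e, commutatorElement_def]
        exact mul_mem (Subgroup.mem_sup_right (Subgroup.mem_sup_left (conj_mem_conjBy ha)))
          (Subgroup.mem_sup_left (Subgroup.mem_sup_left (A.inv_mem ha)))
      · intro m hm
        obtain ⟨c, hc, e⟩ := hccBC.surj_left b⁻¹ hbi hbi1 m hm
        rw [← e, commutatorElement_def]
        exact mul_mem (Subgroup.mem_sup_left (Subgroup.mem_sup_right (conj_mem_conjBy hc)))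
          (Subgroup.mem_sup_right (Subgroup.mem_sup_right (C.inv_mem hc)))
  have part3 : ∀ r ∈ A ⊔ B ⊔ C, conjBy ((A ⊔ conjBy C b⁻¹) ⊔ (conjBy A b⁻¹ ⊔ C)) r =
      (A ⊔ conjBy C b⁻¹) ⊔ (conjBy A b⁻¹ ⊔ C) := by
    rw [hXY]
    apply normalizes_three
    · intro a ha
      exact conjBy_of_mem (Subgroup.mem_sup_left (Subgroup.mem_sup_left ha))
    · apply Cfg.conjBy_eq_of_le
      intro x hx
      have e1 : conjBy ⁅A, B⁆ x = ⁅A, B⁆ :=
        conjBy_eq_of_commute (fun l hl => (hLB l hl x hx).symm)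
      have e2 : conjBy ⁅B, C⁆ x = ⁅B, C⁆ :=
        conjBy_eq_of_commute (fun m hm => (hMB m hm x hx).symm)
      rw [conjBy_sup, conjBy_sup, conjBy_sup, e1, e2]
      exact sup_le (sup_le ((hccAB.conj_le_left hx).trans le_sup_left)
        (le_sup_of_le_left le_sup_right))
        (sup_le ((hccBC.conj_le_right hx).trans le_sup_right) (le_sup_of_le_right le_sup_right))
    · intro c hc
      exact conjBy_of_mem (Subgroup.mem_sup_right (Subgroup.mem_sup_left hc))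
  have part4 : ((A ⊔ conjBy C b⁻¹) ⊔ (conjBy A b⁻¹ ⊔ C)) ⊔ B = A ⊔ B ⊔ C := by
    rw [hXY]
    apply le_antisymm
    · refine sup_le (sup_le (sup_le (le_sup_of_le_left le_sup_left) ?_)
        (sup_le le_sup_right ?_)) (le_sup_of_le_left le_sup_right)
      · exact (commutator_le_sup A B).trans le_sup_left
      · exact (commutator_le_sup B C).trans
          (sup_le (le_sup_of_le_left le_sup_right) le_sup_right)
    · exact sup_le (sup_le (le_sup_of_le_left (le_sup_of_le_left le_sup_left)) le_sup_right)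
        (le_sup_of_le_left (le_sup_of_le_right le_sup_left))
  have key1 : ∀ b' ∈ B, b' ≠ 1 → ⁅A, ⁅B, C⁆⁆ ≤ conjBy ⁅C, ⁅A, B⁆⁆ b' :=
    fun b' hb' hb'1 => comm_le_conj hccBC hac hb' hb'1
  have key2 : ∀ b' ∈ B, b' ≠ 1 → ⁅C, ⁅A, B⁆⁆ ≤ conjBy ⁅A, ⁅B, C⁆⁆ b' := by
    intro b' hb' hb'1
    have := comm_le_conj (A := C) hccBA hca hb' hb'1
    rwa [eBA, eCB] at this
  rcases hS.pair A hA ⁅B, C⁆ hBC with hAM | hAM | hAM
  · -- both abelian
    have hCL : ⁅C, ⁅A, B⁆⁆ = ⊥ := by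
      have := key2 b hb hb1
      rw [hAM, conjBy_bot] at this
      exact le_bot_iff.mp this
    have ham : ∀ a ∈ A, ∀ m ∈ ⁅B, C⁆, a * m = m * a := fun a ha m hm =>
      commute_of_commutator_eq_bot hAM ha hm
    have hcl : ∀ c ∈ C, ∀ l ∈ ⁅A, B⁆, c * l = l * c := fun c hc l hl =>
      commute_of_commutator_eq_bot hCL hc hl
    refine ⟨Or.inl ⟨?_, ?_⟩, part2, part3, part4, ?_⟩
    · have hX : ∀ x ∈ A ⊔ conjBy C b⁻¹, ∀ y ∈ A ⊔ conjBy C b⁻¹, x * y = y * x := by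
        apply sup_commutative hAA (commute_conjBy hCC b⁻¹)
        intro a ha x hx
        exact (commute_sup_left_gen (fun c hc => hca c hc a ha)
          (fun m hm => (ham a ha m hm).symm) x (hCb hx)).symm
      exact ⟨⟨fun x y => Subtype.ext (hX x x.2 y y.2)⟩⟩
    · have hY : ∀ x ∈ conjBy A b⁻¹ ⊔ C, ∀ y ∈ conjBy A b⁻¹ ⊔ C, x * y = y * x := by
        apply sup_commutative (commute_conjBy hAA b⁻¹) hCC
        intro x hx c hc
        exact commute_sup_left_gen (fun a ha => hac a ha c hc)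
          (fun l hl => (hcl c hc l hl).symm) x (hAb hx)
      exact ⟨⟨fun x y => Subtype.ext (hY x x.2 y y.2)⟩⟩
    · apply nilpotent_of_abc (L := ⁅A, B⁆) (M := ⁅B, C⁆) (Z := ⊥) (P := ⊥) hAA hBB hCC hac
        hABL hBCM hLA hLB hMB hMC
      · intro a ha m hm
        rw [commElem_eq_one_of_commute (ham a ha m hm)]; exact Subgroup.one_mem _
      · intro c hc l hl
        rw [commElem_eq_one_of_commute (hcl c hc l hl)]; exact Subgroup.one_mem _
      · exact bot_commute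
      · exact bot_commute
      · exact bot_commute
      · exact bot_commute
      · intro b' _; exact conjBy_bot b'
      · intro z hz b' _
        rw [Subgroup.mem_bot.mp hz, commElem_one_left]; exact Subgroup.one_mem _
      · exact bot_commute
      · exact bot_commute
      · exact bot_commute
      · exact le_rfl
  · exact absurd hAM (not_rankOne_three hS hA hB hccAB hccBC hac)
  · have hccAM := CC.of hAM
    rcases hS.pair C hC ⁅A, B⁆ hAB with hCL | hCL | hCL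
    · exfalso
      have := key1 b hb hb1
      rw [hCL, conjBy_bot] at this
      exact hS.ne_bot _ hccAM.mem (le_bot_iff.mp this)
    · exfalso
      have := not_rankOne_three hS hC hB hccCB hccBA hca
      rw [eBA] at this
      exact this hCL
    · have hccCL := CC.of hCL
      -- notation-free abbreviations
      obtain ⟨N₁, hN₁⟩ : ∃ N₁ : Subgroup G, N₁ = ⁅A, ⁅B, C⁆⁆ := ⟨_, rfl⟩
      obtain ⟨N₂, hN₂⟩ : ∃ N₂ : Subgroup G, N₂ = ⁅C, ⁅A, B⁆⁆ := ⟨_, rfl⟩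
      have hN₁S : N₁ ∈ S := by rw [hN₁]; exact hccAM.mem
      have hN₂S : N₂ ∈ S := by rw [hN₂]; exact hccCL.mem
      have hconj12 : ∀ b' ∈ B, b' ≠ 1 → conjBy N₁ b' = N₂ := by
        intro b' hb' hb'1
        rw [hN₁, hN₂]
        apply le_antisymm
        · have h1 := key1 b'⁻¹ (B.inv_mem hb') (fun e => hb'1 (inv_eq_one.mp e))
          have h2 := conjBy_mono h1 b'
          rwa [conjBy_cancel_inv] at h2
        · exact key2 b' hb' hb'1
      have hconj21 : ∀ b' ∈ B, b' ≠ 1 → conjBy N₂ b' = N₁ := by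
        intro b' hb' hb'1
        rw [hN₁, hN₂]
        apply le_antisymm
        · have h1 := key2 b'⁻¹ (B.inv_mem hb') (fun e => hb'1 (inv_eq_one.mp e))
          have h2 := conjBy_mono h1 b'
          rwa [conjBy_cancel_inv] at h2
        · exact key1 b' hb' hb'1
      have hN1A : ∀ n ∈ N₁, ∀ a ∈ A, n * a = a * n := by
        intro n hn a ha; rw [hN₁] at hn; exact hccAM.commute_left ha hn
      have hN1M : ∀ n ∈ N₁, ∀ m ∈ ⁅B, C⁆, n * m = m * n := by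
        intro n hn m hm; rw [hN₁] at hn; exact hccAM.commute_right hm hn
      have hN1C : ∀ n ∈ N₁, ∀ c ∈ C, n * c = c * n := by
        intro n hn c hc; rw [hN₁] at hn
        exact commute_commutator (fun a ha => hac a ha c hc) (fun m hm => hMC m hm c hc) n hn
      have hN2C : ∀ n ∈ N₂, ∀ c ∈ C, n * c = c * n := by
        intro n hn c hc; rw [hN₂] at hn; exact hccCL.commute_left hc hn
      have hN2L : ∀ n ∈ N₂, ∀ l ∈ ⁅A, B⁆, n * l = l * n := by
        intro n hn l hl; rw [hN₂] at hn; exact hccCL.commute_right hl hn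
      have hN2A : ∀ n ∈ N₂, ∀ a ∈ A, n * a = a * n := by
        intro n hn a ha; rw [hN₂] at hn
        exact commute_commutator (fun c hc => hca c hc a ha) (fun l hl => hLA l hl a ha) n hn
      have hN1L : ∀ n ∈ N₁, ∀ l ∈ ⁅A, B⁆, n * l = l * n := by
        intro n hn l hl
        rw [← hconj21 b hb hb1] at hn
        exact commute_of_conj (hLB l hl b hb).symm (fun n hn => hN2L n hn l hl) n hn
      have hN2M : ∀ n ∈ N₂, ∀ m ∈ ⁅B, C⁆, n * m = m * n := by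
        intro n hn m hm
        rw [← hconj12 b hb hb1] at hn
        exact commute_of_conj (hMB m hm b hb).symm (fun n hn => hN1M n hn m hm) n hn
      have hZA : ∀ z ∈ N₁ ⊔ N₂, ∀ a ∈ A, z * a = a * z := fun z hz a ha =>
        commute_sup_left_gen (fun n hn => hN1A n hn a ha) (fun n hn => hN2A n hn a ha) z hz
      have hZC : ∀ z ∈ N₁ ⊔ N₂, ∀ c ∈ C, z * c = c * z := fun z hz c hc =>
        commute_sup_left_gen (fun n hn => hN1C n hn c hc) (fun n hn => hN2C n hn c hc) z hz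
      have hZL : ∀ z ∈ N₁ ⊔ N₂, ∀ l ∈ ⁅A, B⁆, z * l = l * z := fun z hz l hl =>
        commute_sup_left_gen (fun n hn => hN1L n hn l hl) (fun n hn => hN2L n hn l hl) z hz
      have hZM : ∀ z ∈ N₁ ⊔ N₂, ∀ m ∈ ⁅B, C⁆, z * m = m * z := fun z hz m hm =>
        commute_sup_left_gen (fun n hn => hN1M n hn m hm) (fun n hn => hN2M n hn m hm) z hz
      have hZB : ∀ b' ∈ B, conjBy (N₁ ⊔ N₂) b' = N₁ ⊔ N₂ := by
        intro b' hb'
        by_cases hb'1 : b' = 1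
        · rw [hb'1, conjBy_one]
        · rw [conjBy_sup, hconj12 b' hb' hb'1, hconj21 b' hb' hb'1, sup_comm]
      -- the central term
      have hP : ∃ P : Subgroup G, (∀ z ∈ N₁ ⊔ N₂, ∀ b' ∈ B, ⁅z, b'⁆ ∈ P) ∧
          (∀ p ∈ P, ∀ b' ∈ B, p * b' = b' * p) ∧ P ≤ N₁ ⊔ N₂ := by
        rcases hS.pair B hB N₁ hN₁S with hBN | hBN | hBN
        · refine ⟨⊥, ?_, bot_commute, bot_le⟩
          have h1 : ∀ n ∈ N₁, ∀ b' ∈ B, n * b' = b' * n := fun n hn b' hb' =>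
            (commute_of_commutator_eq_bot hBN hb' hn).symm
          have h2 : ∀ n ∈ N₂, ∀ b' ∈ B, n * b' = b' * n := by
            intro n hn b' hb'
            rw [← hconj12 b hb hb1] at hn
            exact commute_of_conj (hBB b hb b' hb') (fun n hn => h1 n hn b' hb') n hn
          intro z hz b' hb'
          rw [commElem_eq_one_of_commute
            (commute_sup_left_gen (fun n hn => h1 n hn b' hb') (fun n hn => h2 n hn b' hb') z hz)]
          exact Subgroup.one_mem _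
        · exfalso
          obtain ⟨c₀, hc₀, hc₀1⟩ := exists_ne_one_of_mem hS hC
          obtain ⟨n, hn, hn1⟩ := exists_ne_one_of_mem hS hN₂S
          obtain ⟨l, hl, e⟩ := hccCL.surj_left c₀ hc₀ hc₀1 n (by rw [← hN₂]; exact hn)
          have hn' : ⁅l, c₀⁆ ∈ N₂ := by
            rw [← commutatorElement_inv, e]; exact N₂.inv_mem hn
          have hn'1 : ⁅l, c₀⁆ ≠ 1 := by
            intro e'
            rw [← commutatorElement_inv, e, inv_eq_one] at e'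
            exact hn1 e'
          have hm : ⁅b, c₀⁆ ∈ ⁅B, C⁆ := hBCM b hb c₀ hc₀
          have hid : ⁅l, ⁅b, c₀⁆⁆ = ⁅b, ⁅l, c₀⁆⁆ :=
            hw_identity2 (hLB l hl b hb) (hN2M _ hn' _ hm).symm
          have hzb : ⁅b, ⁅l, c₀⁆⁆ * b = b * ⁅b, ⁅l, c₀⁆⁆ := by
            rw [← hid]
            exact commute_commutator (fun l hl => hLB l hl b hb) (fun m hm => hMB m hm b hb) _
              (Subgroup.commutator_mem_commutator hl hm)
          obtain ⟨n', hn'def⟩ : ∃ n' : G, n' = ⁅l, c₀⁆ := ⟨_, rfl⟩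
          rw [← hn'def] at hn' hn'1 hzb
          have hro₂ : IsRankOnePair B N₂ := by
            have := RO.conj hBN b
            rwa [conjBy_of_mem hb, hconj12 b hb hb1] at this
          have hne : B ≠ conjBy B n' := by
            intro e'
            exact hn'1 (RO.eq_one_of_normalizes (RankOnePair_symm hro₂) hn' e'.symm)
          have hpair := (RO.pair_of_mem hro₂ (RO.A_mem_unipotent hro₂)
            (conj_mem_unipotent (RO.A_mem_unipotent hro₂) (Subgroup.mem_sup_right hn')) hne).1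
          have hw : n' * b⁻¹ * n'⁻¹ ∈ conjBy B n' := conj_mem_conjBy hbi
          have hw1 : n' * b⁻¹ * n'⁻¹ ≠ 1 := by
            intro e'
            apply hbi1
            calc b⁻¹ = n'⁻¹ * (n' * b⁻¹ * n'⁻¹) * n' := by group
              _ = 1 := by rw [e']; group
          have ew : n' * b⁻¹ * n'⁻¹ = b⁻¹ * ⁅b, n'⁆ := by rw [commutatorElement_def]; group
          apply RO.not_commute hpair hb hb1 hw hw1
          rw [ew]
          calc b * (b⁻¹ * ⁅b, n'⁆) = b⁻¹ * (b * ⁅b, n'⁆) := by group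
            _ = b⁻¹ * (⁅b, n'⁆ * b) := by rw [hzb]
            _ = b⁻¹ * ⁅b, n'⁆ * b := by group
        · have hccBN := CC.of hBN
          have hPB : ∀ p ∈ ⁅B, N₁⁆, ∀ b' ∈ B, p * b' = b' * p := fun p hp b' hb' =>
            hccBN.commute_left hb' hp
          have hPN1 : ∀ p ∈ ⁅B, N₁⁆, ∀ n ∈ N₁, p * n = n * p := fun p hp n hn =>
            hccBN.commute_right hn hp
          have hPN2 : ∀ p ∈ ⁅B, N₁⁆, ∀ n ∈ N₂, p * n = n * p := by
            intro p hp n hn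
            rw [← hconj12 b hb hb1] at hn
            exact (commute_of_conj (hPB p hp b hb).symm (fun n hn => (hPN1 p hp n hn).symm)
              n hn).symm
          have hPZ : ⁅B, N₁⁆ ≤ N₁ ⊔ N₂ := by
            rw [Subgroup.commutator_le]
            intro b' hb' n hn
            rw [commutatorElement_def]
            refine mul_mem ?_ (Subgroup.mem_sup_left (N₁.inv_mem hn))
            have h1 : b' * n * b'⁻¹ ∈ conjBy (N₁ ⊔ N₂) b' :=
              conj_mem_conjBy (Subgroup.mem_sup_left hn)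
            rwa [hZB b' hb'] at h1
          refine ⟨⁅B, N₁⁆, ?_, hPB, hPZ⟩
          intro z hz b' hb'
          revert z
          apply comm_mem_sup_left
          · intro x hx
            exact conjBy_eq_of_commute (fun p hp => (hPN1 p hp x hx).symm)
          · intro x hx
            exact conjBy_eq_of_commute (fun p hp => (hPN2 p hp x hx).symm)
          · intro n hn
            exact commElem_inv_mem (Subgroup.commutator_mem_commutator hb' hn)
          · intro n hn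
            have hn₁ : b⁻¹ * n * b ∈ N₁ := by
              rw [← hconj12 b hb hb1] at hn
              exact mem_conjBy.mp hn
            have h1 : b * b' * b⁻¹ = b' := by rw [hBB b hb b' hb']; group
            have h2 : b * b'⁻¹ * b⁻¹ = b'⁻¹ := by
              calc b * b'⁻¹ * b⁻¹ = b'⁻¹ * (b' * b) * b'⁻¹ * b⁻¹ := by group
                _ = b'⁻¹ * (b * b') * b'⁻¹ * b⁻¹ := by rw [hBB b' hb' b hb]
                _ = b'⁻¹ := by group
            have e : ⁅n, b'⁆ = b * ⁅b⁻¹ * n * b, b'⁆ * b⁻¹ := by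
              calc ⁅n, b'⁆ = n * b' * n⁻¹ * b'⁻¹ := commutatorElement_def n b'
                _ = n * (b * b' * b⁻¹) * n⁻¹ * (b * b'⁻¹ * b⁻¹) := by rw [h1, h2]
                _ = b * ⁅b⁻¹ * n * b, b'⁆ * b⁻¹ := by rw [commutatorElement_def]; group
            rw [e]
            have h3 : ⁅b⁻¹ * n * b, b'⁆ ∈ ⁅B, N₁⁆ :=
              commElem_inv_mem (Subgroup.commutator_mem_commutator hb' hn₁)
            have h4 := conj_mem_conjBy (g := b) h3
            rwa [conjBy_eq_of_commute (fun p hp => (hPB p hp b hb).symm)] at h4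
      obtain ⟨P, hZBP, hPB, hPZ⟩ := hP
      have hAMZ : ∀ a ∈ A, ∀ m ∈ ⁅B, C⁆, ⁅a, m⁆ ∈ N₁ ⊔ N₂ := by
        intro a ha m hm
        apply Subgroup.mem_sup_left
        rw [hN₁]; exact Subgroup.commutator_mem_commutator ha hm
      have hCLZ : ∀ c ∈ C, ∀ l ∈ ⁅A, B⁆, ⁅c, l⁆ ∈ N₁ ⊔ N₂ := by
        intro c hc l hl
        apply Subgroup.mem_sup_right
        rw [hN₂]; exact Subgroup.commutator_mem_commutator hc hl
      have hnil : Group.IsNilpotent ↥(A ⊔ B ⊔ C) :=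
        nilpotent_of_abc (L := ⁅A, B⁆) (M := ⁅B, C⁆) (Z := N₁ ⊔ N₂) (P := P) hAA hBB hCC hac
          hABL hBCM hLA hLB hMB hMC hAMZ hCLZ hZA hZC hZL hZM hZB hZBP
          (fun p hp a ha => hZA p (hPZ hp) a ha) hPB (fun p hp c hc => hZC p (hPZ hp) c hc) hPZ
      refine ⟨Or.inr ⟨⟨?_, ?_⟩, ⟨?_, ?_⟩⟩, part2, part3, part4, hnil⟩
      · -- X not commutative
        intro hcomm
        have hex : ∃ a ∈ A, ∃ m ∈ ⁅B, C⁆, ⁅a, m⁆ ≠ 1 := by
          by_contra hall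
          push Not at hall
          apply hS.ne_bot _ hccAM.mem
          rw [eq_bot_iff, Subgroup.commutator_le]
          intro a ha m hm
          rw [hall a ha m hm]; exact Subgroup.one_mem _
        obtain ⟨a, ha, m, hm, hne⟩ := hex
        obtain ⟨c, hc, e⟩ := hccBC.surj_left b⁻¹ hbi hbi1 m hm
        have hx : b⁻¹ * c * b⁻¹⁻¹ ∈ conjBy C b⁻¹ := conj_mem_conjBy hc
        have ex : b⁻¹ * c * b⁻¹⁻¹ = m * c := by rw [← e, commutatorElement_def]; group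
        have hax : a * (b⁻¹ * c * b⁻¹⁻¹) = (b⁻¹ * c * b⁻¹⁻¹) * a :=
          comm_of_isMulCommutative hcomm (Subgroup.mem_sup_left ha) (Subgroup.mem_sup_right hx)
        rw [ex] at hax
        apply hne
        apply commElem_eq_one_of_commute
        calc a * m = a * (m * c) * c⁻¹ := by group
          _ = m * c * a * c⁻¹ := by rw [hax]
          _ = m * (c * a) * c⁻¹ := by group
          _ = m * (a * c) * c⁻¹ := by rw [hca c hc a ha]
          _ = m * a := by group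
      · have hle : A ⊔ conjBy C b⁻¹ ≤ A ⊔ C ⊔ ⁅B, C⁆ :=
          sup_le (le_sup_of_le_left le_sup_left)
            (hCb.trans (sup_le (le_sup_of_le_left le_sup_right) le_sup_right))
        have h2 : ⁅⁅A ⊔ C ⊔ ⁅B, C⁆, A ⊔ C ⊔ ⁅B, C⁆⁆, A ⊔ C ⊔ ⁅B, C⁆⁆ = ⊥ := by
          apply class_two_of_gens (N := N₁) hN1A hN1C hN1M
          · intro x hx y hy
            rw [commElem_eq_one_of_commute (hAA x hx y hy)]; exact N₁.one_mem
          · intro x hx y hy
            rw [commElem_eq_one_of_commute (hCC x hx y hy)]; exact N₁.one_mem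
          · intro x hx y hy
            rw [commElem_eq_one_of_commute (hMM x hx y hy)]; exact N₁.one_mem
          · intro x hx y hy
            rw [commElem_eq_one_of_commute (hac x hx y hy)]; exact N₁.one_mem
          · intro x hx y hy
            rw [hN₁]; exact Subgroup.commutator_mem_commutator hx hy
          · intro x hx y hy
            rw [commElem_eq_one_of_commute (hMC y hy x hx).symm]; exact N₁.one_mem
        rw [eq_bot_iff, ← h2]
        exact Subgroup.commutator_mono (Subgroup.commutator_mono hle hle) hle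
      · -- Y not commutative
        intro hcomm
        have hex : ∃ c ∈ C, ∃ l ∈ ⁅A, B⁆, ⁅c, l⁆ ≠ 1 := by
          by_contra hall
          push Not at hall
          apply hS.ne_bot _ hccCL.mem
          rw [eq_bot_iff, Subgroup.commutator_le]
          intro c hc l hl
          rw [hall c hc l hl]; exact Subgroup.one_mem _
        obtain ⟨c, hc, l, hl, hne⟩ := hex
        obtain ⟨a, ha, e⟩ := hccBA.surj_left b⁻¹ hbi hbi1 l (by rw [eBA]; exact hl)
        have hy : b⁻¹ * a * b⁻¹⁻¹ ∈ conjBy A b⁻¹ := conj_mem_conjBy ha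
        have ey : b⁻¹ * a * b⁻¹⁻¹ = l * a := by rw [← e, commutatorElement_def]; group
        have hcy : c * (b⁻¹ * a * b⁻¹⁻¹) = (b⁻¹ * a * b⁻¹⁻¹) * c :=
          comm_of_isMulCommutative hcomm (Subgroup.mem_sup_right hc) (Subgroup.mem_sup_left hy)
        rw [ey] at hcy
        apply hne
        apply commElem_eq_one_of_commute
        calc c * l = c * (l * a) * a⁻¹ := by group
          _ = l * a * c * a⁻¹ := by rw [hcy]
          _ = l * (a * c) * a⁻¹ := by group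
          _ = l * (c * a) * a⁻¹ := by rw [hac a ha c hc]
          _ = l * c := by group
      · have hle : conjBy A b⁻¹ ⊔ C ≤ A ⊔ ⁅A, B⁆ ⊔ C := sup_le (hAb.trans le_sup_left) le_sup_right
        have h2 : ⁅⁅A ⊔ ⁅A, B⁆ ⊔ C, A ⊔ ⁅A, B⁆ ⊔ C⁆, A ⊔ ⁅A, B⁆ ⊔ C⁆ = ⊥ := by
          apply class_two_of_gens (N := N₂) hN2A hN2L hN2C
          · intro x hx y hy
            rw [commElem_eq_one_of_commute (hAA x hx y hy)]; exact N₂.one_mem
          · intro x hx y hy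
            rw [commElem_eq_one_of_commute (hLL x hx y hy)]; exact N₂.one_mem
          · intro x hx y hy
            rw [commElem_eq_one_of_commute (hCC x hx y hy)]; exact N₂.one_mem
          · intro x hx y hy
            rw [commElem_eq_one_of_commute (hLA y hy x hx).symm]; exact N₂.one_mem
          · intro x hx y hy
            rw [commElem_eq_one_of_commute (hac x hx y hy)]; exact N₂.one_mem
          · intro x hx y hy
            rw [hN₂]; exact commElem_inv_mem (Subgroup.commutator_mem_commutator hy hx)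
        rw [eq_bot_iff, ← h2]
        exact Subgroup.commutator_mono (Subgroup.commutator_mono hle hle) hle

end Cfsg.Agent.Helper83
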