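import Mathlib
import Cfsg.Prelude.Def_RootSubgroups
import Cfsg.Agent.Helper83.Cubic
import Cfsg.Agent.Helper83.RootSet3
import Cfsg.Agent.Helper83.SL2
import Cfsg.Agent.Helper83.RootSetMap

/-!
# Rank one pairs in a degenerate class with two commuting members are special
-/

namespace Cfsg.Agent.Helper83

open Cfsg
open scoped commutatorElement

universe u

section General

variable {G : Type*} [Group G]

/-- In a degenerate class with two different commuting members and a rank one pair there is a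
triangle: two different commuting members both in rank one pairs with a third. -/
theorem exists_triangle {S : Set (Subgroup G)} (hS : IsRootSubgroupClass S)
    (hdeg : IsDegenerateRootSet S) (hcomm : ∃ A ∈ S, ∃ C ∈ S, A ≠ C ∧ ⁅A, C⁆ = ⊥)
    (hex : ∃ A ∈ S, ∃ B ∈ S, IsRankOnePair A B) :
    ∃ X ∈ S, ∃ Y ∈ S, ∃ Z ∈ S, X ≠ Y ∧ ⁅X, Y⁆ = ⊥ ∧ IsRankOnePair X Z ∧ IsRankOnePair Y Z := by
  obtain ⟨K₀, hK₀, C₀, hC₀, hne, hc⟩ := hcomm
  obtain ⟨A₀, hA₀, B₀, hB₀, hAB₀⟩ := hex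
  have hconn : IsConnectedFamily (FAdj S) S :=
    (connected_iff hS.1 ⟨K₀, hK₀, C₀, hC₀, hne⟩).mpr
      ⟨hS.2, A₀, hA₀, not_isolated_of_partner hA₀ hB₀ hAB₀⟩
  have claim : ∀ E, Relation.ReflTransGen (FAdj S) E C₀ → ∀ K ∈ S, (K = E ∨ FAdj S K E) →
      K ≠ C₀ → ⁅K, C₀⁆ = ⊥ → ∃ X ∈ S, ∃ Y ∈ S, ∃ Z ∈ S, X ≠ Y ∧ ⁅X, Y⁆ = ⊥ ∧
        IsRankOnePair X Z ∧ IsRankOnePair Y Z := by
    intro E hE
    induction hE using Relation.ReflTransGen.head_induction_on with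
    | refl =>
      intro K hK hKE hKne hKc
      rcases hKE with e | hadj
      · exact absurd e hKne
      · exact absurd hKc (RO.commutator_ne_bot hadj.2.2)
    | @head E E' hEE' hpath ih =>
      intro K hK hKE hKne hKc
      rcases hKE with e | hadj
      · rw [e] at hK hKne hKc
        exact ih E hK (Or.inr hEE') hKne hKc
      · by_cases hKE' : K = E'
        · exact ih K hK (Or.inl hKE') hKne hKc
        · rcases hS.1.pair K hK E' hEE'.2.1 with p | p | p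
          · exact ⟨K, hK, E', hEE'.2.1, E, hEE'.1, hKE', p, hadj.2.2,
              RankOnePair_symm hEE'.2.2⟩
          · exact ih K hK (Or.inr ⟨hK, hEE'.2.1, p⟩) hKne hKc
          · exact absurd p (hdeg K hK E' hEE'.2.1)
  exact claim K₀ (hconn K₀ hK₀ C₀ hC₀) K₀ hK₀ (Or.inl rfl) hne hc

/-- The triangle can be taken with a prescribed first vertex. -/
theorem exists_triangle_at {S : Set (Subgroup G)} (hS : IsRootSubgroupClass S)
    (hdeg : IsDegenerateRootSet S) (hcomm : ∃ A ∈ S, ∃ C ∈ S, A ≠ C ∧ ⁅A, C⁆ = ⊥)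
    (hex : ∃ A ∈ S, ∃ B ∈ S, IsRankOnePair A B) {A : Subgroup G} (hA : A ∈ S) :
    ∃ P ∈ S, ∃ D ∈ S, A ≠ P ∧ ⁅A, P⁆ = ⊥ ∧ IsRankOnePair A D ∧ IsRankOnePair P D := by
  obtain ⟨X, hX, Y, hY, Z, hZ, hne, hc, h1, h2⟩ := exists_triangle hS hdeg hcomm hex
  obtain ⟨g, rfl⟩ := hS.2.2 X hX A hA
  refine ⟨conjBy Y g, hS.1.conj_mem Y hY g, conjBy Z g, hS.1.conj_mem Z hZ g,
    fun e => hne (conjBy_injective g e), ?_, RO.conj h1 g, RO.conj h2 g⟩
  rw [conjBy_commutator, hc, conjBy_bot]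

/-- `D` has three elements all of whose seven products are non-trivial. -/
def HasTriple (D : Subgroup G) : Prop :=
  ∃ d₁ ∈ D, ∃ d₂ ∈ D, ∃ d₃ ∈ D, d₁ ≠ 1 ∧ d₂ ≠ 1 ∧ d₃ ≠ 1 ∧ d₂ * d₁ ≠ 1 ∧ d₃ * d₁ ≠ 1 ∧
    d₃ * d₂ ≠ 1 ∧ d₃ * d₂ * d₁ ≠ 1

theorem HasTriple.conj {D : Subgroup G} (h : HasTriple D) (g : G) : HasTriple (conjBy D g) := by
  obtain ⟨d₁, h₁, d₂, h₂, d₃, h₃, n₁, n₂, n₃, n₂₁, n₃₁, n₃₂, n₃₂₁⟩ := h
  have key : ∀ x : G, x ≠ 1 → g * x * g⁻¹ ≠ 1 := by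
    intro x hx e
    apply hx
    have e1 : x = g⁻¹ * (g * x * g⁻¹) * g := by group
    rw [e1, e]; group
  refine ⟨g * d₁ * g⁻¹, conj_mem_conjBy h₁, g * d₂ * g⁻¹, conj_mem_conjBy h₂, g * d₃ * g⁻¹,
    conj_mem_conjBy h₃, key _ n₁, key _ n₂, key _ n₃, ?_, ?_, ?_, ?_⟩
  · have e1 : g * d₂ * g⁻¹ * (g * d₁ * g⁻¹) = g * (d₂ * d₁) * g⁻¹ := by group
    rw [e1]; exact key _ n₂₁
  · have e1 : g * d₃ * g⁻¹ * (g * d₁ * g⁻¹) = g * (d₃ * d₁) * g⁻¹ := by group
    rw [e1]; exact key _ n₃₁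
  · have e1 : g * d₃ * g⁻¹ * (g * d₂ * g⁻¹) = g * (d₃ * d₂) * g⁻¹ := by group
    rw [e1]; exact key _ n₃₂
  · have e1 : g * d₃ * g⁻¹ * (g * d₂ * g⁻¹) * (g * d₁ * g⁻¹) = g * (d₃ * d₂ * d₁) * g⁻¹ := by
      group
    rw [e1]; exact key _ n₃₂₁

theorem order_le_three_of_not_hasTriple {D : Subgroup G} (h : ¬ HasTriple D) {d : G}
    (hd : d ∈ D) : 0 < orderOf d ∧ orderOf d ≤ 3 := by
  have h1 : d = 1 ∨ d * d = 1 ∨ d * d * d = 1 := by
    by_contra hcon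
    push Not at hcon
    exact h ⟨d, hd, d, hd, d, hd, hcon.1, hcon.1, hcon.1, hcon.2.1, hcon.2.1, hcon.2.1,
      hcon.2.2⟩
  have h2 : ∃ n : ℕ, 0 < n ∧ n ≤ 3 ∧ d ^ n = 1 := by
    rcases h1 with e | e | e
    · exact ⟨1, by norm_num, by norm_num, by rw [pow_one]; exact e⟩
    · exact ⟨2, by norm_num, by norm_num, by rw [pow_two]; exact e⟩
    · exact ⟨3, by norm_num, by norm_num, by rw [pow_succ, pow_two]; exact e⟩
  obtain ⟨n, hn0, hn3, hn⟩ := h2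
  have hdvd := orderOf_dvd_of_pow_eq_one hn
  exact ⟨Nat.pos_of_dvd_of_pos hdvd hn0, le_trans (Nat.le_of_dvd hn0 hdvd) hn3⟩

/-- A subgroup `A₀` of `A` containing two non-identity elements with non-identity product is all
of `A` when `A` has no triple. -/
theorem full_of_not_hasTriple {A A₀ : Subgroup G} (hle : A₀ ≤ A) (hnt : ¬ HasTriple A) {u v : G}
    (hu : u ∈ A₀) (hv : v ∈ A₀) (hu1 : u ≠ 1) (hv1 : v ≠ 1) (huv : v * u ≠ 1) : A₀ = A := by
  apply le_antisymm hle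
  intro x hx
  by_contra hx0
  apply hnt
  refine ⟨u, hle hu, v, hle hv, x, hx, hu1, hv1, ?_, huv, ?_, ?_, ?_⟩
  · rintro rfl; exact hx0 A₀.one_mem
  · intro e
    apply hx0
    rw [eq_inv_of_mul_eq_one_left e]
    exact A₀.inv_mem hu
  · intro e
    apply hx0
    rw [eq_inv_of_mul_eq_one_left e]
    exact A₀.inv_mem hv
  · intro e
    apply hx0
    rw [mul_assoc] at e
    rw [eq_inv_of_mul_eq_one_left e]
    exact A₀.inv_mem (A₀.mul_mem hv hu)

end General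

section PSL2

variable {G : Type*} [Group G] {k : Type*} [Field k]

theorem exists_field_elt (h3 : 3 < ENat.card k) : ∃ c : k, c ≠ 0 ∧ c ≠ -1 := by
  by_contra hcon
  push Not at hcon
  have hsub : (Set.univ : Set k) ⊆ {0, -1} := by
    intro c _
    by_cases hc : c = 0
    · left; exact hc
    · right; exact hcon c hc
  have h1 : ENat.card k ≤ 2 := by
    rw [← Set.encard_univ]
    calc (Set.univ : Set k).encard ≤ ({0, -1} : Set k).encard := Set.encard_mono hsub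
      _ ≤ ({-1} : Set k).encard + 1 := Set.encard_insert_le _ _
      _ = 2 := by rw [Set.encard_singleton]; norm_num
  have h2 : (3 : ℕ∞) < 2 := lt_of_lt_of_le h3 h1
  exact absurd h2 (by decide)

theorem psl2_upper_ne_one {φ : Matrix.SpecialLinearGroup (Fin 2) k →* G}
    (hker : φ.ker ≤ Subgroup.center (Matrix.SpecialLinearGroup (Fin 2) k)) {t : k} (ht : t ≠ 0) :
    φ (sl2U t) ≠ 1 := by
  intro e
  have h1 : sl2U t ∈ Subgroup.center (Matrix.SpecialLinearGroup (Fin 2) k) :=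
    hker (MonoidHom.mem_ker.mpr e)
  have h2 := Subgroup.mem_center_iff.mp h1 (sl2L 1)
  have h3 := congrArg (fun g : Matrix.SpecialLinearGroup (Fin 2) k => g.1 0 0) h2
  simp [sl2_mul_apply] at h3
  exact ht h3

theorem psl2_lower_ne_one {φ : Matrix.SpecialLinearGroup (Fin 2) k →* G}
    (hker : φ.ker ≤ Subgroup.center (Matrix.SpecialLinearGroup (Fin 2) k)) {t : k} (ht : t ≠ 0) :
    φ (sl2L t) ≠ 1 := by
  intro e
  have h1 : sl2L t ∈ Subgroup.center (Matrix.SpecialLinearGroup (Fin 2) k) :=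
    hker (MonoidHom.mem_ker.mpr e)
  have h2 := Subgroup.mem_center_iff.mp h1 (sl2U 1)
  have h3 := congrArg (fun g : Matrix.SpecialLinearGroup (Fin 2) k => g.1 0 0) h2
  simp [sl2_mul_apply] at h3
  exact ht h3

theorem psl2_full_upper (h3 : 3 < ENat.card k) {A A₀ : Subgroup G} (hle : A₀ ≤ A)
    {φ : Matrix.SpecialLinearGroup (Fin 2) k →* G}
    (hker : φ.ker ≤ Subgroup.center (Matrix.SpecialLinearGroup (Fin 2) k))
    (hmap : (upperUnipotentSL2 k).map φ = A₀) (hnt : ¬ HasTriple A) : A₀ = A := by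
  obtain ⟨c, hc0, hc1⟩ := exists_field_elt h3
  have m : ∀ t : k, φ (sl2U t) ∈ A₀ := fun t => by
    rw [← hmap]
    exact Subgroup.mem_map_of_mem φ ((mem_upperUnipotentSL2 _).mpr ⟨t, rfl⟩)
  refine full_of_not_hasTriple hle hnt (m 1) (m c) (psl2_upper_ne_one hker one_ne_zero)
    (psl2_upper_ne_one hker hc0) ?_
  rw [← map_mul, sl2U_mul]
  apply psl2_upper_ne_one hker
  intro e
  apply hc1
  linear_combination e

theorem psl2_full_lower (h3 : 3 < ENat.card k) {B B₀ : Subgroup G} (hle : B₀ ≤ B)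
    {φ : Matrix.SpecialLinearGroup (Fin 2) k →* G}
    (hker : φ.ker ≤ Subgroup.center (Matrix.SpecialLinearGroup (Fin 2) k))
    (hmap : (lowerUnipotentSL2 k).map φ = B₀) (hnt : ¬ HasTriple B) : B₀ = B := by
  obtain ⟨c, hc0, hc1⟩ := exists_field_elt h3
  have m : ∀ t : k, φ (sl2L t) ∈ B₀ := fun t => by
    rw [← hmap]
    exact Subgroup.mem_map_of_mem φ ((mem_lowerUnipotentSL2 _).mpr ⟨t, rfl⟩)
  refine full_of_not_hasTriple hle hnt (m 1) (m c) (psl2_lower_ne_one hker one_ne_zero)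
    (psl2_lower_ne_one hker hc0) ?_
  rw [← map_mul, sl2L_mul]
  apply psl2_lower_ne_one hker
  intro e
  apply hc1
  linear_combination e

/-- A rank one pair that is the image of the unitriangular subgroups of `SL₂(k)` is special. -/
theorem psl2_special {A B : Subgroup G} (hro : IsRankOnePair A B) (h : IsPSL2PairOver k A B) :
    IsSpecialRankOnePair A B := by
  obtain ⟨φ, -, -, hA, hB⟩ := h
  refine ⟨hro, ?_⟩
  intro a ha ha1 b hb hb1 e
  rw [← hA] at ha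
  obtain ⟨u, hu, rfl⟩ := ha
  obtain ⟨s, rfl⟩ := (mem_upperUnipotentSL2 _).mp hu
  have hs : s ≠ 0 := by
    rintro rfl
    apply ha1
    rw [sl2U_zero, map_one]
  have e1 := sl2_conj_eq s s⁻¹ (mul_inv_cancel₀ hs)
  have e2 := congrArg (Subgroup.map φ) e1
  rw [map_conjBy, map_conjBy, hA, hB, map_inv, map_inv] at e2
  have hb' : φ (sl2L s⁻¹) ∈ B := by
    rw [← hB]
    exact Subgroup.mem_map_of_mem φ ((mem_lowerUnipotentSL2 _).mpr ⟨_, rfl⟩)
  have e3 : conjBy A (b * (φ (sl2L s⁻¹))⁻¹) = A := by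
    rw [← conjBy_conjBy, ← e2, ← e, conjBy_cancel_inv]
  have e4 : b * (φ (sl2L s⁻¹))⁻¹ = 1 :=
    RO.eq_one_of_normalizes (RankOnePair_symm hro) (B.mul_mem hb (B.inv_mem hb')) e3
  have e5 : b = φ (sl2L s⁻¹) := mul_inv_eq_one.mp e4
  rw [e5, ← map_inv, ← map_inv, ← map_mul, ← map_mul, ← map_mul, ← map_mul]
  congr 1
  rw [sl2U_inv, sl2L_inv, sl2_key_conj s s⁻¹ (-s⁻¹) (mul_inv_cancel₀ hs)]
  congr 3
  field_simp

end PSL2

/-- In a degenerate class of abstract root subgroups with two different commuting members, under the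
`SL₂` hypothesis for the case of element orders at most `3`, every rank one pair is special. -/
theorem degenerate_special {G : Type u} [Group G] {S : Set (Subgroup G)}
    (hS : IsRootSubgroupClass S) (hcomm : ∃ A ∈ S, ∃ C ∈ S, A ≠ C ∧ ⁅A, C⁆ = ⊥)
    (hdeg : IsDegenerateRootSet S)
    (hH : (∀ A ∈ S, ∀ a ∈ A, 0 < orderOf a ∧ orderOf a ≤ 3) →
      ∀ A ∈ S, ∀ B ∈ rankOnePartners S A, ∃ A₀ B₀ : Subgroup G, A₀ ≤ A ∧ B₀ ≤ B ∧
        ∃ (k : Type u) (_ : Field k), 3 < ENat.card k ∧ IsPSL2PairOver k A₀ B₀)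
    {A B : Subgroup G} (hA : A ∈ S) (hB : B ∈ S) (hAB : IsRankOnePair A B) :
    IsSpecialRankOnePair A B := by
  have hab : ∀ X ∈ S, X ≤ czr X := fun X hX x hx =>
    mem_czr.mpr (fun y hy => comm_of_isMulCommutative (hS.1.commutative X hX) hx hy)
  by_cases h2a : ∃ C ∈ S, C ≠ A ∧ ⁅A, C⁆ = ⊥ ∧ IsRankOnePair C B
  · obtain ⟨C, hC, hne, hc, hCB⟩ := h2a
    exact special_of_triangle hAB hCB (hab A hA) (hab B hB) (hab C hC)
      (fun a ha => mem_czr.mpr (fun c hc' => commute_of_commutator_eq_bot hc ha hc'))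
      (Ne.symm hne)
  push Not at h2a
  have h2b : ∀ C ∈ S, C ≠ A → A ≤ czr C → C ≤ czr B := by
    intro C hC hne hc
    have hc' : ⁅A, C⁆ = ⊥ :=
      commutator_eq_bot_of_commute (fun a ha c hc'' => czr_comm (hc ha) hc'')
    rcases hS.1.pair C hC B hB with p | p | p
    · intro c hcc
      exact mem_czr.mpr (fun b hb => commute_of_commutator_eq_bot p hcc hb)
    · exact absurd p (h2a C hC hne hc')
    · exact absurd p (hdeg C hC B hB)
  obtain ⟨P, hP, D, hD, hneP, hcP, hAD, hPD⟩ :=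
    exists_triangle_at hS hdeg hcomm ⟨A, hA, B, hB, hAB⟩ hA
  obtain ⟨θ, hθ, -⟩ := thetaCfg_of_triangle hAD hPD (hab A hA) (hab D hD) (hab P hP)
    (fun a ha => mem_czr.mpr (fun c hc' => commute_of_commutator_eq_bot hcP ha hc')) hneP
  have hntD : ¬ HasTriple D := by
    rintro ⟨d₁, h₁, d₂, h₂, d₃, h₃, n₁, n₂, n₃, n₂₁, n₃₁, n₃₂, n₃₂₁⟩
    obtain ⟨a, ha, ha1, haT⟩ := hθ.cubic (czr B)
      (fun g hne hc => h2b _ (hS.1.conj_mem A hA g) hne hc) h₁ h₂ h₃ n₁ n₂ n₃ n₂₁ n₃₁ n₃₂ n₃₂₁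
    exact RO.not_commute_all hAB ha ha1 (mem_czr.mp haT)
  have hnt : ∀ X ∈ S, ¬ HasTriple X := by
    intro X hX hXt
    obtain ⟨g, rfl⟩ := hS.2.2 X hX D hD
    exact hntD (hXt.conj g)
  obtain ⟨A₀, B₀, hA₀, hB₀, k, _, hk, φ, hrange, hker, hmA, hmB⟩ :=
    hH (fun X hX a ha => order_le_three_of_not_hasTriple (hnt X hX) ha) A hA B ⟨hB, hAB⟩
  have eA : A₀ = A := psl2_full_upper hk hA₀ hker hmA (hnt A hA)
  have eB : B₀ = B := psl2_full_lower hk hB₀ hker hmB (hnt B hB)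
  subst eA eB
  exact psl2_special hAB ⟨φ, hrange, hker, hmA, hmB⟩

end Cfsg.Agent.Helper83
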