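import Mathlib

/-!
# CALL S5982 (helper90), PIECE ADJ (helper83, double): roots of an annihilating polynomial of an
isometry of a `σ`-sesquilinear form are stable under `α ↦ (α ^ q₀)⁻¹`.
-/

set_option autoImplicit false
set_option linter.style.haveILetI false

namespace Cfsg.Agent.Helper83

open Module Polynomial

universe u

section adj
variable {F : Type u} [Field F] [Fintype F]

/-! ## PIECE ADJ -/
theorem adj_root (q₀ : ℕ) (hq : Fintype.card F = q₀ ^ 2) (σ : F ≃+* F) (hσ : ∀ t, σ t = t ^ q₀)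
    (n : ℕ) (J h : Matrix (Fin n) (Fin n) F) (hJ : J.det ≠ 0) (hh : h.det ≠ 0)
    (hJh : h.transpose * J * h.map σ = J) (g : Polynomial F) (hg : aeval h g = 0) :
    ∃ g' : Polynomial F, aeval h g' = 0 ∧
      ∀ (K : Type u) [Field K] [Algebra F K] (α : K), α ≠ 0 → aeval α g' = 0 →
        aeval ((α ^ q₀)⁻¹) g = 0 := by
  classical
  -- the characteristic
  obtain ⟨p, hp⟩ := CharP.exists F
  obtain ⟨m, hpp, hm⟩ := FiniteField.card F p
  haveI : Fact p.Prime := ⟨hpp⟩
  obtain ⟨k, hk⟩ : ∃ k, q₀ = p ^ k := by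
    have hdvd : q₀ ∣ p ^ (m : ℕ) := ⟨q₀, by rw [← hm, hq, pow_two]⟩
    obtain ⟨j, -, hj⟩ := (Nat.dvd_prime_pow hpp).mp hdvd
    exact ⟨j, hj⟩
  have hq0 : q₀ ≠ 0 := by
    intro h0
    rw [h0] at hq
    simp at hq
  have hfix : ∀ c : F, σ c ^ q₀ = c := by
    intro c
    rw [hσ, ← pow_mul, ← pow_two, ← hq, FiniteField.pow_card]
  obtain ⟨G, hG⟩ : ∃ G : Polynomial F, G = g.map (σ : F →+* F) := ⟨_, rfl⟩
  obtain ⟨N, hN⟩ : ∃ N : ℕ, N = G.natDegree := ⟨_, rfl⟩
  -- step 1: `G (h^σ) = 0`
  have h1 : aeval (h.map σ) G = 0 := by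
    have hcomm : (algebraMap F (Matrix (Fin n) (Fin n) F)).comp (σ : F →+* F) =
        ((σ : F →+* F).mapMatrix (m := Fin n)).comp (algebraMap F (Matrix (Fin n) (Fin n) F)) := by
      ext c i j
      simp only [RingHom.coe_comp, Function.comp_apply, Matrix.algebraMap_matrix_apply,
        RingHom.mapMatrix_apply, Matrix.map_apply]
      split_ifs <;> simp
    have h3 := Polynomial.map_aeval_eq_aeval_map hcomm g h
    rw [hg, map_zero] at h3
    rw [hG]
    exact h3.symm
  -- step 2: powers
  have hpow : ∀ i : ℕ, h.transpose ^ i * J * (h.map σ) ^ i = J := by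
    intro i
    induction i with
    | zero => simp
    | succ i ih =>
      calc h.transpose ^ (i + 1) * J * (h.map σ) ^ (i + 1)
          = h.transpose ^ i * (h.transpose * J * h.map σ) * (h.map σ) ^ i := by
            rw [pow_succ, pow_succ']
            simp only [Matrix.mul_assoc]
        _ = J := by rw [hJh, ih]
  have hpow' : ∀ i : ℕ, i ≤ N → h.transpose ^ N * J * (h.map σ) ^ i = h.transpose ^ (N - i) * J := by
    intro i hi
    have e : h.transpose ^ N = h.transpose ^ (N - i) * h.transpose ^ i := by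
      rw [← pow_add]; congr 1; omega
    rw [e, Matrix.mul_assoc, Matrix.mul_assoc, ← Matrix.mul_assoc (h.transpose ^ i), hpow i]
  have h2 : (∑ i ∈ Finset.range (N + 1), G.coeff i • h.transpose ^ (N - i)) * J = 0 := by
    have h3 : h.transpose ^ N * J * aeval (h.map σ) G = 0 := by rw [h1, mul_zero]
    rw [Polynomial.aeval_eq_sum_range, ← hN, Finset.mul_sum] at h3
    rw [Finset.sum_mul, ← h3]
    apply Finset.sum_congr rfl
    intro i hi
    have hi' : i ≤ N := by
      have := Finset.mem_range.mp hi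
      omega
    rw [Matrix.mul_smul, hpow' i hi', Matrix.smul_mul]
  have h3 : ∑ i ∈ Finset.range (N + 1), G.coeff i • h.transpose ^ (N - i) = 0 := by
    have hJJ : J * J⁻¹ = 1 := Matrix.mul_nonsing_inv _ (isUnit_iff_ne_zero.mpr hJ)
    have e := congrArg (fun X => X * J⁻¹) h2
    simp only [Matrix.mul_assoc, hJJ, Matrix.mul_one, Matrix.zero_mul] at e
    exact e
  have h4 : ∑ i ∈ Finset.range (N + 1), G.coeff i • h ^ (N - i) = 0 := by
    have e := congrArg Matrix.transpose h3
    rw [Matrix.transpose_sum, Matrix.transpose_zero] at e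
    rw [← e]
    apply Finset.sum_congr rfl
    intro i _
    rw [Matrix.transpose_smul, Matrix.transpose_pow, Matrix.transpose_transpose]
  refine ⟨G.reverse, ?_, ?_⟩
  · rw [Polynomial.aeval_eq_sum_range' (n := N + 1)
      (lt_of_le_of_lt (Polynomial.reverse_natDegree_le G) (by omega))]
    rw [← h4, ← Finset.sum_range_reflect (fun i => G.coeff i • h ^ (N - i)) (N + 1)]
    apply Finset.sum_congr rfl
    intro j hj
    have hj' : j ≤ N := by
      have := Finset.mem_range.mp hj
      omega
    have e1 : N + 1 - 1 - j = N - j := by omega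
    have e2 : N - (N - j) = j := by omega
    rw [Polynomial.coeff_reverse, ← hN, Polynomial.revAt_le hj', e1, e2]
  · intro K _ _ α hα hroot
    haveI : CharP K p := charP_of_injective_algebraMap (algebraMap F K).injective p
    letI : Invertible (α⁻¹) := invertibleOfNonzero (inv_ne_zero hα)
    have h5 := Polynomial.eval₂_reverse_mul_pow (algebraMap F K) (α⁻¹) G
    rw [invOf_eq_inv, inv_inv, ← Polynomial.aeval_def, hroot, zero_mul] at h5
    rw [hG, Polynomial.eval₂_map, Polynomial.eval₂_eq_sum_range] at h5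
    have h6 : (∑ i ∈ Finset.range (g.natDegree + 1),
        ((algebraMap F K).comp (σ : F →+* F)) (g.coeff i) * α⁻¹ ^ i) ^ q₀ = 0 := by
      rw [← h5, zero_pow hq0]
    rw [hk, sum_pow_char_pow] at h6
    rw [Polynomial.aeval_def, Polynomial.eval₂_eq_sum_range, ← h6]
    apply Finset.sum_congr rfl
    intro i _
    rw [← hk, mul_pow, RingHom.comp_apply, ← map_pow]
    have e : ((σ : F →+* F) (g.coeff i)) ^ q₀ = g.coeff i := hfix _
    rw [e, ← pow_mul, mul_comm i q₀, pow_mul]
    simp only [inv_pow]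

end adj

end Cfsg.Agent.Helper83
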