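import Mathlib

/-!
# CALL S5982 (helper90), PIECE FIELD (helper83, double): an `F`-algebra endomorphism sending a
primitive `r`-th root of unity `α` to `α ^ (-q₀)` has at least `orderOf (-q₀ mod r)` distinct
powers, so that order is at most the degree.
-/

set_option autoImplicit false
set_option linter.style.haveILetI false

namespace Cfsg.Agent.Helper83

open Module Polynomial

section fin
variable {F : Type*} [Field F] [Fintype F]

/-! ## PIECE FIELD -/
theorem ord_le_of_hom (q₀ : ℕ) (r : ℕ) [Fact r.Prime] {K : Type*} [Field K] [Algebra F K]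
    [FiniteDimensional F K] (α : K) (hα : α ^ r = 1) (hα1 : α ≠ 1) (ρ : K →ₐ[F] K)
    (hρ : ρ α = (α ^ q₀)⁻¹) : orderOf (-(q₀ : ZMod r)) ≤ finrank F K := by
  classical
  have hr : r.Prime := Fact.out
  haveI : NeZero r := ⟨hr.ne_zero⟩
  haveI : Fact (1 < r) := ⟨hr.one_lt⟩
  have hord : orderOf α = r := orderOf_eq_prime hα hα1
  obtain ⟨u, hu⟩ : ∃ u : ZMod r, u = -(q₀ : ZMod r) := ⟨_, rfl⟩
  rw [← hu]
  have key : ∀ j : ℕ, (ρ ^ j) α = α ^ ((u ^ j).val) := by
    intro j
    induction j with
    | zero =>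
      rw [pow_zero, pow_zero, AlgHom.one_apply, ZMod.val_one, pow_one]
    | succ j ih =>
      rw [pow_succ', AlgHom.mul_apply, ih, map_pow, hρ]
      have hinv : (α ^ q₀)⁻¹ = α ^ ((r - 1) * q₀) := by
        apply inv_eq_of_mul_eq_one_right
        rw [← pow_add]
        have e : q₀ + (r - 1) * q₀ = r * q₀ := by
          have h1 : 1 ≤ r := hr.one_lt.le
          obtain ⟨s, hs⟩ : ∃ s, r = s + 1 := ⟨r - 1, by omega⟩
          rw [hs]
          simp only [Nat.add_sub_cancel]
          ring
        rw [e, pow_mul, hα, one_pow]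
      rw [hinv, ← pow_mul]
      have hcast : (((r - 1) * q₀ * (u ^ j).val : ℕ) : ZMod r) = (((u ^ (j + 1)).val : ℕ) : ZMod r) := by
        push_cast
        rw [Nat.cast_sub hr.one_lt.le, ZMod.natCast_zmod_val, ZMod.natCast_zmod_val, pow_succ', hu]
        simp
      have hmod := (ZMod.natCast_eq_natCast_iff' _ _ _).mp hcast
      rw [← pow_mod_orderOf α ((r - 1) * q₀ * (u ^ j).val),
        ← pow_mod_orderOf α ((u ^ (j + 1)).val), hord, hmod]
  rcases Nat.eq_zero_or_pos (orderOf u) with h0 | hpos
  · rw [h0]; exact Nat.zero_le _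
  · have hinj : Set.InjOn (fun j : ℕ => ρ ^ j) (Finset.range (orderOf u) : Set ℕ) := by
      intro i hi j hj hij
      have hi' : i < orderOf u := Finset.mem_range.mp hi
      have hj' : j < orderOf u := Finset.mem_range.mp hj
      have h1 : α ^ ((u ^ i).val) = α ^ ((u ^ j).val) := by
        rw [← key i, ← key j]
        exact congrArg (fun φ : K →ₐ[F] K => φ α) hij
      have h2 : u ^ i = u ^ j := by
        apply ZMod.val_injective r
        apply pow_injOn_Iio_orderOf (x := α) _ _ h1
        · rw [hord]; exact Set.mem_Iio.mpr (ZMod.val_lt _)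
        · rw [hord]; exact Set.mem_Iio.mpr (ZMod.val_lt _)
      exact pow_injOn_Iio_orderOf (Set.mem_Iio.mpr hi') (Set.mem_Iio.mpr hj') h2
    have hcard : (Finset.range (orderOf u)).card ≤ (Finset.univ : Finset (K →ₐ[F] K)).card :=
      Finset.card_le_card_of_injOn (fun j : ℕ => ρ ^ j) (fun _ _ => Finset.mem_univ _) hinj
    rw [Finset.card_range, Finset.card_univ] at hcard
    exact hcard.trans AlgHom.card_le

end fin

end Cfsg.Agent.Helper83
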