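import Mathlib

/-!
# CALL S5982 (helper90), PIECE IDXARITH (helper83): the index of the unitary subgroup is prime to
`r` when `-q₀` has odd order modulo `r`.
-/

set_option autoImplicit false

namespace Cfsg.Agent.Helper83

/-! ## PIECE IDXARITH (pure arithmetic) -/
theorem idx_arith (q₀ : ℕ) (hq₀ : 2 ≤ q₀) (r : ℕ) [Fact r.Prime] (hr2 : r ≠ 2) (hrq : ¬ r ∣ q₀)
    (hm : Odd (orderOf (-(q₀ : ZMod r)))) (n : ℕ) (hn : 1 ≤ n) (R S : ℕ)
    (h1 : R * S * (q₀ ^ 2 - 1) = ∏ i : Fin n, ((q₀ ^ 2) ^ n - (q₀ ^ 2) ^ (i : ℕ)))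
    (h2 : (q₀ ^ (n * (n - 1) / 2) *
      ∏ i ∈ Finset.range n, (if Even i then q₀ ^ (i + 1) + 1 else q₀ ^ (i + 1) - 1))
        ∣ S * (q₀ + 1)) : ¬ r ∣ R := by
  have hr : r.Prime := Fact.out
  have hq1 : 1 ≤ q₀ := by omega
  have hpow1 : ∀ k : ℕ, 1 ≤ q₀ ^ k := fun k => Nat.one_le_pow _ _ (by omega)
  have hpow2 : ∀ k : ℕ, 2 ≤ q₀ ^ (k + 1) := by
    intro k
    calc 2 ≤ q₀ := hq₀
      _ = q₀ ^ 1 := (pow_one _).symm
      _ ≤ q₀ ^ (k + 1) := Nat.pow_le_pow_right hq1 (by omega)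
  -- the two halves of the order formula
  obtain ⟨A, hA⟩ : ∃ A : ℕ, A = ∏ i ∈ Finset.range n,
      (if Even i then q₀ ^ (i + 1) + 1 else q₀ ^ (i + 1) - 1) := ⟨_, rfl⟩
  obtain ⟨B, hB⟩ : ∃ B : ℕ, B = ∏ i ∈ Finset.range n,
      (if Even i then q₀ ^ (i + 1) - 1 else q₀ ^ (i + 1) + 1) := ⟨_, rfl⟩
  obtain ⟨N, hN⟩ : ∃ N : ℕ, N = n * (n - 1) / 2 := ⟨_, rfl⟩
  rw [← hA, ← hN] at h2
  have hA0 : 0 < A := by
    rw [hA]
    apply Finset.prod_pos
    intro i _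
    split_ifs
    · omega
    · have := hpow2 i; omega
  have hAB : ∏ i ∈ Finset.range n, ((q₀ ^ 2) ^ (i + 1) - 1) = A * B := by
    rw [hA, hB, ← Finset.prod_mul_distrib]
    apply Finset.prod_congr rfl
    intro i _
    have h2i := hpow2 i
    have e : (q₀ ^ 2) ^ (i + 1) - 1 = (q₀ ^ (i + 1) - 1) * (q₀ ^ (i + 1) + 1) := by
      obtain ⟨x, hx⟩ : ∃ x, q₀ ^ (i + 1) = x + 1 := ⟨q₀ ^ (i + 1) - 1, by omega⟩
      rw [← pow_mul, mul_comm 2 (i + 1), pow_mul, hx]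
      have : (x + 1) ^ 2 = x * (x + 1 + 1) + 1 := by ring
      rw [this]
      simp
    rw [e]
    split_ifs
    · ring
    · ring
  -- the order of `GL_n(q₀²)`
  have hGL : ∏ i : Fin n, ((q₀ ^ 2) ^ n - (q₀ ^ 2) ^ (i : ℕ)) = q₀ ^ N * q₀ ^ N * (A * B) := by
    rw [Fin.prod_univ_eq_prod_range (fun i => (q₀ ^ 2) ^ n - (q₀ ^ 2) ^ i) n]
    have e1 : ∀ i ∈ Finset.range n, (q₀ ^ 2) ^ n - (q₀ ^ 2) ^ i =
        (q₀ ^ 2) ^ i * ((q₀ ^ 2) ^ (n - 1 - i + 1) - 1) := by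
      intro i hi
      have hi' : i < n := Finset.mem_range.mp hi
      have hni : n - 1 - i + 1 = n - i := by omega
      rw [hni, Nat.mul_sub, mul_one, ← pow_add]
      congr 2
      omega
    rw [Finset.prod_congr rfl e1, Finset.prod_mul_distrib,
      Finset.prod_range_reflect (fun j => (q₀ ^ 2) ^ (j + 1) - 1) n, hAB,
      Finset.prod_pow_eq_pow_sum, Finset.sum_range_id, ← hN, ← pow_mul, two_mul, pow_add]
  obtain ⟨k, hk⟩ := h2
  have hsq : q₀ ^ 2 - 1 = (q₀ - 1) * (q₀ + 1) := by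
    obtain ⟨x, hx⟩ : ∃ x, q₀ = x + 1 := ⟨q₀ - 1, by omega⟩
    rw [hx]
    have : (x + 1) ^ 2 = x * (x + 1 + 1) + 1 := by ring
    rw [this]
    simp
  have hkey : R * k * (q₀ - 1) = q₀ ^ N * B := by
    have h3 : q₀ ^ N * A * (R * k * (q₀ - 1)) = q₀ ^ N * A * (q₀ ^ N * B) := by
      calc q₀ ^ N * A * (R * k * (q₀ - 1)) = R * (q₀ ^ N * A * k) * (q₀ - 1) := by ring
        _ = R * (S * (q₀ + 1)) * (q₀ - 1) := by rw [hk]
        _ = R * S * ((q₀ - 1) * (q₀ + 1)) := by ring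
        _ = R * S * (q₀ ^ 2 - 1) := by rw [hsq]
        _ = q₀ ^ N * q₀ ^ N * (A * B) := by rw [h1, hGL]
        _ = q₀ ^ N * A * (q₀ ^ N * B) := by ring
    exact Nat.eq_of_mul_eq_mul_left (Nat.mul_pos (Nat.pos_of_ne_zero (by positivity)) hA0) h3
  intro hrR
  have hdvd : r ∣ q₀ ^ N * B := by
    rw [← hkey]
    exact Dvd.dvd.mul_right (Dvd.dvd.mul_right hrR k) _
  rcases (Nat.Prime.dvd_mul hr).mp hdvd with h | h
  · exact hrq (hr.dvd_of_dvd_pow h)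
  · rw [hB] at h
    obtain ⟨i, -, hi⟩ := (Prime.dvd_finsetProd_iff hr.prime _).mp h
    -- `(-q₀)^(i+1) = -1` in `ZMod r`
    have hneg : (-(q₀ : ZMod r)) ^ (i + 1) = -1 := by
      by_cases hev : Even i
      · rw [if_pos hev] at hi
        have h0 := (ZMod.natCast_eq_zero_iff _ r).mpr hi
        rw [Nat.cast_sub (hpow1 _)] at h0
        push_cast at h0
        have hodd : Odd (i + 1) := Even.add_one hev
        rw [Odd.neg_pow hodd]
        linear_combination -h0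
      · rw [if_neg hev] at hi
        have h0 := (ZMod.natCast_eq_zero_iff _ r).mpr hi
        push_cast at h0
        have hev' : Even (i + 1) := by
          rcases Nat.even_or_odd i with h' | h'
          · exact absurd h' hev
          · exact Odd.add_one h'
        rw [Even.neg_pow hev']
        linear_combination h0
    have hsq1 : (-(q₀ : ZMod r)) ^ ((i + 1) * 2) = 1 := by
      rw [pow_mul, hneg]; norm_num
    have hord := orderOf_dvd_of_pow_eq_one hsq1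
    have hcop : Nat.Coprime (orderOf (-(q₀ : ZMod r))) 2 := Nat.coprime_two_right.mpr hm
    have hord' : orderOf (-(q₀ : ZMod r)) ∣ i + 1 := hcop.dvd_of_dvd_mul_right hord
    have hone : (-(q₀ : ZMod r)) ^ (i + 1) = 1 := orderOf_dvd_iff_pow_eq_one.mp hord'
    rw [hneg] at hone
    have h2z : ((2 : ℕ) : ZMod r) = 0 := by
      push_cast
      linear_combination -hone
    have hr2' : r ∣ 2 := (ZMod.natCast_eq_zero_iff 2 r).mp h2z
    exact hr2 ((Nat.prime_dvd_prime_iff_eq hr Nat.prime_two).mp hr2')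

end Cfsg.Agent.Helper83
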