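import Mathlib
import Cfsg.Prelude.Def_RootSubgroups
import Cfsg.Agent.Helper83.LineGen
import Cfsg.Agent.Helper83.Swap

set_option autoImplicit false

namespace Cfsg.Agent.Helper83

open Cfsg
open scoped commutatorElement

variable {G : Type*} [Group G]

/-- An element of a member of `S` normalizing some member of a weak TI-subset `Δ` maps `Δ` into
itself. -/
theorem weakTI_stab {S Δ : Set (Subgroup G)} (hΔ : IsWeakTISubset S Δ) {E D₀ : Subgroup G}
    (hE : E ∈ S) (hD₀ : D₀ ∈ Δ) {e : G} (he : e ∈ E) (hfix : conjBy D₀ e = D₀) :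
    ∀ D ∈ Δ, conjBy D e ∈ Δ := by
  intro D hD
  by_cases he1 : e = 1
  · rw [he1, conjBy_one]; exact hD
  · rcases hΔ.2.2.2 e ⟨he1, E, hE, he⟩ with h | h
    · have h1 := Set.mem_image_of_mem (fun A => conjBy A e) hD
      rwa [h] at h1
    · exfalso
      have h1 : D₀ ∈ (fun A => conjBy A e) '' Δ := ⟨D₀, hD₀, hfix⟩
      exact Set.disjoint_left.mp h h1 hD₀

/-- Weak TI-subsets of a non-degenerate class are abelian. -/
theorem weakTI_abelian {S : Set (Subgroup G)} (hS : IsRootSubgroupClass S)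
    (hnd : IsNondegenerateRootSet S) {Δ : Set (Subgroup G)} (hΔ : IsWeakTISubset S Δ) :
    IsAbelianFamily Δ := by
  have hS' := hS.1
  obtain ⟨P₀, hP₀, Q₀, hQ₀, hPQ₀⟩ := hnd.2.1
  have hpart := class_partner hS hP₀ hQ₀ hPQ₀
  have hno : ∀ A ∈ Δ, ∀ B ∈ Δ, ¬ IsRankOnePair A B := by
    intro A hA B hB hAB
    have hAS := hΔ.1 hA
    have hBS := hΔ.1 hB
    have hgen := generated_by_line_partners hS hnd hAS ⟨hBS, hAB⟩
    have hQ : ∀ g ∈ (⨆ C ∈ linePartners S A, C) ⊔ B, ∀ D ∈ Δ, conjBy D g ∈ Δ := by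
      apply sup_induction
      · apply biSup_induction
        · intro C hC x hx
          apply weakTI_stab hΔ hC.1.1 hA hx
          apply conjBy_eq_of_commute
          intro a ha
          exact (commute_of_commutator_eq_bot hC.1.2.2 ha hx).symm
        · intro D hD; rw [conjBy_one]; exact hD
        · intro x y hx hy D hD
          rw [← conjBy_conjBy]; exact hx _ (hy D hD)
      · intro x hx
        exact weakTI_stab hΔ hBS hB hx (conjBy_of_mem hx)
      · intro D hD; rw [conjBy_one]; exact hD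
      · intro x y hx hy D hD
        rw [← conjBy_conjBy]; exact hx _ (hy D hD)
    apply hΔ.2.2.1
    apply Set.Subset.antisymm hΔ.1
    intro P hP
    obtain ⟨g, hg⟩ := hS.2.2 A hAS P hP
    rw [hg]
    exact hQ g (by rw [hgen]; trivial) A hA
  intro A hA B hB a ha b hb
  have hAS := hΔ.1 hA
  have hBS := hΔ.1 hB
  rcases hS'.pair A hAS B hBS with h | h | h
  · exact commute_of_commutator_eq_bot h ha hb
  · exact absurd h (hno A hA B hB)
  · exfalso
    obtain ⟨K, hK, hAK, hBK⟩ := exists_rankOne_commuting_of_cc hS' hpart hAS hBS (CC.of h)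
    obtain ⟨k, hk, hk1⟩ := exists_ne_one_of_mem hS' hK
    have hstab : ∀ D ∈ Δ, conjBy D k ∈ Δ := by
      apply weakTI_stab hΔ hK hB hk
      apply conjBy_eq_of_commute
      intro b' hb'
      exact (commute_of_commutator_eq_bot hBK hb' hk).symm
    have hA' : conjBy A k ∈ Δ := hstab A hA
    have hne : A ≠ conjBy A k := by
      intro e
      exact hk1 (RO.eq_one_of_normalizes (RankOnePair_symm hAK) hk e.symm)
    have hpair := (RO.pair_of_mem hAK (RO.A_mem_unipotent hAK)
      (conj_mem_unipotent (RO.A_mem_unipotent hAK) (Subgroup.mem_sup_right hk)) hne).1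
    exact hno A hA _ hA' hpair

end Cfsg.Agent.Helper83
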